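import Mathlib
import Cfsg.Agent.H60.CarPres

/-!
Central extensions of a group with Carmichael generators: if the obstruction commutator
vanishes, the Carmichael relations lift exactly.
-/

set_option autoImplicit false
set_option linter.unusedSimpArgs false

namespace Cfsg.Agent.H41
namespace AltMult

open Cfsg.Agent.H60

section Pure

variable {E : Type*} [Group E]

/-- An element inverted by `u` whose cube commutes with `u`: its fourth power has order dividing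
`3` and is still inverted. -/
theorem fourth_pow {u c : E} (h : u * c * u⁻¹ = c⁻¹) (hc : Commute (c ^ 3) u) :
    (c ^ 4) ^ 3 = 1 ∧ u * c ^ 4 * u⁻¹ = (c ^ 4)⁻¹ := by
  have h1 : u * c ^ 3 * u⁻¹ = (c ^ 3)⁻¹ := by rw [← conj_pow, h, inv_pow]
  have h2 : u * c ^ 3 * u⁻¹ = c ^ 3 := by rw [← hc.eq, mul_inv_cancel_right]
  have h3 : c ^ 3 = (c ^ 3)⁻¹ := h2.symm.trans h1
  have h6 : c ^ 3 * c ^ 3 = 1 := mul_eq_one_iff_eq_inv.2 h3
  constructor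
  · calc (c ^ 4) ^ 3 = (c ^ 3 * c ^ 3) ^ 2 := by group
      _ = 1 := by rw [h6, one_pow]
  · rw [← conj_pow, h, inv_pow]

theorem conj_central_mul {d : E} (hd : ∀ g : E, Commute d g) (a b : E) :
    a * (d * b) * a⁻¹ = d * (a * b * a⁻¹) := by
  calc a * (d * b) * a⁻¹ = (a * d) * b * a⁻¹ := by group
    _ = (d * a) * b * a⁻¹ := by rw [(hd a).eq]
    _ = d * (a * b * a⁻¹) := by group

/-- The modified braid partner. -/
def bfix (u v : E) : E := u * (v * u * v⁻¹ * u⁻¹) ^ 4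

/-- The normalised lifts. -/
def hat (Y0 Y1 : E) (y : ℕ → E) : ℕ → E
  | 0 => Y0
  | 1 => Y1
  | (k + 2) => bfix (hat Y0 Y1 y (k + 1)) (y (k + 2))

theorem braid_conj {u v : E} (hu : u ^ 2 = 1) (hv : v ^ 2 = 1) (h3 : (u * v) ^ 3 = 1) :
    v = (u * v) * u * (u * v)⁻¹ := by
  symm
  have h3' : u * v * (u * v) * (u * v) = 1 := by rw [← h3, pow_succ, pow_two]
  calc (u * v) * u * (u * v)⁻¹
      = (u * v * (u * v) * (u * v)) * (v⁻¹ * u⁻¹ * (v ^ 2)⁻¹ * u⁻¹) := by group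
    _ = v⁻¹ * (u ^ 2)⁻¹ := by rw [h3', hv]; group
    _ = (v ^ 2)⁻¹ * v * (u ^ 2)⁻¹ := by group
    _ = v := by rw [hv, hu]; group

end Pure

section Hom

variable {E Q : Type*} [Group E] [Group Q] (ρ : E →* Q) (hc : ρ.ker ≤ Subgroup.center E)
include hc

theorem central_of_map {c : E} (h : ρ c = 1) (g : E) : Commute c g :=
  (Subgroup.mem_center_iff.1 (hc (MonoidHom.mem_ker.2 h)) g).symm

theorem conj_eq_of_map_eq {g g' : E} (h : ρ g = ρ g') (k : E) :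
    g * k * g⁻¹ = g' * k * g'⁻¹ := by
  have hcen : ∀ x, Commute (g'⁻¹ * g) x :=
    central_of_map ρ hc (by rw [map_mul, map_inv, h, inv_mul_cancel])
  have := (hcen k).eq
  calc g * k * g⁻¹ = g' * (g'⁻¹ * g * k) * g⁻¹ := by group
    _ = g' * (k * (g'⁻¹ * g)) * g⁻¹ := by rw [this]
    _ = g' * k * g'⁻¹ := by group

theorem commute_of_map_eq {a a' b b' : E} (ha : ρ a = ρ a') (hb : ρ b = ρ b')
    (h : Commute a b) : Commute a' b' := by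
  have hca : ∀ x, Commute (a⁻¹ * a') x :=
    central_of_map ρ hc (by rw [map_mul, map_inv, ha, inv_mul_cancel])
  have hcb : ∀ x, Commute (b⁻¹ * b') x :=
    central_of_map ρ hc (by rw [map_mul, map_inv, hb, inv_mul_cancel])
  have ea : a' = a * (a⁻¹ * a') := by group
  have eb : b' = b * (b⁻¹ * b') := by group
  rw [ea, eb]
  exact (h.mul_right (hcb a).symm).mul_left (hca _)

theorem lift0 {y0 t : E} {x0 x2 : Q} (h0 : ρ y0 = x0) (ht : ρ t = x2) (hx3 : x0 * x0 * x0 = 1)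
    (hx2 : x2 * x2 = 1) (hinv : x2 * x0 * x2 = x0⁻¹) :
    ∃ Y0 : E, ρ Y0 = x0 ∧ Y0 ^ 3 = 1 ∧ t * Y0 * t⁻¹ = Y0⁻¹ := by
  obtain ⟨c, hcdef⟩ : ∃ c, c = y0⁻¹ * t * y0 * t⁻¹ := ⟨_, rfl⟩
  have hx2inv : x2⁻¹ = x2 := inv_eq_of_mul_eq_one_left hx2
  have hρc : ρ c = x0⁻¹ * x0⁻¹ := by
    rw [hcdef]
    simp only [map_mul, map_inv, h0, ht]
    rw [hx2inv, mul_assoc, mul_assoc, ← mul_assoc x2, hinv]
  have hT : ∀ g, Commute (t ^ 2) g := central_of_map ρ hc (by rw [map_pow, ht, pow_two, hx2])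
  have hconj : t * c * t⁻¹ = c⁻¹ := by
    rw [hcdef]
    calc t * (y0⁻¹ * t * y0 * t⁻¹) * t⁻¹ = t * y0⁻¹ * t⁻¹ * (t ^ 2 * y0) * (t ^ 2)⁻¹ := by group
      _ = t * y0⁻¹ * t⁻¹ * (y0 * t ^ 2) * (t ^ 2)⁻¹ := by rw [(hT y0).eq]
      _ = (y0⁻¹ * t * y0 * t⁻¹)⁻¹ := by group
  have hc3 : Commute (c ^ 3) t := central_of_map ρ hc (by
    rw [map_pow, hρc]
    calc (x0⁻¹ * x0⁻¹) ^ 3 = ((x0 * x0 * x0)⁻¹) ^ 2 := by group
      _ = 1 := by rw [hx3, inv_one, one_pow]) t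
  obtain ⟨h3, h4⟩ := fourth_pow hconj hc3
  refine ⟨c ^ 4, ?_, h3, h4⟩
  rw [map_pow, hρc]
  calc (x0⁻¹ * x0⁻¹) ^ 4 = x0 * ((x0 * x0 * x0)⁻¹) ^ 3 := by group
    _ = x0 := by rw [hx3, inv_one, one_pow, mul_one]

theorem lift1 {Y0 y1 : E} {x0 x1 : Q} (h0 : ρ Y0 = x0) (h1 : ρ y1 = x1) (hY3 : Y0 ^ 3 = 1)
    (hx3 : x0 * x0 * x0 = 1) (hx1 : x1 * x1 = 1) (hr : x1 * x0 * x1 = x0⁻¹ * x1 * x0⁻¹)
    (hδ : Commute y1 (Y0 * y1 * Y0⁻¹)) :
    ∃ Y1 : E, ρ Y1 = x1 ∧ Y1 ^ 2 = 1 ∧ (Y0 * Y1) ^ 3 = 1 := by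
  obtain ⟨p, hp⟩ : ∃ p, p = Y0 * y1 * Y0⁻¹ := ⟨_, rfl⟩
  obtain ⟨q, hq⟩ : ∃ q, q = Y0⁻¹ * y1 * Y0 := ⟨_, rfl⟩
  have hpq : Y0 * p * Y0⁻¹ = q := by
    rw [hp, hq]
    calc Y0 * (Y0 * y1 * Y0⁻¹) * Y0⁻¹ = Y0 ^ 3 * (Y0⁻¹ * y1 * Y0) * (Y0 ^ 3)⁻¹ := by
          simp only [pow_succ, pow_zero, one_mul, mul_one, mul_assoc, mul_inv_rev, inv_inv, inv_one,
        inv_mul_cancel_left, mul_inv_cancel_left, inv_mul_cancel, mul_inv_cancel]
      _ = Y0⁻¹ * y1 * Y0 := by rw [hY3]; group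
  have hqy : Y0 * q * Y0⁻¹ = y1 := by rw [hq]; group
  have hyp : Y0 * y1 * Y0⁻¹ = p := hp.symm
  have hcomm : Commute p q := by
    have h2 : Commute (Y0 * y1 * Y0⁻¹) (Y0 * p * Y0⁻¹) := (Commute.conj_iff Y0).2 (hp ▸ hδ)
    rwa [hyp, hpq] at h2
  have hA : ∀ g, Commute (y1 ^ 2) g := central_of_map ρ hc (by rw [map_pow, h1, pow_two, hx1])
  have hp2 : p ^ 2 = y1 ^ 2 := by
    rw [hp, conj_pow, ← (hA Y0).eq, mul_inv_cancel_right]
  have hq2 : q ^ 2 = y1 ^ 2 := by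
    have : q = Y0⁻¹ * y1 * Y0⁻¹⁻¹ := by rw [inv_inv]; exact hq
    rw [this, conj_pow, ← (hA Y0⁻¹).eq, mul_inv_cancel_right]
  have hx1inv : x1⁻¹ = x1 := inv_eq_of_mul_eq_one_left hx1
  have hcube : ∀ a b : E, (a * b) ^ 3 =
      (a * b * a⁻¹) * (a * (a * b * a⁻¹) * a⁻¹) * a ^ 3 * b := by
    intro a b; rw [pow_succ, pow_two]; group
  refine ⟨p⁻¹ * q, ?_, ?_, ?_⟩
  · rw [hp, hq]
    simp only [map_mul, map_inv, h0, h1]
    calc (x0 * x1 * x0⁻¹)⁻¹ * (x0⁻¹ * x1 * x0)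
        = x0 * x1⁻¹ * (x0 * x0 * x0)⁻¹ * x0 * x1 * x0 := by group
      _ = x0 * (x1 * x0 * x1) * x0 := by rw [hx3, hx1inv]; group
      _ = x1 := by rw [hr]; group
  · rw [(hcomm.inv_left).mul_pow, inv_pow, hp2, hq2, inv_mul_cancel]
  · have e1 : Y0 * (p⁻¹ * q) * Y0⁻¹ = q⁻¹ * y1 := by
      calc Y0 * (p⁻¹ * q) * Y0⁻¹ = (Y0 * p * Y0⁻¹)⁻¹ * (Y0 * q * Y0⁻¹) := by group
        _ = q⁻¹ * y1 := by rw [hpq, hqy]
    have e2 : Y0 * (q⁻¹ * y1) * Y0⁻¹ = y1⁻¹ * p := by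
      calc Y0 * (q⁻¹ * y1) * Y0⁻¹ = (Y0 * q * Y0⁻¹)⁻¹ * (Y0 * y1 * Y0⁻¹) := by group
        _ = y1⁻¹ * p := by rw [hqy, hyp]
    rw [hcube, e1, e2, hY3]
    group

theorem lift_braid {u v : E} {s r : Q} (hu : ρ u = s) (hv : ρ v = r) (hu2 : u ^ 2 = 1)
    (hs : s * s = 1) (hr : r * r = 1) (hb : s * r * s = r * s * r) (hsr : (s * r) ^ 3 = 1) :
    ρ (bfix u v) = r ∧ bfix u v ^ 2 = 1 ∧ (u * bfix u v) ^ 3 = 1 := by
  unfold bfix
  obtain ⟨c, hcdef⟩ : ∃ c, c = v * u * v⁻¹ * u⁻¹ := ⟨_, rfl⟩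
  rw [← hcdef]
  have hsinv : s⁻¹ = s := inv_eq_of_mul_eq_one_left hs
  have hrinv : r⁻¹ = r := inv_eq_of_mul_eq_one_left hr
  have hρc : ρ c = s * r := by
    rw [hcdef]
    simp only [map_mul, map_inv, hu, hv]
    rw [hrinv, hsinv, ← hb, mul_assoc, hs, mul_one]
  have hconj : u * c * u⁻¹ = c⁻¹ := by
    rw [hcdef]
    calc u * (v * u * v⁻¹ * u⁻¹) * u⁻¹ = u * v * u * v⁻¹ * (u ^ 2)⁻¹ := by group
      _ = u * v * u * (u ^ 2)⁻¹ * v⁻¹ := by rw [hu2]; group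
      _ = (v * u * v⁻¹ * u⁻¹)⁻¹ := by group
  have hc3 : Commute (c ^ 3) u := central_of_map ρ hc (by rw [map_pow, hρc, hsr]) u
  obtain ⟨h3, h4⟩ := fourth_pow hconj hc3
  refine ⟨?_, ?_, ?_⟩
  · rw [map_mul, map_pow, hρc, hu, pow_succ, hsr, one_mul, ← mul_assoc, hs, one_mul]
  · calc (u * c ^ 4) ^ 2 = (u * c ^ 4) * (u * c ^ 4) := pow_two _
      _ = (u * c ^ 4 * u⁻¹) * (u ^ 2) * c ^ 4 := by group
      _ = 1 := by rw [h4, hu2]; group
  · have : u * (u * c ^ 4) = u ^ 2 * c ^ 4 := by rw [pow_two, mul_assoc]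
    rw [this, hu2, one_mul, h3]

theorem inv_of_comm {Y0 s t : E} (hY3 : Y0 ^ 3 = 1) (ht : t * Y0 * t⁻¹ = Y0⁻¹)
    (hst : ρ (s * t) = ρ (t * s)) (hs : ρ (s * Y0 * s⁻¹ * Y0) = 1) :
    s * Y0 * s⁻¹ = Y0⁻¹ := by
  obtain ⟨e, he⟩ : ∃ e, e = s * Y0 * s⁻¹ * Y0 := ⟨_, rfl⟩
  have hec : ∀ g, Commute e g := central_of_map ρ hc (by rw [he]; exact hs)
  have h1 : s * Y0 * s⁻¹ = e * Y0⁻¹ := by rw [he]; group
  have he3 : e ^ 3 = 1 := by
    have h2 : s * Y0 ^ 3 * s⁻¹ = (e * Y0⁻¹) ^ 3 := by rw [← h1, conj_pow]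
    rw [hY3, (hec Y0⁻¹).mul_pow, inv_pow, hY3] at h2
    simpa using h2.symm
  have h3 : (s * t) * Y0 * (s * t)⁻¹ = Y0 * e⁻¹ := by
    calc (s * t) * Y0 * (s * t)⁻¹ = s * (t * Y0 * t⁻¹) * s⁻¹ := by group
      _ = (s * Y0 * s⁻¹)⁻¹ := by rw [ht]; group
      _ = Y0 * e⁻¹ := by rw [h1]; group
  have h4 : (t * s) * Y0 * (t * s)⁻¹ = Y0 * e := by
    calc (t * s) * Y0 * (t * s)⁻¹ = t * (s * Y0 * s⁻¹) * t⁻¹ := by group
      _ = t * (e * Y0⁻¹) * t⁻¹ := by rw [h1]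
      _ = t * (Y0⁻¹ * e) * t⁻¹ := by rw [(hec Y0⁻¹).eq]
      _ = (t * Y0 * t⁻¹)⁻¹ * (t * e * t⁻¹) := by group
      _ = Y0 * e := by rw [ht, inv_inv, ← (hec t).eq, mul_inv_cancel_right]
  have h5 := conj_eq_of_map_eq ρ hc hst Y0
  rw [h3, h4] at h5
  have he2 : e⁻¹ = e := mul_left_cancel h5
  have he2' : e * e = 1 := by
    nth_rewrite 1 [← he2]; exact inv_mul_cancel e
  have he1 : e = 1 := by
    calc e = e ^ 3 * (e * e)⁻¹ := by group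
      _ = 1 := by rw [he3, he2']; group
  rw [h1, he1, one_mul]

theorem comm13 {Y0 Y1 Y3 : E} (hY3 : Y0 ^ 3 = 1) (hY1 : Y1 ^ 2 = 1) (h01 : (Y0 * Y1) ^ 3 = 1)
    (hinv : Y3 * Y0 * Y3⁻¹ = Y0⁻¹) (hcomm : ρ (Y3 * Y1) = ρ (Y1 * Y3)) : Commute Y3 Y1 := by
  obtain ⟨p, hp⟩ : ∃ p, p = Y0 * Y1 * Y0⁻¹ := ⟨_, rfl⟩
  obtain ⟨q, hq⟩ : ∃ q, q = Y0⁻¹ * Y1 * Y0 := ⟨_, rfl⟩
  obtain ⟨d, hd⟩ : ∃ d, d = Y3 * Y1 * Y3⁻¹ * Y1⁻¹ := ⟨_, rfl⟩
  have hdc : ∀ g, Commute d g := central_of_map ρ hc (by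
    rw [hd, map_mul, map_mul, hcomm]
    simp only [map_mul, map_inv]
    group)
  have h1 : Y3 * Y1 * Y3⁻¹ = d * Y1 := by rw [hd]; group
  have hd2 : d ^ 2 = 1 := by
    have h2 : Y3 * Y1 ^ 2 * Y3⁻¹ = (d * Y1) ^ 2 := by rw [← h1, conj_pow]
    rw [hY1, (hdc Y1).mul_pow, hY1] at h2
    simpa using h2.symm
  have hp2 : p ^ 2 = 1 := by rw [hp, conj_pow, hY1]; group
  have hq2 : q ^ 2 = 1 := by
    calc q ^ 2 = Y0⁻¹ * Y1 ^ 2 * Y0 := by
          rw [hq]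
          simp only [pow_succ, pow_zero, one_mul, mul_one, mul_assoc, mul_inv_rev, inv_inv, inv_one,
        inv_mul_cancel_left, mul_inv_cancel_left, inv_mul_cancel, mul_inv_cancel]
      _ = 1 := by rw [hY1]; group
  have hpqY : p * q * Y1 = 1 := by
    have h2 : (Y0 * Y1) ^ 3 =
        (Y0 * Y1 * Y0⁻¹) * (Y0 ^ 3 * (Y0⁻¹ * Y1 * Y0) * (Y0 ^ 3)⁻¹) * Y0 ^ 3 * Y1 := by
      rw [pow_succ, pow_two]; group
    rw [h01, hY3, ← hp, one_mul, inv_one, mul_one, mul_one, ← hq] at h2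
    exact h2.symm
  have hpq : p * q = Y1 := by
    calc p * q = (p * q * Y1) * (Y1 ^ 2)⁻¹ * Y1 := by group
      _ = Y1 := by rw [hpqY, hY1]; group
  have hqp : q * p = Y1 := by
    calc q * p = p⁻¹ * ((p * q) * (p * q)) * q⁻¹ := by group
      _ = p⁻¹ * q⁻¹ := by rw [hpq, ← pow_two, hY1, mul_one]
      _ = (p ^ 2)⁻¹ * (p * q) * (q ^ 2)⁻¹ := by group
      _ = Y1 := by rw [hp2, hq2, hpq]; group
  have h3p : Y3 * p * Y3⁻¹ = d * q := by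
    calc Y3 * p * Y3⁻¹
        = (Y3 * Y0 * Y3⁻¹) * (Y3 * Y1 * Y3⁻¹) * (Y3 * Y0 * Y3⁻¹)⁻¹ := by rw [hp]; group
      _ = Y0⁻¹ * (d * Y1) * Y0⁻¹⁻¹ := by rw [hinv, h1]
      _ = d * (Y0⁻¹ * Y1 * Y0⁻¹⁻¹) := conj_central_mul hdc _ _
      _ = d * q := by rw [inv_inv, ← hq]
  have h3q : Y3 * q * Y3⁻¹ = d * p := by
    calc Y3 * q * Y3⁻¹
        = (Y3 * Y0 * Y3⁻¹)⁻¹ * (Y3 * Y1 * Y3⁻¹) * (Y3 * Y0 * Y3⁻¹) := by rw [hq]; group
      _ = Y0 * (d * Y1) * Y0⁻¹ := by rw [hinv, h1, inv_inv]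
      _ = d * (Y0 * Y1 * Y0⁻¹) := conj_central_mul hdc _ _
      _ = d * p := by rw [← hp]
  have h4 : Y3 * Y1 * Y3⁻¹ = Y1 := by
    calc Y3 * Y1 * Y3⁻¹ = Y3 * (q * p) * Y3⁻¹ := by rw [hqp]
      _ = (Y3 * q * Y3⁻¹) * (Y3 * p * Y3⁻¹) := by group
      _ = (d * p) * (d * q) := by rw [h3q, h3p]
      _ = d * (p * d) * q := by group
      _ = d * (d * p) * q := by rw [(hdc p).eq]
      _ = d ^ 2 * (p * q) := by rw [pow_two]; simp only [mul_assoc]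
      _ = Y1 := by rw [hd2, one_mul, hpq]
  show Y3 * Y1 = Y1 * Y3
  calc Y3 * Y1 = (Y3 * Y1 * Y3⁻¹) * Y3 := by group
    _ = Y1 * Y3 := by rw [h4]

theorem commute_conj {s k g : E} (h : Commute s k) (hg : ρ (s * g) = ρ (g * s)) :
    Commute s (g * k * g⁻¹) := by
  have h1 := conj_eq_of_map_eq ρ hc (g := s * g * s⁻¹) (g' := g)
    (by rw [map_mul, hg, map_mul, map_inv, mul_inv_cancel_right]) k
  have hk : s * k * s⁻¹ = k := by rw [h.eq, mul_inv_cancel_right]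
  have h2 : s * (g * k * g⁻¹) * s⁻¹ = g * k * g⁻¹ := by
    calc s * (g * k * g⁻¹) * s⁻¹ = (s * g * s⁻¹) * (s * k * s⁻¹) * (s * g * s⁻¹)⁻¹ := by group
      _ = g * k * g⁻¹ := by rw [hk, h1]
  show s * (g * k * g⁻¹) = g * k * g⁻¹ * s
  calc s * (g * k * g⁻¹) = s * (g * k * g⁻¹) * s⁻¹ * s := by group
    _ = g * k * g⁻¹ * s := by rw [h2]

/-- If the obstruction commutator vanishes, Carmichael generators lift to Carmichael generators. -/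
theorem exists_carPow_lift {m : ℕ} (hm : 5 ≤ m) {x : ℕ → Q} (hx : CarPow x m) (y : ℕ → E)
    (hy : ∀ i, i ≤ m → ρ (y i) = x i) (hδ : Commute (y 1) (y 0 * y 1 * (y 0)⁻¹)) :
    ∃ Y : ℕ → E, (∀ i, i ≤ m → ρ (Y i) = x i) ∧ CarPow Y m := by
  have hR := hx.carRel
  obtain ⟨Y0, hY0, hY03, hY0inv⟩ := lift0 ρ hc (hy 0 (by omega)) (hy 2 (by omega)) hR.pow3
    (hR.sq 2 (by omega) (by omega)) (hR.inv0 2 (by omega) (by omega))
  have hδ' : Commute (y 1) (Y0 * y 1 * Y0⁻¹) := by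
    rw [conj_eq_of_map_eq ρ hc (g := Y0) (g' := y 0) (by rw [hY0, hy 0 (by omega)]) (y 1)]
    exact hδ
  obtain ⟨Y1, hY1, hY12, hY01⟩ := lift1 ρ hc hY0 (hy 1 (by omega)) hY03 hR.pow3
    (hR.sq 1 (by omega) (by omega)) (hR.r01 (by omega)) hδ'
  obtain ⟨Y, hYdef⟩ : ∃ Y, Y = hat Y0 Y1 y := ⟨_, rfl⟩
  have hYz : Y 0 = Y0 := by rw [hYdef]; rfl
  have hYo : Y 1 = Y1 := by rw [hYdef]; rfl
  have hYs : ∀ k, Y (k + 2) = bfix (Y (k + 1)) (y (k + 2)) := fun k => by rw [hYdef]; rfl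
  rw [← hYz] at hY0 hY03 hY0inv hY01
  rw [← hYo] at hY1 hY12 hY01
  have inv : ∀ k, k + 1 ≤ m → ρ (Y (k + 1)) = x (k + 1) ∧ Y (k + 1) ^ 2 = 1 := by
    intro k
    induction k with
    | zero => intro _; exact ⟨hY1, hY12⟩
    | succ k ih =>
      intro hk
      obtain ⟨h1, h2⟩ := ih (by omega)
      have := lift_braid ρ hc h1 (hy (k + 2) hk) h2 (hR.sq (k + 1) (by omega) (by omega))
        (hR.sq (k + 2) (by omega) hk) (hR.braid (k + 1) (by omega) hk) (hx.b3 (k + 1) hk)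
      rw [hYs k]
      exact ⟨this.1, this.2.1⟩
  have hb3 : ∀ k, k + 2 ≤ m → (Y (k + 1) * Y (k + 2)) ^ 3 = 1 := by
    intro k hk
    obtain ⟨h1, h2⟩ := inv k (by omega)
    have := lift_braid ρ hc h1 (hy (k + 2) hk) h2 (hR.sq (k + 1) (by omega) (by omega))
      (hR.sq (k + 2) (by omega) hk) (hR.braid (k + 1) (by omega) hk) (hx.b3 (k + 1) hk)
    rw [hYs k]
    exact this.2.2
  have hρ : ∀ i, i ≤ m → ρ (Y i) = x i := by
    intro i hi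
    rcases Nat.eq_zero_or_pos i with rfl | h
    · exact hY0
    · obtain ⟨k, rfl⟩ : ∃ k, i = k + 1 := ⟨i - 1, by omega⟩
      exact (inv k hi).1
  have hsq : ∀ i, 1 ≤ i → i ≤ m → Y i ^ 2 = 1 := by
    intro i h1 hi
    obtain ⟨k, rfl⟩ : ∃ k, i = k + 1 := ⟨i - 1, by omega⟩
    exact (inv k hi).2
  have hb3' : ∀ i, 1 ≤ i → i + 1 ≤ m → (Y i * Y (i + 1)) ^ 3 = 1 := by
    intro i h1 hi
    obtain ⟨k, rfl⟩ : ∃ k, i = k + 1 := ⟨i - 1, by omega⟩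
    exact hb3 k hi
  -- the generators `Y j`, `j ≥ 2`, invert `Y 0`
  have hinv2 : Y 2 * Y 0 * (Y 2)⁻¹ = (Y 0)⁻¹ := by
    rw [conj_eq_of_map_eq ρ hc (g := Y 2) (g' := y 2)
      (by rw [hρ 2 (by omega), hy 2 (by omega)]) (Y 0)]
    exact hY0inv
  have hinvQ : ∀ j, 2 ≤ j → j ≤ m → ρ (Y j * Y 0 * (Y j)⁻¹ * Y 0) = 1 := by
    intro j h2 hj
    rw [map_mul, map_mul, map_mul, map_inv, hρ j hj, hρ 0 (by omega),
      hR.inv_of_sq (by omega) hj, hR.inv0 j h2 hj, inv_mul_cancel]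
  have hcommQ : ∀ i j, 1 ≤ i → i + 2 ≤ j → j ≤ m → ρ (Y i * Y j) = ρ (Y j * Y i) := by
    intro i j h1 hij hj
    rw [map_mul, map_mul, hρ i (by omega), hρ j hj, hR.comm i j h1 hij hj]
  have hinvBig : ∀ j, 4 ≤ j → j ≤ m → Y j * Y 0 * (Y j)⁻¹ = (Y 0)⁻¹ := fun j h4 hj =>
    inv_of_comm ρ hc hY03 hinv2 (hcommQ 2 j (by omega) (by omega) hj).symm
      (hinvQ j (by omega) hj)
  have hinv3 : Y 3 * Y 0 * (Y 3)⁻¹ = (Y 0)⁻¹ :=
    inv_of_comm ρ hc hY03 (hinvBig 5 (by omega) hm) (hcommQ 3 5 (by omega) (by omega) hm)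
      (hinvQ 3 (by omega) (by omega))
  have hinvAll : ∀ j, 2 ≤ j → j ≤ m → Y j * Y 0 * (Y j)⁻¹ = (Y 0)⁻¹ := by
    intro j h2 hj
    rcases (by omega : j = 2 ∨ j = 3 ∨ 4 ≤ j) with rfl | rfl | h
    · exact hinv2
    · exact hinv3
    · exact hinvBig j h hj
  -- commutation
  have h13 : Commute (Y 3) (Y 1) :=
    comm13 ρ hc hY03 hY12 hY01 hinv3 (hcommQ 1 3 (by omega) (by omega) (by omega)).symm
  have hconjY : ∀ k, 1 ≤ k → k + 1 ≤ m →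
      Y (k + 1) = (Y k * Y (k + 1)) * Y k * (Y k * Y (k + 1))⁻¹ := fun k h1 hk =>
    braid_conj (hsq k h1 (by omega)) (hsq (k + 1) (by omega) hk) (hb3' k h1 hk)
  have hP1 : ∀ j, 3 ≤ j → j ≤ m → Commute (Y 1) (Y j) := by
    intro j h3
    induction j, h3 using Nat.le_induction with
    | base => intro _; exact h13.symm
    | succ j hj ih =>
      intro hjm
      have h := ih (by omega)
      rw [hconjY j (by omega) hjm]
      apply commute_conj ρ hc h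
      rw [map_mul, map_mul, map_mul, map_mul, hρ 1 (by omega), hρ j (by omega), hρ (j + 1) hjm,
        ← mul_assoc, hR.comm 1 j (by omega) (by omega) (by omega), mul_assoc,
        hR.comm 1 (j + 1) (by omega) (by omega) hjm, mul_assoc]
  have hP : ∀ i, 1 ≤ i → ∀ j, i + 2 ≤ j → j ≤ m → Commute (Y i) (Y j) := by
    intro i hi
    induction i, hi using Nat.le_induction with
    | base => intro j hj hjm; exact hP1 j hj hjm
    | succ i hi ih =>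
      intro j hj hjm
      have h := (ih j (by omega) hjm).symm
      rw [hconjY i hi (by omega)]
      apply Commute.symm
      apply commute_conj ρ hc h
      rw [map_mul, map_mul, map_mul, map_mul, hρ i (by omega), hρ j hjm, hρ (i + 1) (by omega),
        ← mul_assoc, ← hR.comm i j hi (by omega) hjm, mul_assoc, mul_assoc,
        hR.comm (i + 1) j (by omega) (by omega) hjm]
  refine ⟨Y, hρ, ⟨hY03, fun k h1 hk => hsq k h1 hk, ?_, ?_⟩⟩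
  · intro i hi
    rcases Nat.eq_zero_or_pos i with rfl | h
    · exact hY01
    · exact hb3' i h hi
  · intro i j hij hj
    rcases Nat.eq_zero_or_pos i with rfl | h
    · calc (Y 0 * Y j) ^ 2 = (Y 0 * Y j) * (Y 0 * Y j) := pow_two _
        _ = Y 0 * (Y j * Y 0 * (Y j)⁻¹) * (Y j) ^ 2 := by
          simp only [pow_succ, pow_zero, one_mul, mul_one, mul_assoc, mul_inv_rev, inv_inv,
            inv_one, inv_mul_cancel_left, mul_inv_cancel_left, inv_mul_cancel, mul_inv_cancel]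
        _ = 1 := by rw [hinvAll j (by omega) hj, hsq j (by omega) hj]; group
    · rw [(hP i h j hij hj).mul_pow, hsq i h (by omega), hsq j (by omega) hj, one_mul]

end Hom

section Split

open scoped commutatorElement

theorem commutatorElement_eq_of_map_eq {E Q : Type*} [Group E] [Group Q] (ρ : E →* Q)
    (hc : ρ.ker ≤ Subgroup.center E) {a a' b b' : E} (ha : ρ a = ρ a') (hb : ρ b = ρ b') :
    ⁅a, b⁆ = ⁅a', b'⁆ := by
  have h1 := conj_eq_of_map_eq ρ hc ha b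
  have h2 := conj_eq_of_map_eq ρ hc hb a'⁻¹
  rw [commutatorElement_def, commutatorElement_def, h1]
  calc a' * b * a'⁻¹ * b⁻¹ = a' * (b * a'⁻¹ * b⁻¹) := by simp only [mul_assoc]
    _ = a' * (b' * a'⁻¹ * b'⁻¹) := by rw [h2]
    _ = a' * b' * a'⁻¹ * b'⁻¹ := by simp only [mul_assoc]

theorem carPow_map {G H : Type*} [Group G] [Group H] (f : G →* H) {X : ℕ → G} {m : ℕ}
    (h : CarPow X m) : CarPow (fun k => f (X k)) m := by
  refine ⟨?_, ?_, ?_, ?_⟩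
  · show f (X 0) ^ 3 = 1
    rw [← map_pow, h.p3, map_one]
  · intro k h1 hk
    show f (X k) ^ 2 = 1
    rw [← map_pow, h.p2 k h1 hk, map_one]
  · intro i hi
    show (f (X i) * f (X (i + 1))) ^ 3 = 1
    rw [← map_mul, ← map_pow, h.b3 i hi, map_one]
  · intro i j hij hj
    show (f (X i) * f (X j)) ^ 2 = 1
    rw [← map_mul, ← map_pow, h.c2 i j hij hj, map_one]

/-- Splitting when the obstruction vanishes. -/
theorem ker_inf_commutator_eq_bot {n : ℕ} (hn : 8 ≤ n) {E : Type*} [Group E]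
    (ρ : E →* alternatingGroup (Fin n)) (hs : Function.Surjective ρ)
    (hc : ρ.ker ≤ Subgroup.center E) (φ : CarGroup n ≃* alternatingGroup (Fin n))
    (y0 y1 : E) (h0 : ρ y0 = φ (carX n 0)) (h1 : ρ y1 = φ (carX n 1))
    (hδ : Commute y1 (y0 * y1 * y0⁻¹)) : ρ.ker ⊓ commutator E = ⊥ := by
  obtain ⟨m, rfl⟩ : ∃ m, n = m + 3 := ⟨n - 3, by omega⟩
  have hx : CarPow (fun k => φ (carX (m + 3) k)) m :=
    carPow_map φ.toMonoidHom (carX_carPow (le_refl _))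
  choose y hy using fun k => hs (φ (carX (m + 3) k))
  have hδ' : Commute (y 1) (y 0 * y 1 * (y 0)⁻¹) := by
    have e0 : ρ y0 = ρ (y 0) := by rw [h0, hy 0]
    have e1 : ρ y1 = ρ (y 1) := by rw [h1, hy 1]
    exact commute_of_map_eq ρ hc e1
      (by rw [map_mul, map_mul, map_inv, map_mul, map_mul, map_inv, e0, e1]) hδ
  obtain ⟨Y, hYρ, hY⟩ := exists_carPow_lift ρ hc (by omega : 5 ≤ m) hx y (fun i _ => hy i) hδ'
  obtain ⟨s, hs'⟩ : ∃ s : CarGroup (m + 3) →* E, s = carLift Y (m + 3) m hY (le_refl _) :=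
    ⟨_, rfl⟩
  have hcomp : ρ.comp s = φ.toMonoidHom := by
    apply MonoidHom.eq_of_eqOn_dense (carX_closure (le_refl (m + 3)))
    rintro _ ⟨k, hk, rfl⟩
    simp only [Set.mem_ofPred_eq] at hk
    show ρ (s (carX (m + 3) k)) = φ (carX (m + 3) k)
    rw [hs', carLift_carX Y (m + 3) m hY (le_refl _) (by omega), hYρ k hk]
  have hcomp' : ∀ w, ρ (s w) = φ w := fun w => DFunLike.congr_fun hcomp w
  have hle : commutator E ≤ s.range := by
    rw [commutator_def, Subgroup.commutator_le]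
    intro g1 _ g2 _
    have e1 : ρ g1 = ρ (s (φ.symm (ρ g1))) := by rw [hcomp', MulEquiv.apply_symm_apply]
    have e2 : ρ g2 = ρ (s (φ.symm (ρ g2))) := by rw [hcomp', MulEquiv.apply_symm_apply]
    rw [commutatorElement_eq_of_map_eq ρ hc e1 e2, ← map_commutatorElement]
    exact ⟨_, rfl⟩
  rw [eq_bot_iff]
  rintro z ⟨hz1, hz2⟩
  obtain ⟨w, rfl⟩ := hle hz2
  have h1 : φ w = 1 := by rw [← hcomp' w]; exact hz1
  have hw : w = 1 := (map_eq_one_iff φ φ.injective).1 h1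
  rw [Subgroup.mem_bot, hw, map_one]

/-- Central extensions of `A_n`, `n ≥ 8`, with kernel in the derived subgroup have kernel of
order at most `2`. -/
theorem card_ker_le_two_of_eight_le {n : ℕ} (hn : 8 ≤ n) {Γ : Type*} [Group Γ] [Finite Γ]
    (σ : Γ →* alternatingGroup (Fin n)) (hs : Function.Surjective σ)
    (hc : σ.ker ≤ Subgroup.center Γ) (hd : σ.ker ≤ commutator Γ) : Nat.card σ.ker ≤ 2 := by
  obtain ⟨φ⟩ := carGroup_equiv_alternating n (by omega)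
  obtain ⟨y0, h0⟩ := hs (φ (carX n 0))
  obtain ⟨y1, h1⟩ := hs (φ (carX n 1))
  obtain ⟨δ, hδdef⟩ : ∃ δ, δ = ⁅y1, y0 * y1 * y0⁻¹⁆ := ⟨_, rfl⟩
  have hx : CarPow (fun k => φ (carX n k)) (n - 3) :=
    carPow_map φ.toMonoidHom (carX_carPow (by omega))
  have hR := hx.carRel
  obtain ⟨a, ha⟩ : ∃ a, a = φ (carX n 0) := ⟨_, rfl⟩
  obtain ⟨b, hb⟩ : ∃ b, b = φ (carX n 1) := ⟨_, rfl⟩
  have ha3 : a * a * a = 1 := by rw [ha]; exact hR.pow3
  have hb2 : b * b = 1 := by rw [hb]; exact hR.sq 1 (le_refl _) (by omega)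
  have hr : b * a * b = a⁻¹ * b * a⁻¹ := by rw [ha, hb]; exact hR.r01 (by omega)
  have hbinv : b⁻¹ = b := inv_eq_of_mul_eq_one_left hb2
  have haa : a * a = a⁻¹ := eq_inv_of_mul_eq_one_left ha3
  have haa' : a⁻¹ * a⁻¹ = a := by
    calc a⁻¹ * a⁻¹ = a⁻¹ * a⁻¹ * (a * a * a) := by rw [ha3, mul_one]
      _ = a := by simp only [mul_assoc, inv_mul_cancel_left]
  have hcommQ : Commute b (a * b * a⁻¹) := by
    have hr' := congrArg (fun t => t⁻¹) hr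
    simp only [mul_inv_rev, inv_inv, hbinv] at hr'
    show b * (a * b * a⁻¹) = a * b * a⁻¹ * b
    calc b * (a * b * a⁻¹) = (b * a * b) * a⁻¹ := by simp only [mul_assoc]
      _ = a⁻¹ * b * (a⁻¹ * a⁻¹) := by rw [hr]; simp only [mul_assoc]
      _ = a⁻¹ * b * a := by rw [haa']
      _ = (a * a) * (b * a) := by rw [haa]; simp only [mul_assoc]
      _ = a * (b * (a⁻¹ * b)) := by rw [hr']; simp only [mul_assoc]
      _ = a * b * a⁻¹ * b := by simp only [mul_assoc]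
  have hδker : σ δ = 1 := by
    rw [hδdef, map_commutatorElement, map_mul, map_mul, map_inv, h0, h1, ← ha, ← hb,
      commutatorElement_eq_one_iff_commute]
    exact hcommQ
  have hδc : ∀ g, Commute δ g := central_of_map σ hc hδker
  have hA : ∀ g, Commute (y1 ^ 2) g :=
    central_of_map σ hc (by rw [map_pow, h1, ← hb, pow_two, hb2])
  have hδ2 : δ ^ 2 = 1 := by
    obtain ⟨p, hp⟩ : ∃ p, p = y0 * y1 * y0⁻¹ := ⟨_, rfl⟩
    have hp2 : p ^ 2 = y1 ^ 2 := by rw [hp, conj_pow, ← (hA y0).eq, mul_inv_cancel_right]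
    have h1' : y1 * p * y1⁻¹ = δ * p := by rw [hδdef, ← hp, commutatorElement_def]; group
    have h2 : y1 * p ^ 2 * y1⁻¹ = (δ * p) ^ 2 := by rw [← h1', conj_pow]
    rw [hp2, (hδc p).mul_pow, hp2, ← (hA y1).eq, mul_inv_cancel_right] at h2
    exact (mul_right_cancel (by rw [one_mul]; exact h2 : 1 * y1 ^ 2 = δ ^ 2 * y1 ^ 2)).symm
  have hnorm : (Subgroup.zpowers δ).Normal := by
    constructor
    intro x hx g
    obtain ⟨k, rfl⟩ := Subgroup.mem_zpowers_iff.1 hx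
    have hcm : Commute g (δ ^ k) := ((hδc g).symm).zpow_right k
    rw [hcm.eq, mul_inv_cancel_right]
    exact Subgroup.zpow_mem_zpowers δ k
  have hNle : Subgroup.zpowers δ ≤ σ.ker := by
    rw [Subgroup.zpowers_le]; exact MonoidHom.mem_ker.2 hδker
  obtain ⟨ρ, hρ⟩ : ∃ ρ : Γ ⧸ Subgroup.zpowers δ →* alternatingGroup (Fin n),
      ρ = QuotientGroup.lift (Subgroup.zpowers δ) σ hNle := ⟨_, rfl⟩
  have hρmk : ∀ g : Γ, ρ (QuotientGroup.mk' (Subgroup.zpowers δ) g) = σ g := by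
    intro g; rw [hρ]; rfl
  have hρs : Function.Surjective ρ := by
    intro x
    obtain ⟨g, rfl⟩ := hs x
    exact ⟨_, hρmk g⟩
  have hρc : ρ.ker ≤ Subgroup.center (Γ ⧸ Subgroup.zpowers δ) := by
    intro q hq
    obtain ⟨g, rfl⟩ := QuotientGroup.mk'_surjective (Subgroup.zpowers δ) q
    have hg : g ∈ σ.ker := by
      rw [MonoidHom.mem_ker, ← hρmk g]; exact hq
    rw [Subgroup.mem_center_iff]
    intro q'
    obtain ⟨g', rfl⟩ := QuotientGroup.mk'_surjective (Subgroup.zpowers δ) q'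
    rw [← map_mul, ← map_mul, Subgroup.mem_center_iff.1 (hc hg) g']
  have hδq : Commute (QuotientGroup.mk' (Subgroup.zpowers δ) y1)
      (QuotientGroup.mk' (Subgroup.zpowers δ) y0 * QuotientGroup.mk' (Subgroup.zpowers δ) y1 *
        (QuotientGroup.mk' (Subgroup.zpowers δ) y0)⁻¹) := by
    rw [← commutatorElement_eq_one_iff_commute, ← map_inv, ← map_mul, ← map_mul,
      ← map_commutatorElement, ← hδdef]
    exact (QuotientGroup.eq_one_iff δ).2 (Subgroup.mem_zpowers δ)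
  have hbot := ker_inf_commutator_eq_bot hn ρ hρs hρc φ _ _ (by rw [hρmk, h0]) (by rw [hρmk, h1])
    hδq
  have hle : σ.ker ≤ Subgroup.zpowers δ := by
    intro z hz
    have h1 : QuotientGroup.mk' (Subgroup.zpowers δ) z ∈
        ρ.ker ⊓ commutator (Γ ⧸ Subgroup.zpowers δ) := by
      refine ⟨?_, ?_⟩
      · exact MonoidHom.mem_ker.2 (by rw [hρmk]; exact MonoidHom.mem_ker.1 hz)
      · have h2 : Subgroup.map (QuotientGroup.mk' (Subgroup.zpowers δ)) (commutator Γ) ≤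
            commutator (Γ ⧸ Subgroup.zpowers δ) := by
          rw [commutator_def, commutator_def, Subgroup.map_commutator]
          exact Subgroup.commutator_mono le_top le_top
        exact h2 ⟨z, hd hz, rfl⟩
    rw [hbot, Subgroup.mem_bot] at h1
    exact (QuotientGroup.eq_one_iff z).1 h1
  calc Nat.card σ.ker ≤ Nat.card (Subgroup.zpowers δ) := Subgroup.card_le_of_le hle
    _ = orderOf δ := Nat.card_zpowers δ
    _ ≤ 2 := orderOf_le_of_pow_eq_one (by norm_num) hδ2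

end Split

end AltMult
end Cfsg.Agent.H41
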