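import Mathlib
import Cfsg.Prelude.Def_KGroupFacts
import Cfsg.Agent.H41.Spin2
import Cfsg.Agent.H41.Transport
import Cfsg.Agent.H41.Restrict
import Cfsg.Agent.H7.Basic

/-!
# The Schur multiplier of `PSL_3(2)` (helper41)

`SL_3(2)` acts on the eight vectors of `F_2^3` by even permutations; restricting the spin double
cover of `A_8` gives a stem extension with kernel of order `2`.  The upper bound uses transfer to
the dihedral Sylow `2`-subgroup and to cyclic subgroups of order `3` and `7`.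
-/

set_option autoImplicit false
set_option linter.unusedSectionVars false
set_option linter.style.haveILetI false

namespace Cfsg.Agent.H41

open Cfsg

universe u

/-- A subgroup of even dihedral type carries at most two elements of a stem kernel. -/
theorem twoStemIn_of_dihedralType {G : Type u} [Group G] (H : Subgroup G) (x y : H)
    (hgen : Subgroup.closure {x, y} = ⊤) (hinv : y * x * y⁻¹ = x⁻¹) (m : ℕ)
    (hord : orderOf x = 2 * m) (Γ : Type u) [Group Γ] (σ : Γ →* G) (hσ : Function.Surjective σ)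
    (hc : σ.ker ≤ Subgroup.center Γ) :
    ∃ g0 : Γ, ∀ g ∈ σ.ker ⊓ ⁅H.comap σ, H.comap σ⁆, g = 1 ∨ g = g0 := by
  have hc' := subgroupComap_ker_le_center σ hc H
  obtain ⟨g0, hg0⟩ := dihedralType_even_ker (σ.subgroupComap H)
    (σ.subgroupComap_surjective_of_surjective H hσ) hc' x y hgen hinv m hord
  refine ⟨(g0 : Γ), ?_⟩
  rintro z ⟨hz1, hz2⟩
  rw [← Subgroup.map_subtype_commutator] at hz2
  obtain ⟨z', hz', rfl⟩ := hz2
  have hmem : z' ∈ (σ.subgroupComap H).ker ⊓ commutator (H.comap σ) := by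
    refine ⟨?_, hz'⟩
    show z' ∈ (σ.subgroupComap H).ker
    rw [MonoidHom.mem_ker]
    apply Subtype.ext
    have : σ (z' : Γ) = 1 := hz1
    exact this
  rcases hg0 z' hmem with h | h
  · left; rw [h]; rfl
  · right; rw [h]; rfl

/-- If every element `z` of `Z` has `z ^ a ∈ {1, g0}` and `z ^ b = 1` with `a`, `b` coprime, then `Z`
is an image of `C₂`. -/
theorem exists_surjective_zmod_two_of_pow {Γ : Type*} [Group Γ] (Z : Subgroup Γ) (g0 : Γ)
    (a b : ℕ) (hab : Nat.Coprime a b) (hb : 1 < b)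
    (h1 : ∀ z ∈ Z, z ^ a = 1 ∨ z ^ a = g0) (h2 : ∀ z ∈ Z, z ^ b = 1) :
    ∃ π : Multiplicative (ZMod 2) →* Z, Function.Surjective π := by
  obtain ⟨k, -, hk⟩ := Nat.exists_mul_mod_eq_one_of_coprime hab hb
  have key : ∀ z ∈ Z, z = 1 ∨ z = g0 ^ k := by
    intro z hz
    have hz1 : z ^ (a * k) = z := by
      rw [pow_eq_pow_mod (a * k) (h2 z hz), hk, pow_one]
    rcases h1 z hz with h | h
    · left
      rw [← hz1, pow_mul, h, one_pow]
    · right
      rw [← h, ← pow_mul, hz1]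
  by_cases hg : g0 ^ k ∈ Z
  · apply exists_surjective_zmod_two (⟨g0 ^ k, hg⟩ : Z)
    intro g
    rcases key g g.2 with h | h
    · left; exact Subtype.ext h
    · right; exact Subtype.ext h
  · apply exists_surjective_zmod_two (1 : Z)
    intro g
    rcases key g g.2 with h | h
    · left; exact Subtype.ext h
    · exact absurd (h ▸ g.2) hg

namespace L32

open Matrix

/-- Vectors of `F_2^3`. -/
abbrev Vec := Fin 3 → ZMod 2

/-- `SL_3(2)`. -/
abbrev G1 := Matrix.SpecialLinearGroup (Fin 3) (ZMod 2)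

/-- The permutation of the vectors given by an invertible matrix. -/
def actPerm (g : GL (Fin 3) (ZMod 2)) : Equiv.Perm Vec where
  toFun v := (g : Matrix (Fin 3) (Fin 3) (ZMod 2)) *ᵥ v
  invFun v := ((g⁻¹ : GL (Fin 3) (ZMod 2)) : Matrix (Fin 3) (Fin 3) (ZMod 2)) *ᵥ v
  left_inv v := by
    show ((g⁻¹ : GL (Fin 3) (ZMod 2)) : Matrix (Fin 3) (Fin 3) (ZMod 2)) *ᵥ
      ((g : Matrix (Fin 3) (Fin 3) (ZMod 2)) *ᵥ v) = v
    rw [Matrix.mulVec_mulVec, ← Units.val_mul, inv_mul_cancel, Units.val_one, Matrix.one_mulVec]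
  right_inv v := by
    show (g : Matrix (Fin 3) (Fin 3) (ZMod 2)) *ᵥ
      (((g⁻¹ : GL (Fin 3) (ZMod 2)) : Matrix (Fin 3) (Fin 3) (ZMod 2)) *ᵥ v) = v
    rw [Matrix.mulVec_mulVec, ← Units.val_mul, mul_inv_cancel, Units.val_one, Matrix.one_mulVec]

/-- The action on vectors as a homomorphism. -/
def actHom : GL (Fin 3) (ZMod 2) →* Equiv.Perm Vec where
  toFun := actPerm
  map_one' := by
    ext v : 1
    show ((1 : GL (Fin 3) (ZMod 2)) : Matrix (Fin 3) (Fin 3) (ZMod 2)) *ᵥ v = v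
    rw [Units.val_one, Matrix.one_mulVec]
  map_mul' g h := by
    ext v : 1
    show ((g * h : GL (Fin 3) (ZMod 2)) : Matrix (Fin 3) (Fin 3) (ZMod 2)) *ᵥ v =
      (g : Matrix (Fin 3) (Fin 3) (ZMod 2)) *ᵥ ((h : Matrix (Fin 3) (Fin 3) (ZMod 2)) *ᵥ v)
    rw [Matrix.mulVec_mulVec, Units.val_mul]

theorem actHom_apply (g : GL (Fin 3) (ZMod 2)) (v : Vec) :
    actHom g v = (g : Matrix (Fin 3) (Fin 3) (ZMod 2)) *ᵥ v := rfl

/-- A transvection as a unit. -/
def tU (i j : Fin 3) (c : ZMod 2) (h : i ≠ j) : GL (Fin 3) (ZMod 2) :=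
  ⟨transvection i j c, transvection i j (-c),
    (transvection_mul_transvection_same i j h c (-c)).trans
      (by rw [add_neg_cancel, transvection_zero]),
    (transvection_mul_transvection_same i j h (-c) c).trans
      (by rw [neg_add_cancel, transvection_zero])⟩

theorem transvection_decomp : ∀ (i j : Fin 3), i ≠ j → ∀ c : ZMod 2, ∃ k : Fin 3, ∃ (_ : i ≠ k)
    (_ : k ≠ j), transvection i j c =
      transvection i k c * transvection k j 1 * (transvection i k c * transvection k j 1) := by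
  decide

theorem sign_tU (i j : Fin 3) (c : ZMod 2) (h : i ≠ j) :
    Equiv.Perm.sign (actHom (tU i j c h)) = 1 := by
  obtain ⟨k, hik, hkj, hdec⟩ := transvection_decomp i j h c
  have h1 : tU i j c h = tU i k c hik * tU k j 1 hkj * (tU i k c hik * tU k j 1 hkj) := by
    apply Units.ext
    exact hdec
  rw [h1, map_mul, map_mul]
  exact Int.units_mul_self _

theorem sign_actHom (g : GL (Fin 3) (ZMod 2)) : Equiv.Perm.sign (actHom g) = 1 := by
  have key : ∃ u : GL (Fin 3) (ZMod 2), (u : Matrix (Fin 3) (Fin 3) (ZMod 2)) =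
      (g : Matrix (Fin 3) (Fin 3) (ZMod 2)) ∧ Equiv.Perm.sign (actHom u) = 1 := by
    apply Matrix.diagonal_transvection_induction
      (fun M => ∃ u : GL (Fin 3) (ZMod 2), (u : Matrix (Fin 3) (Fin 3) (ZMod 2)) = M ∧
        Equiv.Perm.sign (actHom u) = 1)
    · intro D hD
      refine ⟨1, ?_, by rw [map_one, map_one]⟩
      have hdet : (g : Matrix (Fin 3) (Fin 3) (ZMod 2)).det ≠ 0 := by
        have := (Matrix.isUnit_iff_isUnit_det _).1 g.isUnit
        exact this.ne_zero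
      rw [← hD, Matrix.det_diagonal] at hdet
      have hD1 : ∀ i, D i = 1 := by
        intro i
        have h0 : D i ≠ 0 := by
          intro h0
          exact hdet (Finset.prod_eq_zero (Finset.mem_univ i) h0)
        revert h0
        generalize D i = d
        revert d
        decide
      rw [Units.val_one]
      have : D = fun _ => 1 := funext hD1
      rw [this]
      exact (Matrix.diagonal_one).symm
    · intro t
      exact ⟨tU t.i t.j t.c t.hij, rfl, sign_tU _ _ _ _⟩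
    · rintro A B ⟨u, rfl, hu⟩ ⟨v, rfl, hv⟩
      exact ⟨u * v, Units.val_mul u v, by rw [map_mul, map_mul, hu, hv, one_mul]⟩
  obtain ⟨u, hu, hs⟩ := key
  have : u = g := Units.ext hu
  rw [← this]; exact hs

theorem card_Vec : Fintype.card Vec = 8 := by
  rw [Fintype.card_fun, ZMod.card, Fintype.card_fin]; norm_num

/-- An enumeration of the vectors. -/
noncomputable def eVec : Vec ≃ Fin 8 := Fintype.equivFinOfCardEq card_Vec

/-- `SL_3(2) → A_8`. -/
noncomputable def iota : G1 →* alternatingGroup (Fin 8) :=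
  MonoidHom.codRestrict
    ((eVec.permCongrHom.toMonoidHom.comp actHom).comp
      (Matrix.SpecialLinearGroup.toGL : G1 →* GL (Fin 3) (ZMod 2)))
    (alternatingGroup (Fin 8)) (by
      intro g
      rw [Equiv.Perm.mem_alternatingGroup]
      show Equiv.Perm.sign (eVec.permCongr (actHom (Matrix.SpecialLinearGroup.toGL g))) = 1
      rw [Equiv.Perm.sign_permCongr]
      exact sign_actHom _)

theorem iota_coe (g : G1) : ((iota g : alternatingGroup (Fin 8)) : Equiv.Perm (Fin 8)) =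
    eVec.permCongr (actHom (Matrix.SpecialLinearGroup.toGL g)) := rfl

theorem permCongr_swap_mul_swap (w0 w1 w2 w3 : Vec) :
    eVec.permCongr (Equiv.swap w0 w1 * Equiv.swap w2 w3) =
      Equiv.swap (eVec w0) (eVec w1) * Equiv.swap (eVec w2) (eVec w3) := by
  have h : ∀ p q : Equiv.Perm Vec, eVec.permCongr (p * q) = eVec.permCongr p * eVec.permCongr q :=
    fun p q => map_mul eVec.permCongrHom p q
  rw [h, Equiv.permCongr_def, Equiv.permCongr_def, Equiv.symm_trans_swap_trans,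
    Equiv.symm_trans_swap_trans]

/-- The two commuting involutions. -/
def aEl : G1 := ⟨!![1, 0, 1; 0, 1, 0; 0, 0, 1], by decide⟩
def bEl : G1 := ⟨!![1, 0, 0; 0, 1, 1; 0, 0, 1], by decide⟩

theorem aEl_mul_bEl : aEl * bEl = bEl * aEl := by
  apply Subtype.ext
  show (!![1, 0, 1; 0, 1, 0; 0, 0, 1] : Matrix (Fin 3) (Fin 3) (ZMod 2)) *
    !![1, 0, 0; 0, 1, 1; 0, 0, 1] = !![1, 0, 0; 0, 1, 1; 0, 0, 1] * !![1, 0, 1; 0, 1, 0; 0, 0, 1]
  decide

theorem act_aEl : actHom (Matrix.SpecialLinearGroup.toGL aEl) =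
    Equiv.swap ![0, 0, 1] ![1, 0, 1] * Equiv.swap ![0, 1, 1] ![1, 1, 1] := by
  have : ∀ v : Vec, (!![1, 0, 1; 0, 1, 0; 0, 0, 1] : Matrix (Fin 3) (Fin 3) (ZMod 2)) *ᵥ v =
      (Equiv.swap (![0, 0, 1] : Vec) ![1, 0, 1] * Equiv.swap ![0, 1, 1] ![1, 1, 1] :
        Equiv.Perm Vec) v := by
    decide
  ext v : 1
  exact this v

theorem act_bEl : actHom (Matrix.SpecialLinearGroup.toGL bEl) =
    Equiv.swap ![0, 0, 1] ![0, 1, 1] * Equiv.swap ![1, 0, 1] ![1, 1, 1] := by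
  have : ∀ v : Vec, (!![1, 0, 0; 0, 1, 1; 0, 0, 1] : Matrix (Fin 3) (Fin 3) (ZMod 2)) *ᵥ v =
      (Equiv.swap (![0, 0, 1] : Vec) ![0, 1, 1] * Equiv.swap ![1, 0, 1] ![1, 1, 1] :
        Equiv.Perm Vec) v := by
    decide
  ext v : 1
  exact this v

theorem exists_double_cover_G1 : ∃ (Γ : Type) (_ : Group Γ) (_ : Finite Γ) (σ : Γ →* G1),
    IsStemExtension σ ∧ Nonempty (σ.ker ≃* Multiplicative (ZMod 2)) := by
  have hne : ∀ v w : Vec, v ≠ w → eVec v ≠ eVec w := fun v w h h' => h (eVec.injective h')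
  refine Spin.exists_double_cover_of_hom iota aEl bEl aEl_mul_bEl
    (eVec ![0, 0, 1]) (eVec ![1, 0, 1]) (eVec ![0, 1, 1]) (eVec ![1, 1, 1])
    (hne _ _ (by decide)) (hne _ _ (by decide)) (hne _ _ (by decide)) (hne _ _ (by decide))
    (hne _ _ (by decide)) (hne _ _ (by decide)) ?_ ?_
  · rw [iota_coe, act_aEl, permCongr_swap_mul_swap]
  · rw [iota_coe, act_bEl, permCongr_swap_mul_swap]

/-! ### The order of `SL_3(2)` -/

theorem card_G1 : Nat.card G1 = 168 := by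
  have h1 := Cfsg.Agent.H7.card_GL_eq_card_SL_mul (Fin 3) (ZMod 2)
  have h2 := Matrix.card_GL_field (𝔽 := ZMod 2) 3
  rw [h1, Nat.card_units, Nat.card_eq_fintype_card (α := ZMod 2), ZMod.card] at h2
  rw [Fin.prod_univ_three] at h2
  have h3 : ((0 : Fin 3) : ℕ) = 0 := rfl
  have h4 : ((1 : Fin 3) : ℕ) = 1 := rfl
  have h5 : ((2 : Fin 3) : ℕ) = 2 := rfl
  rw [h3, h4, h5] at h2
  have h6 : (2 ^ 3 - 2 ^ 0) * (2 ^ 3 - 2 ^ 1) * (2 ^ 3 - 2 ^ 2) = 168 := by norm_num
  have h7 : 2 - 1 = 1 := rfl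
  rw [h6, h7, mul_one] at h2
  exact h2

/-! ### The Sylow `2`-subgroup -/

theorem det_mk : ∀ p q r : ZMod 2,
    (!![1, p, q; 0, 1, r; 0, 0, 1] : Matrix (Fin 3) (Fin 3) (ZMod 2)).det = 1 := by decide

/-- Upper unitriangular matrices. -/
def mk (p q r : ZMod 2) : G1 := ⟨!![1, p, q; 0, 1, r; 0, 0, 1], det_mk p q r⟩

theorem mk_mul_aux : ∀ p q r p' q' r' : ZMod 2, ∃ a b c : ZMod 2,
    (!![1, p, q; 0, 1, r; 0, 0, 1] : Matrix (Fin 3) (Fin 3) (ZMod 2)) *
      !![1, p', q'; 0, 1, r'; 0, 0, 1] = !![1, a, b; 0, 1, c; 0, 0, 1] := by decide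

theorem mk_inv_aux : ∀ p q r : ZMod 2, ∃ a b c : ZMod 2,
    (!![1, p, q; 0, 1, r; 0, 0, 1] : Matrix (Fin 3) (Fin 3) (ZMod 2)) *
      !![1, a, b; 0, 1, c; 0, 0, 1] = 1 := by decide

theorem mk_inj_aux : ∀ p q r p' q' r' : ZMod 2,
    (!![1, p, q; 0, 1, r; 0, 0, 1] : Matrix (Fin 3) (Fin 3) (ZMod 2)) =
      !![1, p', q'; 0, 1, r'; 0, 0, 1] → p = p' ∧ q = q' ∧ r = r' := by decide

/-- The upper unitriangular subgroup, of order `8`. -/
def U3 : Subgroup G1 where
  carrier := {g | ∃ p q r, g = mk p q r}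
  mul_mem' := by
    rintro _ _ ⟨p, q, r, rfl⟩ ⟨p', q', r', rfl⟩
    obtain ⟨a, b, c, h⟩ := mk_mul_aux p q r p' q' r'
    exact ⟨a, b, c, Subtype.ext h⟩
  one_mem' := ⟨0, 0, 0, Subtype.ext (by decide)⟩
  inv_mem' := by
    rintro _ ⟨p, q, r, rfl⟩
    obtain ⟨a, b, c, h⟩ := mk_inv_aux p q r
    refine ⟨a, b, c, ?_⟩
    apply inv_eq_of_mul_eq_one_right
    exact Subtype.ext h

theorem mk_mem (p q r : ZMod 2) : mk p q r ∈ U3 := ⟨p, q, r, rfl⟩

theorem card_U3 : Nat.card U3 = 8 := by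
  have hinj : Function.Injective (fun t : ZMod 2 × ZMod 2 × ZMod 2 =>
      (⟨mk t.1 t.2.1 t.2.2, mk_mem _ _ _⟩ : U3)) := by
    rintro ⟨p, q, r⟩ ⟨p', q', r'⟩ h
    have h1 : (mk p q r).1 = (mk p' q' r').1 := congrArg (fun g : U3 => g.1.1) h
    obtain ⟨rfl, rfl, rfl⟩ := mk_inj_aux p q r p' q' r' h1
    rfl
  have hsurj : Function.Surjective (fun t : ZMod 2 × ZMod 2 × ZMod 2 =>
      (⟨mk t.1 t.2.1 t.2.2, mk_mem _ _ _⟩ : U3)) := by
    rintro ⟨g, p, q, r, rfl⟩
    exact ⟨(p, q, r), rfl⟩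
  rw [← Nat.card_congr (Equiv.ofBijective _ ⟨hinj, hsurj⟩), Nat.card_prod, Nat.card_prod,
    Nat.card_eq_fintype_card, ZMod.card]

theorem index_U3 : U3.index = 21 := by
  have h := Subgroup.card_mul_index U3
  rw [card_U3, card_G1] at h
  omega

/-- Generators of the Sylow `2`-subgroup. -/
def xU : U3 := ⟨mk 1 0 1, mk_mem _ _ _⟩
def yU : U3 := ⟨mk 1 0 0, mk_mem _ _ _⟩

theorem xU_pow (k : ℕ) : ((xU ^ k : U3) : G1).1 =
    (!![1, 1, 0; 0, 1, 1; 0, 0, 1] : Matrix (Fin 3) (Fin 3) (ZMod 2)) ^ k := rfl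

theorem yU_pow (k : ℕ) : ((yU ^ k : U3) : G1).1 =
    (!![1, 1, 0; 0, 1, 0; 0, 0, 1] : Matrix (Fin 3) (Fin 3) (ZMod 2)) ^ k := rfl

theorem xU_pow_two : ¬ xU ^ 2 ^ 1 = 1 := by
  intro h
  have h1 := congrArg (fun g : U3 => g.1.1) h
  have h2 : (!![1, 1, 0; 0, 1, 1; 0, 0, 1] : Matrix (Fin 3) (Fin 3) (ZMod 2)) ^ 2 ^ 1 = 1 := h1
  revert h2
  decide

theorem xU_pow_four : xU ^ 2 ^ (1 + 1) = 1 := by
  apply Subtype.ext
  apply Subtype.ext
  show (!![1, 1, 0; 0, 1, 1; 0, 0, 1] : Matrix (Fin 3) (Fin 3) (ZMod 2)) ^ 2 ^ (1 + 1) = 1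
  decide

theorem orderOf_xU : orderOf xU = 2 * 2 := by
  haveI : Fact (Nat.Prime 2) := ⟨Nat.prime_two⟩
  have h := orderOf_eq_prime_pow (x := xU) (p := 2) (n := 1) xU_pow_two xU_pow_four
  rw [h]
  norm_num

theorem xU_yU_rel : yU * xU * yU⁻¹ = xU⁻¹ := by
  have h : xU * yU * xU = yU := by
    apply Subtype.ext
    apply Subtype.ext
    show (!![1, 1, 0; 0, 1, 1; 0, 0, 1] : Matrix (Fin 3) (Fin 3) (ZMod 2)) *
      !![1, 1, 0; 0, 1, 0; 0, 0, 1] * !![1, 1, 0; 0, 1, 1; 0, 0, 1] =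
        !![1, 1, 0; 0, 1, 0; 0, 0, 1]
    decide
  calc yU * xU * yU⁻¹ = xU⁻¹ * (xU * yU * xU) * yU⁻¹ := by group
    _ = xU⁻¹ := by rw [h]; group

theorem words_aux : ∀ p q r : ZMod 2, ∃ i : Fin 4, ∃ j : Fin 2,
    (!![1, p, q; 0, 1, r; 0, 0, 1] : Matrix (Fin 3) (Fin 3) (ZMod 2)) =
      (!![1, 1, 0; 0, 1, 1; 0, 0, 1] : Matrix (Fin 3) (Fin 3) (ZMod 2)) ^ (i : ℕ) *
        (!![1, 1, 0; 0, 1, 0; 0, 0, 1] : Matrix (Fin 3) (Fin 3) (ZMod 2)) ^ (j : ℕ) := by
  decide

theorem closure_xU_yU : Subgroup.closure {xU, yU} = ⊤ := by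
  rw [eq_top_iff]
  rintro ⟨g, p, q, r, rfl⟩ -
  obtain ⟨i, j, h⟩ := words_aux p q r
  have h1 : (⟨mk p q r, mk_mem p q r⟩ : U3) = xU ^ (i : ℕ) * yU ^ (j : ℕ) := by
    apply Subtype.ext
    apply Subtype.ext
    exact h
  rw [h1]
  exact mul_mem (pow_mem (Subgroup.subset_closure (by simp)) _)
    (pow_mem (Subgroup.subset_closure (by simp)) _)

/-! ### Elements of order `3` and `7` -/

def g3 : G1 := ⟨!![0, 1, 0; 1, 1, 0; 0, 0, 1], by decide⟩
def g7 : G1 := ⟨!![0, 0, 1; 1, 0, 1; 0, 1, 0], by decide⟩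

theorem g3_pow : g3 ^ 3 = 1 := by
  apply Subtype.ext
  show (!![0, 1, 0; 1, 1, 0; 0, 0, 1] : Matrix (Fin 3) (Fin 3) (ZMod 2)) ^ 3 = 1
  decide

theorem g3_ne : g3 ≠ 1 := by
  intro h
  have h1 : (!![0, 1, 0; 1, 1, 0; 0, 0, 1] : Matrix (Fin 3) (Fin 3) (ZMod 2)) = 1 :=
    congrArg Subtype.val h
  revert h1
  decide

theorem g7_pow : g7 ^ 7 = 1 := by
  apply Subtype.ext
  show (!![0, 0, 1; 1, 0, 1; 0, 1, 0] : Matrix (Fin 3) (Fin 3) (ZMod 2)) ^ 7 = 1
  decide

theorem g7_ne : g7 ≠ 1 := by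
  intro h
  have h1 : (!![0, 0, 1; 1, 0, 1; 0, 1, 0] : Matrix (Fin 3) (Fin 3) (ZMod 2)) = 1 :=
    congrArg Subtype.val h
  revert h1
  decide

theorem orderOf_g3 : orderOf g3 = 3 := by
  haveI : Fact (Nat.Prime 3) := ⟨Nat.prime_three⟩
  exact orderOf_eq_prime g3_pow g3_ne

theorem orderOf_g7 : orderOf g7 = 7 := by
  haveI : Fact (Nat.Prime 7) := ⟨by norm_num⟩
  exact orderOf_eq_prime g7_pow g7_ne

theorem index_g3 : (Subgroup.zpowers g3).index = 56 := by
  have h := Subgroup.card_mul_index (Subgroup.zpowers g3)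
  rw [Nat.card_zpowers, orderOf_g3, card_G1] at h
  omega

theorem index_g7 : (Subgroup.zpowers g7).index = 24 := by
  have h := Subgroup.card_mul_index (Subgroup.zpowers g7)
  rw [Nat.card_zpowers, orderOf_g7, card_G1] at h
  omega

/-! ### The upper bound -/

theorem pow_index_eq_one_of_cyclic (Γ : Type) [Group Γ] [Finite Γ] (σ : Γ →* G1)
    (hs : Function.Surjective σ) (hc : σ.ker ≤ Subgroup.center Γ) (hd : σ.ker ≤ commutator Γ)
    (g : G1) {z : Γ} (hz : z ∈ σ.ker) : z ^ (Subgroup.zpowers g).index = 1 := by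
  have h := (noStem_of_isCyclic (Subgroup.zpowers g)).noStemIn (Subgroup.zpowers g) Γ σ hs hc
  have h1 := pow_index_mem_commutator_of_center ((Subgroup.zpowers g).comap σ) (hc hz) (hd hz)
  rw [Subgroup.index_comap_of_surjective _ hs] at h1
  have h2 : z ^ (Subgroup.zpowers g).index ∈ σ.ker ⊓
      ⁅(Subgroup.zpowers g).comap σ, (Subgroup.zpowers g).comap σ⁆ := ⟨pow_mem hz _, h1⟩
  rw [h] at h2
  exact Subgroup.mem_bot.1 h2

theorem upper_G1 (Γ : Type) [Group Γ] [Finite Γ] (σ : Γ →* G1) (hσ : IsStemExtension σ) :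
    ∃ π : Multiplicative (ZMod 2) →* σ.ker, Function.Surjective π := by
  obtain ⟨hs, hc, hd⟩ := hσ
  obtain ⟨g0, hg0⟩ := twoStemIn_of_dihedralType U3 xU yU closure_xU_yU xU_yU_rel 2 orderOf_xU
    Γ σ hs hc
  apply exists_surjective_zmod_two_of_pow σ.ker g0 21 8 (by norm_num) (by norm_num)
  · intro z hz
    apply hg0
    refine ⟨pow_mem hz _, ?_⟩
    have := pow_index_mem_commutator_of_center (U3.comap σ) (hc hz) (hd hz)
    rwa [Subgroup.index_comap_of_surjective _ hs, index_U3] at this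
  · intro z hz
    have h56 := pow_index_eq_one_of_cyclic Γ σ hs hc hd g3 hz
    have h24 := pow_index_eq_one_of_cyclic Γ σ hs hc hd g7 hz
    rw [index_g3] at h56
    rw [index_g7] at h24
    have h : z ^ 56 = z ^ 8 * (z ^ 24) ^ 2 := by rw [← pow_mul, ← pow_add]
    rw [h56, h24, one_pow, mul_one] at h
    exact h.symm

theorem hasCyclicSchurMultiplier_G1 : HasCyclicSchurMultiplier G1 2 :=
  ⟨exists_double_cover_G1, fun Γ _ _ σ hσ => upper_G1 Γ σ hσ⟩

/-! ### Transport to `PSL_3(F)` -/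

section Transport

variable {F : Type*} [Field F] [Fintype F]

/-- `SL_3(2) ≃* SL_3(F)` for a field with two elements. -/
noncomputable def slEquiv (hF : Fintype.card F = 2) :
    G1 ≃* Matrix.SpecialLinearGroup (Fin 3) F where
  toFun := Matrix.SpecialLinearGroup.map
    (ZMod.ringEquivOfPrime F Nat.prime_two hF : ZMod 2 →+* F)
  invFun := Matrix.SpecialLinearGroup.map
    ((ZMod.ringEquivOfPrime F Nat.prime_two hF).symm : F →+* ZMod 2)
  left_inv g := by
    apply Subtype.ext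
    ext i j
    show (ZMod.ringEquivOfPrime F Nat.prime_two hF).symm
      ((ZMod.ringEquivOfPrime F Nat.prime_two hF) (g.1 i j)) = g.1 i j
    exact RingEquiv.symm_apply_apply _ _
  right_inv g := by
    apply Subtype.ext
    ext i j
    show (ZMod.ringEquivOfPrime F Nat.prime_two hF)
      ((ZMod.ringEquivOfPrime F Nat.prime_two hF).symm (g.1 i j)) = g.1 i j
    exact RingEquiv.apply_symm_apply _ _
  map_mul' := map_mul _

theorem center_eq_bot (hF : Fintype.card F = 2) :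
    Subgroup.center (Matrix.SpecialLinearGroup (Fin 3) F) = ⊥ := by
  rw [eq_bot_iff]
  intro A hA
  rw [Matrix.SpecialLinearGroup.mem_center_iff] at hA
  obtain ⟨r, hr, hA⟩ := hA
  have h01 : ∀ a : ZMod 2, a = 0 ∨ a = 1 := by decide
  have hr1 : r = 1 := by
    have h := h01 ((ZMod.ringEquivOfPrime F Nat.prime_two hF).symm r)
    rcases h with h | h
    · have h0 : r = 0 := by
        have := congrArg (ZMod.ringEquivOfPrime F Nat.prime_two hF) h
        rwa [RingEquiv.apply_symm_apply, map_zero] at this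
      rw [h0] at hr
      simp at hr
    · have := congrArg (ZMod.ringEquivOfPrime F Nat.prime_two hF) h
      rwa [RingEquiv.apply_symm_apply, map_one] at this
  rw [Subgroup.mem_bot]
  apply Subtype.ext
  rw [← hA, hr1, map_one]
  rfl

/-- `SL_3(2) ≃* PSL_3(F)` for a field with two elements. -/
noncomputable def pslEquiv (hF : Fintype.card F = 2) :
    G1 ≃* Matrix.ProjectiveSpecialLinearGroup (Fin 3) F :=
  (slEquiv hF).trans
    ((QuotientGroup.quotientMulEquivOfEq (center_eq_bot hF)).trans QuotientGroup.quotientBot).symm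

theorem psl_three_two (hF : Fintype.card F = 2) :
    HasCyclicSchurMultiplier (Matrix.ProjectiveSpecialLinearGroup (Fin 3) F) 2 :=
  hasSchurMultiplier_of_mulEquiv (pslEquiv hF) hasCyclicSchurMultiplier_G1

end Transport

end L32

end Cfsg.Agent.H41
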