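import Mathlib
import Cfsg.Agent.H41.AltMult
import Cfsg.Agent.H41.DoubleCover
import Cfsg.Agent.H41.L32
import Cfsg.Agent.H41.LocalStem
import Cfsg.Agent.H41.Transport

/-!
Central extensions of `A_n`, `n ≠ 6, 7`, with kernel in the derived subgroup: the kernel has
order at most `2`.
-/

set_option autoImplicit false

namespace Cfsg.Agent.H41
namespace AltMult

open Cfsg

theorem closure_pair_subtype {G : Type*} [Group G] (r u : G)
    (hr : r ∈ Subgroup.closure ({r, u} : Set G)) (hu : u ∈ Subgroup.closure ({r, u} : Set G)) :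
    Subgroup.closure ({⟨r, hr⟩, ⟨u, hu⟩} : Set (Subgroup.closure ({r, u} : Set G))) = ⊤ := by
  have h1 := Subgroup.closure_closure_coe_preimage (k := ({r, u} : Set G))
  have e : ((↑) : Subgroup.closure ({r, u} : Set G) → G) ⁻¹' {r, u} = {⟨r, hr⟩, ⟨u, hu⟩} := by
    ext x
    constructor
    · intro hx
      rcases hx with h | h
      · exact Or.inl (Subtype.ext h)
      · exact Or.inr (Subtype.ext h)
    · intro hx
      rcases hx with h | h
      · exact Or.inl (congrArg Subtype.val h)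
      · exact Or.inr (congrArg Subtype.val h)
  rw [e] at h1
  exact h1

theorem not_sq_dvd_card_alt {n : ℕ} (h4 : 4 ≤ n) (h5 : n ≤ 5) {p : ℕ} (hp : p.Prime)
    (hp2 : p ≠ 2) : ¬ p ^ 2 ∣ Nat.card (alternatingGroup (Fin n)) := by
  have hc := DC.card_alt (n := n) (by omega)
  intro h
  have h3 : 3 ≤ p := by
    have := hp.two_le
    omega
  have hle : p ^ 2 ≤ Nat.card (alternatingGroup (Fin n)) := Nat.le_of_dvd Nat.card_pos h
  interval_cases n
  · have hc' : Nat.card (alternatingGroup (Fin 4)) = 12 := by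
      have : (4 : ℕ).factorial = 24 := by decide
      omega
    rw [hc'] at h hle
    have hp3 : p ≤ 3 := by nlinarith
    have : p = 3 := by omega
    subst this
    omega
  · have hc' : Nat.card (alternatingGroup (Fin 5)) = 60 := by
      have : (5 : ℕ).factorial = 120 := by decide
      omega
    rw [hc'] at h hle
    have hp7 : p ≤ 7 := by nlinarith
    interval_cases p <;> omega

theorem card_ker_le_two_small {n : ℕ} (h4 : 4 ≤ n) (h5 : n ≤ 5) (Γ : Type) [Group Γ] [Finite Γ]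
    (σ : Γ →* alternatingGroup (Fin n)) (hs : Function.Surjective σ)
    (hc : σ.ker ≤ Subgroup.center Γ) (hd : σ.ker ≤ commutator Γ) : Nat.card σ.ker ≤ 2 := by
  obtain ⟨r, u, hconj, hu, hur, hr, hidx, hP⟩ := DC.exists_goodPair h4 (by omega : n ≤ 7)
  have hrm : r ∈ Subgroup.closure ({r, u} : Set (alternatingGroup (Fin n))) :=
    Subgroup.subset_closure (by simp)
  have hum : u ∈ Subgroup.closure ({r, u} : Set (alternatingGroup (Fin n))) :=
    Subgroup.subset_closure (by simp)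
  have hord : ∃ m, orderOf
      (⟨r, hrm⟩ : Subgroup.closure ({r, u} : Set (alternatingGroup (Fin n)))) = 2 * m := by
    rw [Subgroup.orderOf_mk]
    rcases hr with h | h
    · exact ⟨1, (orderOf_eq_prime (p := 2) h.sq h.ne_one).trans rfl⟩
    · refine ⟨2, ?_⟩
      have h1 : ¬ r ^ 2 ^ 1 = 1 := by rw [pow_one]; exact h.ne_one
      have h2 : r ^ 2 ^ (1 + 1) = 1 := by
        have := h.sq
        rw [← pow_mul] at this
        exact this
      exact orderOf_eq_prime_pow h1 h2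
  obtain ⟨m, hm⟩ := hord
  obtain ⟨g0, hg0⟩ := twoStemIn_of_dihedralType (Subgroup.closure {r, u}) ⟨r, hrm⟩ ⟨u, hum⟩
    (closure_pair_subtype r u hrm hum) (Subtype.ext hconj) m hm Γ σ hs hc
  obtain ⟨a, ha⟩ : ∃ a, a = (Subgroup.closure ({r, u} : Set (alternatingGroup (Fin n)))).index :=
    ⟨_, rfl⟩
  rw [← ha] at hidx
  have h1 : ∀ z ∈ σ.ker, z ^ a = 1 ∨ z ^ a = g0 := by
    intro z hz
    apply hg0
    refine ⟨pow_mem hz _, ?_⟩
    have := pow_index_mem_commutator_of_center ((Subgroup.closure {r, u}).comap σ) (hc hz) (hd hz)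
    rwa [Subgroup.index_comap_of_surjective _ hs, ← ha] at this
  have hodd : ∀ z ∈ σ.ker, ∀ p : ℕ, p.Prime → p ∣ orderOf z → p = 2 := by
    intro z hz p hp hpz
    by_contra hp2
    have : Fact p.Prime := ⟨hp⟩
    obtain ⟨H, hH, hpH⟩ := exists_noStemIn_zpowers (G := alternatingGroup (Fin n)) p
      (not_sq_dvd_card_alt h4 h5 hp hp2)
    have h2 := pow_index_mem_commutator_of_center (H.comap σ) (hc hz) (hd hz)
    have h3 : z ^ (H.comap σ).index ∈ σ.ker ⊓ ⁅H.comap σ, H.comap σ⁆ := ⟨pow_mem hz _, h2⟩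
    rw [hH Γ σ hs hc, Subgroup.mem_bot, Subgroup.index_comap_of_surjective _ hs] at h3
    exact hpH (hpz.trans (orderOf_dvd_of_pow_eq_one h3))
  have hcard : 0 < Nat.card Γ := Nat.card_pos
  have h2 : ∀ z ∈ σ.ker, z ^ 2 ^ Nat.card Γ = 1 := by
    intro z hz
    have hpos : orderOf z ≠ 0 := (orderOf_pos z).ne'
    have hk := Nat.eq_prime_pow_of_unique_prime_dvd hpos (fun {d} hd hdz => hodd z hz d hd hdz)
    obtain ⟨k, hk'⟩ : ∃ k, orderOf z = 2 ^ k := ⟨_, hk⟩
    have hle : orderOf z ≤ Nat.card Γ := orderOf_le_card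
    have hk2 : k < 2 ^ k := Nat.lt_two_pow_self
    have hkle : k ≤ Nat.card Γ := by omega
    apply orderOf_dvd_iff_pow_eq_one.1
    rw [hk']
    exact pow_dvd_pow 2 hkle
  have hcop : Nat.Coprime a (2 ^ Nat.card Γ) :=
    Nat.Coprime.pow_right _ ((Nat.Prime.coprime_iff_not_dvd Nat.prime_two).2 hidx).symm
  obtain ⟨π, hπ⟩ := exists_surjective_zmod_two_of_pow σ.ker g0 a (2 ^ Nat.card Γ) hcop
    (Nat.one_lt_two_pow hcard.ne') h1 h2
  have := Nat.card_le_card_of_surjective π hπ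
  rw [Nat.card_eq_fintype_card (α := Multiplicative (ZMod 2))] at this
  exact this.trans (by rw [Fintype.card_multiplicative, ZMod.card])

/-- The bound for central extensions of `A_n`, `n ≠ 6, 7`, in any universe. -/
theorem card_ker_le_two {n : ℕ} (hn : 4 ≤ n) (h6 : n ≠ 6) (h7 : n ≠ 7) {Γ : Type*} [Group Γ]
    [Finite Γ] (σ : Γ →* alternatingGroup (Fin n)) (hs : Function.Surjective σ)
    (hc : σ.ker ≤ Subgroup.center Γ) (hd : σ.ker ≤ commutator Γ) : Nat.card σ.ker ≤ 2 := by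
  by_cases h8 : 8 ≤ n
  · exact card_ker_le_two_of_eight_le h8 σ hs hc hd
  · have h5 : n ≤ 5 := by omega
    obtain ⟨Γ', _, _, ⟨e⟩⟩ := exists_group_copy.{_, 0} Γ
    obtain ⟨⟨hs', hc', hd'⟩, ⟨ek⟩⟩ :=
      isStemExtension_transport e (MulEquiv.refl _) σ ⟨hs, hc, hd⟩
    rw [← Nat.card_congr ek.toEquiv]
    exact card_ker_le_two_small hn h5 Γ' _ hs' hc' hd'

end AltMult
end Cfsg.Agent.H41
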