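import Mathlib
import Cfsg.Prelude.Def_KGroupFacts
import Cfsg.Agent.H41.Cover2
import Cfsg.Agent.H41.SchurCover2

/-!
The pullback of two stem extensions with cyclic kernels of coprime orders is a stem extension
with cyclic kernel of the product order.
-/

set_option autoImplicit false

namespace Cfsg.Agent.H41

open Cfsg

theorem exists_stem_of_coprime {Q G X : Type} [Group Q] [Group G] [Group X] [Finite G]
    [Finite X] (π : G →* Q) (ξ : X →* Q) (hπ : IsStemExtension π) (hξ : IsStemExtension ξ)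
    (a b : ℕ) (hab : Nat.Coprime a b) (ha : Nat.card π.ker = a) (hb : Nat.card ξ.ker = b)
    (hca : IsCyclic π.ker) (hcb : IsCyclic ξ.ker) :
    ∃ (Γ : Type) (_ : Group Γ) (_ : Finite Γ) (σ : Γ →* Q), IsStemExtension σ ∧
      Nonempty (σ.ker ≃* Multiplicative (ZMod (a * b))) := by
  obtain ⟨hπs, hπc, hπd⟩ := hπ
  obtain ⟨hξs, hξc, hξd⟩ := hξ
  obtain ⟨σ, hσ⟩ : ∃ σ : pullback π ξ →* Q, σ = π.comp (pullbackFst π ξ) := ⟨_, rfl⟩
  have hσv : ∀ w : pullback π ξ, σ w = π w.1.1 := fun w => by rw [hσ]; rfl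
  have hσv' : ∀ w : pullback π ξ, σ w = ξ w.1.2 := fun w => by rw [hσv]; exact w.2
  have hs : Function.Surjective σ := by
    rw [hσ]
    exact hπs.comp (pullbackFst_surjective π ξ hξs)
  have hk1 : ∀ w : pullback π ξ, w ∈ σ.ker → w.1.1 ∈ π.ker := fun w hw => by
    rw [MonoidHom.mem_ker, ← hσv]; exact hw
  have hk2 : ∀ w : pullback π ξ, w ∈ σ.ker → w.1.2 ∈ ξ.ker := fun w hw => by
    rw [MonoidHom.mem_ker, ← hσv']; exact hw
  -- the kernel is the product of the kernels
  obtain ⟨f, hf⟩ : ∃ f : σ.ker →* π.ker × ξ.ker, ∀ w : σ.ker,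
      f w = (⟨w.1.1.1, hk1 w.1 w.2⟩, ⟨w.1.1.2, hk2 w.1 w.2⟩) :=
    ⟨{ toFun := fun w => (⟨w.1.1.1, hk1 w.1 w.2⟩, ⟨w.1.1.2, hk2 w.1 w.2⟩)
       map_one' := rfl
       map_mul' := fun _ _ => rfl }, fun _ => rfl⟩
  have hfbij : Function.Bijective f := by
    constructor
    · intro w w' h
      rw [hf, hf] at h
      have h1 : w.1.1.1 = w'.1.1.1 := congrArg (fun p : π.ker × ξ.ker => (p.1 : G)) h
      have h2 : w.1.1.2 = w'.1.1.2 := congrArg (fun p : π.ker × ξ.ker => (p.2 : X)) h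
      exact Subtype.ext (Subtype.ext (Prod.ext h1 h2))
    · rintro ⟨⟨g, hg⟩, ⟨x, hx⟩⟩
      have hmem : ((g, x) : G × X) ∈ pullback π ξ := by
        rw [mem_pullback]
        show π g = ξ x
        rw [MonoidHom.mem_ker.1 hg, MonoidHom.mem_ker.1 hx]
      have hker : (⟨(g, x), hmem⟩ : pullback π ξ) ∈ σ.ker := by
        rw [MonoidHom.mem_ker, hσv]
        exact MonoidHom.mem_ker.1 hg
      exact ⟨⟨⟨(g, x), hmem⟩, hker⟩, by rw [hf]⟩
  obtain ⟨e⟩ : Nonempty (σ.ker ≃* π.ker × ξ.ker) := ⟨MulEquiv.ofBijective f hfbij⟩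
  have hcard : Nat.card σ.ker = a * b := by
    rw [Nat.card_congr e.toEquiv, Nat.card_prod, ha, hb]
  have hcycP : IsCyclic (π.ker × ξ.ker) :=
    Group.isCyclic_prod_iff.2 ⟨hca, hcb, by rw [ha, hb]; exact hab⟩
  have hcyc : IsCyclic σ.ker := isCyclic_of_surjective e.symm.toMonoidHom e.symm.surjective
  -- powers
  have hpa : ∀ g ∈ π.ker, g ^ a = 1 := by
    intro g hg
    have h1 : (⟨g, hg⟩ : π.ker) ^ Nat.card π.ker = 1 := pow_card_eq_one'
    rw [ha] at h1
    exact congrArg Subtype.val h1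
  have hpb : ∀ x ∈ ξ.ker, x ^ b = 1 := by
    intro x hx
    have h1 : (⟨x, hx⟩ : ξ.ker) ^ Nat.card ξ.ker = 1 := pow_card_eq_one'
    rw [hb] at h1
    exact congrArg Subtype.val h1
  have ha0 : 0 < a := by rw [← ha]; exact Nat.card_pos
  have hb0 : 0 < b := by rw [← hb]; exact Nat.card_pos
  -- `(g, 1)` and `(1, x)` lie in the derived subgroup
  have hfst : ∀ g ∈ π.ker, ∀ h : ((g, 1) : G × X) ∈ pullback π ξ,
      (⟨(g, 1), h⟩ : pullback π ξ) ∈ commutator (pullback π ξ) := by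
    intro g hg h
    by_cases ha1 : a = 1
    · have hg1 : g = 1 := by
        have := hpa g hg
        rwa [ha1, pow_one] at this
      subst hg1
      exact Subgroup.one_mem _
    have hmap := map_commutator_of_surjective (pullbackFst π ξ)
      (pullbackFst_surjective π ξ hξs)
    have hg' : g ∈ Subgroup.map (pullbackFst π ξ) (commutator (pullback π ξ)) := by
      rw [hmap]; exact hπd hg
    obtain ⟨v, hv, hvg⟩ := hg'
    have hvg' : v.1.1 = g := hvg
    have hvx : v.1.2 ∈ ξ.ker := by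
      rw [MonoidHom.mem_ker]
      have := v.2
      rw [mem_pullback, hvg', MonoidHom.mem_ker.1 hg] at this
      exact this.symm
    obtain ⟨k, -, hk⟩ := Nat.exists_mul_mod_eq_one_of_coprime hab.symm (by omega : 1 < a)
    have hpow : v ^ (b * k) = ⟨(g, 1), h⟩ := by
      apply Subtype.ext
      rw [Subgroup.coe_pow]
      apply Prod.ext
      · show (v.1 ^ (b * k)).1 = g
        rw [Prod.pow_fst, hvg', pow_eq_pow_mod (b * k) (hpa g hg), hk, pow_one]
      · show (v.1 ^ (b * k)).2 = 1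
        rw [Prod.pow_snd, pow_mul, hpb _ hvx, one_pow]
    rw [← hpow]
    exact Subgroup.pow_mem _ hv _
  have hsnd : ∀ x ∈ ξ.ker, ∀ h : ((1, x) : G × X) ∈ pullback π ξ,
      (⟨(1, x), h⟩ : pullback π ξ) ∈ commutator (pullback π ξ) := by
    intro x hx h
    by_cases hb1 : b = 1
    · have hx1 : x = 1 := by
        have := hpb x hx
        rwa [hb1, pow_one] at this
      subst hx1
      exact Subgroup.one_mem _
    have hmap := map_commutator_of_surjective (pullbackSnd π ξ)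
      (pullbackSnd_surjective π ξ hπs)
    have hx' : x ∈ Subgroup.map (pullbackSnd π ξ) (commutator (pullback π ξ)) := by
      rw [hmap]; exact hξd hx
    obtain ⟨v, hv, hvx⟩ := hx'
    have hvx' : v.1.2 = x := hvx
    have hvg : v.1.1 ∈ π.ker := by
      rw [MonoidHom.mem_ker]
      have := v.2
      rw [mem_pullback, hvx', MonoidHom.mem_ker.1 hx] at this
      exact this
    obtain ⟨k, -, hk⟩ := Nat.exists_mul_mod_eq_one_of_coprime hab (by omega : 1 < b)
    have hpow : v ^ (a * k) = ⟨(1, x), h⟩ := by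
      apply Subtype.ext
      rw [Subgroup.coe_pow]
      apply Prod.ext
      · show (v.1 ^ (a * k)).1 = 1
        rw [Prod.pow_fst, pow_mul, hpa _ hvg, one_pow]
      · show (v.1 ^ (a * k)).2 = x
        rw [Prod.pow_snd, hvx', pow_eq_pow_mod (a * k) (hpb x hx), hk, pow_one]
    rw [← hpow]
    exact Subgroup.pow_mem _ hv _
  refine ⟨pullback π ξ, inferInstance, inferInstance, σ, ⟨hs, ?_, ?_⟩, ?_⟩
  · intro w hw
    rw [Subgroup.mem_center_iff]
    intro v
    apply Subtype.ext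
    apply Prod.ext
    · exact Subgroup.mem_center_iff.1 (hπc (hk1 w hw)) v.1.1
    · exact Subgroup.mem_center_iff.1 (hξc (hk2 w hw)) v.1.2
  · intro w hw
    have h1 : ((w.1.1, 1) : G × X) ∈ pullback π ξ := by
      rw [mem_pullback]
      show π w.1.1 = ξ 1
      rw [MonoidHom.mem_ker.1 (hk1 w hw), map_one]
    have h2 : ((1, w.1.2) : G × X) ∈ pullback π ξ := by
      rw [mem_pullback]
      show π 1 = ξ w.1.2
      rw [MonoidHom.mem_ker.1 (hk2 w hw), map_one]
    have hw' : w = ⟨(w.1.1, 1), h1⟩ * ⟨(1, w.1.2), h2⟩ := by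
      apply Subtype.ext
      apply Prod.ext
      · show w.1.1 = w.1.1 * 1
        rw [mul_one]
      · show w.1.2 = 1 * w.1.2
        rw [one_mul]
    rw [hw']
    exact Subgroup.mul_mem _ (hfst _ (hk1 w hw) h1) (hsnd _ (hk2 w hw) h2)
  · have e2 := zmodCyclicMulEquiv hcyc
    rw [hcard] at e2
    exact ⟨e2.symm⟩

end Cfsg.Agent.H41
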