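import Mathlib
import Cfsg.Agent.H41.AltMult
import Cfsg.Prelude.Def_KGroupFacts

/-!
Triple covers of alternating groups from elements satisfying Carmichael's relations up to a
central element of order `3`.
-/

set_option autoImplicit false

namespace Cfsg.Agent.H41
namespace AltMult

open Cfsg Cfsg.Agent.H60
open scoped commutatorElement

/-- Elements `t 0, …, t m` of a finite group satisfying Carmichael's relations up to a central
element `ζ` of order `3`, with `ζ = ⁅t 2 * t 3, t 0⁆`, give a stem extension of `A_{m+3}` with kernel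
of order `3`. -/
theorem exists_triple_cover {T : Type} [Group T] [Finite T] {n m : ℕ} (hnm : n = m + 3)
    (hm : 3 ≤ m) (t : ℕ → T) (ζ : T) (hζ1 : ζ ≠ 1) (hζ3 : ζ ^ 3 = 1)
    (hcomm : ∀ k, k ≤ m → Commute ζ (t k))
    (h3 : t 0 ^ 3 = 1) (h2 : ∀ k, 1 ≤ k → k ≤ m → t k ^ 2 = 1)
    (hb : ∀ i, i + 1 ≤ m → (t i * t (i + 1)) ^ 3 = 1)
    (hc : ∀ i j, i + 2 ≤ j → j ≤ m → (t i * t j) ^ 2 = 1 ∨ (t i * t j) ^ 2 = ζ)
    (hζ : ⁅t 2 * t 3, t 0⁆ = ζ) :
    ∃ (Γ : Type) (_ : Group Γ) (_ : Finite Γ) (σ : Γ →* alternatingGroup (Fin n)),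
      IsStemExtension σ ∧ Nonempty (σ.ker ≃* Multiplicative (ZMod 3)) := by
  subst hnm
  obtain ⟨φ⟩ := carGroup_equiv_alternating (m + 3) (by omega)
  obtain ⟨x, hx⟩ : ∃ x : ℕ → alternatingGroup (Fin (m + 3)),
      x = fun k => φ (carX (m + 3) k) := ⟨_, rfl⟩
  have hxP : CarPow x m := by
    rw [hx]; exact carPow_map φ.toMonoidHom (carX_carPow (le_refl _))
  have hR := hxP.carRel
  obtain ⟨g, hg⟩ : ∃ g : ℕ → T × alternatingGroup (Fin (m + 3)), g = fun k => (t k, x k) :=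
    ⟨_, rfl⟩
  have hgv : ∀ k, g k = (t k, x k) := fun k => by rw [hg]
  obtain ⟨Γ, hΓ⟩ : ∃ Γ : Subgroup (T × alternatingGroup (Fin (m + 3))),
      Γ = Subgroup.closure (g '' {k | k ≤ m}) := ⟨_, rfl⟩
  have hgm : ∀ k, k ≤ m → g k ∈ Γ := fun k hk => by
    rw [hΓ]; exact Subgroup.subset_closure ⟨k, hk, rfl⟩
  obtain ⟨σ, hσ⟩ : ∃ σ : Γ →* alternatingGroup (Fin (m + 3)),
      σ = (MonoidHom.snd T _).comp Γ.subtype := ⟨_, rfl⟩
  have hσv : ∀ w : Γ, σ w = w.1.2 := fun w => by rw [hσ]; rfl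
  -- the central element
  have e3 : x 3 * x 0 = (x 0)⁻¹ * x 3 := by
    have h := hR.inv0 3 (by omega) (by omega)
    have hs := hR.sq 3 (by omega) (by omega)
    calc x 3 * x 0 = x 3 * x 0 * (x 3 * x 3) := by rw [hs, mul_one]
      _ = (x 3 * x 0 * x 3) * x 3 := by simp only [mul_assoc]
      _ = (x 0)⁻¹ * x 3 := by rw [h]
  have e2 : x 2 * (x 0)⁻¹ = x 0 * x 2 := by
    have h := hR.inv0 2 (by omega) (by omega)
    have hs := hR.sq 2 (by omega) (by omega)
    rw [← h]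
    calc x 2 * (x 2 * x 0 * x 2) = (x 2 * x 2) * x 0 * x 2 := by simp only [mul_assoc]
      _ = x 0 * x 2 := by rw [hs, one_mul]
  have hcx : ⁅x 2 * x 3, x 0⁆ = 1 := by
    rw [commutatorElement_eq_one_iff_mul_comm, mul_assoc, e3, ← mul_assoc, e2, mul_assoc]
  obtain ⟨zh, hzh⟩ : ∃ zh : Γ, zh = ⁅(⟨g 2, hgm 2 (by omega)⟩ : Γ) * ⟨g 3, hgm 3 (by omega)⟩,
      ⟨g 0, hgm 0 (by omega)⟩⁆ := ⟨_, rfl⟩
  have hzhv : (zh : T × alternatingGroup (Fin (m + 3))) = (ζ, 1) := by
    rw [hzh]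
    have h1 := map_commutatorElement Γ.subtype
      ((⟨g 2, hgm 2 (by omega)⟩ : Γ) * ⟨g 3, hgm 3 (by omega)⟩) ⟨g 0, hgm 0 (by omega)⟩
    rw [Subgroup.coe_subtype] at h1
    rw [h1]
    show ⁅g 2 * g 3, g 0⁆ = (ζ, 1)
    rw [hgv, hgv, hgv, commutatorElement_def]
    apply Prod.ext
    · show t 2 * t 3 * t 0 * (t 2 * t 3)⁻¹ * (t 0)⁻¹ = ζ
      rw [← hζ, commutatorElement_def]
    · show x 2 * x 3 * x 0 * (x 2 * x 3)⁻¹ * (x 0)⁻¹ = 1
      rw [← hcx, commutatorElement_def]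
  have hzh1 : zh ≠ 1 := by
    intro h
    rw [h] at hzhv
    exact hζ1 (congrArg Prod.fst hzhv).symm
  have hzh3 : zh ^ 3 = 1 := by
    apply Subtype.ext
    rw [Subgroup.coe_pow, hzhv]
    show ((ζ, 1) : T × alternatingGroup (Fin (m + 3))) ^ 3 = 1
    rw [Prod.pow_mk, hζ3, one_pow]; rfl
  have hzhc : ∀ w : Γ, Commute zh w := by
    intro w
    have hle : Γ ≤ Subgroup.centralizer {(zh : T × alternatingGroup (Fin (m + 3)))} := by
      refine hΓ.le.trans ?_
      rw [Subgroup.closure_le]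
      rintro _ ⟨k, hk, rfl⟩
      rw [SetLike.mem_coe, Subgroup.mem_centralizer_iff]
      intro h hh
      rw [Set.mem_singleton_iff] at hh
      rw [hh, hzhv, hgv]
      apply Prod.ext
      · show ζ * t k = t k * ζ
        exact (hcomm k hk).eq
      · show 1 * x k = x k * 1
        rw [one_mul, mul_one]
    have h1 := Subgroup.mem_centralizer_iff.1 (hle w.2) _ (Set.mem_singleton _)
    exact Subtype.ext h1
  have hzhker : zh ∈ σ.ker := by
    rw [MonoidHom.mem_ker, hσv, hzhv]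
  obtain ⟨N, hN⟩ : ∃ N : Subgroup Γ, N = Subgroup.zpowers zh := ⟨_, rfl⟩
  have hNle : N ≤ σ.ker := by
    rw [hN, Subgroup.zpowers_le]; exact hzhker
  have hnorm : N.Normal := by
    constructor
    intro a ha w
    rw [hN] at ha ⊢
    obtain ⟨k, rfl⟩ := Subgroup.mem_zpowers_iff.1 ha
    have hcm : Commute w (zh ^ k) := ((hzhc w).symm).zpow_right k
    rw [hcm.eq, mul_inv_cancel_right]
    exact Subgroup.zpow_mem_zpowers zh k
  -- elements with value `(1,1)` or `(ζ,1)` die in the quotient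
  have hval : ∀ w : Γ, ((w : T × alternatingGroup (Fin (m + 3))) = 1 ∨
      (w : T × alternatingGroup (Fin (m + 3))) = (ζ, 1)) → w ∈ N := by
    intro w hw
    rcases hw with h | h
    · have : w = 1 := Subtype.ext h
      rw [this]; exact Subgroup.one_mem _
    · have : w = zh := Subtype.ext (h.trans hzhv.symm)
      rw [this, hN]; exact Subgroup.mem_zpowers zh
  obtain ⟨yh, hyh⟩ : ∃ yh : ℕ → Γ ⧸ N, yh = fun k =>
      if h : k ≤ m then QuotientGroup.mk' N ⟨g k, hgm k h⟩ else 1 := ⟨_, rfl⟩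
  have hyhv : ∀ k (h : k ≤ m), yh k = QuotientGroup.mk' N ⟨g k, hgm k h⟩ := by
    intro k h; rw [hyh]; simp only [dif_pos h]
  have hx3 : x 0 ^ 3 = 1 := hxP.p3
  have hyP : CarPow yh m := by
    refine ⟨?_, ?_, ?_, ?_⟩
    · rw [hyhv 0 (by omega), ← map_pow]
      apply (QuotientGroup.eq_one_iff _).2
      apply hval
      left
      rw [Subgroup.coe_pow]
      show g 0 ^ 3 = 1
      rw [hgv, Prod.pow_mk, h3, hx3]; rfl
    · intro k h1 hk
      rw [hyhv k hk, ← map_pow]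
      apply (QuotientGroup.eq_one_iff _).2
      apply hval
      left
      rw [Subgroup.coe_pow]
      show g k ^ 2 = 1
      rw [hgv, Prod.pow_mk, h2 k h1 hk, hxP.p2 k h1 hk]; rfl
    · intro i hi
      rw [hyhv i (by omega), hyhv (i + 1) hi, ← map_mul, ← map_pow]
      apply (QuotientGroup.eq_one_iff _).2
      apply hval
      left
      rw [Subgroup.coe_pow, Subgroup.coe_mul]
      show (g i * g (i + 1)) ^ 3 = 1
      rw [hgv, hgv, Prod.mk_mul_mk, Prod.pow_mk, hb i hi, hxP.b3 i hi]; rfl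
    · intro i j hij hj
      rw [hyhv i (by omega), hyhv j hj, ← map_mul, ← map_pow]
      apply (QuotientGroup.eq_one_iff _).2
      apply hval
      rw [Subgroup.coe_pow, Subgroup.coe_mul]
      show (g i * g j) ^ 2 = 1 ∨ (g i * g j) ^ 2 = (ζ, 1)
      rw [hgv, hgv, Prod.mk_mul_mk, Prod.pow_mk, hxP.c2 i j hij hj]
      rcases hc i j hij hj with h | h
      · left; rw [h]; rfl
      · right; rw [h]
  obtain ⟨s, hs⟩ : ∃ s : CarGroup (m + 3) →* Γ ⧸ N,
      s = carLift yh (m + 3) m hyP (le_refl _) := ⟨_, rfl⟩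
  obtain ⟨σb, hσb⟩ : ∃ σb : Γ ⧸ N →* alternatingGroup (Fin (m + 3)),
      σb = QuotientGroup.lift N σ hNle := ⟨_, rfl⟩
  have hσbmk : ∀ w : Γ, σb (QuotientGroup.mk' N w) = σ w := by
    intro w; rw [hσb]; rfl
  have hcomp : σb.comp s = φ.toMonoidHom := by
    apply MonoidHom.eq_of_eqOn_dense (carX_closure (le_refl (m + 3)))
    rintro _ ⟨k, hk, rfl⟩
    simp only [Set.mem_ofPred_eq] at hk
    show σb (s (carX (m + 3) k)) = φ (carX (m + 3) k)
    rw [hs, carLift_carX yh (m + 3) m hyP (le_refl _) (by omega), hyhv k hk, hσbmk, hσv]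
    show (g k).2 = _
    rw [hgv, hx]
  have hcomp' : ∀ v, σb (s v) = φ v := fun v => DFunLike.congr_fun hcomp v
  -- every element of the quotient is in the range of `s`
  have hrange : ∀ w : Γ, QuotientGroup.mk' N w ∈ s.range := by
    have hle : Γ ≤ Subgroup.map Γ.subtype ((s.range).comap (QuotientGroup.mk' N)) := by
      refine hΓ.le.trans ?_
      rw [Subgroup.closure_le]
      rintro _ ⟨k, hk, rfl⟩
      have hk' : k ≤ m := hk
      refine ⟨⟨g k, hgm k hk⟩, ?_, rfl⟩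
      show QuotientGroup.mk' N ⟨g k, hgm k hk⟩ ∈ s.range
      rw [← hyhv k hk]
      exact ⟨carX (m + 3) k, by rw [hs, carLift_carX yh (m + 3) m hyP (le_refl _) (by omega)]⟩
    intro w
    obtain ⟨w', hw', hww⟩ := hle w.2
    have : w' = w := Subtype.ext hww
    rw [← this]
    exact hw'
  have hker : σ.ker = N := by
    apply le_antisymm _ hNle
    intro w hw
    obtain ⟨v, hv⟩ := hrange w
    have h1 : φ v = 1 := by
      rw [← hcomp' v, hv, hσbmk]; exact hw
    have hv1 : v = 1 := (map_eq_one_iff φ φ.injective).1 h1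
    rw [hv1, map_one] at hv
    exact (QuotientGroup.eq_one_iff w).1 hv.symm
  have hsurj : Function.Surjective σ := by
    intro a
    have htop : Subgroup.closure (x '' {k | k ≤ m}) = ⊤ := by
      have h1 := carX_closure (n := m + 3) (m := m) (le_refl _)
      have h2 : Subgroup.map φ.toMonoidHom (Subgroup.closure (carX (m + 3) '' {k | k ≤ m})) = ⊤ := by
        rw [h1, ← MonoidHom.range_eq_map]
        exact MonoidHom.range_eq_top.2 φ.surjective
      rw [MonoidHom.map_closure, ← Set.image_comp] at h2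
      rw [hx]
      exact h2
    have ha : a ∈ Subgroup.closure (x '' {k | k ≤ m}) := by rw [htop]; exact Subgroup.mem_top a
    have hle : Subgroup.closure (x '' {k | k ≤ m}) ≤ σ.range := by
      rw [Subgroup.closure_le]
      rintro _ ⟨k, hk, rfl⟩
      refine ⟨⟨g k, hgm k hk⟩, ?_⟩
      rw [hσv]
      show (g k).2 = x k
      rw [hgv]
    exact hle ha
  have hzhcomm : zh ∈ commutator Γ := by
    rw [hzh]
    exact Subgroup.commutator_mem_commutator (Subgroup.mem_top _) (Subgroup.mem_top _)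
  refine ⟨Γ, inferInstance, inferInstance, σ, ⟨hsurj, ?_, ?_⟩, ?_⟩
  · rw [hker, hN, Subgroup.zpowers_le, Subgroup.mem_center_iff]
    intro w
    exact ((hzhc w).eq).symm
  · rw [hker, hN, Subgroup.zpowers_le]
    exact hzhcomm
  · have hcard : Nat.card σ.ker = 3 := by
      rw [hker, hN, Nat.card_zpowers]
      exact orderOf_eq_prime hzh3 hzh1
    have hcyc : IsCyclic σ.ker := isCyclic_of_prime_card hcard
    have e := zmodCyclicMulEquiv hcyc
    rw [hcard] at e
    exact ⟨e.symm⟩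

end AltMult
end Cfsg.Agent.H41
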