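import Mathlib
import Cfsg.Agent.H41.TripleCover

/-!
Explicit permutations on `63` points generating the triple cover of `A_7` (cosets of a lift of
`S_5`), and the resulting triple covers of `A_6` and `A_7`.
-/

set_option autoImplicit false

namespace Cfsg.Agent.H41
namespace AltMult
namespace TC

open Cfsg
open scoped commutatorElement

def p0f : Fin 63 → Fin 63 :=
  ![0, 1, 2, 7, 3, 10, 11, 4, 5, 6, 8, 9, 26, 20, 22, 13, 17, 27, 14, 19, 15, 38, 18, 12, 24, 35, 23, 16, 28, 32, 40, 25, 37, 41, 21, 31, 45, 29, 34, 30, 39, 42, 33, 51, 36, 44, 52, 49, 46, 53, 43, 50, 48, 47, 62, 54, 57, 61, 60, 58, 59, 56, 55]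

def p0g : Fin 63 → Fin 63 :=
  ![0, 1, 2, 4, 7, 8, 9, 3, 10, 11, 5, 6, 23, 15, 18, 20, 27, 16, 22, 19, 13, 34, 14, 26, 24, 31, 12, 17, 28, 37, 39, 35, 29, 42, 38, 25, 44, 32, 21, 40, 30, 33, 41, 50, 45, 36, 48, 53, 52, 47, 51, 43, 46, 49, 55, 62, 61, 56, 59, 60, 58, 57, 54]

def p0 : Equiv.Perm (Fin 63) := ⟨p0f, p0g, by decide +kernel, by decide +kernel⟩

def p1f : Fin 63 → Fin 63 :=
  ![0, 1, 2, 3, 4, 14, 6, 7, 12, 9, 16, 11, 8, 25, 5, 21, 10, 18, 17, 33, 29, 15, 23, 22, 30, 13, 27, 26, 36, 20, 24, 32, 31, 19, 35, 34, 28, 38, 37, 40, 39, 42, 41, 43, 45, 44, 46, 47, 54, 59, 57, 56, 55, 58, 48, 52, 51, 50, 53, 49, 60, 61, 62]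

def p1g : Fin 63 → Fin 63 :=
  ![0, 1, 2, 3, 4, 14, 6, 7, 12, 9, 16, 11, 8, 25, 5, 21, 10, 18, 17, 33, 29, 15, 23, 22, 30, 13, 27, 26, 36, 20, 24, 32, 31, 19, 35, 34, 28, 38, 37, 40, 39, 42, 41, 43, 45, 44, 46, 47, 54, 59, 57, 56, 55, 58, 48, 52, 51, 50, 53, 49, 60, 61, 62]

def p1 : Equiv.Perm (Fin 63) := ⟨p1f, p1g, by decide +kernel, by decide +kernel⟩

def p2f : Fin 63 → Fin 63 :=
  ![0, 1, 2, 8, 5, 4, 15, 10, 3, 13, 7, 20, 12, 9, 14, 6, 16, 27, 22, 19, 11, 21, 18, 26, 24, 25, 23, 17, 28, 29, 46, 35, 37, 43, 38, 31, 47, 32, 34, 52, 48, 50, 51, 33, 49, 53, 30, 36, 40, 44, 41, 42, 39, 45, 55, 54, 57, 56, 59, 58, 60, 61, 62]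

def p2g : Fin 63 → Fin 63 :=
  ![0, 1, 2, 8, 5, 4, 15, 10, 3, 13, 7, 20, 12, 9, 14, 6, 16, 27, 22, 19, 11, 21, 18, 26, 24, 25, 23, 17, 28, 29, 46, 35, 37, 43, 38, 31, 47, 32, 34, 52, 48, 50, 51, 33, 49, 53, 30, 36, 40, 44, 41, 42, 39, 45, 55, 54, 57, 56, 59, 58, 60, 61, 62]

def p2 : Equiv.Perm (Fin 63) := ⟨p2f, p2g, by decide +kernel, by decide +kernel⟩

def p3f : Fin 63 → Fin 63 :=
  ![4, 3, 7, 1, 0, 5, 6, 2, 8, 9, 10, 11, 12, 24, 14, 19, 16, 18, 17, 15, 28, 33, 23, 22, 13, 30, 27, 26, 20, 36, 25, 41, 42, 21, 45, 44, 29, 40, 39, 38, 37, 31, 32, 43, 35, 34, 46, 47, 51, 50, 49, 48, 53, 52, 56, 58, 54, 59, 55, 57, 60, 61, 62]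

def p3g : Fin 63 → Fin 63 :=
  ![4, 3, 7, 1, 0, 5, 6, 2, 8, 9, 10, 11, 12, 24, 14, 19, 16, 18, 17, 15, 28, 33, 23, 22, 13, 30, 27, 26, 20, 36, 25, 41, 42, 21, 45, 44, 29, 40, 39, 38, 37, 31, 32, 43, 35, 34, 46, 47, 51, 50, 49, 48, 53, 52, 56, 58, 54, 59, 55, 57, 60, 61, 62]

def p3 : Equiv.Perm (Fin 63) := ⟨p3f, p3g, by decide +kernel, by decide +kernel⟩

def p4f : Fin 63 → Fin 63 :=
  ![0, 1, 2, 9, 6, 15, 4, 11, 13, 3, 20, 7, 25, 8, 21, 5, 29, 37, 38, 19, 10, 14, 34, 35, 24, 12, 31, 32, 28, 16, 30, 26, 27, 33, 22, 23, 36, 17, 18, 40, 39, 42, 41, 43, 45, 44, 46, 47, 52, 53, 51, 50, 48, 49, 55, 54, 57, 56, 59, 58, 60, 61, 62]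

def p4g : Fin 63 → Fin 63 :=
  ![0, 1, 2, 9, 6, 15, 4, 11, 13, 3, 20, 7, 25, 8, 21, 5, 29, 37, 38, 19, 10, 14, 34, 35, 24, 12, 31, 32, 28, 16, 30, 26, 27, 33, 22, 23, 36, 17, 18, 40, 39, 42, 41, 43, 45, 44, 46, 47, 52, 53, 51, 50, 48, 49, 55, 54, 57, 56, 59, 58, 60, 61, 62]

def p4 : Equiv.Perm (Fin 63) := ⟨p4f, p4g, by decide +kernel, by decide +kernel⟩

def pzf : Fin 63 → Fin 63 :=
  ![1, 2, 0, 7, 3, 8, 9, 4, 10, 11, 5, 6, 16, 20, 12, 13, 14, 22, 23, 24, 15, 25, 26, 27, 28, 29, 17, 18, 19, 21, 36, 37, 38, 30, 31, 32, 33, 34, 35, 44, 45, 40, 39, 46, 42, 41, 47, 43, 53, 51, 48, 52, 49, 50, 58, 59, 55, 54, 57, 56, 61, 62, 60]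

def pzg : Fin 63 → Fin 63 :=
  ![2, 0, 1, 4, 7, 10, 11, 3, 5, 6, 8, 9, 14, 15, 16, 20, 12, 26, 27, 28, 13, 29, 17, 18, 19, 21, 22, 23, 24, 25, 33, 34, 35, 36, 37, 38, 30, 31, 32, 42, 41, 45, 44, 47, 39, 40, 43, 46, 50, 52, 53, 49, 51, 48, 57, 56, 59, 58, 54, 55, 62, 60, 61]

def pz : Equiv.Perm (Fin 63) := ⟨pzf, pzg, by decide +kernel, by decide +kernel⟩

/-- The generators. -/
def tt : ℕ → Equiv.Perm (Fin 63) := fun k => [p0, p1, p2, p3, p4].getD k 1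

theorem pz_ne : pz ≠ 1 := by decide +kernel

theorem pz_pow : pz ^ 3 = 1 := by decide +kernel

theorem pz_comm : ∀ k, k ≤ 4 → Commute pz (tt k) := by
  intro k hk
  interval_cases k <;> (show pz * _ = _ * pz; decide +kernel)

theorem tt_h3 : tt 0 ^ 3 = 1 := by decide +kernel

theorem tt_h2 : ∀ k, 1 ≤ k → k ≤ 4 → tt k ^ 2 = 1 := by
  intro k h1 hk
  interval_cases k <;> decide +kernel

theorem tt_hb : ∀ i, i + 1 ≤ 4 → (tt i * tt (i + 1)) ^ 3 = 1 := by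
  intro i hi
  have : i ≤ 3 := by omega
  interval_cases i <;> decide +kernel

theorem tt_hc : ∀ i j, i + 2 ≤ j → j ≤ 4 → (tt i * tt j) ^ 2 = 1 ∨ (tt i * tt j) ^ 2 = pz := by
  intro i j hij hj
  have hi : i ≤ 2 := by omega
  interval_cases i <;> interval_cases j <;> first | omega | decide +kernel

theorem tt_comm : ⁅tt 2 * tt 3, tt 0⁆ = pz := by decide +kernel

/-- Triple covers of `A_6` and `A_7`. -/
theorem exists_triple_cover_alt (n : ℕ) (hn : n = 6 ∨ n = 7) :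
    ∃ (Γ : Type) (_ : Group Γ) (_ : Finite Γ) (σ : Γ →* alternatingGroup (Fin n)),
      IsStemExtension σ ∧ Nonempty (σ.ker ≃* Multiplicative (ZMod 3)) := by
  rcases hn with rfl | rfl
  · exact exists_triple_cover (m := 3) rfl (le_refl _) tt pz pz_ne pz_pow
      (fun k hk => pz_comm k (by omega)) tt_h3 (fun k h1 hk => tt_h2 k h1 (by omega))
      (fun i hi => tt_hb i (by omega)) (fun i j hij hj => tt_hc i j hij (by omega)) tt_comm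
  · exact exists_triple_cover (m := 4) rfl (by omega) tt pz pz_ne pz_pow
      pz_comm tt_h3 tt_h2 tt_hb tt_hc tt_comm

end TC
end AltMult
end Cfsg.Agent.H41
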