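import Mathlib
import Cfsg.Agent.H41.TripleData
import Cfsg.Agent.H41.AltMult2
import Cfsg.Agent.H41.StemProd
import Cfsg.Agent.H41.StemAb

/-!
The Schur multiplier of `A_6` and `A_7` is cyclic of order `6`.
-/

set_option autoImplicit false

namespace Cfsg.Agent.H41
namespace AltMult

open Cfsg

/-- The `2`-part: a dihedral-type subgroup of odd index. -/
theorem two_part {n : ℕ} (h4 : 4 ≤ n) (h7 : n ≤ 7) (Γ : Type) [Group Γ] [Finite Γ]
    (σ : Γ →* alternatingGroup (Fin n)) (hs : Function.Surjective σ)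
    (hc : σ.ker ≤ Subgroup.center Γ) (hd : σ.ker ≤ commutator Γ) :
    ∃ (g0 : Γ) (a : ℕ), ¬ 2 ∣ a ∧ a ∣ Nat.card (alternatingGroup (Fin n)) ∧
      ∀ z ∈ σ.ker, z ^ a = 1 ∨ z ^ a = g0 := by
  obtain ⟨r, u, hconj, hu, hur, hr, hidx, hP⟩ := DC.exists_goodPair h4 h7
  have hrm : r ∈ Subgroup.closure ({r, u} : Set (alternatingGroup (Fin n))) :=
    Subgroup.subset_closure (by simp)
  have hum : u ∈ Subgroup.closure ({r, u} : Set (alternatingGroup (Fin n))) :=
    Subgroup.subset_closure (by simp)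
  have hord : ∃ m, orderOf
      (⟨r, hrm⟩ : Subgroup.closure ({r, u} : Set (alternatingGroup (Fin n)))) = 2 * m := by
    rw [Subgroup.orderOf_mk]
    rcases hr with h | h
    · exact ⟨1, (orderOf_eq_prime (p := 2) h.sq h.ne_one).trans rfl⟩
    · refine ⟨2, ?_⟩
      have h1 : ¬ r ^ 2 ^ 1 = 1 := by rw [pow_one]; exact h.ne_one
      have h2 : r ^ 2 ^ (1 + 1) = 1 := by
        have := h.sq
        rw [← pow_mul] at this
        exact this
      exact orderOf_eq_prime_pow h1 h2
  obtain ⟨m, hm⟩ := hord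
  obtain ⟨g0, hg0⟩ := twoStemIn_of_dihedralType (Subgroup.closure {r, u}) ⟨r, hrm⟩ ⟨u, hum⟩
    (closure_pair_subtype r u hrm hum) (Subtype.ext hconj) m hm Γ σ hs hc
  refine ⟨g0, (Subgroup.closure ({r, u} : Set (alternatingGroup (Fin n)))).index, hidx,
    Subgroup.index_dvd_card _, ?_⟩
  intro z hz
  apply hg0
  refine ⟨pow_mem hz _, ?_⟩
  have := pow_index_mem_commutator_of_center ((Subgroup.closure {r, u}).comap σ) (hc hz) (hd hz)
  rwa [Subgroup.index_comap_of_surjective _ hs] at this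

/-- The `3`-part: an elementary abelian subgroup of order `9` and index prime to `3`. -/
theorem three_part {G : Type} [Group G] [Finite G] (x y : G) (hx : x ^ 3 = 1) (hx1 : x ≠ 1)
    (hy : y ^ 3 = 1) (hxy : x * y = y * x) (hyx : y ∉ Subgroup.zpowers x)
    (h27 : ¬ 3 ^ (2 + 1) ∣ Nat.card G)
    (Γ : Type) [Group Γ] [Finite Γ] (σ : Γ →* G) (hs : Function.Surjective σ)
    (hc : σ.ker ≤ Subgroup.center Γ) (hd : σ.ker ≤ commutator Γ) :
    ∃ (c : Γ) (b : ℕ), c ^ 3 = 1 ∧ σ c = 1 ∧ ¬ 3 ∣ b ∧ b ∣ Nat.card G ∧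
      ∀ z ∈ σ.ker, z ^ b ∈ Subgroup.zpowers c := by
  obtain ⟨P, hPdef⟩ : ∃ P : Subgroup G, P = Subgroup.closure {x, y} := ⟨_, rfl⟩
  have hxm : x ∈ Subgroup.closure ({x, y} : Set G) := Subgroup.subset_closure (by simp)
  have hym : y ∈ Subgroup.closure ({x, y} : Set G) := Subgroup.subset_closure (by simp)
  have hP : IsPGroup 3 (Subgroup.closure ({x, y} : Set G)) :=
    isPGroup_closure_pair_of_commute 3 x y hxy hx hy
  have hle : Subgroup.zpowers x ≤ Subgroup.closure ({x, y} : Set G) := by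
    rw [Subgroup.zpowers_le]; exact hxm
  have hne : Subgroup.zpowers x ≠ Subgroup.closure ({x, y} : Set G) := by
    intro h
    apply hyx
    rw [h]; exact hym
  have hcardx : Nat.card (Subgroup.zpowers x) = 3 ^ 1 := by
    rw [Nat.card_zpowers, pow_one]
    exact orderOf_eq_prime hx hx1
  have h9 : 3 ^ 2 ∣ Nat.card (Subgroup.closure ({x, y} : Set G)) :=
    pow_succ_dvd_card_of_ne hP hle hne 1 hcardx
  have hidx : ¬ 3 ∣ (Subgroup.closure ({x, y} : Set G)).index :=
    not_dvd_index_of_pow_dvd_card _ 3 2 h9 h27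
  have hc' := subgroupComap_ker_le_center σ hc (Subgroup.closure ({x, y} : Set G))
  obtain ⟨c, hc1, hcle, hcN, -⟩ := commuting_type_central_ext
    (σ.subgroupComap (Subgroup.closure ({x, y} : Set G)))
    (σ.subgroupComap_surjective_of_surjective _ hs) hc' ⟨x, hxm⟩ ⟨y, hym⟩
    (closure_pair_subtype x y hxm hym) (Subtype.ext hxy)
  have hc3 : c ^ 3 = 1 := hcN 3 (Subtype.ext hx)
  refine ⟨(c : Γ), (Subgroup.closure ({x, y} : Set G)).index, ?_, ?_, hidx,
    Subgroup.index_dvd_card _, ?_⟩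
  · have := congrArg Subtype.val hc3
    rwa [Subgroup.coe_pow] at this
  · exact congrArg Subtype.val hc1
  · intro z hz
    have h1 := pow_index_mem_commutator_of_center ((Subgroup.closure {x, y}).comap σ) (hc hz)
      (hd hz)
    rw [Subgroup.index_comap_of_surjective _ hs, ← Subgroup.map_subtype_commutator] at h1
    obtain ⟨z', hz', hzz⟩ := h1
    obtain ⟨k, hk⟩ := Subgroup.mem_zpowers_iff.1 (hcle hz')
    rw [← hzz, ← hk]
    rw [Subgroup.mem_zpowers_iff]
    exact ⟨k, by simp⟩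

/-- Combining the `2`-part and the `3`-part. -/
theorem exists_surjective_zmod_six {Γ : Type*} [Group Γ] (Z : Subgroup Γ)
    (hZc : Z ≤ Subgroup.center Γ) (g0 c : Γ) (a b : ℕ) (ha2 : ¬ 2 ∣ a) (hb3 : ¬ 3 ∣ b)
    (hcZ : c ∈ Z) (hc3 : c ^ 3 = 1) (h2 : ∀ z ∈ Z, z ^ a = 1 ∨ z ^ a = g0)
    (h3 : ∀ z ∈ Z, z ^ b ∈ Subgroup.zpowers c) (h6 : ∀ z ∈ Z, z ^ 6 = 1) :
    ∃ π : Multiplicative (ZMod 6) →* Z, Function.Surjective π := by
  classical
  obtain ⟨g2, hg2⟩ : ∃ g2 : Γ, g2 = if g0 ^ 2 = 1 then g0 else 1 := ⟨_, rfl⟩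
  have hg22 : g2 ^ 2 = 1 := by
    rw [hg2]
    split_ifs with h
    · exact h
    · exact one_pow 2
  have hcc : Commute g2 c := Subgroup.mem_center_iff.1 (hZc hcZ) g2
  obtain ⟨C, hC⟩ : ∃ C : Γ, C = g2 * c := ⟨_, rfl⟩
  have hC6 : C ^ 6 = 1 := by
    rw [hC, hcc.mul_pow, show 6 = 2 * 3 from rfl, pow_mul, hg22, one_pow, one_mul,
      show 2 * 3 = 3 * 2 from rfl, pow_mul, hc3, one_pow]
  have hC3 : C ^ 3 = g2 := by
    rw [hC, hcc.mul_pow, hc3, mul_one, pow_succ, hg22, one_mul]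
  have hC4 : C ^ 4 = c := by
    rw [hC, hcc.mul_pow, show 4 = 2 * 2 from rfl, pow_mul, hg22, one_pow, one_mul,
      show 2 * 2 = 3 + 1 from rfl, pow_succ, hc3, one_mul]
  have hle : Z ≤ Subgroup.zpowers C := by
    intro z hz
    have hz6 := h6 z hz
    have hz3 : z ^ 3 ∈ Subgroup.zpowers C := by
      have h := h2 (z ^ 3) (pow_mem hz 3)
      obtain ⟨k, hk⟩ : ∃ k, a = 2 * k + 1 := ⟨a / 2, by omega⟩
      have e : (z ^ 3) ^ a = z ^ 3 := by
        rw [← pow_mul, hk, show 3 * (2 * k + 1) = 6 * k + 3 by ring, pow_add, pow_mul, hz6,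
          one_pow, one_mul]
      rw [e] at h
      rcases h with h | h
      · rw [h]; exact Subgroup.one_mem _
      · have hg0 : g0 ^ 2 = 1 := by
          rw [← h, ← pow_mul]; exact hz6
        have : g2 = g0 := by rw [hg2, if_pos hg0]
        rw [h, ← this, ← hC3]
        exact Subgroup.pow_mem _ (Subgroup.mem_zpowers C) 3
    have hcC : Subgroup.zpowers c ≤ Subgroup.zpowers C := by
      rw [Subgroup.zpowers_le, ← hC4]
      exact Subgroup.pow_mem _ (Subgroup.mem_zpowers C) 4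
    have hz4 : z ^ 4 ∈ Subgroup.zpowers C := by
      apply hcC
      have h := h3 (z ^ 4) (pow_mem hz 4)
      have hb : b % 3 = 1 ∨ b % 3 = 2 := by omega
      rcases hb with hb | hb
      · obtain ⟨q, hq⟩ : ∃ q, b = 3 * q + 1 := ⟨b / 3, by omega⟩
        have e : (z ^ 4) ^ b = z ^ 4 := by
          rw [← pow_mul, hq, show 4 * (3 * q + 1) = 6 * (2 * q) + 4 by ring, pow_add, pow_mul,
            hz6, one_pow, one_mul]
        rwa [e] at h
      · obtain ⟨q, hq⟩ : ∃ q, b = 3 * q + 2 := ⟨b / 3, by omega⟩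
        have e : (z ^ 4) ^ b = z ^ 2 := by
          rw [← pow_mul, hq, show 4 * (3 * q + 2) = 6 * (2 * q + 1) + 2 by ring, pow_add,
            pow_mul, hz6, one_pow, one_mul]
        rw [e] at h
        have e2 : z ^ 4 = (z ^ 2) ^ 2 := by rw [← pow_mul]
        rw [e2]
        exact Subgroup.pow_mem _ h 2
    have e : z = z ^ 4 * z ^ 3 := by
      rw [← pow_add, show 4 + 3 = 6 + 1 from rfl, pow_succ, hz6, one_mul]
    rw [e]
    exact Subgroup.mul_mem _ hz4 hz3
  exact exists_surjective_zmod_of_le_zpowers hC6 Z hle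

open Equiv in
theorem exists_sylow3_pair (n : ℕ) (hn : n = 6 ∨ n = 7) :
    ∃ x y : alternatingGroup (Fin n), x ^ 3 = 1 ∧ x ≠ 1 ∧ y ^ 3 = 1 ∧ x * y = y * x ∧
      y ∉ Subgroup.zpowers x := by
  rcases hn with rfl | rfl
  · refine ⟨⟨swap 0 1 * swap 1 2, Spin.swap_mul_swap_mem _ _ _ _ (by decide) (by decide)⟩,
      ⟨swap 3 4 * swap 4 5, Spin.swap_mul_swap_mem _ _ _ _ (by decide) (by decide)⟩,
      by decide, by decide, by decide, by decide, ?_⟩
    intro h
    have hle : Subgroup.zpowers (⟨swap 0 1 * swap 1 2,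
        Spin.swap_mul_swap_mem _ _ _ _ (by decide) (by decide)⟩ : alternatingGroup (Fin 6)) ≤
        (MulAction.stabilizer (Perm (Fin 6)) (3 : Fin 6)).comap
          (alternatingGroup (Fin 6)).subtype := by
      rw [Subgroup.zpowers_le]
      show (swap 0 1 * swap 1 2 : Perm (Fin 6)) • (3 : Fin 6) = 3
      decide
    have h2 : (swap 3 4 * swap 4 5 : Perm (Fin 6)) • (3 : Fin 6) = 3 := hle h
    revert h2
    decide
  · refine ⟨⟨swap 0 1 * swap 1 2, Spin.swap_mul_swap_mem _ _ _ _ (by decide) (by decide)⟩,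
      ⟨swap 3 4 * swap 4 5, Spin.swap_mul_swap_mem _ _ _ _ (by decide) (by decide)⟩,
      by decide, by decide, by decide, by decide, ?_⟩
    intro h
    have hle : Subgroup.zpowers (⟨swap 0 1 * swap 1 2,
        Spin.swap_mul_swap_mem _ _ _ _ (by decide) (by decide)⟩ : alternatingGroup (Fin 7)) ≤
        (MulAction.stabilizer (Perm (Fin 7)) (3 : Fin 7)).comap
          (alternatingGroup (Fin 7)).subtype := by
      rw [Subgroup.zpowers_le]
      show (swap 0 1 * swap 1 2 : Perm (Fin 7)) • (3 : Fin 7) = 3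
      decide
    have h2 : (swap 3 4 * swap 4 5 : Perm (Fin 7)) • (3 : Fin 7) = 3 := hle h
    revert h2
    decide

theorem card_alt67_dvd (n : ℕ) (hn : n = 6 ∨ n = 7) :
    Nat.card (alternatingGroup (Fin n)) ∣ 2520 := by
  have h := DC.card_alt (n := n) (by omega)
  rcases hn with rfl | rfl
  · have h6 : Nat.factorial 6 = 720 := rfl
    have : Nat.card (alternatingGroup (Fin 6)) = 360 := by omega
    rw [this]; norm_num
  · have h7 : Nat.factorial 7 = 5040 := rfl
    have : Nat.card (alternatingGroup (Fin 7)) = 2520 := by omega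
    rw [this]

/-- The upper bound: every finite stem extension of `A_6` or `A_7` has kernel a quotient of `C_6`. -/
theorem alt67_upper (n : ℕ) (hn : n = 6 ∨ n = 7) (Γ : Type) [Group Γ] [Finite Γ]
    (σ : Γ →* alternatingGroup (Fin n)) (hσ : IsStemExtension σ) :
    ∃ π : Multiplicative (ZMod 6) →* σ.ker, Function.Surjective π := by
  obtain ⟨hs, hc, hd⟩ := hσ
  have hcard := card_alt67_dvd n hn
  obtain ⟨g0, a, ha2, haG, h2⟩ := two_part (by omega) (by omega) Γ σ hs hc hd
  obtain ⟨x, y, hx, hx1, hy, hxy, hyx⟩ := exists_sylow3_pair n hn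
  have h27 : ¬ 3 ^ (2 + 1) ∣ Nat.card (alternatingGroup (Fin n)) := by
    intro h
    have := h.trans hcard
    norm_num at this
  obtain ⟨c, b, hc3, hc1, hb3, hbG, h3⟩ := three_part x y hx hx1 hy hxy hyx h27 Γ σ hs hc hd
  have ha315 : a ∣ 315 := by
    have h1 : a ∣ 315 * 8 := haG.trans hcard
    have hcop : Nat.Coprime a 8 := by
      have : Nat.Coprime a 2 := ((Nat.Prime.coprime_iff_not_dvd Nat.prime_two).2 ha2).symm
      exact Nat.Coprime.pow_right 3 this
    exact hcop.dvd_of_dvd_mul_right h1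
  have hb280 : b ∣ 280 := by
    have h1 : b ∣ 280 * 9 := hbG.trans hcard
    have hcop : Nat.Coprime b 9 := by
      have : Nat.Coprime b 3 := ((Nat.Prime.coprime_iff_not_dvd Nat.prime_three).2 hb3).symm
      exact Nat.Coprime.pow_right 2 this
    exact hcop.dvd_of_dvd_mul_right h1
  have hodd : ∀ z ∈ σ.ker, ∀ p : ℕ, p.Prime → p ≠ 2 → p ≠ 3 → ¬ p ∣ orderOf z := by
    intro z hz p hp hp2 hp3 hpz
    have : Fact p.Prime := ⟨hp⟩
    have hsq : ¬ p ^ 2 ∣ Nat.card (alternatingGroup (Fin n)) := by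
      intro h
      have h1 : p ^ 2 ∣ 2520 := h.trans hcard
      have hle : p ^ 2 ≤ 2520 := Nat.le_of_dvd (by norm_num) h1
      have hp51 : p ≤ 50 := by nlinarith
      have h5 : 5 ≤ p := by
        have := hp.two_le
        by_contra hlt
        have : p = 4 := by omega
        subst this
        exact absurd hp (by decide)
      interval_cases p <;> first | (norm_num at hp; done) | (norm_num at h1; done)
    obtain ⟨H, hH, hpH⟩ := exists_noStemIn_zpowers (G := alternatingGroup (Fin n)) p hsq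
    have h2' := pow_index_mem_commutator_of_center (H.comap σ) (hc hz) (hd hz)
    have h3' : z ^ (H.comap σ).index ∈ σ.ker ⊓ ⁅H.comap σ, H.comap σ⁆ := ⟨pow_mem hz _, h2'⟩
    rw [hH Γ σ hs hc, Subgroup.mem_bot, Subgroup.index_comap_of_surjective _ hs] at h3'
    exact hpH (hpz.trans (orderOf_dvd_of_pow_eq_one h3'))
  have h6 : ∀ z ∈ σ.ker, z ^ 6 = 1 := by
    intro z hz
    have h630 : orderOf z ∣ 630 := by
      have hu2 : (z ^ a) ^ 2 = 1 := by
        rcases h2 z hz with h | h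
        · rw [h, one_pow]
        · rcases h2 (z ^ 2) (pow_mem hz 2) with h' | h'
          · rw [← pow_mul, mul_comm, pow_mul]; exact h'
          · rw [← pow_mul, mul_comm, pow_mul, h] at h'
            have : g0 = 1 := by
              have h4 : g0 * g0 = g0 * 1 := by rw [← pow_two, h', mul_one]
              exact mul_left_cancel h4
            rw [h, this, one_pow]
      have h1 : orderOf z ∣ a * 2 := by
        apply orderOf_dvd_of_pow_eq_one
        rw [pow_mul]; exact hu2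
      exact h1.trans (Nat.mul_dvd_mul_right ha315 2)
    have h840 : orderOf z ∣ 840 := by
      have hu3 : (z ^ b) ^ 3 = 1 := by
        obtain ⟨k, hk⟩ := Subgroup.mem_zpowers_iff.1 (h3 z hz)
        rw [← hk, ← zpow_natCast, ← zpow_mul, mul_comm, zpow_mul, zpow_natCast, hc3, one_zpow]
      have h1 : orderOf z ∣ b * 3 := by
        apply orderOf_dvd_of_pow_eq_one
        rw [pow_mul]; exact hu3
      exact h1.trans (Nat.mul_dvd_mul_right hb280 3)
    have h210 : orderOf z ∣ 6 * 35 := Nat.dvd_gcd h630 h840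
    have hcop : Nat.Coprime (orderOf z) 35 := by
      have h5 : Nat.Coprime (orderOf z) 5 :=
        ((Nat.Prime.coprime_iff_not_dvd Nat.prime_five).2
          (hodd z hz 5 Nat.prime_five (by norm_num) (by norm_num))).symm
      have h7 : Nat.Coprime (orderOf z) 7 :=
        ((Nat.Prime.coprime_iff_not_dvd (by norm_num : Nat.Prime 7)).2
          (hodd z hz 7 (by norm_num) (by norm_num) (by norm_num))).symm
      exact Nat.Coprime.mul_right h5 h7
    exact orderOf_dvd_iff_pow_eq_one.1 (hcop.dvd_of_dvd_mul_right h210)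
  exact exists_surjective_zmod_six σ.ker hc g0 c a b ha2 hb3 (MonoidHom.mem_ker.2 hc1) hc3 h2 h3 h6

end AltMult
end Cfsg.Agent.H41
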