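import Mathlib
import Cfsg.Prelude.Def_KGroupFacts

/-!
# Central extensions from bimultiplicative cocycles (helper41)

`BiTwist G T c` is `G × T` with multiplication `(g, t) (g', t') = (g g', t + t' + c g g')` for a
bimultiplicative `c : G →* G →* Multiplicative T`.
-/

set_option autoImplicit false

namespace Cfsg.Agent.H41

open Cfsg

open scoped commutatorElement

universe u v

/-- `G × T` with multiplication twisted by the bimultiplicative cocycle `c`. -/
@[ext]
structure BiTwist (G : Type u) (T : Type v) [Group G] [AddCommGroup T]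
    (c : G →* G →* Multiplicative T) where
  fst : G
  snd : T

namespace BiTwist

variable {G : Type u} {T : Type v} [Group G] [AddCommGroup T] {c : G →* G →* Multiplicative T}

instance : Mul (BiTwist G T c) :=
  ⟨fun a b => ⟨a.fst * b.fst, a.snd + b.snd + (c a.fst b.fst).toAdd⟩⟩

instance : One (BiTwist G T c) := ⟨⟨1, 0⟩⟩

instance : Inv (BiTwist G T c) :=
  ⟨fun a => ⟨a.fst⁻¹, -a.snd + (c a.fst a.fst).toAdd⟩⟩

@[simp] theorem mul_fst (a b : BiTwist G T c) : (a * b).fst = a.fst * b.fst := rfl
@[simp] theorem mul_snd (a b : BiTwist G T c) :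
    (a * b).snd = a.snd + b.snd + (c a.fst b.fst).toAdd := rfl
@[simp] theorem one_fst : (1 : BiTwist G T c).fst = 1 := rfl
@[simp] theorem one_snd : (1 : BiTwist G T c).snd = 0 := rfl
@[simp] theorem inv_fst (a : BiTwist G T c) : (a⁻¹).fst = a.fst⁻¹ := rfl
@[simp] theorem inv_snd (a : BiTwist G T c) :
    (a⁻¹).snd = -a.snd + (c a.fst a.fst).toAdd := rfl

instance : Group (BiTwist G T c) where
  mul_assoc a b d := by
    ext
    · simp [mul_assoc]
    · simp only [mul_snd, mul_fst, map_mul, MonoidHom.mul_apply, toAdd_mul]; abel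
  one_mul a := by
    ext
    · simp
    · simp
  mul_one a := by
    ext
    · simp
    · simp
  inv_mul_cancel a := by
    ext
    · simp
    · simp only [mul_snd, inv_snd, inv_fst, map_inv, MonoidHom.inv_apply, toAdd_inv, one_snd]; abel

/-- The projection onto `G`. -/
def proj (G : Type u) (T : Type v) [Group G] [AddCommGroup T] (c : G →* G →* Multiplicative T) :
    BiTwist G T c →* G where
  toFun a := a.fst
  map_one' := rfl
  map_mul' _ _ := rfl

@[simp] theorem proj_apply (a : BiTwist G T c) : proj G T c a = a.fst := rfl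

theorem proj_surjective : Function.Surjective (proj G T c) := fun g => ⟨⟨g, 0⟩, rfl⟩

instance [Finite G] [Finite T] : Finite (BiTwist G T c) :=
  Finite.of_injective (fun a : BiTwist G T c => (a.fst, a.snd)) (by
    intro a b h
    ext
    · exact congrArg Prod.fst h
    · exact congrArg Prod.snd h)

theorem mem_center_of {a : BiTwist G T c} (h1 : a.fst ∈ Subgroup.center G)
    (h2 : ∀ g, c a.fst g = c g a.fst) : a ∈ Subgroup.center (BiTwist G T c) := by
  rw [Subgroup.mem_center_iff] at h1 ⊢
  intro b
  ext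
  · exact h1 b.fst
  · simp only [mul_snd, h2 b.fst]; abel

/-- The inclusion of `T`. -/
def inr (G : Type u) (T : Type v) [Group G] [AddCommGroup T] (c : G →* G →* Multiplicative T) :
    Multiplicative T →* BiTwist G T c where
  toFun t := ⟨1, t.toAdd⟩
  map_one' := rfl
  map_mul' s t := by
    ext
    · simp
    · simp

@[simp] theorem inr_fst (t : Multiplicative T) : (inr G T c t).fst = 1 := rfl
@[simp] theorem inr_snd (t : Multiplicative T) : (inr G T c t).snd = t.toAdd := rfl

/-- A homomorphism `ι : H → G` on whose image the cocycle vanishes lifts to `BiTwist`. -/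
def liftHom {H : Type*} [Group H] (ι : H →* G) (h : ∀ x y, c (ι x) (ι y) = 1) :
    H →* BiTwist G T c where
  toFun x := ⟨ι x, 0⟩
  map_one' := by
    ext
    · simp
    · simp
  map_mul' x y := by
    ext
    · simp
    · simp [h]

@[simp] theorem liftHom_fst {H : Type*} [Group H] (ι : H →* G) (h : ∀ x y, c (ι x) (ι y) = 1)
    (x : H) : (liftHom ι h x).fst = ι x := rfl
@[simp] theorem liftHom_snd {H : Type*} [Group H] (ι : H →* G) (h : ∀ x y, c (ι x) (ι y) = 1)
    (x : H) : (liftHom ι h x).snd = 0 := rfl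

/-- Commutator of `(x, 0)` and `(y, 0)` for commuting `x, y`. -/
theorem commutator_mk (x y : G) (hxy : x * y = y * x) :
    ⁅(⟨x, 0⟩ : BiTwist G T c), (⟨y, 0⟩ : BiTwist G T c)⁆ =
      (⟨1, (c x y).toAdd - (c y x).toAdd⟩ : BiTwist G T c) := by
  have h1 : (⟨x, 0⟩ : BiTwist G T c) * ⟨y, 0⟩ =
      ⟨1, (c x y).toAdd - (c y x).toAdd⟩ * ((⟨y, 0⟩ : BiTwist G T c) * ⟨x, 0⟩) := by
    ext
    · simp [hxy]
    · simp
  rw [commutatorElement_def, h1]
  group

end BiTwist

end Cfsg.Agent.H41
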