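import Cfsg.Agent.H41.C3Order

/-!
# Conjugates of commutators in the covering presentation of Co3 (helper41)

If `τ a τ⁻¹ a″⁻¹` and `τ b τ⁻¹ b″⁻¹` are among the central relators, then `τ [a, b] τ⁻¹ = [a″, b″]`
holds exactly in the covering presentation; so these conjugates lie in the subgroup generated by
`a, b, c, d` when `a″, b″` are words in these generators.
-/

set_option autoImplicit false
set_option maxRecDepth 1000000

namespace Cfsg.Agent.H41.C3P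

open Cfsg Cfsg.Agent.H35
open scoped commutatorElement

/-- the relator `τ a τ⁻¹ a″⁻¹` -/
def mkR (τ a a2 : List Gen) : List Gen := τ ++ a ++ τ.reverse ++ a2.reverse

/-- the word `τ [a, b] τ⁻¹` -/
def mkY (τ a b : List Gen) : List Gen := τ ++ (a ++ b ++ a.reverse ++ b.reverse) ++ τ.reverse

theorem uw_okW_mem (L : List (List Gen)) (S : Gen → Bool) (w : List Gen) (h : okW S w = true) :
    uw (pg L) w ∈ HS L S := by
  induction w with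
  | nil => rw [uw_nil]; exact Subgroup.one_mem _
  | cons g w ih =>
    simp only [okW, List.all_cons, Bool.and_eq_true] at h
    rw [uw_cons]
    exact Subgroup.mul_mem _ (Subgroup.subset_closure ⟨g, h.1, rfl⟩) (ih (by simpa [okW] using h.2))

/-- the further relators are central in the covering presentation -/
theorem cen_of_rest (R : List Gen) (hR : R ∈ restA) (g : Pr hatW) :
    uw (pg hatW) R * g = g * uw (pg hatW) R := by
  have hgen : ∀ x : Gen, uw (pg hatW) R * pg hatW x = pg hatW x * uw (pg hatW) R := by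
    intro x
    have h := pg_rel hatW _ (mem_hatW_of_cen R hR x)
    have hx : uw (pg hatW) [x] = pg hatW x := by simp [uw]
    rw [uw_append, uw_append, uw_append, uw_reverse (pg hatW) hatW_inv, hx] at h
    have hxi : (pg hatW x)⁻¹ = pg hatW x := inv_eq_of_mul_eq_one_left (hatW_inv x)
    calc uw (pg hatW) R * pg hatW x
        = (uw (pg hatW) R * pg hatW x * (uw (pg hatW) R)⁻¹ * pg hatW x) * (pg hatW x)⁻¹ *
            uw (pg hatW) R := by group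
      _ = pg hatW x * uw (pg hatW) R := by rw [h, one_mul, hxi]
  have hg : g ∈ Subgroup.closure (Set.range (pg hatW)) := by rw [closure_pg]; trivial
  induction hg using Subgroup.closure_induction with
  | mem y hy =>
    obtain ⟨x, rfl⟩ := hy
    exact hgen x
  | one => rw [mul_one, one_mul]
  | mul a b _ _ iha ihb =>
    calc uw (pg hatW) R * (a * b) = (uw (pg hatW) R * a) * b := by rw [mul_assoc]
      _ = a * (uw (pg hatW) R * b) := by rw [iha, mul_assoc]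
      _ = a * b * uw (pg hatW) R := by rw [ihb, mul_assoc]
  | inv a _ iha =>
    calc uw (pg hatW) R * a⁻¹ = a⁻¹ * (a * uw (pg hatW) R) * a⁻¹ := by group
      _ = a⁻¹ * (uw (pg hatW) R * a) * a⁻¹ := by rw [iha]
      _ = a⁻¹ * uw (pg hatW) R := by group

theorem comm_cen {T : Type*} [Group T] (A B P Q : T) (hP : ∀ g : T, P * g = g * P)
    (hQ : ∀ g : T, Q * g = g * Q) : ⁅P * A, Q * B⁆ = ⁅A, B⁆ := by
  rw [commutatorElement_def, commutatorElement_def, mul_inv_rev, mul_inv_rev]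
  have h1 : P * A * (Q * B) * (A⁻¹ * P⁻¹) * (B⁻¹ * Q⁻¹) =
      P * (A * Q) * B * A⁻¹ * (P⁻¹ * B⁻¹) * Q⁻¹ := by group
  have hPi : ∀ g : T, P⁻¹ * g = g * P⁻¹ := fun g => by
    calc P⁻¹ * g = P⁻¹ * (g * P) * P⁻¹ := by group
      _ = P⁻¹ * (P * g) * P⁻¹ := by rw [hP]
      _ = g * P⁻¹ := by group
  rw [h1, ← hQ A, hPi B⁻¹]
  calc P * (Q * A) * B * A⁻¹ * (B⁻¹ * P⁻¹) * Q⁻¹
      = P * (Q * (A * B * A⁻¹ * B⁻¹)) * P⁻¹ * Q⁻¹ := by group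
    _ = P * ((A * B * A⁻¹ * B⁻¹) * Q) * P⁻¹ * Q⁻¹ := by rw [hQ]
    _ = (P * (A * B * A⁻¹ * B⁻¹)) * Q * P⁻¹ * Q⁻¹ := by group
    _ = ((A * B * A⁻¹ * B⁻¹) * P) * Q * P⁻¹ * Q⁻¹ := by rw [hP]
    _ = (A * B * A⁻¹ * B⁻¹) * (P * Q) * P⁻¹ * Q⁻¹ := by group
    _ = (A * B * A⁻¹ * B⁻¹) * (Q * P) * P⁻¹ * Q⁻¹ := by rw [hP Q]
    _ = A * B * A⁻¹ * B⁻¹ := by group

/-- **Conjugates of commutators.** -/
theorem lemA (τ a a2 b b2 : List Gen) (hRa : mkR τ a a2 ∈ restA) (hRb : mkR τ b b2 ∈ restA)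
    (ha : okW S4 a2 = true) (hb : okW S4 b2 = true) :
    uw (pg hatW) (mkY τ a b) ∈ HS hatW S4 := by
  obtain ⟨T, hT⟩ : ∃ T, T = uw (pg hatW) τ := ⟨_, rfl⟩
  obtain ⟨A, hA⟩ : ∃ A, A = uw (pg hatW) a := ⟨_, rfl⟩
  obtain ⟨B, hB⟩ : ∃ B, B = uw (pg hatW) b := ⟨_, rfl⟩
  obtain ⟨A2, hA2⟩ : ∃ A2, A2 = uw (pg hatW) a2 := ⟨_, rfl⟩
  obtain ⟨B2, hB2⟩ : ∃ B2, B2 = uw (pg hatW) b2 := ⟨_, rfl⟩
  have eRa : uw (pg hatW) (mkR τ a a2) = T * A * T⁻¹ * A2⁻¹ := by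
    unfold mkR
    rw [uw_append, uw_append, uw_append, uw_reverse (pg hatW) hatW_inv,
      uw_reverse (pg hatW) hatW_inv, ← hT, ← hA, ← hA2]
  have eRb : uw (pg hatW) (mkR τ b b2) = T * B * T⁻¹ * B2⁻¹ := by
    unfold mkR
    rw [uw_append, uw_append, uw_append, uw_reverse (pg hatW) hatW_inv,
      uw_reverse (pg hatW) hatW_inv, ← hT, ← hB, ← hB2]
  have eY : uw (pg hatW) (mkY τ a b) = T * (A * B * A⁻¹ * B⁻¹) * T⁻¹ := by
    unfold mkY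
    rw [uw_append, uw_append, uw_append, uw_append, uw_append, uw_reverse (pg hatW) hatW_inv,
      uw_reverse (pg hatW) hatW_inv, uw_reverse (pg hatW) hatW_inv, ← hT, ← hA, ← hB]
  have cA : ∀ g : Pr hatW, (T * A * T⁻¹ * A2⁻¹) * g = g * (T * A * T⁻¹ * A2⁻¹) := by
    intro g; rw [← eRa]; exact cen_of_rest _ hRa g
  have cB : ∀ g : Pr hatW, (T * B * T⁻¹ * B2⁻¹) * g = g * (T * B * T⁻¹ * B2⁻¹) := by
    intro g; rw [← eRb]; exact cen_of_rest _ hRb g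
  have e1 : T * (A * B * A⁻¹ * B⁻¹) * T⁻¹ =
      ⁅(T * A * T⁻¹ * A2⁻¹) * A2, (T * B * T⁻¹ * B2⁻¹) * B2⁆ := by
    rw [commutatorElement_def]; group
  rw [eY, e1, comm_cen A2 B2 _ _ cA cB, commutatorElement_def]
  have mA : A2 ∈ HS hatW S4 := by rw [hA2]; exact uw_okW_mem hatW S4 a2 ha
  have mB : B2 ∈ HS hatW S4 := by rw [hB2]; exact uw_okW_mem hatW S4 b2 hb
  exact Subgroup.mul_mem _ (Subgroup.mul_mem _ (Subgroup.mul_mem _ mA mB) (Subgroup.inv_mem _ mA))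
    (Subgroup.inv_mem _ mB)

/-! ### The commutator relators -/

/-- the data `(τ, a, a″, b, b″, c″)` of the commutator relators `τ [a, b] τ⁻¹ c″⁻¹` -/
def ydata : List (List Gen × List Gen × List Gen × List Gen × List Gen × List Gen) := [
  ([.e], [.d, .a, .b, .a], [.a, .b, .a, .b, .a, .c, .a, .b, .c, .a, .b, .a, .b, .d, .b, .d, .a, .b, .c, .b],
    [.c, .b, .d, .b, .d, .b, .c], [.a, .b, .a, .b, .c, .b, .c, .b, .a, .c, .a, .b, .d, .c, .b, .c, .b, .a, .b, .a],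
    [.a, .c, .a, .b, .c, .a, .b, .c, .b, .a, .c, .d, .b, .d, .a, .b, .c, .b]),
  ([.e], [.d, .a, .b, .a], [.a, .b, .a, .b, .a, .c, .a, .b, .c, .a, .b, .a, .b, .d, .b, .d, .a, .b, .c, .b],
    [.a, .c, .b, .c, .b, .c, .b, .a], [.c, .b, .c, .b, .c, .a, .b, .a, .c, .d, .b, .d, .b, .c, .b, .d],
    [.b, .a, .b, .a, .c, .b, .c, .a, .b, .a, .b, .c]),
  ([.e], [.d, .a, .b, .a], [.a, .b, .a, .b, .a, .c, .a, .b, .c, .a, .b, .a, .b, .d, .b, .d, .a, .b, .c, .b],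
    [.a, .c, .b, .d, .b, .d, .b, .c, .a], [.c, .a, .c, .b, .a, .c, .b, .a, .c, .b, .c, .a, .d, .a, .c, .d, .a, .b, .d, .b],
    [.a, .b, .a, .c, .a, .c, .a, .b, .c, .a, .b, .c, .b, .c, .d, .a, .c, .b, .a, .b, .d, .a]),
  ([.e], [.c, .d, .a, .b, .a, .c], [.c, .b, .c, .a, .b, .a, .c, .b, .a, .b, .c, .b, .d, .b, .a, .b],
    [.c, .b, .d, .b, .d, .b, .c], [.a, .b, .a, .b, .c, .b, .c, .b, .a, .c, .a, .b, .d, .c, .b, .c, .b, .a, .b, .a],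
    [.b, .c, .a, .c, .a, .b, .a, .c, .a, .b, .c, .d, .c, .d, .b]),
  ([.e], [.c, .d, .a, .b, .a, .c], [.c, .b, .c, .a, .b, .a, .c, .b, .a, .b, .c, .b, .d, .b, .a, .b],
    [.a, .c, .b, .c, .b, .c, .b, .a], [.c, .b, .c, .b, .c, .a, .b, .a, .c, .d, .b, .d, .b, .c, .b, .d],
    [.b, .a, .b, .a, .c, .b, .c, .b, .a, .d, .b, .d, .b, .d, .c]),
  ([.e], [.c, .d, .a, .b, .a, .c], [.c, .b, .c, .a, .b, .a, .c, .b, .a, .b, .c, .b, .d, .b, .a, .b],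
    [.a, .c, .b, .d, .b, .d, .b, .c, .a], [.c, .a, .c, .b, .a, .c, .b, .a, .c, .b, .c, .a, .d, .a, .c, .d, .a, .b, .d, .b],
    [.b, .c, .b, .a, .c, .b, .a, .b, .c, .b, .c, .b, .a, .d, .b, .c, .d, .c, .a, .b, .a, .b]),
  ([.e], [.c, .b, .d, .b, .d, .b, .c], [.a, .b, .a, .b, .c, .b, .c, .b, .a, .c, .a, .b, .d, .c, .b, .c, .b, .a, .b, .a],
    [.a, .c, .b, .c, .b, .c, .b, .a], [.c, .b, .c, .b, .c, .a, .b, .a, .c, .d, .b, .d, .b, .c, .b, .d],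
    [.c, .b, .c, .b, .c, .a, .b, .a, .d, .c, .d, .b]),
  ([.e], [.a, .c, .b, .c, .b, .c, .b, .a], [.c, .b, .c, .b, .c, .a, .b, .a, .c, .d, .b, .d, .b, .c, .b, .d],
    [.a, .c, .b, .d, .b, .d, .b, .c, .a], [.c, .a, .c, .b, .a, .c, .b, .a, .c, .b, .c, .a, .d, .a, .c, .d, .a, .b, .d, .b],
    [.a, .b, .a, .b, .c, .a, .b, .a, .c, .b, .c, .b, .d, .a, .d, .b, .c, .a, .b]),
  ([.e, .a, .e], [.a, .c, .a, .c, .a], [.a, .b, .c, .b, .c, .b, .c, .a, .c, .b, .a, .c, .b, .c, .d, .a, .c, .d, .a, .b, .c, .d],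
    [.b, .d, .c, .d, .b], [.b, .a, .b, .a, .c, .a, .b, .a, .c, .b, .c, .a, .b, .a, .d, .c, .a, .b, .c, .b, .c, .b],
    [.c, .b, .a, .c, .b, .a, .c, .b, .c, .b, .c, .d, .a, .c, .b, .a, .c]),
  ([.e, .a, .e], [.a, .c, .a, .c, .a], [.a, .b, .c, .b, .c, .b, .c, .a, .c, .b, .a, .c, .b, .c, .d, .a, .c, .d, .a, .b, .c, .d],
    [.c, .d, .a, .d, .c], [.b, .c, .a, .b, .d, .a, .d, .b, .a, .c, .b],
    [.a, .b, .a, .b, .c, .b, .a, .c, .b, .c, .b, .a, .c, .a, .d, .b, .d, .c, .a, .c, .b]),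
  ([.e, .a, .e], [.a, .c, .a, .c, .a], [.a, .b, .c, .b, .c, .b, .c, .a, .c, .b, .a, .c, .b, .c, .d, .a, .c, .d, .a, .b, .c, .d],
    [.d, .b, .a, .b, .d], [.a, .b, .a, .b, .c, .a, .c, .b, .d, .c, .a, .b, .a, .c, .d],
    [.a, .b, .a, .b, .a, .c, .b, .a, .c, .b, .a, .c, .b, .c, .b, .d, .b, .a, .b, .c, .a, .b, .a, .b]),
  ([.e, .a, .e], [.b, .d, .c, .d, .b], [.b, .a, .b, .a, .c, .a, .b, .a, .c, .b, .c, .a, .b, .a, .d, .c, .a, .b, .c, .b, .c, .b],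
    [.d, .b, .a, .b, .d], [.a, .b, .a, .b, .c, .a, .c, .b, .d, .c, .a, .b, .a, .c, .d],
    [.a, .b, .a, .b, .c, .b, .c, .a, .b, .c, .a, .b, .c, .b, .c, .b, .d, .c, .d, .b, .a, .d, .c]),
  ([.e, .a, .e], [.c, .d, .a, .d, .c], [.b, .c, .a, .b, .d, .a, .d, .b, .a, .c, .b],
    [.d, .b, .a, .b, .d], [.a, .b, .a, .b, .c, .a, .c, .b, .d, .c, .a, .b, .a, .c, .d],
    [.a, .b, .c, .b, .c, .b, .a, .c, .a, .c, .a, .d, .a, .c, .b, .c, .b, .c, .a]),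
  ([.e, .a, .b, .e], [.a, .c, .a, .c, .a], [.a, .b, .a, .b, .c, .b, .a, .c, .a, .b, .c, .b, .a, .b, .d, .b, .a, .b, .c, .b, .c],
    [.d, .c, .b, .c, .b, .c, .d], [.a, .b, .c, .a, .b, .a, .b, .a, .c, .a, .b, .c, .a, .d, .a, .c, .b, .d, .a, .b, .d],
    [.a, .b, .c, .b, .a, .c, .b, .a, .c, .b, .a, .d, .b, .d, .c, .d, .a, .d, .c, .b]),
  ([.e, .a, .b, .e], [.a, .c, .a, .c, .a], [.a, .b, .a, .b, .c, .b, .a, .c, .a, .b, .c, .b, .a, .b, .d, .b, .a, .b, .c, .b, .c],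
    [.b, .a, .b, .d, .b, .a, .b, .a], [.a, .b, .a, .b, .a, .c, .a, .c, .a, .b, .a, .c, .b, .c, .b, .c, .a, .b, .d, .c, .a, .c, .b, .c, .b, .a],
    [.a, .b, .a, .c, .b, .a, .c, .b, .a, .b, .c, .a, .d, .b, .d, .b, .d, .c]),
  ([.e, .a, .b, .e], [.a, .c, .a, .c, .a], [.a, .b, .a, .b, .c, .b, .a, .c, .a, .b, .c, .b, .a, .b, .d, .b, .a, .b, .c, .b, .c],
    [.d, .b, .c, .b, .a, .b, .c, .b, .d], [.b, .a, .b, .c, .b, .c, .a, .c, .b, .a, .d, .b, .d, .b, .d, .c, .a],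
    [.a, .b, .a, .b, .a, .c, .a, .b, .c, .a, .b, .c, .a, .c, .d, .a, .c, .b, .d, .a, .c, .a, .b]),
  ([.e, .a, .b, .e], [.d, .c, .b, .c, .b, .c, .d], [.a, .b, .c, .a, .b, .a, .b, .a, .c, .a, .b, .c, .a, .d, .a, .c, .b, .d, .a, .b, .d],
    [.d, .b, .c, .b, .a, .b, .c, .b, .d], [.b, .a, .b, .c, .b, .c, .a, .c, .b, .a, .d, .b, .d, .b, .d, .c, .a],
    [.a, .b, .a, .b, .a, .c, .a, .b, .c, .a, .b, .c, .b, .c, .d, .a, .c, .a, .c, .d, .b, .d, .b]),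
  ([.e, .a, .b, .e], [.b, .a, .b, .d, .b, .a, .b, .a], [.a, .b, .a, .b, .a, .c, .a, .c, .a, .b, .a, .c, .b, .c, .b, .c, .a, .b, .d, .c, .a, .c, .b, .c, .b, .a],
    [.d, .b, .c, .b, .a, .b, .c, .b, .d], [.b, .a, .b, .c, .b, .c, .a, .c, .b, .a, .d, .b, .d, .b, .d, .c, .a],
    [.b, .a, .c, .b, .c, .a, .b, .c, .a, .b, .a, .d, .a, .c, .a, .c, .a, .b, .a, .c]),
  ([.e, .b, .c, .e], [.b], [.a, .b, .a, .b, .c, .a, .b, .a, .c, .b, .a, .d, .b, .a, .b, .d, .b, .a],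
    [.c, .d, .a, .b, .a, .c], [.b, .c, .a, .c, .b, .c, .a, .c, .d, .c, .b, .a, .b, .c, .d],
    [.a, .b, .a, .c, .a, .c, .a, .b, .c, .a, .b, .c, .a, .d, .c, .d, .a, .d, .c, .b]),
  ([.e, .b, .c, .e], [.b], [.a, .b, .a, .b, .c, .a, .b, .a, .c, .b, .a, .d, .b, .a, .b, .d, .b, .a],
    [.d, .c, .a, .b, .a, .c, .d], [.a, .c, .b, .c, .a, .b, .c, .a, .b, .c, .b, .a, .b, .a, .d, .a, .d, .a, .b, .c, .a, .b, .c],
    [.b, .a, .c, .a, .b, .c, .a, .b, .a, .c, .d, .b, .c, .b, .c, .b, .c]),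
  ([.e, .b, .c, .e], [.b], [.a, .b, .a, .b, .c, .a, .b, .a, .c, .b, .a, .d, .b, .a, .b, .d, .b, .a],
    [.c, .b, .d, .a, .b, .a, .b, .c], [.a, .c, .a, .c, .b, .d, .a, .d, .b, .c, .a, .c, .a],
    [.a, .b, .a, .b, .a, .c, .a, .b, .a, .b, .a, .c, .a, .b, .c, .a, .c, .a, .d, .b, .d, .c, .a, .d, .c, .a, .b]),
  ([.e, .b, .c, .e], [.d, .b, .d, .b, .d], [.a, .b, .a, .b, .c, .a, .b, .a, .c, .a, .d, .a, .c, .b, .a, .b],
    [.c, .d, .a, .b, .a, .c], [.b, .c, .a, .c, .b, .c, .a, .c, .d, .c, .b, .a, .b, .c, .d],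
    [.b, .c, .b, .c, .b, .a, .c, .a, .c, .b, .d, .a, .c, .b, .c, .d, .b]),
  ([.e, .b, .c, .e], [.d, .b, .d, .b, .d], [.a, .b, .a, .b, .c, .a, .b, .a, .c, .a, .d, .a, .c, .b, .a, .b],
    [.d, .c, .a, .b, .a, .c, .d], [.a, .c, .b, .c, .a, .b, .c, .a, .b, .c, .b, .a, .b, .a, .d, .a, .d, .a, .b, .c, .a, .b, .c],
    [.a, .b, .c, .a, .b, .a, .b, .a, .c, .b, .a, .c, .b, .c, .d, .b, .d, .c, .d, .a, .b]),
  ([.e, .b, .c, .e], [.d, .b, .d, .b, .d], [.a, .b, .a, .b, .c, .a, .b, .a, .c, .a, .d, .a, .c, .b, .a, .b],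
    [.c, .b, .d, .a, .b, .a, .b, .c], [.a, .c, .a, .c, .b, .d, .a, .d, .b, .c, .a, .c, .a],
    [.a, .c, .b, .c, .a, .b, .a, .b, .c, .a, .b, .d, .c, .b, .d, .a, .d, .a, .b]),
  ([.e, .b, .c, .e], [.c, .d, .a, .b, .a, .c], [.b, .c, .a, .c, .b, .c, .a, .c, .d, .c, .b, .a, .b, .c, .d],
    [.c, .b, .d, .a, .b, .a, .b, .c], [.a, .c, .a, .c, .b, .d, .a, .d, .b, .c, .a, .c, .a],
    [.b, .a, .b, .c, .a, .c, .a, .b, .d, .b, .c, .a, .d, .a, .b]),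
  ([.e, .b, .c, .e], [.d, .c, .a, .b, .a, .c, .d], [.a, .c, .b, .c, .a, .b, .c, .a, .b, .c, .b, .a, .b, .a, .d, .a, .d, .a, .b, .c, .a, .b, .c],
    [.c, .b, .d, .a, .b, .a, .b, .c], [.a, .c, .a, .c, .b, .d, .a, .d, .b, .c, .a, .c, .a],
    [.a, .c, .b, .c, .a, .b, .c, .b, .c, .a, .d, .b, .a, .d, .b, .c]),
  ([.e, .c, .d, .e], [.b, .d, .b, .d, .b], [.a, .b, .a, .c, .b, .c, .a, .b, .a, .c, .b, .a, .b, .c, .b, .d, .b, .a, .b, .d],
    [.a, .d, .c, .a, .c, .d, .a], [.a, .c, .b, .a, .c, .b, .a, .c, .b, .c, .a, .d, .a, .c, .d, .a, .b, .d, .b, .c],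
    [.a, .b, .c, .a, .c, .b, .a, .c, .b, .a, .d, .b, .a, .b, .d, .c, .a, .b]),
  ([.e, .c, .d, .e], [.b, .d, .b, .d, .b], [.a, .b, .a, .c, .b, .c, .a, .b, .a, .c, .b, .a, .b, .c, .b, .d, .b, .a, .b, .d],
    [.a, .c, .b, .c, .b, .c, .b, .a], [.a, .b, .a, .c, .b, .c, .a, .c, .b, .c, .d, .c, .b, .c, .a, .c, .b, .c],
    [.a, .b, .a, .d]),
  ([.e, .c, .d, .e], [.a, .d, .c, .a, .c, .d, .a], [.a, .c, .b, .a, .c, .b, .a, .c, .b, .c, .a, .d, .a, .c, .d, .a, .b, .d, .b, .c],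
    [.a, .c, .b, .c, .b, .c, .b, .a], [.a, .b, .a, .c, .b, .c, .a, .c, .b, .c, .d, .c, .b, .c, .a, .c, .b, .c],
    [.c, .b, .c, .b, .a, .c, .a, .c, .b, .d, .a, .c, .b, .c, .d]),
  ([.e, .a, .c, .d, .b, .d, .a, .e], [.a, .c, .d, .c, .a], [.a, .b, .a, .b, .a, .c, .a, .c, .b, .c, .b, .a, .c, .a, .b, .d, .c, .b, .c, .a, .c, .b, .a],
    [.b, .d, .b, .a, .c, .a], [.c, .b, .c, .b, .a, .c, .d, .c, .a, .b, .c, .b, .c],
    [.b, .a, .b, .c, .a, .b, .c, .b, .c, .b, .a, .b, .d, .b, .c, .d, .a, .d, .b, .c]),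
  ([.e, .a, .c, .d, .b, .d, .a, .e], [.a, .c, .d, .c, .a], [.a, .b, .a, .b, .a, .c, .a, .c, .b, .c, .b, .a, .c, .a, .b, .d, .c, .b, .c, .a, .c, .b, .a],
    [.b, .d, .c, .d, .c, .b], [.a, .b, .a, .b, .a, .c, .a, .c, .b, .c, .b, .a, .b, .c, .d, .a, .c, .d, .c, .b, .a, .d],
    [.b, .a, .b, .c, .b, .a, .c, .b, .c, .b, .a, .b, .a, .c, .b, .d, .b, .c, .a, .b, .c, .a]),
  ([.e, .a, .c, .d, .b, .d, .a, .e], [.a, .c, .d, .c, .a], [.a, .b, .a, .b, .a, .c, .a, .c, .b, .c, .b, .a, .c, .a, .b, .d, .c, .b, .c, .a, .c, .b, .a],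
    [.c, .b, .c, .a, .c, .b], [.b, .a, .b, .c, .b, .a, .c, .b, .a, .c, .b, .c, .b, .d, .b, .a, .b, .c, .d, .a],
    [.b, .c, .a, .b, .a, .c, .a, .c, .b, .a, .b, .d, .c, .a, .c, .b, .c, .b]),
  ([.e, .a, .c, .d, .b, .d, .a, .e], [.b, .d, .b, .a, .c, .a], [.c, .b, .c, .b, .a, .c, .d, .c, .a, .b, .c, .b, .c],
    [.b, .d, .c, .d, .c, .b], [.a, .b, .a, .b, .a, .c, .a, .c, .b, .c, .b, .a, .b, .c, .d, .a, .c, .d, .c, .b, .a, .d],
    [.a, .c, .d, .a, .d, .c, .a]),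
  ([.e, .a, .c, .d, .b, .d, .a, .e], [.b, .d, .b, .a, .c, .a], [.c, .b, .c, .b, .a, .c, .d, .c, .a, .b, .c, .b, .c],
    [.c, .b, .c, .a, .c, .b], [.b, .a, .b, .c, .b, .a, .c, .b, .a, .c, .b, .c, .b, .d, .b, .a, .b, .c, .d, .a],
    [.b, .a, .c, .a, .b, .c, .a, .c, .a, .b, .a, .c, .d, .a, .c, .d, .a, .c, .a, .c, .d]),
  ([.e, .a, .c, .d, .b, .d, .a, .e], [.b, .d, .c, .d, .c, .b], [.a, .b, .a, .b, .a, .c, .a, .c, .b, .c, .b, .a, .b, .c, .d, .a, .c, .d, .c, .b, .a, .d],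
    [.c, .b, .c, .a, .c, .b], [.b, .a, .b, .c, .b, .a, .c, .b, .a, .c, .b, .c, .b, .d, .b, .a, .b, .c, .d, .a],
    [.b, .a, .c, .a, .b, .a, .c, .b, .a, .c, .b, .a, .c, .b, .a, .d, .a, .d, .a, .c, .d, .b, .c]),
  ([.e, .a, .e, .b, .d, .e, .d, .e], [.a], [.b, .a, .c, .a, .b, .c, .b, .c, .a, .c, .b, .a, .d, .a, .c, .a, .b, .c, .d],
    [.b, .c, .b], [.a, .b, .a, .b, .a, .c, .a, .c, .b, .c, .b, .a, .d, .b, .c, .a, .b, .d, .c, .b],
    [.b, .a, .c, .b, .a, .c, .b, .a, .b, .c, .b, .c, .a, .d, .c, .a, .b, .a, .b]),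
  ([.e, .a, .e, .b, .d, .e, .d, .e], [.a], [.b, .a, .c, .a, .b, .c, .b, .c, .a, .c, .b, .a, .d, .a, .c, .a, .b, .c, .d],
    [.c, .b, .c], [.a, .b, .a, .b, .c, .a, .b, .a, .b, .a, .c, .b, .c, .b, .c, .d, .c, .b, .d, .c, .d, .a],
    [.a, .c, .a, .c, .b, .a, .c, .a, .b, .c, .a, .d, .c, .a, .d, .a, .d]),
  ([.e, .a, .e, .b, .d, .e, .d, .e], [.a], [.b, .a, .c, .a, .b, .c, .b, .c, .a, .c, .b, .a, .d, .a, .c, .a, .b, .c, .d],
    [.d, .b, .d], [.b, .a, .b, .a, .c, .a, .b, .c, .a, .b, .a, .c, .a, .c, .b, .c, .d, .c, .a, .b, .c, .b, .c, .b],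
    [.b, .a, .c, .a, .c, .b, .a, .c, .a, .b, .c, .a, .d, .a, .c, .b, .a, .c, .a]),
  ([.e, .a, .e, .b, .d, .e, .d, .e], [.b, .c, .b], [.a, .b, .a, .b, .a, .c, .a, .c, .b, .c, .b, .a, .d, .b, .c, .a, .b, .d, .c, .b],
    [.d, .b, .d], [.b, .a, .b, .a, .c, .a, .b, .c, .a, .b, .a, .c, .a, .c, .b, .c, .d, .c, .a, .b, .c, .b, .c, .b],
    [.b, .a, .c, .b, .c, .b, .a, .b, .c, .a, .b, .d, .c, .d, .a, .c, .b, .a]),
  ([.e, .a, .e, .b, .d, .e, .d, .e], [.c, .b, .c], [.a, .b, .a, .b, .c, .a, .b, .a, .b, .a, .c, .b, .c, .b, .c, .d, .c, .b, .d, .c, .d, .a],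
    [.d, .b, .d], [.b, .a, .b, .a, .c, .a, .b, .c, .a, .b, .a, .c, .a, .c, .b, .c, .d, .c, .a, .b, .c, .b, .c, .b],
    [.a, .b, .a, .b, .c, .a, .b, .c, .b, .c, .b, .a, .b, .a, .d, .a, .c, .a, .b, .a, .d, .b])]

/-- the relator `τ [a, b] τ⁻¹ c″⁻¹` -/
def mkRC (d : List Gen × List Gen × List Gen × List Gen × List Gen × List Gen) : List Gen :=
  mkY d.1 d.2.1 d.2.2.2.1 ++ d.2.2.2.2.2.reverse

theorem restC_eq : restC = ydata.map mkRC := by decide +kernel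

theorem ydata_ok : ∀ d ∈ ydata, mkR d.1 d.2.1 d.2.2.1 ∈ restA ∧
    mkR d.1 d.2.2.2.1 d.2.2.2.2.1 ∈ restA ∧ okW S4 d.2.2.1 = true ∧
    okW S4 d.2.2.2.2.1 = true ∧ okW S4 d.2.2.2.2.2 = true := by decide +kernel

theorem restC_sub : ∀ w ∈ restC, w ∈ restA := by decide +kernel

theorem rest34_ok : ∀ w ∈ rest3 ++ rest4, okW S4 w = true := by decide +kernel

theorem rest34_sub : ∀ w ∈ rest3 ++ rest4, w ∈ restA := by decide +kernel

/-- the values of the commutator relators lie in `⟨a, b, c, d⟩` -/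
theorem restC_mem : ∀ w ∈ restC, uw (pg hatW) w ∈ HS hatW S4 := by
  intro w hw
  rw [restC_eq] at hw
  obtain ⟨d, hd, rfl⟩ := List.mem_map.1 hw
  obtain ⟨h1, h2, h3, h4, h5⟩ := ydata_ok d hd
  unfold mkRC
  rw [uw_append, uw_reverse (pg hatW) hatW_inv]
  exact Subgroup.mul_mem _ (lemA _ _ _ _ _ h1 h2 h3 h4)
    (Subgroup.inv_mem _ (uw_okW_mem hatW S4 _ h5))

/-- the relators added in `hatY` -/
def extraX : List (List Gen) := rest3 ++ rest4 ++ restC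

theorem extraX_sub : ∀ w ∈ extraX, w ∈ restA := by
  intro w hw
  unfold extraX at hw
  rw [List.mem_append] at hw
  rcases hw with hw | hw
  · exact rest34_sub w hw
  · exact restC_sub w hw

theorem extraX_mem : ∀ w ∈ extraX, uw (pg hatW) w ∈ HS hatW S4 := by
  intro w hw
  unfold extraX at hw
  rw [List.mem_append] at hw
  rcases hw with hw | hw
  · exact uw_okW_mem hatW S4 w (rest34_ok w hw)
  · exact restC_mem w hw

/-- the central subgroup generated by the values of the added relators -/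
def NX : Subgroup (Pr hatW) := Subgroup.closure {y | ∃ w ∈ extraX, y = uw (pg hatW) w}

theorem NX_le : NX ≤ HS hatW S4 := by
  unfold NX
  rw [Subgroup.closure_le]
  rintro y ⟨w, hw, rfl⟩
  exact extraX_mem w hw

theorem NX_cen : NX ≤ Subgroup.center (Pr hatW) := by
  unfold NX
  rw [Subgroup.closure_le]
  rintro y ⟨w, hw, rfl⟩
  exact Subgroup.mem_center_iff.2 (fun g => (cen_of_rest w (extraX_sub w hw) g).symm)

instance NX_normal : NX.Normal :=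
  ⟨fun n hn g => by
    have h := Subgroup.mem_center_iff.1 (NX_cen hn) g
    have e : g * n * g⁻¹ = n := by rw [h, mul_assoc, mul_inv_cancel, mul_one]
    rw [e]; exact hn⟩

theorem hatY_split (w : List Gen) (hw : w ∈ hatY) : w ∈ hatW ∨ w ∈ extraX := by
  unfold hatY hatX at hw
  unfold extraX
  simp only [List.mem_append] at hw ⊢
  rcases hw with ((((h | h) | h) | h) | h) | h
  · exact Or.inl (by unfold hatW; simp only [List.mem_append]; exact Or.inl (Or.inl h))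
  · exact Or.inl (by unfold hatW; simp only [List.mem_append]; exact Or.inl (Or.inr h))
  · exact Or.inr (Or.inl (Or.inl h))
  · exact Or.inr (Or.inl (Or.inr h))
  · exact Or.inr (Or.inr h)
  · exact Or.inl h

theorem hatW_sub_hatY (w : List Gen) (hw : w ∈ hatW) : w ∈ hatY := by
  unfold hatY
  exact List.mem_append_right _ hw

/-- the quotient map onto the group in which the enumeration is done -/
noncomputable def piY : Pr hatW →* Pr hatY :=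
  up hatW (pg hatY) (fun w hw => pg_rel hatY w (hatW_sub_hatY w hw))

theorem piY_pg (x : Gen) : piY (pg hatW x) = pg hatY x := up_pg hatW _ _ x

theorem psi_rel : ∀ w ∈ hatY, uw (fun x => (QuotientGroup.mk' NX) (pg hatW x)) w = 1 := by
  intro w hw
  rw [← map_uw (QuotientGroup.mk' NX) (pg hatW) w]
  rcases hatY_split w hw with h | h
  · rw [pg_rel hatW w h, map_one]
  · exact (QuotientGroup.eq_one_iff _).2 (Subgroup.subset_closure ⟨w, h, rfl⟩)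

/-- the inverse map modulo the central subgroup -/
noncomputable def psiY : Pr hatY →* Pr hatW ⧸ NX :=
  up hatY (fun x => (QuotientGroup.mk' NX) (pg hatW x)) psi_rel

theorem psi_pi : psiY.comp piY = QuotientGroup.mk' NX := by
  apply hom_ext hatW
  intro x
  rw [MonoidHom.comp_apply, piY_pg]
  exact up_pg hatY _ psi_rel x

theorem ker_piY_le : piY.ker ≤ HS hatW S4 := by
  intro g hg
  apply NX_le
  have h1 : (QuotientGroup.mk' NX) g = 1 := by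
    rw [← psi_pi, MonoidHom.comp_apply, MonoidHom.mem_ker.1 hg, map_one]
  exact (QuotientGroup.eq_one_iff g).1 h1

theorem piY_surj : Function.Surjective piY := by
  rw [← MonoidHom.range_eq_top, eq_top_iff, ← closure_pg hatY, Subgroup.closure_le]
  rintro _ ⟨x, rfl⟩
  exact ⟨pg hatW x, piY_pg x⟩

theorem map_HS : (HS hatW S4).map piY = HS hatY S4 := by
  unfold HS
  rw [MonoidHom.map_closure]
  congr 1
  ext y
  constructor
  · rintro ⟨_, ⟨g, hg, rfl⟩, rfl⟩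
    exact ⟨g, hg, piY_pg g⟩
  · rintro ⟨g, hg, rfl⟩
    exact ⟨pg hatW g, ⟨g, hg, rfl⟩, piY_pg g⟩

theorem comap_HS : (HS hatY S4).comap piY = HS hatW S4 := by
  rw [← map_HS, Subgroup.comap_map_eq]
  exact sup_eq_left.2 ker_piY_le

/-- the index of `⟨a, b, c, d⟩` is the same in both groups -/
theorem index_HS : (HS hatW S4).index = (HS hatY S4).index := by
  rw [← comap_HS]
  exact Subgroup.index_comap_of_surjective _ piY_surj

end Cfsg.Agent.H41.C3P
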