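import Cfsg.Agent.H41.SzTC.RAll

/-!
# The presented group has order at most `29120` (helper41)

Helper35's replay certificate bounds the index of `⟨a, b⟩` by `2080`; the dihedral subgroup
`⟨a, b⟩` has order at most `14`.
-/

set_option autoImplicit false

namespace Cfsg.Agent.H41.SzP

open Cfsg.Agent.H35

/-- a group generated by two involutions whose product has order dividing `n` has at most
`2 n` elements -/
theorem dihedral_card_le {K : Type*} [Group K] (A B : K) (hA : A * A = 1) (hB : B * B = 1)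
    (n : ℕ) (hn : 0 < n) (hAB : (A * B) ^ n = 1) :
    Finite (Subgroup.closure ({A, B} : Set K)) ∧
      Nat.card (Subgroup.closure ({A, B} : Set K)) ≤ 2 * n := by
  classical
  have hAi : A⁻¹ = A := inv_eq_of_mul_eq_one_left hA
  have hBi : B⁻¹ = B := inv_eq_of_mul_eq_one_left hB
  have hconj : ∀ l : ℤ, A * (A * B) ^ l = (A * B) ^ (-l) * A := by
    intro l
    have h1 : A * (A * B) * A⁻¹ = (A * B)⁻¹ := by
      rw [mul_inv_rev, hAi, hBi]
      calc A * (A * B) * A = (A * A) * B * A := by group
        _ = B * A := by rw [hA, one_mul]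
    have h2 : A * (A * B) ^ l * A⁻¹ = ((A * B)⁻¹) ^ l := by
      rw [← h1, conj_zpow]
    rw [zpow_neg, ← inv_zpow, ← h2]
    group
  let D : Subgroup K :=
    { carrier := {g | ∃ k : ℤ, g = (A * B) ^ k ∨ g = (A * B) ^ k * A}
      mul_mem' := by
        rintro x y ⟨k, rfl | rfl⟩ ⟨l, rfl | rfl⟩
        · exact ⟨k + l, Or.inl (zpow_add _ _ _).symm⟩
        · exact ⟨k + l, Or.inr (by rw [zpow_add, mul_assoc])⟩
        · refine ⟨k + -l, Or.inr ?_⟩
          rw [mul_assoc, hconj l, zpow_add, mul_assoc]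
        · refine ⟨k + -l, Or.inl ?_⟩
          rw [mul_assoc, ← mul_assoc A, hconj l, mul_assoc, hA, mul_one, zpow_add]
      one_mem' := ⟨0, Or.inl (zpow_zero _).symm⟩
      inv_mem' := by
        rintro x ⟨k, rfl | rfl⟩
        · exact ⟨-k, Or.inl (zpow_neg _ _).symm⟩
        · refine ⟨k, Or.inr ?_⟩
          rw [mul_inv_rev, hAi, ← zpow_neg, hconj (-k), neg_neg] }
  have hle : Subgroup.closure ({A, B} : Set K) ≤ D := by
    rw [Subgroup.closure_le]
    rintro x (rfl | hx)
    · exact ⟨0, Or.inr (by rw [zpow_zero, one_mul])⟩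
    · have hx' : x = B := hx
      subst hx'
      refine ⟨-1, Or.inr ?_⟩
      rw [zpow_neg, zpow_one, mul_inv_rev, hAi, hBi, mul_assoc, hA, mul_one]
  let f : Fin n × Bool → K := fun p => (A * B) ^ (p.1 : ℕ) * (if p.2 then A else 1)
  have hsub : (Subgroup.closure ({A, B} : Set K) : Set K) ⊆ ↑(Finset.univ.image f) := by
    intro g hg
    obtain ⟨k, hk⟩ := hle hg
    have hmod : (A * B) ^ k = (A * B) ^ ((k % (n : ℤ)).toNat) := by
      have hn' : (0 : ℤ) < n := by exact_mod_cast hn
      have h1 : k = (n : ℤ) * (k / n) + k % n := (Int.mul_ediv_add_emod k n).symm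
      have h2 : ((k % (n : ℤ)).toNat : ℤ) = k % n := Int.toNat_of_nonneg (Int.emod_nonneg k hn'.ne')
      have h3 : (A * B) ^ k = (A * B) ^ ((n : ℤ) * (k / n)) * (A * B) ^ (k % (n : ℤ)) := by
        rw [← zpow_add, ← h1]
      rw [h3, zpow_mul, zpow_natCast, hAB, one_zpow, one_mul]
      conv_lhs => rw [← h2]
      rw [zpow_natCast]
    have hlt : (k % (n : ℤ)).toNat < n := by
      have hn' : (0 : ℤ) < n := by exact_mod_cast hn
      have := Int.emod_lt_of_pos k hn'
      omega
    rw [Finset.coe_image, Set.mem_image]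
    rcases hk with rfl | rfl
    · refine ⟨(⟨_, hlt⟩, false), by simp, ?_⟩
      show (A * B) ^ ((k % (n : ℤ)).toNat) * (if false then A else 1) = _
      rw [hmod]; simp
    · refine ⟨(⟨_, hlt⟩, true), by simp, ?_⟩
      show (A * B) ^ ((k % (n : ℤ)).toNat) * (if true then A else 1) = _
      rw [hmod]; simp
  have hfin : (Subgroup.closure ({A, B} : Set K) : Set K).Finite :=
    (Finset.finite_toSet _).subset hsub
  refine ⟨hfin.to_subtype, ?_⟩
  have e : Nat.card (Subgroup.closure ({A, B} : Set K)) =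
      (Subgroup.closure ({A, B} : Set K) : Set K).ncard := Nat.card_coe_set_eq _
  rw [e]
  calc (Subgroup.closure ({A, B} : Set K) : Set K).ncard
      ≤ (↑(Finset.univ.image f) : Set K).ncard := Set.ncard_le_ncard hsub (Finset.finite_toSet _)
    _ = (Finset.univ.image f).card := Set.ncard_coe_finset _
    _ ≤ (Finset.univ : Finset (Fin n × Bool)).card := Finset.card_image_le
    _ = 2 * n := by simp [mul_comm]

/-- the dihedral subgroup `⟨a, b⟩` -/
def Hab : Subgroup (Pr relW) := Subgroup.closure {pg relW .a, pg relW .b}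

theorem sz_rhyp : RHyp tsz_rd Hab (pg relW) := by
  refine ⟨sz_inv, sz_gof_gi, by decide, fun p hp => wrapRow_of_le _ _ p hp, ?_, ?_, tsz_h0,
    by decide⟩
  · exact circTab_valid (pg relW) sz_inv _ sz_full_one tsz_circT tsz_ccert tsz_circ_ok
  · refine hcTab_valid (pg relW) sz_inv Hab tsz_rsw ?_ tsz_hc1T tsz_hc2T _
      (fun c hc => allR_sound _ _ _ 0 tsz_hc_ok c (Nat.zero_le _) (by omega) hc)
    intro w hw
    simp only [tsz_rsw, List.mem_cons, List.not_mem_nil, or_false] at hw
    rcases hw with rfl | rfl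
    · exact Subgroup.subset_closure (by simp [uw])
    · exact Subgroup.subset_closure (by simp [uw])

theorem sz_index : Finite (Pr relW ⧸ Hab) ∧ Nat.card (Pr relW ⧸ Hab) ≤ 2080 :=
  replay_bound sz_rhyp sz_gens_all (closure_pg relW) (by decide) (by decide) tsz_rall

theorem sz_Hab : Finite Hab ∧ Nat.card Hab ≤ 14 := by
  have h : uw (pg relW) wAB = 1 := pg_rel relW _ (by decide)
  have h7 : (pg relW .a * pg relW .b) ^ 7 = 1 := by
    rw [← h]
    simp [uw, wAB, pow_succ, mul_assoc]
  exact dihedral_card_le _ _ (sz_inv .a) (sz_inv .b) 7 (by norm_num) h7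

/-- the presented group is finite -/
instance sz_finite : Finite (Pr relW) := by
  have := sz_index.1
  have := sz_Hab.1
  exact Finite.of_equiv _ (Subgroup.groupEquivQuotientProdSubgroup (s := Hab)).symm

/-- the presented group has at most `29120` elements -/
theorem sz_card_le : Nat.card (Pr relW) ≤ 29120 := by
  rw [Subgroup.card_eq_card_quotient_mul_card_subgroup Hab]
  calc Nat.card (Pr relW ⧸ Hab) * Nat.card Hab ≤ 2080 * 14 :=
        Nat.mul_le_mul sz_index.2 sz_Hab.2
    _ = 29120 := by norm_num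

end Cfsg.Agent.H41.SzP
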