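import Cfsg.Agent.H41.C3TC.Ku.RAll
import Cfsg.Agent.H41.C3TC.Kv.RAll
import Cfsg.Agent.H41.C3Glue
import Cfsg.Agent.H41.SzOrder

/-!
# The order of the covering presentation of the Conway group Co3 (helper41)

Helper35's replay certificates bound the index of `⟨a, b⟩` in the covering presentation of
`M₁₁` by `1584`, the index of `⟨a, b, c⟩` in the covering presentation of `M₂₃` by `1288` and the
index of `⟨a, b, c, d⟩` in the covering presentation of `Co₃` by `48600`; the tower gives
`|Pr hatW| ≤ 48600 · 1288 · 1584 · 10 = 2 · 495766656000`.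
-/

set_option autoImplicit false
set_option maxRecDepth 1000000

namespace Cfsg.Agent.H41.C3P

open Cfsg Cfsg.Agent.H35
open Cfsg.Agent.H41.SzP (dihedral_card_le)

/-! ### The dihedral subgroup -/

theorem ab5 (L : List (List Gen)) (h : wAB ∈ L) : (pg L .a * pg L .b) ^ 5 = 1 := by
  have h' : uw (pg L) wAB = 1 := pg_rel L _ h
  rw [← h']
  simp [wAB, uw, pow_succ, mul_assoc]

/-- the dihedral subgroup `⟨a, b⟩` -/
def Hab (L : List (List Gen)) : Subgroup (Pr L) := Subgroup.closure {pg L .a, pg L .b}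

theorem Hab_card (L : List (List Gen)) (h : wAB ∈ L)
    (ha : pg L .a * pg L .a = 1) (hb : pg L .b * pg L .b = 1) :
    Finite (Hab L) ∧ Nat.card (Hab L) ≤ 2 * 5 :=
  dihedral_card_le _ _ ha hb 5 (by norm_num) (ab5 L h)

theorem mem_hatV_of_cen (R : List Gen) (hR : R ∈ restB) (g : Gen) (hg : g ∈ g4) :
    R ++ [g] ++ R.reverse ++ [g] ∈ hatV := by
  unfold hatV
  apply List.mem_append_left
  apply List.mem_append_right
  rw [List.mem_flatMap]
  exact ⟨R, hR, List.mem_map.2 ⟨g, hg, rfl⟩⟩

theorem mem_hatW_of_cen (R : List Gen) (hR : R ∈ restA) (g : Gen) :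
    R ++ [g] ++ R.reverse ++ [g] ∈ hatW := by
  unfold hatW
  apply List.mem_append_right
  rw [List.mem_flatMap]
  exact ⟨R, hR, List.mem_map.2 ⟨g, h_gens_all g, rfl⟩⟩

/-! ### The covering presentation of `M₁₁` -/

theorem ku_rhyp : RHyp tc3ku_rd (Hab hatU) (pg hatU) := by
  refine ⟨hatU_inv, h_gof_gi, by decide, fun p hp => wrapRow_of_le _ _ p hp, ?_, ?_, tc3ku_h0,
    by decide⟩
  · exact circTab_valid (pg hatU) hatU_inv _ (full_one hatU) tc3ku_circT tc3ku_ccert tc3ku_circ_ok
  · refine hcTab_valid (pg hatU) hatU_inv (Hab hatU) tc3ku_rsw ?_ tc3ku_hc1T tc3ku_hc2T _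
      (fun c hc => allR_sound _ _ _ 0 tc3ku_hc_ok c (Nat.zero_le _) (by omega) hc)
    intro w hw
    simp only [tc3ku_rsw, List.mem_cons, List.not_mem_nil, or_false] at hw
    rcases hw with rfl | rfl
    · exact Subgroup.subset_closure (by simp [uw])
    · exact Subgroup.subset_closure (by simp [uw])

theorem ku_index : Finite (Pr hatU ⧸ Hab hatU) ∧ Nat.card (Pr hatU ⧸ Hab hatU) ≤ 1584 :=
  replay_bound ku_rhyp h_gens_all (closure_pg hatU) (by decide) (by decide) tc3ku_rall

instance hatU_finite : Finite (Pr hatU) := by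
  have := ku_index.1
  have := (Hab_card hatU (by decide) (hatU_inv .a) (hatU_inv .b)).1
  exact Finite.of_equiv _ (Subgroup.groupEquivQuotientProdSubgroup (s := Hab hatU)).symm

theorem hatU_card_le : Nat.card (Pr hatU) ≤ 15840 := by
  rw [Subgroup.card_eq_card_quotient_mul_card_subgroup (Hab hatU)]
  calc Nat.card (Pr hatU ⧸ Hab hatU) * Nat.card (Hab hatU) ≤ 1584 * (2 * 5) :=
        Nat.mul_le_mul ku_index.2 (Hab_card hatU (by decide) (hatU_inv .a) (hatU_inv .b)).2
    _ = 15840 := by norm_num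

/-! ### Subgroups generated by some of the generators -/

/-- the subgroup generated by the generators in `S` -/
def HS (L : List (List Gen)) (S : Gen → Bool) : Subgroup (Pr L) :=
  Subgroup.closure {y | ∃ g, S g = true ∧ y = pg L g}

/-- the generators outside `S` killed -/
def kf (L : List (List Gen)) (S : Gen → Bool) (g : Gen) : Pr L :=
  if S g = true then pg L g else 1

/-- words in the generators of `S` -/
def okW (S : Gen → Bool) (w : List Gen) : Bool := w.all S

theorem uw_kf (L : List (List Gen)) (S : Gen → Bool) (w : List Gen) (h : okW S w = true) :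
    uw (kf L S) w = uw (pg L) w := by
  induction w with
  | nil => rfl
  | cons g w ih =>
    simp only [okW, List.all_cons, Bool.and_eq_true] at h
    rw [uw_cons, uw_cons, ih (by simpa [okW] using h.2)]
    unfold kf
    rw [if_pos h.1]

theorem kf_range (L : List (List Gen)) (S : Gen → Bool) {K : Type*} [Group K] (φ : K →* Pr L)
    (f : Gen → K) (hφ : ∀ x, φ (f x) = kf L S x) (hcl : Subgroup.closure (Set.range f) = ⊤) :
    φ.range = HS L S := by
  rw [MonoidHom.range_eq_map, ← hcl, MonoidHom.map_closure]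
  apply le_antisymm
  · rw [Subgroup.closure_le]
    rintro _ ⟨_, ⟨x, rfl⟩, rfl⟩
    rw [hφ]
    unfold kf
    by_cases hx : S x = true
    · rw [if_pos hx]
      exact Subgroup.subset_closure ⟨x, hx, rfl⟩
    · rw [if_neg hx]
      exact (HS L S).one_mem
  · unfold HS
    rw [Subgroup.closure_le]
    rintro y ⟨g, hg, rfl⟩
    refine Subgroup.subset_closure ⟨f g, ⟨g, rfl⟩, ?_⟩
    rw [hφ]
    unfold kf
    rw [if_pos hg]

theorem card_HS_le (L : List (List Gen)) (S : Gen → Bool) {K : Type*} [Group K] [Finite K]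
    (φ : K →* Pr L) (f : Gen → K) (hφ : ∀ x, φ (f x) = kf L S x)
    (hcl : Subgroup.closure (Set.range f) = ⊤) :
    Finite (HS L S) ∧ Nat.card (HS L S) ≤ Nat.card K := by
  rw [← kf_range L S φ f hφ hcl]
  have : Finite φ.range := Finite.of_surjective φ.rangeRestrict φ.rangeRestrict_surjective
  exact ⟨this, Nat.card_le_card_of_surjective φ.rangeRestrict φ.rangeRestrict_surjective⟩

/-- `a, b, c` -/
def S3 : Gen → Bool := fun g => decide (g ∈ g3)
/-- `a, b, c, d` -/
def S4 : Gen → Bool := fun g => decide (g ∈ g4)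

theorem kf_eq_of_not (L : List (List Gen)) (S : Gen → Bool) (g : Gen) (h : S g = false) :
    kf L S g = 1 := by
  unfold kf
  rw [if_neg (by rw [h]; exact Bool.false_ne_true)]

/-! ### The covering presentation of `M₂₃` -/

theorem okU_cen : ∀ R ∈ rest3, ∀ g ∈ g3, okW S3 (R ++ [g] ++ R.reverse ++ [g]) = true := by
  decide

theorem rest3_sub : ∀ R ∈ rest3, R ∈ restB := fun R hR => List.mem_append_left _ hR

theorem g3_sub : ∀ g ∈ g3, g ∈ g4 := by decide

theorem hatU_kf : ∀ w ∈ hatU, uw (kf hatV S3) w = 1 := by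
  intro w hw
  unfold hatU at hw
  rw [List.mem_append, List.mem_append, List.mem_append] at hw
  rcases hw with ((hw | hw) | hw) | hw
  · have hn : okW S3 w = true := by
      revert w
      decide
    rw [uw_kf hatV S3 w hn]
    exact pg_rel hatV w (by
      revert w
      decide)
  · have hn : okW S3 w = true := by
      revert w
      decide
    rw [uw_kf hatV S3 w hn]
    exact pg_rel hatV w (by
      revert w
      decide)
  · rw [List.mem_flatMap] at hw
    obtain ⟨R, hR, hw⟩ := hw
    obtain ⟨g, hg, rfl⟩ := List.mem_map.1 hw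
    rw [uw_kf hatV S3 _ (okU_cen R hR g hg)]
    exact pg_rel hatV _ (mem_hatV_of_cen R (rest3_sub R hR) g (g3_sub g hg))
  · simp only [List.mem_cons, List.not_mem_nil, or_false] at hw
    rcases hw with rfl | rfl
    · rw [uw_cons, uw_nil, mul_one]
      exact kf_eq_of_not hatV S3 .d (by decide)
    · rw [uw_cons, uw_nil, mul_one]
      exact kf_eq_of_not hatV S3 .e (by decide)

/-- the covering group of `M₁₁` maps onto `⟨a, b, c⟩` -/
noncomputable def iU : Pr hatU →* Pr hatV := up hatU (kf hatV S3) hatU_kf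

theorem hatV_H3 : Finite (HS hatV S3) ∧ Nat.card (HS hatV S3) ≤ 15840 := by
  have h := card_HS_le hatV S3 iU (pg hatU) (fun x => up_pg hatU _ hatU_kf x) (closure_pg hatU)
  exact ⟨h.1, h.2.trans hatU_card_le⟩

theorem kv_rhyp : RHyp tc3kv_rd (HS hatV S3) (pg hatV) := by
  refine ⟨hatV_inv, h_gof_gi, by decide, fun p hp => wrapRow_of_le _ _ p hp, ?_, ?_, tc3kv_h0,
    by decide⟩
  · exact circTab_valid (pg hatV) hatV_inv _ (full_one hatV) tc3kv_circT tc3kv_ccert tc3kv_circ_ok
  · refine hcTab_valid (pg hatV) hatV_inv (HS hatV S3) tc3kv_rsw ?_ tc3kv_hc1T tc3kv_hc2T _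
      (fun c hc => allR_sound _ _ _ 0 tc3kv_hc_ok c (Nat.zero_le _) (by omega) hc)
    intro w hw
    simp only [tc3kv_rsw, List.mem_cons, List.not_mem_nil, or_false] at hw
    rcases hw with rfl | rfl | rfl
    · exact Subgroup.subset_closure ⟨.a, by decide, by simp [uw]⟩
    · exact Subgroup.subset_closure ⟨.b, by decide, by simp [uw]⟩
    · exact Subgroup.subset_closure ⟨.c, by decide, by simp [uw]⟩

theorem kv_index : Finite (Pr hatV ⧸ HS hatV S3) ∧ Nat.card (Pr hatV ⧸ HS hatV S3) ≤ 1288 :=
  replay_bound kv_rhyp h_gens_all (closure_pg hatV) (by decide) (by decide) tc3kv_rall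

instance hatV_finite : Finite (Pr hatV) := by
  have := kv_index.1
  have := hatV_H3.1
  exact Finite.of_equiv _ (Subgroup.groupEquivQuotientProdSubgroup (s := HS hatV S3)).symm

theorem hatV_card_le : Nat.card (Pr hatV) ≤ 20401920 := by
  rw [Subgroup.card_eq_card_quotient_mul_card_subgroup (HS hatV S3)]
  calc Nat.card (Pr hatV ⧸ HS hatV S3) * Nat.card (HS hatV S3) ≤ 1288 * 15840 :=
        Nat.mul_le_mul kv_index.2 hatV_H3.2
    _ = 20401920 := by norm_num

end Cfsg.Agent.H41.C3P
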