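import Cfsg.Agent.H41.C3TC.Kw.RAll
import Cfsg.Agent.H41.C3LemA

/-!
# The order of the covering presentation of the Conway group Co3: the top step (helper41)
-/

set_option autoImplicit false
set_option maxRecDepth 1000000

namespace Cfsg.Agent.H41.C3P

open Cfsg Cfsg.Agent.H35
open Cfsg.Agent.H41.SzP (dihedral_card_le)

/-! ### The covering presentation of `Co₃` -/

theorem okV_cen : ∀ R ∈ restB, ∀ g ∈ g4, okW S4 (R ++ [g] ++ R.reverse ++ [g]) = true := by
  decide

theorem restB_sub : ∀ R ∈ restB, R ∈ restA := fun R hR => List.mem_append_left _ hR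

theorem hatV_kf : ∀ w ∈ hatV, uw (kf hatW S4) w = 1 := by
  intro w hw
  unfold hatV at hw
  rw [List.mem_append, List.mem_append, List.mem_append] at hw
  rcases hw with ((hw | hw) | hw) | hw
  · have hn : okW S4 w = true := by
      revert w
      decide
    rw [uw_kf hatW S4 w hn]
    exact pg_rel hatW w (by
      revert w
      decide)
  · have hn : okW S4 w = true := by
      revert w
      decide
    rw [uw_kf hatW S4 w hn]
    exact pg_rel hatW w (by
      revert w
      decide)
  · rw [List.mem_flatMap] at hw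
    obtain ⟨R, hR, hw⟩ := hw
    obtain ⟨g, hg, rfl⟩ := List.mem_map.1 hw
    rw [uw_kf hatW S4 _ (okV_cen R hR g hg)]
    exact pg_rel hatW _ (mem_hatW_of_cen R (restB_sub R hR) g)
  · rw [List.mem_singleton] at hw
    subst hw
    rw [uw_cons, uw_nil, mul_one]
    exact kf_eq_of_not hatW S4 .e (by decide)

/-- the covering group of `M₂₃` maps onto `⟨a, b, c, d⟩` -/
noncomputable def iV : Pr hatV →* Pr hatW := up hatV (kf hatW S4) hatV_kf

theorem hatW_H4 : Finite (HS hatW S4) ∧ Nat.card (HS hatW S4) ≤ 20401920 := by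
  have h := card_HS_le hatW S4 iV (pg hatV) (fun x => up_pg hatV _ hatV_kf x) (closure_pg hatV)
  exact ⟨h.1, h.2.trans hatV_card_le⟩

theorem ky_rhyp : W.RHyp tc3kw_rd (HS hatY S4) (pg hatY) := by
  refine ⟨hatY_inv, h_gof_gi, by decide, fun p hp => wrapRow_of_le _ _ p hp, ?_, ?_, tc3kw_h0,
    by decide⟩
  · exact circTab_valid (pg hatY) hatY_inv _ (full_one hatY) tc3kw_circT tc3kw_ccert
      tc3kw_circ_ok
  · refine hcTab_valid (pg hatY) hatY_inv (HS hatY S4) tc3kw_rsw ?_ tc3kw_hc1T tc3kw_hc2T _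
      (fun c hc => allR_sound _ _ _ 0 tc3kw_hc_ok c (Nat.zero_le _) (by omega) hc)
    intro w hw
    simp only [tc3kw_rsw, List.mem_cons, List.not_mem_nil, or_false] at hw
    rcases hw with rfl | rfl | rfl | rfl
    · exact Subgroup.subset_closure ⟨.a, by decide, by simp [uw]⟩
    · exact Subgroup.subset_closure ⟨.b, by decide, by simp [uw]⟩
    · exact Subgroup.subset_closure ⟨.c, by decide, by simp [uw]⟩
    · exact Subgroup.subset_closure ⟨.d, by decide, by simp [uw]⟩

theorem ky_index : Finite (Pr hatY ⧸ HS hatY S4) ∧ Nat.card (Pr hatY ⧸ HS hatY S4) ≤ 48600 :=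
  W.replay_bound ky_rhyp h_gens_all (closure_pg hatY) (by decide) (by decide) tc3kw_rall

theorem kw_index : Finite (Pr hatW ⧸ HS hatW S4) ∧ Nat.card (Pr hatW ⧸ HS hatW S4) ≤ 48600 := by
  have hfin := ky_index.1
  have hne : (HS hatY S4).index ≠ 0 := Subgroup.index_ne_zero_of_finite
  have hne' : (HS hatW S4).index ≠ 0 := by rw [index_HS]; exact hne
  have hfi : (HS hatW S4).FiniteIndex := ⟨hne'⟩
  refine ⟨Subgroup.finite_quotient_of_finiteIndex, ?_⟩
  rw [← Subgroup.index_eq_card, index_HS, Subgroup.index_eq_card]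
  exact ky_index.2

instance hatW_finite : Finite (Pr hatW) := by
  have := kw_index.1
  have := hatW_H4.1
  exact Finite.of_equiv _ (Subgroup.groupEquivQuotientProdSubgroup (s := HS hatW S4)).symm

/-- the covering group has at most `2 · 495766656000` elements -/
theorem hatW_card_le : Nat.card (Pr hatW) ≤ 991533312000 := by
  rw [Subgroup.card_eq_card_quotient_mul_card_subgroup (HS hatW S4)]
  calc Nat.card (Pr hatW ⧸ HS hatW S4) * Nat.card (HS hatW S4) ≤ 48600 * 20401920 :=
        Nat.mul_le_mul kw_index.2 hatW_H4.2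
    _ = 991533312000 := by norm_num

end Cfsg.Agent.H41.C3P
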