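import Mathlib

/-!
# Lifting involutions through a central extension with the help of a Frobenius group (helper41)

Let `σ : Γ → G` have central kernel and let `a, x ∈ G` with `a² = 1 = x⁷`, such that the conjugates
`tᵢ = xⁱ a x⁻ⁱ` commute with `a` and `a t₁ = t₃` (so `⟨a, x⟩` is the Frobenius group `2³:7`).  Then
for lifts `s, y` of `a, x` the conjugates `yⁱ s y⁻ⁱ` commute with `s`, and the central element
`γ = (y³ s y⁻³)⁻¹ s (y s y⁻¹)` satisfies `γ² = s²`; hence `s γ⁻¹` is an involution lifting `a`.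
Also: normalising a lift along a dihedral group of twice odd order.
-/

set_option autoImplicit false

namespace Cfsg.Agent.H41.SzP

section Frob

variable {Γ : Type*} [Group Γ]

/-- the conjugate `x^i s x^-i` -/
def T (x s : Γ) (i : ℕ) : Γ := x ^ i * s * (x ^ i)⁻¹

theorem T_zero (x s : Γ) : T x s 0 = s := by simp [T]

theorem T_add (x s : Γ) (i j : ℕ) : T x s (i + j) = x ^ i * T x s j * (x ^ i)⁻¹ := by
  unfold T; rw [pow_add]; group

theorem T_mul_self (x s : Γ) (i : ℕ) : T x s i * T x s i = x ^ i * (s * s) * (x ^ i)⁻¹ := by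
  unfold T; group

theorem map_T {G : Type*} [Group G] (σ : Γ →* G) (x s : Γ) (i : ℕ) :
    σ (T x s i) = T (σ x) (σ s) i := by
  simp [T]

/-- central elements -/
def Cen (z : Γ) : Prop := ∀ g : Γ, z * g = g * z

theorem Cen.conj {z : Γ} (hz : Cen z) (g : Γ) : g * z * g⁻¹ = z := by
  rw [← hz g, mul_inv_cancel_right]

/-- the commutator with `s` -/
def K (s g : Γ) : Γ := s * g * s⁻¹ * g⁻¹

theorem K_eq_one {s g : Γ} : K s g = 1 ↔ s * g = g * s := by
  unfold K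
  constructor
  · intro h
    calc s * g = (s * g * s⁻¹ * g⁻¹) * (g * s) := by group
      _ = g * s := by rw [h, one_mul]
  · intro h
    rw [h]; group

theorem K_mul {s g h : Γ} (hh : Cen (K s h)) : K s (g * h) = K s g * K s h := by
  have e : K s (g * h) = K s g * (g * K s h * g⁻¹) := by unfold K; group
  rw [e, hh.conj]

theorem K_cen {s z : Γ} (hz : Cen z) : K s z = 1 := by
  unfold K
  rw [← hz s]; group

theorem K_mul_cen {s g z : Γ} (hz : Cen z) : K s (g * z) = K s g := by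
  have h1 : K s z = 1 := K_cen hz
  have h2 : Cen (K s z) := by rw [h1]; intro g; simp
  rw [K_mul h2, h1, mul_one]

theorem K_self (s : Γ) : K s s = 1 := by unfold K; group

theorem conj_K (y s g : Γ) : y * K s g * y⁻¹ = K (y * s * y⁻¹) (y * g * y⁻¹) := by
  unfold K; group

theorem K_symm (s g : Γ) : K g s = (K s g)⁻¹ := by unfold K; group

/-- **The Frobenius lemma.** -/
theorem frob {G : Type*} [Group G] (σ : Γ →* G) (hc : ∀ z, σ z = 1 → Cen z) (s x : Γ)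
    (h7 : σ x ^ 7 = 1) (hs : σ s * σ s = 1)
    (hκ : ∀ d, 1 ≤ d → d ≤ 5 → σ s * T (σ x) (σ s) d = T (σ x) (σ s) d * σ s)
    (hγ : σ s * T (σ x) (σ s) 1 = T (σ x) (σ s) 3) :
    (∀ d, 1 ≤ d → d ≤ 5 → s * T x s d = T x s d * s) ∧
    σ ((T x s 3)⁻¹ * (s * T x s 1)) = 1 ∧
    ((T x s 3)⁻¹ * (s * T x s 1)) * ((T x s 3)⁻¹ * (s * T x s 1)) = s * s := by
  have hx7 : Cen (x ^ 7) := hc _ (by rw [map_pow, h7])
  have hss : Cen (s * s) := hc _ (by rw [map_mul, hs])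
  have hk : ∀ d, 1 ≤ d → d ≤ 5 → σ (K s (T x s d)) = 1 := by
    intro d h1 h5
    unfold K
    rw [map_mul, map_mul, map_mul, map_inv, map_inv, map_T, hκ d h1 h5]
    group
  have hkc : ∀ d, 1 ≤ d → d ≤ 5 → Cen (K s (T x s d)) := fun d h1 h5 => hc _ (hk d h1 h5)
  obtain ⟨γ, hγdef⟩ : ∃ γ, γ = (T x s 3)⁻¹ * (s * T x s 1) := ⟨_, rfl⟩
  have hγ1 : σ γ = 1 := by
    rw [hγdef, map_mul, map_inv, map_mul, map_T, map_T, hγ]
    group
  have hγc : Cen γ := hc _ hγ1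
  have ht7 : T x s 7 = s := by
    show x ^ 7 * s * (x ^ 7)⁻¹ = s
    rw [hx7 s]; group
  have h0 : s * T x s 1 = T x s 3 * γ := by rw [hγdef]; group
  have tsq : ∀ d, T x s d * T x s d = s * s := by
    intro d
    rw [T_mul_self]
    exact hss.conj _
  have hF : ∀ i, T x s i * T x s (i + 1) = T x s (i + 3) * γ := by
    intro i
    have e1 : T x s i = x ^ i * s * (x ^ i)⁻¹ := rfl
    rw [T_add x s i 1, T_add x s i 3, e1]
    calc x ^ i * s * (x ^ i)⁻¹ * (x ^ i * T x s 1 * (x ^ i)⁻¹)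
        = x ^ i * (s * T x s 1) * (x ^ i)⁻¹ := by group
      _ = x ^ i * (T x s 3 * γ) * (x ^ i)⁻¹ := by rw [h0]
      _ = x ^ i * T x s 3 * (γ * (x ^ i)⁻¹) := by group
      _ = x ^ i * T x s 3 * ((x ^ i)⁻¹ * γ) := by rw [hγc]
      _ = x ^ i * T x s 3 * (x ^ i)⁻¹ * γ := by group
  have hB : ∀ i, 1 ≤ i → i + 1 ≤ 5 →
      K s (T x s (i + 3)) = K s (T x s i) * K s (T x s (i + 1)) := by
    intro i h1 h5
    have h : K s (T x s (i + 3) * γ) = K s (T x s (i + 3)) := K_mul_cen hγc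
    rw [← h, ← hF i, K_mul (hkc (i + 1) (by omega) h5)]
  have hB0 : K s (T x s 3) = K s (T x s 1) := by
    have h : K s (T x s 3 * γ) = K s (T x s 3) := K_mul_cen hγc
    have h' := hF 0
    rw [zero_add, zero_add, T_zero] at h'
    rw [← h, ← h', K_mul (hkc 1 le_rfl (by norm_num)), K_self, one_mul]
  have hsq : ∀ d, 1 ≤ d → d ≤ 5 → K s (T x s d) * K s (T x s d) = 1 := by
    intro d h1 h5
    rw [← K_mul (hkc d h1 h5), tsq]
    exact K_cen hss
  have hsym : ∀ d e, d + e = 7 → 1 ≤ d → d ≤ 5 → K s (T x s e) = (K s (T x s d))⁻¹ := by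
    intro d e hde h1 h5
    have h1' : x ^ e * K s (T x s d) * (x ^ e)⁻¹ = K (T x s e) (T x s (e + d)) := by
      rw [conj_K, T_add x s e d]
      rfl
    have h3 : T x s (e + d) = s := by rw [add_comm, hde]; exact ht7
    rw [(hkc d h1 h5).conj, h3, K_symm s (T x s e)] at h1'
    rw [h1', inv_inv]
  have k4 : K s (T x s 4) = K s (T x s 1) * K s (T x s 2) := hB 1 le_rfl (by norm_num)
  have k5 : K s (T x s 5) = K s (T x s 2) * K s (T x s 3) := hB 2 (by norm_num) (by norm_num)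
  have k4' : K s (T x s 4) = (K s (T x s 3))⁻¹ := hsym 3 4 rfl (by norm_num) (by norm_num)
  have k5' : K s (T x s 5) = (K s (T x s 2))⁻¹ := hsym 2 5 rfl (by norm_num) (by norm_num)
  have q1 := hsq 1 le_rfl (by norm_num)
  have e2 : K s (T x s 2) = 1 := by
    have h : K s (T x s 1) * K s (T x s 2) = (K s (T x s 1))⁻¹ := by rw [← k4, k4', hB0]
    have h' : K s (T x s 2) = (K s (T x s 1))⁻¹ * (K s (T x s 1))⁻¹ := by
      calc K s (T x s 2) = (K s (T x s 1))⁻¹ * (K s (T x s 1) * K s (T x s 2)) := by group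
        _ = (K s (T x s 1))⁻¹ * (K s (T x s 1))⁻¹ := by rw [h]
    rw [h', ← mul_inv_rev, q1, inv_one]
  have e3 : K s (T x s 3) = 1 := by
    have h : K s (T x s 2) * K s (T x s 3) = (K s (T x s 2))⁻¹ := by rw [← k5, k5']
    rw [e2, one_mul, inv_one] at h
    exact h
  have e1 : K s (T x s 1) = 1 := by rw [← hB0, e3]
  have e4 : K s (T x s 4) = 1 := by rw [k4, e1, e2, one_mul]
  have e5 : K s (T x s 5) = 1 := by rw [k5, e2, e3, one_mul]
  rw [← hγdef]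
  refine ⟨?_, hγ1, ?_⟩
  · intro d h1 h5
    apply K_eq_one.1
    interval_cases d <;> assumption
  · have hc1 : s * T x s 1 = T x s 1 * s := K_eq_one.1 e1
    have hA : (s * T x s 1) * (s * T x s 1) = (s * s) * (s * s) := by
      calc (s * T x s 1) * (s * T x s 1) = s * (T x s 1 * s) * T x s 1 := by group
        _ = s * (s * T x s 1) * T x s 1 := by rw [hc1]
        _ = (s * s) * (T x s 1 * T x s 1) := by group
        _ = (s * s) * (s * s) := by rw [tsq]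
    have hB' : (T x s 3 * γ) * (T x s 3 * γ) = (s * s) * (γ * γ) := by
      calc (T x s 3 * γ) * (T x s 3 * γ) = T x s 3 * (γ * T x s 3) * γ := by group
        _ = T x s 3 * (T x s 3 * γ) * γ := by rw [hγc]
        _ = (T x s 3 * T x s 3) * (γ * γ) := by group
        _ = (s * s) * (γ * γ) := by rw [tsq]
    rw [h0, hB'] at hA
    exact mul_left_cancel hA

theorem Cen.inv {z : Γ} (hz : Cen z) : Cen z⁻¹ := by
  intro g
  calc z⁻¹ * g = z⁻¹ * (g * z) * z⁻¹ := by group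
    _ = z⁻¹ * (z * g) * z⁻¹ := by rw [hz g]
    _ = g * z⁻¹ := by group

theorem Cen.pow {z : Γ} (hz : Cen z) (n : ℕ) : Cen (z ^ n) := by
  intro g
  have h : Commute z g := hz g
  exact h.pow_left n

theorem T_mul_cen (y s w : Γ) (hw : Cen w) (d : ℕ) : T y (s * w) d = T y s d * w := by
  unfold T
  calc y ^ d * (s * w) * (y ^ d)⁻¹ = y ^ d * s * (w * (y ^ d)⁻¹) := by group
    _ = y ^ d * s * ((y ^ d)⁻¹ * w) := by rw [hw]
    _ = y ^ d * s * (y ^ d)⁻¹ * w := by group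

theorem T_cen_mul (y z s : Γ) (hz : Cen z) (d : ℕ) : T (y * z) s d = T y s d := by
  unfold T
  have h : Commute y z := (hz y).symm
  rw [h.mul_pow]
  have hzd := hz.pow d
  calc y ^ d * z ^ d * s * (y ^ d * z ^ d)⁻¹
      = y ^ d * (z ^ d * s) * (z ^ d)⁻¹ * (y ^ d)⁻¹ := by group
    _ = y ^ d * (s * z ^ d) * (z ^ d)⁻¹ * (y ^ d)⁻¹ := by rw [hzd s]
    _ = y ^ d * s * (y ^ d)⁻¹ := by group

/-- a central power of a product of two involutions is an involution -/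
theorem dih_sq (u v : Γ) (hu : u * u = 1) (hv : v * v = 1) (n : ℕ) (hcen : Cen ((u * v) ^ n)) :
    (u * v) ^ n * (u * v) ^ n = 1 := by
  have hui : u⁻¹ = u := inv_eq_of_mul_eq_one_left hu
  have hvi : v⁻¹ = v := inv_eq_of_mul_eq_one_left hv
  have h1 : u * (u * v) * u⁻¹ = (u * v)⁻¹ := by
    rw [mul_inv_rev, hui, hvi]
    calc u * (u * v) * u = (u * u) * v * u := by group
      _ = v * u := by rw [hu, one_mul]
  have h2 : u * (u * v) ^ n * u⁻¹ = ((u * v) ^ n)⁻¹ := by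
    rw [← conj_pow, h1, inv_pow]
  rw [hcen.conj] at h2
  calc (u * v) ^ n * (u * v) ^ n = (u * v) ^ n * ((u * v) ^ n)⁻¹ := by rw [← h2]
    _ = 1 := mul_inv_cancel _

/-- two involutions whose product has order dividing seven are conjugate -/
theorem conj7 {G : Type*} [Group G] (a b : G) (ha : a * a = 1) (hb : b * b = 1)
    (h : (a * b) ^ 7 = 1) : (a * b) ^ 3 * a * ((a * b) ^ 3)⁻¹ = b := by
  have hai : a⁻¹ = a := inv_eq_of_mul_eq_one_left ha
  have hbi : b⁻¹ = b := inv_eq_of_mul_eq_one_left hb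
  have e : (a * b) ^ 3 * a * ((a * b) ^ 3)⁻¹ * b = (a * b) ^ 7 := by
    simp only [pow_succ, pow_zero, one_mul, mul_inv_rev, hai, hbi, mul_assoc]
  rw [h] at e
  rw [eq_inv_of_mul_eq_one_left e, hbi]

/-- normalising a lift along a dihedral group of order `14` -/
theorem dih_lift {G : Type*} [Group G] (σ : Γ →* G) (hsurj : Function.Surjective σ)
    (hc : ∀ z, σ z = 1 → Cen z) (u : Γ) (hu : u * u = 1) (b : G) (hb : b * b = 1)
    (h7 : (σ u * b) ^ 7 = 1) :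
    ∃ v : Γ, σ v = b ∧ v * v = 1 ∧ (u * v) ^ 7 = 1 := by
  obtain ⟨b0, hb0⟩ := hsurj b
  obtain ⟨g, hg⟩ : ∃ g : Γ, g = (u * b0) ^ 3 := ⟨_, rfl⟩
  obtain ⟨v1, hv1⟩ : ∃ v1 : Γ, v1 = g * u * g⁻¹ := ⟨_, rfl⟩
  have hσu : σ u * σ u = 1 := by rw [← map_mul, hu, map_one]
  have hσv1 : σ v1 = b := by
    rw [hv1, hg, map_mul, map_mul, map_inv, map_pow, map_mul, hb0]
    exact conj7 (σ u) b hσu hb h7
  have hv1sq : v1 * v1 = 1 := by
    rw [hv1]
    calc g * u * g⁻¹ * (g * u * g⁻¹) = g * (u * u) * g⁻¹ := by group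
      _ = 1 := by rw [hu]; group
  have hr : σ ((u * v1) ^ 7) = 1 := by rw [map_pow, map_mul, hσv1, h7]
  have hrc : Cen ((u * v1) ^ 7) := hc _ hr
  have hrsq := dih_sq u v1 hu hv1sq 7 hrc
  obtain ⟨r, hrdef⟩ : ∃ r : Γ, r = (u * v1) ^ 7 := ⟨_, rfl⟩
  rw [← hrdef] at hr hrc hrsq
  refine ⟨v1 * r, ?_, ?_, ?_⟩
  · rw [map_mul, hσv1, hr, mul_one]
  · calc v1 * r * (v1 * r) = v1 * (r * v1) * r := by group
      _ = v1 * (v1 * r) * r := by rw [hrc]
      _ = (v1 * v1) * (r * r) := by group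
      _ = 1 := by rw [hv1sq, hrsq, one_mul]
  · have hcm : Commute (u * v1) r := (hrc (u * v1)).symm
    have e : u * (v1 * r) = u * v1 * r := by group
    rw [e, hcm.mul_pow, ← hrdef]
    have h8 : r * r ^ 7 = (r * r) ^ 4 := by rw [← pow_two, ← pow_mul, ← pow_succ']
    rw [h8, hrsq, one_pow]

/-- **Involutions of the Frobenius group lift to involutions**, and the lift satisfies the
Frobenius relations exactly, for every lift of the element of order seven. -/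
theorem frob_lift {G : Type*} [Group G] (σ : Γ →* G) (hsurj : Function.Surjective σ)
    (hc : ∀ z, σ z = 1 → Cen z) (a x : G) (h7 : x ^ 7 = 1) (ha : a * a = 1)
    (hκ : ∀ d, 1 ≤ d → d ≤ 5 → a * T x a d = T x a d * a) (hγ : a * T x a 1 = T x a 3) :
    ∃ s : Γ, σ s = a ∧ s * s = 1 ∧ ∀ y : Γ, σ y = x →
      (∀ d, 1 ≤ d → d ≤ 5 → s * T y s d = T y s d * s) ∧ s * T y s 1 = T y s 3 := by
  obtain ⟨s0, hs0⟩ := hsurj a
  obtain ⟨x0, hx0⟩ := hsurj x
  obtain ⟨hC, hγ1, hγsq⟩ := frob σ hc s0 x0 (by rw [hx0]; exact h7) (by rw [hs0]; exact ha)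
    (by rw [hs0, hx0]; exact hκ) (by rw [hs0, hx0]; exact hγ)
  obtain ⟨γ, hγdef⟩ : ∃ γ, γ = (T x0 s0 3)⁻¹ * (s0 * T x0 s0 1) := ⟨_, rfl⟩
  rw [← hγdef] at hγ1 hγsq
  have hγc : Cen γ := hc _ hγ1
  have hwc : Cen γ⁻¹ := hγc.inv
  have h0 : s0 * T x0 s0 1 = T x0 s0 3 * γ := by rw [hγdef]; group
  refine ⟨s0 * γ⁻¹, by rw [map_mul, map_inv, hγ1, hs0, inv_one, mul_one], ?_, ?_⟩
  · calc s0 * γ⁻¹ * (s0 * γ⁻¹) = s0 * (γ⁻¹ * s0) * γ⁻¹ := by group
      _ = s0 * (s0 * γ⁻¹) * γ⁻¹ := by rw [hwc]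
      _ = (s0 * s0) * (γ * γ)⁻¹ := by group
      _ = 1 := by rw [hγsq, mul_inv_cancel]
  · intro y hy
    have hz : Cen (x0⁻¹ * y) := hc _ (by rw [map_mul, map_inv, hx0, hy, inv_mul_cancel])
    have hT : ∀ d, T y (s0 * γ⁻¹) d = T x0 s0 d * γ⁻¹ := by
      intro d
      have e : y = x0 * (x0⁻¹ * y) := by group
      rw [e, T_cen_mul x0 _ _ hz, T_mul_cen x0 s0 _ hwc]
    constructor
    · intro d h1 h5
      rw [hT]
      calc s0 * γ⁻¹ * (T x0 s0 d * γ⁻¹) = s0 * (γ⁻¹ * T x0 s0 d) * γ⁻¹ := by group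
        _ = s0 * (T x0 s0 d * γ⁻¹) * γ⁻¹ := by rw [hwc]
        _ = (s0 * T x0 s0 d) * γ⁻¹ * γ⁻¹ := by group
        _ = (T x0 s0 d * s0) * γ⁻¹ * γ⁻¹ := by rw [hC d h1 h5]
        _ = T x0 s0 d * (s0 * γ⁻¹) * γ⁻¹ := by group
        _ = T x0 s0 d * (γ⁻¹ * s0) * γ⁻¹ := by rw [hwc]
        _ = T x0 s0 d * γ⁻¹ * (s0 * γ⁻¹) := by group
    · rw [hT, hT]
      calc s0 * γ⁻¹ * (T x0 s0 1 * γ⁻¹) = s0 * (γ⁻¹ * T x0 s0 1) * γ⁻¹ := by group
        _ = s0 * (T x0 s0 1 * γ⁻¹) * γ⁻¹ := by rw [hwc]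
        _ = (s0 * T x0 s0 1) * γ⁻¹ * γ⁻¹ := by group
        _ = (T x0 s0 3 * γ) * γ⁻¹ * γ⁻¹ := by rw [h0]
        _ = T x0 s0 3 * γ⁻¹ := by group

end Frob

end Cfsg.Agent.H41.SzP
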