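import Cfsg.Agent.H41.C3OrderW
import Cfsg.Agent.H41.SzLift
import Cfsg.Agent.H91.TitsStep
import Cfsg.Agent.H91.TitsCount
import Cfsg.Prelude.Def_KGroupFacts

/-!
# Stem extensions of a group carrying the covering presentation of Co3 (helper41)

Let `G` be a perfect group with at least `495766656000` elements generated by involutions
`a, b, c, d, e` which satisfy the tree relators `(ab)⁵ = (ac)⁵ = (ad)⁵ = (ae)⁵ = 1` and the further
relators of `C3Glue`.  Then every stem extension `σ : Γ → G` is injective (the argument of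
`TitsTwist`, with helper91's `odd_step` and `comm_inj`).
-/

set_option autoImplicit false
set_option maxRecDepth 1000000

namespace Cfsg.Agent.H41.C3P

open Cfsg Cfsg.Agent.H35
open Cfsg.Agent.H41.SzP (Cen)
open scoped commutatorElement

/-! ### Word evaluation -/

theorem ev_AB {K : Type*} [Group K] (f : Gen → K) : uw f wAB = (f .a * f .b) ^ 5 := by
  simp [wAB, uw, pow_succ, mul_assoc]

theorem ev_AC {K : Type*} [Group K] (f : Gen → K) : uw f wAC = (f .a * f .c) ^ 5 := by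
  simp [wAC, uw, pow_succ, mul_assoc]

theorem ev_AD {K : Type*} [Group K] (f : Gen → K) : uw f wAD = (f .a * f .d) ^ 5 := by
  simp [wAD, uw, pow_succ, mul_assoc]

theorem ev_AE {K : Type*} [Group K] (f : Gen → K) : uw f wAE = (f .a * f .e) ^ 5 := by
  simp [wAE, uw, pow_succ, mul_assoc]

theorem uw_const {K : Type*} [Group K] (c : K) (w : List Gen) :
    uw (fun _ => c) w = c ^ w.length := by
  induction w with
  | nil => simp [uw]
  | cons x w ih => rw [uw_cons, ih, List.length_cons, pow_succ']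

theorem cen_rel' {K : Type*} [Group K] (f : Gen → K) (hf : ∀ x, f x * f x = 1) (R : List Gen)
    (g : Gen) (h : uw f R * f g = f g * uw f R) : uw f (R ++ [g] ++ R.reverse ++ [g]) = 1 := by
  have hx : uw f [g] = f g := by simp [uw]
  rw [uw_append, uw_append, uw_append, uw_reverse f hf, hx, h, mul_assoc (f g),
    mul_inv_cancel, mul_one]
  exact hf g

/-- a commutator relator is trivial when the word is -/
theorem cen_rel {K : Type*} [Group K] (f : Gen → K) (hf : ∀ x, f x * f x = 1) (R : List Gen)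
    (hR : uw f R = 1) (g : Gen) : uw f (R ++ [g] ++ R.reverse ++ [g]) = 1 := by
  have hx : uw f [g] = f g := by simp [uw]
  rw [uw_append, uw_append, uw_append, uw_reverse f hf, hx, hR]
  simp [hf g]


theorem sq5_form : ∀ w ∈ sq5, ∃ g ∈ h_gens, w = [g, g] := by decide

theorem hatW_even : ∀ w ∈ hatW, w.length % 2 = 0 := by decide +kernel

/-! ### Twisted lifts -/

/-- conjugate lifts of the generators with a common central square `z`, for which the tree
relators hold up to powers of `z` -/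
theorem tw_lifts {Γ G : Type*} [Group Γ] [Group G] (σ : Γ →* G)
    (hsurj : Function.Surjective σ) (hc : ∀ k, σ k = 1 → Cen k) (gG : Gen → G)
    (hsq : ∀ x, gG x * gG x = 1) (hAB : (gG .a * gG .b) ^ 5 = 1)
    (hAC : (gG .a * gG .c) ^ 5 = 1) (hAD : (gG .a * gG .d) ^ 5 = 1)
    (hAE : (gG .a * gG .e) ^ 5 = 1) :
    ∃ (x : Gen → Γ) (z : Γ), Cen z ∧ (∀ g, σ (x g) = gG g) ∧ (∀ g, x g * x g = z) ∧
      (x .a * x .b) ^ 5 = z ^ 5 ∧ (x .a * x .c) ^ 5 = z ^ 5 ∧ (x .a * x .d) ^ 5 = z ^ 5 ∧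
      (x .a * x .e) ^ 5 = z ^ 5 := by
  choose y hy using fun g => hsurj (gG g)
  obtain ⟨xa, hxa⟩ : ∃ xa, xa = y .a := ⟨_, rfl⟩
  have hσa : σ xa = gG .a := by rw [hxa, hy]
  obtain ⟨z, hzdef⟩ : ∃ z, z = xa * xa := ⟨_, rfl⟩
  have hz : Cen z := hc z (by rw [hzdef, map_mul, hσa, hsq])
  obtain ⟨xb, hσb, hbb, hab⟩ := Cfsg.Agent.H91.TitsPc.odd_step σ hc xa (y .b) z 2 hz hzdef.symm
    (by rw [hσa]; exact hsq _) (by rw [hy]; exact hsq _) (by rw [hσa, hy]; exact hAB)
  rw [hy] at hσb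
  obtain ⟨xc, hσc, hcc, hac⟩ := Cfsg.Agent.H91.TitsPc.odd_step σ hc xa (y .c) z 2 hz hzdef.symm
    (by rw [hσa]; exact hsq _) (by rw [hy]; exact hsq _) (by rw [hσa, hy]; exact hAC)
  rw [hy] at hσc
  obtain ⟨xd, hσd, hdd, had⟩ := Cfsg.Agent.H91.TitsPc.odd_step σ hc xa (y .d) z 2 hz hzdef.symm
    (by rw [hσa]; exact hsq _) (by rw [hy]; exact hsq _) (by rw [hσa, hy]; exact hAD)
  rw [hy] at hσd
  obtain ⟨xe, hσe, hee, hae⟩ := Cfsg.Agent.H91.TitsPc.odd_step σ hc xa (y .e) z 2 hz hzdef.symm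
    (by rw [hσa]; exact hsq _) (by rw [hy]; exact hsq _) (by rw [hσa, hy]; exact hAE)
  rw [hy] at hσe
  refine ⟨fun g => Gen.rec (motive := fun _ => Γ) xa xb xc xd xe g, z, hz, ?_, ?_, hab, hac, had,
    hae⟩
  · intro g
    cases g
    · exact hσa
    · exact hσb
    · exact hσc
    · exact hσd
    · exact hσe
  · intro g
    cases g
    · exact hzdef.symm
    · exact hbb
    · exact hcc
    · exact hdd
    · exact hee

/-! ### Two sheets -/

section Sheets

variable {Γ : Type*} [Group Γ]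

/-- left multiplication on both sheets -/
def lmul : Γ →* Equiv.Perm (Γ × Bool) where
  toFun k :=
    { toFun := fun p => (k * p.1, p.2)
      invFun := fun p => (k⁻¹ * p.1, p.2)
      left_inv := fun p => by simp
      right_inv := fun p => by simp }
  map_one' := Equiv.ext fun p => by simp
  map_mul' a b := Equiv.ext fun p => by simp [mul_assoc]

theorem lmul_apply (k : Γ) (p : Γ × Bool) : lmul k p = (k * p.1, p.2) := rfl

/-- the sheet swap, a square root of the left multiplication by `z⁻¹` -/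
def omg (z : Γ) : Equiv.Perm (Γ × Bool) where
  toFun p := if p.2 then (p.1, false) else (z⁻¹ * p.1, true)
  invFun p := if p.2 then (z * p.1, false) else (p.1, true)
  left_inv := by rintro ⟨h, b⟩; cases b <;> simp
  right_inv := by rintro ⟨h, b⟩; cases b <;> simp

theorem omg_apply (z : Γ) (p : Γ × Bool) :
    omg z p = if p.2 then (p.1, false) else (z⁻¹ * p.1, true) := rfl

theorem omg_lmul (z : Γ) (hz : Cen z) (k : Γ) : omg z * lmul k = lmul k * omg z := by
  apply Equiv.ext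
  rintro ⟨h, b⟩
  have e : z⁻¹ * (k * h) = k * (z⁻¹ * h) := by
    rw [← mul_assoc, ← mul_assoc, hz.inv k]
  cases b <;> simp [Equiv.Perm.mul_apply, omg_apply, lmul_apply, e]

theorem omg_sq (z : Γ) : omg z * omg z = lmul z⁻¹ := by
  apply Equiv.ext
  rintro ⟨h, b⟩
  cases b <;> rfl

theorem lmul_inj : Function.Injective (lmul (Γ := Γ)) := by
  intro a b h
  have h1 := congrArg (fun f : Equiv.Perm (Γ × Bool) => (f (1, false)).1) h
  simpa [lmul_apply] using h1

theorem omg_not_range (z : Γ) : omg z ∉ (lmul (Γ := Γ)).range := by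
  rintro ⟨k, hk⟩
  have h1 := congrArg (fun f : Equiv.Perm (Γ × Bool) => (f (1, true)).2) hk
  simp [lmul_apply, omg_apply] at h1

end Sheets

theorem uw_tw {Γ T : Type*} [Group Γ] [Group T] (L : Γ →* T) (Ω : T)
    (hΩ : ∀ k, Ω * L k = L k * Ω) (x : Gen → Γ) (w : List Gen) :
    uw (fun g => L (x g) * Ω) w = L (uw x w) * Ω ^ w.length := by
  induction w with
  | nil => simp [uw]
  | cons g w ih =>
    rw [uw_cons, uw_cons, ih, List.length_cons, pow_succ', map_mul]
    calc L (x g) * Ω * (L (uw x w) * Ω ^ w.length)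
        = L (x g) * (Ω * L (uw x w)) * Ω ^ w.length := by simp only [mul_assoc]
      _ = L (x g) * L (uw x w) * (Ω * Ω ^ w.length) := by rw [hΩ]; simp only [mul_assoc]

/-! ### Commutators -/

theorem comm_right {T : Type*} [Group T] (Y B Q : T) (hY : Q * Y = Y * Q) :
    ⁅Y, B * Q⁆ = ⁅Y, B⁆ := by
  rw [commutatorElement_def, commutatorElement_def, mul_inv_rev]
  have h : Q * Y⁻¹ = Y⁻¹ * Q := by
    calc Q * Y⁻¹ = Y⁻¹ * (Y * Q) * Y⁻¹ := by group
      _ = Y⁻¹ * (Q * Y) * Y⁻¹ := by rw [hY]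
      _ = Y⁻¹ * Q := by group
  calc Y * (B * Q) * Y⁻¹ * (Q⁻¹ * B⁻¹) = Y * B * (Q * Y⁻¹) * Q⁻¹ * B⁻¹ := by group
    _ = Y * B * (Y⁻¹ * Q) * Q⁻¹ * B⁻¹ := by rw [h]
    _ = Y * B * Y⁻¹ * B⁻¹ := by group

theorem comm_tw {T : Type*} [Group T] (A B P Q : T) (hQA : Q * A = A * Q) (hQP : Q * P = P * Q)
    (hPB : P * B = B * P) : ⁅A * P, B * Q⁆ = ⁅A, B⁆ := by
  have h1 : ⁅A * P, B * Q⁆ = ⁅A * P, B⁆ := comm_right _ _ _ (by
    rw [← mul_assoc, hQA, mul_assoc, hQP, ← mul_assoc])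
  have h2 : ⁅B, A * P⁆ = ⁅B, A⁆ := comm_right _ _ _ hPB
  rw [h1, ← commutatorElement_inv, h2, commutatorElement_inv]

/-! ### The theorem -/

/-- **Stem extensions are injective.** -/
theorem stem_trivial {G : Type*} [Group G] (gG : Gen → G) (hsq : ∀ x, gG x * gG x = 1)
    (htree : ∀ w ∈ tree5, uw gG w = 1) (hrest : ∀ w ∈ restA, uw gG w = 1)
    (hgen : Subgroup.closure (Set.range gG) = ⊤) (hperf : commutator G = ⊤)
    (hcard : 495766656000 ≤ Nat.card G)
    (Γ : Type*) [Group Γ] (σ : Γ →* G) (hσ : IsStemExtension σ) : ∀ α : Γ, σ α = 1 → α = 1 := by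
  obtain ⟨hsurj, hcen, hcomm⟩ := hσ
  have hc : ∀ k, σ k = 1 → Cen k := fun k hk g =>
    (Subgroup.mem_center_iff.1 (hcen (MonoidHom.mem_ker.2 hk)) g).symm
  have hAB : (gG .a * gG .b) ^ 5 = 1 := by
    rw [← ev_AB]; exact htree _ (by decide)
  have hAC : (gG .a * gG .c) ^ 5 = 1 := by
    rw [← ev_AC]; exact htree _ (by decide)
  have hAD : (gG .a * gG .d) ^ 5 = 1 := by
    rw [← ev_AD]; exact htree _ (by decide)
  have hAE : (gG .a * gG .e) ^ 5 = 1 := by
    rw [← ev_AE]; exact htree _ (by decide)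
  have hGrel : ∀ w ∈ hatW, uw gG w = 1 := by
    intro w hw
    unfold hatW at hw
    rw [List.mem_append, List.mem_append] at hw
    rcases hw with (hw | hw) | hw
    · obtain ⟨g, -, rfl⟩ := sq5_form w hw
      simpa [uw] using hsq g
    · exact htree w hw
    · rw [List.mem_flatMap] at hw
      obtain ⟨R, hR, hw⟩ := hw
      obtain ⟨g, -, rfl⟩ := List.mem_map.1 hw
      exact cen_rel gG hsq R (hrest R hR) g
  obtain ⟨ψ, hψ⟩ : ∃ ψ : Pr hatW →* G, ∀ g, ψ (pg hatW g) = gG g :=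
    ⟨up hatW gG hGrel, up_pg hatW gG hGrel⟩
  have hψsurj : Function.Surjective ψ := by
    rw [← MonoidHom.range_eq_top, eq_top_iff, ← hgen, Subgroup.closure_le]
    rintro _ ⟨x, rfl⟩
    exact ⟨pg hatW x, hψ x⟩
  have hsgnrel : ∀ w ∈ hatW,
      uw (fun _ : Gen => (Multiplicative.ofAdd (1 : ZMod 2))) w = 1 := by
    intro w hw
    rw [uw_const]
    have hlen : w.length % 2 = 0 := hatW_even w hw
    obtain ⟨m, hm⟩ : ∃ m, w.length = 2 * m := ⟨w.length / 2, by omega⟩
    rw [hm, pow_mul]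
    have h2 : (Multiplicative.ofAdd (1 : ZMod 2)) ^ 2 = 1 := by decide
    rw [h2, one_pow]
  obtain ⟨sgn, hsgn⟩ : ∃ s : Pr hatW →* Multiplicative (ZMod 2),
      ∀ g, s (pg hatW g) = Multiplicative.ofAdd 1 :=
    ⟨up hatW _ hsgnrel, up_pg hatW _ hsgnrel⟩
  have hsgnsurj : Function.Surjective sgn := by
    intro y
    have hy : y = 1 ∨ y = Multiplicative.ofAdd 1 := by
      revert y
      decide
    rcases hy with rfl | rfl
    · exact ⟨1, map_one _⟩
    · exact ⟨pg hatW .a, hsgn .a⟩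
  have hinj := Cfsg.Agent.H91.TitsPc.comm_inj ψ hψsurj sgn hsgnsurj hperf (by
    have := hatW_card_le
    omega)
  obtain ⟨x, z, hz, hσx, hxx, hab, hac, had, hae⟩ :=
    tw_lifts σ hsurj hc gG hsq hAB hAC hAD hAE
  obtain ⟨L, hL⟩ : ∃ L : Γ →* Equiv.Perm (Γ × Bool), L = lmul := ⟨_, rfl⟩
  obtain ⟨Ω, hΩdef⟩ : ∃ Ω : Equiv.Perm (Γ × Bool), Ω = omg z := ⟨_, rfl⟩
  have hΩ : ∀ k, Ω * L k = L k * Ω := fun k => by rw [hΩdef, hL]; exact omg_lmul z hz k
  have hΩ2 : Ω * Ω = L z⁻¹ := by rw [hΩdef, hL]; exact omg_sq z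
  have hLinj : Function.Injective L := by rw [hL]; exact lmul_inj
  have hfun : (fun g => σ (x g)) = gG := funext hσx
  obtain ⟨S, hSdef⟩ : ∃ S : Gen → Equiv.Perm (Γ × Bool), S = fun g => L (x g) * Ω := ⟨_, rfl⟩
  have hSg : ∀ g, S g = L (x g) * Ω := fun g => by rw [hSdef]
  have hSw : ∀ w, uw S w = L (uw x w) * Ω ^ w.length := fun w => by
    rw [hSdef]; exact uw_tw L Ω hΩ x w
  have hΩpow : ∀ n : ℕ, Ω ^ (2 * n) = L (z⁻¹ ^ n) := fun n => by
    rw [pow_mul, pow_two, hΩ2, map_pow]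
  have hS : ∀ g, S g * S g = 1 := by
    intro g
    have h := hSw [g, g]
    have e : uw S [g, g] = S g * S g := by simp [uw]
    have e2 : uw x [g, g] = z := by simp [uw, hxx]
    rw [e, e2] at h
    rw [h]
    show L z * Ω ^ 2 = 1
    rw [pow_two, hΩ2, ← map_mul, mul_inv_cancel, map_one]
  have hcenrel : ∀ R ∈ restA, ∀ g, uw S (R ++ [g] ++ R.reverse ++ [g]) = 1 := by
    intro R hR g
    apply cen_rel' S hS
    have hRc : Cen (uw x R) := hc _ (by
      rw [map_uw, hfun]; exact hrest R hR)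
    rw [hSw, hSg]
    have c1 : Commute (L (uw x R)) (L (x g)) := by
      show L (uw x R) * L (x g) = L (x g) * L (uw x R)
      rw [← map_mul, ← map_mul, hRc (x g)]
    have c2 : Commute (L (uw x R)) Ω := (hΩ _).symm
    have c3 : Commute (Ω ^ R.length) (L (x g)) :=
      Commute.pow_left (show Commute Ω (L (x g)) from hΩ _) _
    have c4 : Commute (Ω ^ R.length) Ω := Commute.pow_left (Commute.refl Ω) _
    exact ((c1.mul_right c2).mul_left (c3.mul_right c4)).eq
  have htreeS : ∀ w ∈ tree5, uw S w = 1 := by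
    intro w hw
    simp only [tree5, tree4, tree3, List.mem_append, List.mem_cons, List.not_mem_nil,
      or_false] at hw
    rcases hw with ((rfl | rfl) | rfl) | rfl
    · rw [hSw, ev_AB, hab]
      show L (z ^ 5) * Ω ^ (2 * 5) = 1
      rw [hΩpow, ← map_mul, inv_pow, mul_inv_cancel, map_one]
    · rw [hSw, ev_AC, hac]
      show L (z ^ 5) * Ω ^ (2 * 5) = 1
      rw [hΩpow, ← map_mul, inv_pow, mul_inv_cancel, map_one]
    · rw [hSw, ev_AD, had]
      show L (z ^ 5) * Ω ^ (2 * 5) = 1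
      rw [hΩpow, ← map_mul, inv_pow, mul_inv_cancel, map_one]
    · rw [hSw, ev_AE, hae]
      show L (z ^ 5) * Ω ^ (2 * 5) = 1
      rw [hΩpow, ← map_mul, inv_pow, mul_inv_cancel, map_one]
  have hrel : ∀ w ∈ hatW, uw S w = 1 := by
    intro w hw
    unfold hatW at hw
    rw [List.mem_append, List.mem_append] at hw
    rcases hw with (hw | hw) | hw
    · obtain ⟨g, -, rfl⟩ := sq5_form w hw
      simpa [uw] using hS g
    · exact htreeS w hw
    · rw [List.mem_flatMap] at hw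
      obtain ⟨R, hR, hw⟩ := hw
      obtain ⟨g, -, rfl⟩ := List.mem_map.1 hw
      exact hcenrel R hR g
  obtain ⟨φ, hφ⟩ : ∃ φ : Pr hatW →* Equiv.Perm (Γ × Bool), ∀ g, φ (pg hatW g) = S g :=
    ⟨up hatW S hrel, up_pg hatW S hrel⟩
  have hrep : ∀ e : Pr hatW, ∃ k : Γ, ∃ n : ℤ, φ e = L k * Ω ^ n ∧ σ k = ψ e := by
    intro e
    have he : e ∈ Subgroup.closure (Set.range (pg hatW)) := by rw [closure_pg]; trivial
    induction he using Subgroup.closure_induction with
    | mem y hy =>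
      obtain ⟨g, rfl⟩ := hy
      exact ⟨x g, 1, by rw [hφ, hSg, zpow_one], by rw [hσx, hψ]⟩
    | one => exact ⟨1, 0, by simp, by simp⟩
    | mul a b _ _ iha ihb =>
      obtain ⟨k1, n1, h1, h1'⟩ := iha
      obtain ⟨k2, n2, h2, h2'⟩ := ihb
      refine ⟨k1 * k2, n1 + n2, ?_, by rw [map_mul, map_mul, h1', h2']⟩
      have hcm : Ω ^ n1 * L k2 = L k2 * Ω ^ n1 :=
        (Commute.zpow_left (show Commute Ω (L k2) from hΩ k2) n1).eq
      rw [map_mul, h1, h2, map_mul, zpow_add]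
      calc L k1 * Ω ^ n1 * (L k2 * Ω ^ n2) = L k1 * (Ω ^ n1 * L k2) * Ω ^ n2 := by
            simp only [mul_assoc]
        _ = L k1 * L k2 * (Ω ^ n1 * Ω ^ n2) := by rw [hcm]; simp only [mul_assoc]
    | inv a _ iha =>
      obtain ⟨k, n, h, h'⟩ := iha
      refine ⟨k⁻¹, -n, ?_, by rw [map_inv, map_inv, h']⟩
      have hcm : Commute (Ω ^ n) (L k) :=
        Commute.zpow_left (show Commute Ω (L k) from hΩ k) n
      rw [map_inv, h, mul_inv_rev, map_inv, zpow_neg]
      exact hcm.inv_inv.eq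
  have hM : commutator Γ ≤
      Subgroup.comap (L.prod σ) (Subgroup.map (φ.prod ψ) (commutator (Pr hatW))) := by
    rw [commutator_def, Subgroup.commutator_le]
    intro g1 _ g2 _
    obtain ⟨e1, he1⟩ := hψsurj (σ g1)
    obtain ⟨e2, he2⟩ := hψsurj (σ g2)
    obtain ⟨k1, n1, h1, h1'⟩ := hrep e1
    obtain ⟨k2, n2, h2, h2'⟩ := hrep e2
    have hz1 : Cen (k1⁻¹ * g1) := hc _ (by rw [map_mul, map_inv, h1', he1, inv_mul_cancel])
    have hz2 : Cen (k2⁻¹ * g2) := hc _ (by rw [map_mul, map_inv, h2', he2, inv_mul_cancel])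
    have eg1 : k1 * (k1⁻¹ * g1) = g1 := by group
    have eg2 : k2 * (k2⁻¹ * g2) = g2 := by group
    have hgk : ⁅g1, g2⁆ = ⁅k1, k2⁆ := by
      have h := comm_tw k1 k2 (k1⁻¹ * g1) (k2⁻¹ * g2) (hz2 k1) (hz2 _) (hz1 k2)
      rwa [eg1, eg2] at h
    have hφc : φ ⁅e1, e2⁆ = L ⁅k1, k2⁆ := by
      rw [map_commutatorElement φ e1 e2, h1, h2, map_commutatorElement L k1 k2]
      exact comm_tw _ _ _ _
        (Commute.zpow_left (show Commute Ω (L k1) from hΩ k1) n2).eq
        (Commute.zpow_zpow (Commute.refl Ω) n2 n1).eq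
        (Commute.zpow_left (show Commute Ω (L k2) from hΩ k2) n1).eq
    rw [Subgroup.mem_comap, Subgroup.mem_map]
    refine ⟨⁅e1, e2⁆, ?_, ?_⟩
    · rw [commutator_def]
      exact Subgroup.commutator_mem_commutator (Subgroup.mem_top _) (Subgroup.mem_top _)
    · rw [MonoidHom.prod_apply, MonoidHom.prod_apply]
      exact Prod.ext (by show φ _ = L _; rw [hφc, hgk])
        (by show ψ _ = σ _
            rw [map_commutatorElement ψ e1 e2, map_commutatorElement σ g1 g2, he1, he2])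
  intro α hα
  obtain ⟨e, heC, he⟩ := Subgroup.mem_map.1
    (Subgroup.mem_comap.1 (hM (hcomm (MonoidHom.mem_ker.2 hα))))
  have h1 : φ e = L α := congrArg Prod.fst he
  have h2 : ψ e = σ α := congrArg Prod.snd he
  have he1 : e = 1 := hinj e heC (by rw [h2, hα])
  apply hLinj
  rw [← h1, he1, map_one, map_one]

end Cfsg.Agent.H41.C3P
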