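import Mathlib
import Cfsg.Prelude.Def_KGroupFacts
import Cfsg.Agent.H41.SchurCover2

/-!
# Twisting a central extension by the carry cocycle

For `α : Γ →* ZMod n` and a central `t ∈ ker α`, `CarryTwist Γ n α t` is `Γ` with the
multiplication `g ∗ h = g h t^{carry (α g) (α h)}`.
-/

set_option autoImplicit false
set_option linter.unusedSectionVars false

namespace Cfsg.Agent.H41

open Cfsg
open scoped commutatorElement

universe u v w

/-- The carry cocycle on `ZMod n`. -/
def carry (n : ℕ) (a b : ZMod n) : ℕ := (a.val + b.val) / n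

theorem carry_comm (n : ℕ) (a b : ZMod n) : carry n a b = carry n b a := by
  unfold carry; rw [add_comm]

theorem carry_zero_left (n : ℕ) [NeZero n] (b : ZMod n) : carry n 0 b = 0 := by
  unfold carry
  rw [ZMod.val_zero, zero_add]
  exact Nat.div_eq_of_lt (ZMod.val_lt b)

theorem carry_zero_right (n : ℕ) [NeZero n] (a : ZMod n) : carry n a 0 = 0 := by
  rw [carry_comm, carry_zero_left]

theorem carry_assoc_aux (n x y z : ℕ) :
    (x + y) / n + ((x + y) % n + z) / n = (x + y + z) / n := by
  rcases Nat.eq_zero_or_pos n with rfl | hn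
  · simp
  · have h1 : x + y + z = (x + y) % n + z + n * ((x + y) / n) := by
      have := Nat.mod_add_div (x + y) n
      omega
    rw [h1, Nat.add_mul_div_left _ _ hn, add_comm]

theorem carry_cocycle (n : ℕ) [NeZero n] (a b c : ZMod n) :
    carry n a b + carry n (a + b) c = carry n b c + carry n a (b + c) := by
  unfold carry
  rw [ZMod.val_add a b, ZMod.val_add b c, carry_assoc_aux]
  have h := carry_assoc_aux n b.val c.val a.val
  rw [add_comm ((b.val + c.val) % n) a.val] at h
  rw [h]
  congr 1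
  ring

/-- `Γ` with multiplication twisted by the carry cocycle. -/
@[ext]
structure CarryTwist (Γ : Type u) [Group Γ] (n : ℕ) (α : Γ →* Multiplicative (ZMod n))
    (t : ↥(α.ker ⊓ Subgroup.center Γ)) where
  val : Γ

namespace CarryTwist

variable {Γ : Type u} [Group Γ] {n : ℕ} [NeZero n] {α : Γ →* Multiplicative (ZMod n)}
  {t : ↥(α.ker ⊓ Subgroup.center Γ)}

theorem alpha_t : α (t : Γ) = 1 := t.2.1

theorem t_comm (g : Γ) : g * (t : Γ) = (t : Γ) * g := Subgroup.mem_center_iff.1 t.2.2 g

theorem alpha_t_pow (k : ℕ) : α ((t : Γ) ^ k) = 1 := by rw [map_pow, alpha_t, one_pow]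

theorem alpha_tinv_pow (k : ℕ) : α ((t : Γ)⁻¹ ^ k) = 1 := by
  rw [map_pow, map_inv, alpha_t, inv_one, one_pow]

theorem t_pow_comm (g : Γ) (k : ℕ) : g * (t : Γ) ^ k = (t : Γ) ^ k * g :=
  ((Commute.pow_right (t_comm (t := t) g) k : Commute g ((t : Γ) ^ k))).eq

instance : Mul (CarryTwist Γ n α t) :=
  ⟨fun a b => ⟨a.val * b.val * (t : Γ) ^ carry n (α a.val).toAdd (α b.val).toAdd⟩⟩

instance : One (CarryTwist Γ n α t) := ⟨⟨1⟩⟩

instance : Inv (CarryTwist Γ n α t) :=
  ⟨fun a => ⟨a.val⁻¹ * (t : Γ)⁻¹ ^ carry n (α a.val).toAdd (-(α a.val).toAdd)⟩⟩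

theorem mul_val (a b : CarryTwist Γ n α t) :
    (a * b).val = a.val * b.val * (t : Γ) ^ carry n (α a.val).toAdd (α b.val).toAdd := rfl

@[simp] theorem one_val : (1 : CarryTwist Γ n α t).val = 1 := rfl

theorem inv_val (a : CarryTwist Γ n α t) :
    (a⁻¹).val = a.val⁻¹ * (t : Γ)⁻¹ ^ carry n (α a.val).toAdd (-(α a.val).toAdd) := rfl

theorem alpha_mul_val (a b : CarryTwist Γ n α t) :
    α (a * b).val = α a.val * α b.val := by
  rw [mul_val, map_mul, alpha_t_pow, mul_one, map_mul]

theorem mul_val_of_left {a b : CarryTwist Γ n α t} (ha : α a.val = 1) :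
    (a * b).val = a.val * b.val := by
  rw [mul_val, ha, toAdd_one, carry_zero_left, pow_zero, mul_one]

theorem mul_val_of_right {a b : CarryTwist Γ n α t} (hb : α b.val = 1) :
    (a * b).val = a.val * b.val := by
  rw [mul_val, hb, toAdd_one, carry_zero_right, pow_zero, mul_one]

instance : Group (CarryTwist Γ n α t) where
  mul_assoc a b c := by
    apply CarryTwist.ext
    rw [mul_val, mul_val a (b * c), alpha_mul_val, alpha_mul_val, mul_val, mul_val, toAdd_mul,
      toAdd_mul]
    have h := carry_cocycle n (α a.val).toAdd (α b.val).toAdd (α c.val).toAdd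
    have e1 : a.val * b.val * (t : Γ) ^ carry n (α a.val).toAdd (α b.val).toAdd * c.val *
        (t : Γ) ^ carry n ((α a.val).toAdd + (α b.val).toAdd) (α c.val).toAdd =
        a.val * b.val * c.val * (t : Γ) ^ (carry n (α a.val).toAdd (α b.val).toAdd +
          carry n ((α a.val).toAdd + (α b.val).toAdd) (α c.val).toAdd) := by
      rw [pow_add, mul_assoc (a.val * b.val), ← t_pow_comm c.val]
      simp only [mul_assoc]
    have e2 : a.val * (b.val * c.val * (t : Γ) ^ carry n (α b.val).toAdd (α c.val).toAdd) *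
        (t : Γ) ^ carry n (α a.val).toAdd ((α b.val).toAdd + (α c.val).toAdd) =
        a.val * b.val * c.val * (t : Γ) ^ (carry n (α b.val).toAdd (α c.val).toAdd +
          carry n (α a.val).toAdd ((α b.val).toAdd + (α c.val).toAdd)) := by
      rw [pow_add]
      simp only [mul_assoc]
    rw [e1, e2, h]
  one_mul a := by
    apply CarryTwist.ext
    rw [mul_val_of_left (by rw [one_val, map_one]), one_val, one_mul]
  mul_one a := by
    apply CarryTwist.ext
    rw [mul_val_of_right (by rw [one_val, map_one]), one_val, mul_one]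
  inv_mul_cancel a := by
    apply CarryTwist.ext
    rw [mul_val, inv_val, map_mul, alpha_tinv_pow, mul_one, map_inv, toAdd_inv, one_val,
      carry_comm n (-(α a.val).toAdd)]
    rw [mul_assoc a.val⁻¹, ← Commute.eq (Commute.pow_right (Commute.inv_right (t_comm a.val)) _),
      ← mul_assoc, inv_mul_cancel, one_mul, inv_pow, inv_mul_cancel]

/-- The underlying-element map as a function. -/
def mk' (g : Γ) : CarryTwist Γ n α t := ⟨g⟩

instance [Finite Γ] : Finite (CarryTwist Γ n α t) :=
  Finite.of_injective (fun a => a.val) (fun _ _ h => CarryTwist.ext h)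

/-- A homomorphism out of `Γ` killing `t` is a homomorphism out of the twist. -/
def lift {H : Type*} [Group H] (f : Γ →* H) (hf : f (t : Γ) = 1) : CarryTwist Γ n α t →* H where
  toFun a := f a.val
  map_one' := by rw [one_val, map_one]
  map_mul' a b := by rw [mul_val, map_mul, map_pow, hf, one_pow, mul_one, map_mul]

@[simp] theorem lift_apply {H : Type*} [Group H] (f : Γ →* H) (hf : f (t : Γ) = 1)
    (a : CarryTwist Γ n α t) : lift f hf a = f a.val := rfl

theorem inv_val_of {a : CarryTwist Γ n α t} (ha : α a.val = 1) : (a⁻¹).val = a.val⁻¹ := by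
  rw [inv_val, ha, toAdd_one, carry_zero_left, pow_zero, mul_one]

theorem alpha_commutator (g h : Γ) : α ⁅g, h⁆ = 1 :=
  Abelianization.commutator_subset_ker α
    (Subgroup.commutator_mem_commutator (Subgroup.mem_top g) (Subgroup.mem_top h))

/-- Commutators are computed as in `Γ`. -/
theorem commutator_val (a b : CarryTwist Γ n α t) : (⁅a, b⁆).val = ⁅a.val, b.val⁆ := by
  have hα : α ⁅a.val, b.val⁆ = 1 := alpha_commutator _ _
  have h1 : (⟨⁅a.val, b.val⁆⟩ : CarryTwist Γ n α t) * (b * a) = a * b := by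
    apply CarryTwist.ext
    rw [mul_val_of_left hα, mul_val, mul_val, carry_comm n (α b.val).toAdd, ← mul_assoc]
    congr 1
    rw [commutatorElement_def]; group
  have h2 : ⁅a, b⁆ = (a * b) * (b * a)⁻¹ := by rw [commutatorElement_def]; group
  rw [h2, ← h1, mul_inv_cancel_right]

/-- Elements of the derived subgroup of `Γ` lie in the derived subgroup of the twist. -/
theorem mem_commutator_of_mem {x : Γ} (hx : x ∈ commutator Γ) :
    (⟨x⟩ : CarryTwist Γ n α t) ∈ commutator (CarryTwist Γ n α t) := by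
  rw [commutator_eq_closure] at hx
  have key : α x = 1 ∧ (⟨x⟩ : CarryTwist Γ n α t) ∈ commutator (CarryTwist Γ n α t) := by
    induction hx using Subgroup.closure_induction with
    | mem y hy =>
      obtain ⟨g, h, rfl⟩ := hy
      refine ⟨?_, ?_⟩
      · exact alpha_commutator g h
      · have : (⟨⁅g, h⁆⟩ : CarryTwist Γ n α t) = ⁅(⟨g⟩ : CarryTwist Γ n α t), ⟨h⟩⁆ :=
          CarryTwist.ext (commutator_val ⟨g⟩ ⟨h⟩).symm
        rw [this]
        exact Subgroup.commutator_mem_commutator (Subgroup.mem_top _) (Subgroup.mem_top _)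
    | one => exact ⟨map_one α, Subgroup.one_mem _⟩
    | mul y z _ _ hy hz =>
      refine ⟨by rw [map_mul, hy.1, hz.1, one_mul], ?_⟩
      have : (⟨y * z⟩ : CarryTwist Γ n α t) = ⟨y⟩ * ⟨z⟩ :=
        CarryTwist.ext (mul_val_of_left (a := ⟨y⟩) (b := ⟨z⟩) hy.1).symm
      rw [this]
      exact Subgroup.mul_mem _ hy.2 hz.2
    | inv y _ hy =>
      refine ⟨by rw [map_inv, hy.1, inv_one], ?_⟩
      have : (⟨y⁻¹⟩ : CarryTwist Γ n α t) = (⟨y⟩ : CarryTwist Γ n α t)⁻¹ :=
        CarryTwist.ext (inv_val_of (a := ⟨y⟩) hy.1).symm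
      rw [this]
      exact Subgroup.inv_mem _ hy.2
  exact key.2

end CarryTwist

end Cfsg.Agent.H41
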