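import Mathlib
import Cfsg.Prelude.Def_KGroupFacts

/-!
# Corestriction of central extensions (helper41)

For a subgroup `H` of finite index in `G` and a central extension `ε : E → H` with kernel
`ι : K → E`, we build a central extension `Y` of `G` with kernel `K` (the corestriction):
the pull-back of the wreath product `E ≀ (G/H)` along the monomial embedding of `G`,
modulo the elements of `K^(G/H)` of product `1`.
-/

set_option autoImplicit false
set_option linter.unusedSectionVars false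
set_option linter.style.haveILetI false

namespace Cfsg.Agent.H41

namespace Cores

open Cfsg
open scoped commutatorElement

variable {G : Type*} [Group G] (H : Subgroup G)

/-- Coset representatives. -/
noncomputable def rep (q : G ⧸ H) : G := Quotient.out q

theorem mk_rep (q : G ⧸ H) : (QuotientGroup.mk (rep H q) : G ⧸ H) = q := QuotientGroup.out_eq' q

/-- The monomial cocycle `s(q)⁻¹ g s(g⁻¹ q) ∈ H`. -/
noncomputable def cc (g : G) (q : G ⧸ H) : H :=
  ⟨(rep H q)⁻¹ * g * rep H (g⁻¹ • q), by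
    rw [mul_assoc, ← QuotientGroup.eq, ← smul_eq_mul g, ← MulAction.Quotient.smul_mk, mk_rep,
      mk_rep, smul_inv_smul]⟩

theorem cc_val (g : G) (q : G ⧸ H) :
    (cc H g q : G) = (rep H q)⁻¹ * g * rep H (g⁻¹ • q) := rfl

theorem cc_mul (g₁ g₂ : G) (q : G ⧸ H) :
    cc H (g₁ * g₂) q = cc H g₁ q * cc H g₂ (g₁⁻¹ • q) := by
  apply Subtype.ext
  rw [Subgroup.coe_mul, cc_val, cc_val, cc_val, mul_inv_rev, mul_smul]
  group

theorem cc_one (q : G ⧸ H) : cc H 1 q = 1 := by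
  apply Subtype.ext
  rw [cc_val, inv_one, one_smul, mul_one, inv_mul_cancel]
  rfl

/-- The wreath product `E ≀ (G/H)`. -/
abbrev Wr (E : Type*) [Group E] : Type _ := (G ⧸ H → E) ⋊[mulAutArrow (G := G) (A := G ⧸ H) (M := E)] G

/-- The monomial embedding of `G` into `H ≀ (G/H)`. -/
noncomputable def iota : G →* Wr H H where
  toFun g := ⟨fun q => cc H g q, g⟩
  map_one' := by
    apply SemidirectProduct.ext
    · funext q; exact cc_one H q
    · rfl
  map_mul' g₁ g₂ := by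
    apply SemidirectProduct.ext
    · funext q; exact cc_mul H g₁ g₂ q
    · rfl

variable {H}
variable {E : Type*} [Group E]

/-- Functoriality of the wreath product. -/
def wrMap {E₁ E₂ : Type*} [Group E₁] [Group E₂] (θ : E₁ →* E₂) : Wr H E₁ →* Wr H E₂ :=
  SemidirectProduct.map (MonoidHom.compLeft θ (G ⧸ H)) (MonoidHom.id G) (fun _ => rfl)

theorem wrMap_left {E₁ E₂ : Type*} [Group E₁] [Group E₂] (θ : E₁ →* E₂) (w : Wr H E₁)
    (q : G ⧸ H) : (wrMap θ w).left q = θ (w.left q) := rfl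

theorem wrMap_right {E₁ E₂ : Type*} [Group E₁] [Group E₂] (θ : E₁ →* E₂) (w : Wr H E₁) :
    (wrMap θ w).right = w.right := rfl

/-- The pull-back of the wreath product along the monomial embedding. -/
noncomputable def Ghat (ε : E →* H) : Subgroup (Wr H E) :=
  (wrMap ε).eqLocus ((iota H).comp SemidirectProduct.rightHom)

theorem mem_Ghat {ε : E →* H} {w : Wr H E} :
    w ∈ Ghat ε ↔ ∀ q, ε (w.left q) = cc H w.right q := by
  constructor
  · intro h q
    have h1 : wrMap ε w = iota H w.right := h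
    have h2 := congrArg (fun v : Wr H H => v.left q) h1
    exact h2
  · intro h
    show wrMap ε w = iota H w.right
    apply SemidirectProduct.ext
    · funext q; exact h q
    · rfl

section Y

variable [Fintype (G ⧸ H)] [DecidableEq (G ⧸ H)] {K : Type*} [CommGroup K]

/-- The product over the cosets, as a homomorphism. -/
def prodHom (M : Type*) [CommGroup M] : (G ⧸ H → M) →* M where
  toFun f := ∏ q, f q
  map_one' := Finset.prod_const_one
  map_mul' _ _ := Finset.prod_mul_distrib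

theorem prodHom_apply (M : Type*) [CommGroup M] (f : G ⧸ H → M) : prodHom M f = ∏ q, f q := rfl

theorem prodHom_smul (M : Type*) [CommGroup M] (g : G) (f : G ⧸ H → M) :
    prodHom M (fun q => f (g • q)) = prodHom M f :=
  Equiv.prod_comp (MulAction.toPerm g) f

theorem prodHom_mulSingle (M : Type*) [CommGroup M] (q₀ : G ⧸ H) (z : M) :
    prodHom M (Pi.mulSingle q₀ z) = z := by
  rw [prodHom_apply, Finset.prod_pi_mulSingle', if_pos (Finset.mem_univ _)]

theorem prodHom_const (M : Type*) [CommGroup M] (z : M) :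
    prodHom M (fun _ : G ⧸ H => z) = z ^ Fintype.card (G ⧸ H) := by
  rw [prodHom_apply, Finset.prod_const, Finset.card_univ]

/-- The inclusion of `K^(G/H)` into the wreath product. -/
def inclK (ι : K →* E) : (G ⧸ H → K) →* Wr H E :=
  SemidirectProduct.inl.comp (MonoidHom.compLeft ι (G ⧸ H))

theorem inclK_left (ι : K →* E) (f : G ⧸ H → K) (q : G ⧸ H) : (inclK ι f).left q = ι (f q) := rfl

theorem inclK_right (ι : K →* E) (f : G ⧸ H → K) : (inclK ι f).right = 1 := rfl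

theorem inclK_injective (ι : K →* E) (hι : Function.Injective ι) :
    Function.Injective (inclK (H := H) ι) := by
  intro f f' h
  funext q
  apply hι
  have := congrArg (fun w : Wr H E => w.left q) h
  exact this

/-- The elements of `K^(G/H)` of product one (as a normal closure, to have normality for free). -/
def Nsub (ι : K →* E) : Subgroup (Wr H E) :=
  Subgroup.normalClosure (((prodHom K).ker.map (inclK ι) : Subgroup (Wr H E)) : Set (Wr H E))

instance Nsub_normal (ι : K →* E) : (Nsub (H := H) ι).Normal := Subgroup.normalClosure_normal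

theorem conj_inclK (ι : K →* E) (hc : ∀ z, ι z ∈ Subgroup.center E) (w : Wr H E)
    (f : G ⧸ H → K) :
    w * inclK ι f * w⁻¹ = inclK ι (fun q => f (w.right⁻¹ • q)) := by
  apply SemidirectProduct.ext
  · funext q
    show w.left q * ι (f (w.right⁻¹ • q)) *
      (w.left (w.right⁻¹⁻¹ • (w.right * 1)⁻¹ • q))⁻¹ = ι (f (w.right⁻¹ • q))
    rw [mul_one, inv_inv, smul_inv_smul,
      Subgroup.mem_center_iff.1 (hc (f (w.right⁻¹ • q))) (w.left q), mul_inv_cancel_right]
  · show w.right * 1 * w.right⁻¹ = 1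
    rw [mul_one, mul_inv_cancel]

theorem map_inclK_normal (ι : K →* E) (hc : ∀ z, ι z ∈ Subgroup.center E) :
    ((prodHom K).ker.map (inclK (H := H) ι)).Normal := by
  constructor
  rintro _ ⟨f, hf, rfl⟩ w
  rw [conj_inclK ι hc]
  have hf' : prodHom K f = 1 := hf
  refine ⟨_, ?_, rfl⟩
  show prodHom K (fun q => f (w.right⁻¹ • q)) = 1
  rw [prodHom_smul]; exact hf'

theorem Nsub_eq (ι : K →* E) (hc : ∀ z, ι z ∈ Subgroup.center E) :
    Nsub (H := H) ι = (prodHom K).ker.map (inclK ι) := by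
  haveI := map_inclK_normal (H := H) ι hc
  exact Subgroup.normalClosure_eq_self _

theorem mem_Nsub (ι : K →* E) (hc : ∀ z, ι z ∈ Subgroup.center E) {w : Wr H E} :
    w ∈ Nsub ι ↔ ∃ f : G ⧸ H → K, prodHom K f = 1 ∧ inclK ι f = w := by
  rw [Nsub_eq ι hc]
  rfl

theorem inclK_mem_Nsub (ι : K →* E) {f : G ⧸ H → K} (hf : prodHom K f = 1) :
    inclK ι f ∈ Nsub (H := H) ι :=
  Subgroup.subset_normalClosure ⟨f, hf, rfl⟩

theorem Nsub_le_ker_rightHom (ι : K →* E) :
    Nsub (H := H) ι ≤ (SemidirectProduct.rightHom : Wr H E →* G).ker := by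
  apply Subgroup.normalClosure_le_normal
  rintro _ ⟨f, -, rfl⟩
  rfl

/-- The corestricted extension. -/
abbrev Y (ε : E →* H) (ι : K →* E) : Type _ :=
  ↥(Ghat ε) ⧸ (Nsub (H := H) ι).subgroupOf (Ghat ε)

/-- The projection of the corestricted extension onto `G`. -/
noncomputable def omega (ε : E →* H) (ι : K →* E) : Y ε ι →* G :=
  QuotientGroup.lift _ (SemidirectProduct.rightHom.comp (Ghat ε).subtype) (by
    intro w hw
    exact Nsub_le_ker_rightHom ι (Subgroup.mem_subgroupOf.1 hw))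

theorem omega_mk (ε : E →* H) (ι : K →* E) (w : Ghat ε) :
    omega ε ι (QuotientGroup.mk w) = w.1.right := rfl

theorem omega_surjective (ε : E →* H) (ι : K →* E) (hε : Function.Surjective ε) :
    Function.Surjective (omega ε ι) := by
  intro g
  choose f hf using fun q => hε (cc H g q)
  exact ⟨QuotientGroup.mk ⟨⟨f, g⟩, mem_Ghat.2 hf⟩, rfl⟩

/-- The kernel `K`, embedded at the trivial coset. -/
noncomputable def kappa0 (ε : E →* H) (ι : K →* E) (hει : ∀ z, ε (ι z) = 1) : K →* ↥(Ghat ε) :=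
  ((inclK ι).comp (MonoidHom.mulSingle (fun _ : G ⧸ H => K) (QuotientGroup.mk 1))).codRestrict
    (Ghat ε) (by
      intro z
      rw [mem_Ghat]
      intro q
      show ε (ι _) = cc H 1 q
      rw [hει, cc_one])

theorem kappa0_val (ε : E →* H) (ι : K →* E) (hει : ∀ z, ε (ι z) = 1) (z : K) :
    (kappa0 ε ι hει z : Wr H E) = inclK ι (Pi.mulSingle (QuotientGroup.mk 1) z) := rfl

/-- The kernel `K` inside the corestricted extension. -/
noncomputable def kappa (ε : E →* H) (ι : K →* E) (hει : ∀ z, ε (ι z) = 1) : K →* Y ε ι :=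
  (QuotientGroup.mk' _).comp (kappa0 ε ι hει)

theorem omega_kappa (ε : E →* H) (ι : K →* E) (hει : ∀ z, ε (ι z) = 1) (z : K) :
    omega ε ι (kappa ε ι hει z) = 1 := rfl

/-- An element of `K^(G/H)` is congruent to its product placed at the trivial coset. -/
theorem mk_eq_kappa (ε : E →* H) (ι : K →* E) (hει : ∀ z, ε (ι z) = 1) (w : Ghat ε)
    (f : G ⧸ H → K) (hw : (w : Wr H E) = inclK ι f) :
    (QuotientGroup.mk w : Y ε ι) = kappa ε ι hει (prodHom K f) := by
  symm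
  show (QuotientGroup.mk (kappa0 ε ι hει (prodHom K f)) : Y ε ι) = QuotientGroup.mk w
  rw [QuotientGroup.eq, Subgroup.mem_subgroupOf]
  show ((kappa0 ε ι hει (prodHom K f) : Wr H E))⁻¹ * (w : Wr H E) ∈ Nsub ι
  rw [kappa0_val, hw, ← map_inv, ← map_mul]
  apply inclK_mem_Nsub
  rw [map_mul, map_inv, prodHom_mulSingle, inv_mul_cancel]

theorem exists_kappa_eq (ε : E →* H) (ι : K →* E) (hει : ∀ z, ε (ι z) = 1)
    (hιr : ∀ e, ε e = 1 → ∃ z, ι z = e) (y : Y ε ι) (hy : omega ε ι y = 1) :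
    ∃ z, kappa ε ι hει z = y := by
  obtain ⟨⟨w, hw⟩, rfl⟩ := QuotientGroup.mk_surjective y
  have hr : w.right = 1 := hy
  have h1 : ∀ q, ε (w.left q) = 1 := by
    intro q
    rw [mem_Ghat.1 hw q, hr, cc_one]
  choose f hf using fun q => hιr (w.left q) (h1 q)
  have hw' : w = inclK ι f := by
    apply SemidirectProduct.ext
    · funext q; exact (hf q).symm
    · exact hr
  exact ⟨prodHom K f, (mk_eq_kappa ε ι hει ⟨w, hw⟩ f hw').symm⟩

theorem kappa_injective (ε : E →* H) (ι : K →* E) (hει : ∀ z, ε (ι z) = 1)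
    (hι : Function.Injective ι) (hc : ∀ z, ι z ∈ Subgroup.center E) :
    Function.Injective (kappa ε ι hει) := by
  rw [injective_iff_map_eq_one]
  intro z hz
  have h1 : kappa0 ε ι hει z ∈ (Nsub (H := H) ι).subgroupOf (Ghat ε) :=
    (QuotientGroup.eq_one_iff _).1 hz
  rw [Subgroup.mem_subgroupOf, kappa0_val, mem_Nsub ι hc] at h1
  obtain ⟨f, hf, hfe⟩ := h1
  have h2 := inclK_injective ι hι hfe
  rw [h2, prodHom_mulSingle] at hf
  exact hf

theorem kappa_mem_center (ε : E →* H) (ι : K →* E) (hει : ∀ z, ε (ι z) = 1)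
    (hc : ∀ z, ι z ∈ Subgroup.center E) (z : K) :
    kappa ε ι hει z ∈ Subgroup.center (Y ε ι) := by
  rw [Subgroup.mem_center_iff]
  intro y
  obtain ⟨a, rfl⟩ := QuotientGroup.mk_surjective y
  set n := kappa0 ε ι hει z with hn
  have h1 : (QuotientGroup.mk (a * n * a⁻¹) : Y ε ι) = QuotientGroup.mk n := by
    rw [QuotientGroup.eq, Subgroup.mem_subgroupOf]
    show ((a : Wr H E) * (n : Wr H E) * (a : Wr H E)⁻¹)⁻¹ * (n : Wr H E) ∈ Nsub ι
    rw [hn, kappa0_val, conj_inclK ι hc, ← map_inv, ← map_mul]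
    apply inclK_mem_Nsub
    rw [map_mul, map_inv, prodHom_smul, inv_mul_cancel]
  show (QuotientGroup.mk a : Y ε ι) * QuotientGroup.mk n = QuotientGroup.mk n * QuotientGroup.mk a
  have h2 : (QuotientGroup.mk n : Y ε ι) * QuotientGroup.mk a =
      QuotientGroup.mk (a * n * a⁻¹) * QuotientGroup.mk a := by rw [h1]
  rw [h2, ← QuotientGroup.mk_mul, ← QuotientGroup.mk_mul, inv_mul_cancel_right]

/-- The kernel of `omega` is central. -/
theorem omega_ker_le_center (ε : E →* H) (ι : K →* E) (hει : ∀ z, ε (ι z) = 1)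
    (hιr : ∀ e, ε e = 1 → ∃ z, ι z = e) (hc : ∀ z, ι z ∈ Subgroup.center E) :
    (omega ε ι).ker ≤ Subgroup.center (Y ε ι) := by
  intro y hy
  obtain ⟨z, rfl⟩ := exists_kappa_eq ε ι hει hιr y hy
  exact kappa_mem_center ε ι hει hc z

/-- The "product of the coordinates" homomorphism to the abelianisation. -/
def prodAb (E : Type*) [Group E] : (G ⧸ H → E) →* Abelianization E :=
  (prodHom (Abelianization E)).comp (MonoidHom.compLeft Abelianization.of (G ⧸ H))

noncomputable def beta0 : Wr H E →* Abelianization E :=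
  SemidirectProduct.lift (prodAb E) 1 (by
    intro g
    ext f
    show prodAb E (fun q => f (g⁻¹ • q)) = 1 * prodAb E f * 1⁻¹
    rw [one_mul, inv_one, mul_one]
    exact prodHom_smul (Abelianization E) g⁻¹ (fun q => Abelianization.of (f q)))

theorem beta0_inclK (ι : K →* E) (f : G ⧸ H → K) :
    beta0 (inclK (H := H) ι f) = Abelianization.of (ι (prodHom K f)) := by
  show beta0 (SemidirectProduct.inl (fun q => ι (f q))) = _
  unfold beta0
  rw [SemidirectProduct.lift_inl]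
  show ∏ q, Abelianization.of (ι (f q)) = Abelianization.of (ι (∏ q, f q))
  exact (map_prod ((Abelianization.of : E →* Abelianization E).comp ι) f Finset.univ).symm

theorem Nsub_le_ker_beta0 (ι : K →* E) : Nsub (H := H) ι ≤ (beta0 : Wr H E →* _).ker := by
  apply Subgroup.normalClosure_le_normal
  rintro _ ⟨f, hf, rfl⟩
  show beta0 (inclK ι f) = 1
  rw [beta0_inclK, MonoidHom.mem_ker.1 hf, map_one, map_one]

/-- The transfer-like homomorphism of the corestricted extension to `E^ab`. -/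
noncomputable def beta (ε : E →* H) (ι : K →* E) : Y ε ι →* Abelianization E :=
  QuotientGroup.lift _ (beta0.comp (Ghat ε).subtype) (by
    intro w hw
    exact Nsub_le_ker_beta0 ι (Subgroup.mem_subgroupOf.1 hw))

theorem beta_kappa (ε : E →* H) (ι : K →* E) (hει : ∀ z, ε (ι z) = 1) (z : K) :
    beta ε ι (kappa ε ι hει z) = Abelianization.of (ι z) := by
  show beta0 (kappa0 ε ι hει z : Wr H E) = _
  rw [kappa0_val, beta0_inclK, prodHom_mulSingle]

end Y

section Functor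

variable [Fintype (G ⧸ H)] [DecidableEq (G ⧸ H)] {K₁ K₂ : Type*} [CommGroup K₁] [CommGroup K₂]
  {E₁ E₂ : Type*} [Group E₁] [Group E₂]
  (ε₁ : E₁ →* H) (ι₁ : K₁ →* E₁) (ε₂ : E₂ →* H) (ι₂ : K₂ →* E₂) (θ : E₁ →* E₂) (θK : K₁ →* K₂)
  (hθε : ∀ e, ε₂ (θ e) = ε₁ e) (hθι : ∀ z, θ (ι₁ z) = ι₂ (θK z))

theorem wrMap_inclK (hθι : ∀ z, θ (ι₁ z) = ι₂ (θK z)) (f : G ⧸ H → K₁) :
    wrMap θ (inclK (H := H) ι₁ f) = inclK ι₂ (fun q => θK (f q)) := by
  apply SemidirectProduct.ext
  · funext q; exact hθι (f q)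
  · rfl

theorem wrMap_mem_Ghat (hθε : ∀ e, ε₂ (θ e) = ε₁ e) {w : Wr H E₁} (hw : w ∈ Ghat ε₁) :
    wrMap θ w ∈ Ghat ε₂ := by
  rw [mem_Ghat] at hw ⊢
  intro q
  rw [wrMap_left, hθε, wrMap_right]
  exact hw q

theorem Nsub_le_comap (hθι : ∀ z, θ (ι₁ z) = ι₂ (θK z)) :
    Nsub (H := H) ι₁ ≤ (Nsub (H := H) ι₂).comap (wrMap θ) := by
  apply Subgroup.normalClosure_le_normal
  rintro _ ⟨f, hf, rfl⟩
  show wrMap θ (inclK ι₁ f) ∈ Nsub ι₂
  rw [wrMap_inclK ι₁ ι₂ θ θK hθι]
  apply inclK_mem_Nsub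
  have hf' : prodHom K₁ f = 1 := hf
  show ∏ q, θK (f q) = 1
  rw [← map_prod]
  show θK (prodHom K₁ f) = 1
  rw [hf', map_one]

/-- Functoriality of the pull-back. -/
noncomputable def ghatMap (hθε : ∀ e, ε₂ (θ e) = ε₁ e) : Ghat ε₁ →* Ghat ε₂ :=
  ((wrMap θ).comp (Ghat ε₁).subtype).codRestrict (Ghat ε₂)
    (fun w => wrMap_mem_Ghat ε₁ ε₂ θ hθε w.2)

/-- Functoriality of the corestricted extension. -/
noncomputable def yMap (hθε : ∀ e, ε₂ (θ e) = ε₁ e) (hθι : ∀ z, θ (ι₁ z) = ι₂ (θK z)) :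
    Y ε₁ ι₁ →* Y ε₂ ι₂ :=
  QuotientGroup.map _ _ (ghatMap ε₁ ε₂ θ hθε) (by
    intro w hw
    rw [Subgroup.mem_comap, Subgroup.mem_subgroupOf]
    exact Nsub_le_comap ι₁ ι₂ θ θK hθι (Subgroup.mem_subgroupOf.1 hw))

theorem omega_yMap (hθε : ∀ e, ε₂ (θ e) = ε₁ e) (hθι : ∀ z, θ (ι₁ z) = ι₂ (θK z))
    (y : Y ε₁ ι₁) : omega ε₂ ι₂ (yMap ε₁ ι₁ ε₂ ι₂ θ θK hθε hθι y) = omega ε₁ ι₁ y := by
  obtain ⟨w, rfl⟩ := QuotientGroup.mk_surjective y
  rfl

theorem yMap_kappa (hθε : ∀ e, ε₂ (θ e) = ε₁ e) (hθι : ∀ z, θ (ι₁ z) = ι₂ (θK z))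
    (hει₁ : ∀ z, ε₁ (ι₁ z) = 1) (hει₂ : ∀ z, ε₂ (ι₂ z) = 1) (z : K₁) :
    yMap ε₁ ι₁ ε₂ ι₂ θ θK hθε hθι (kappa ε₁ ι₁ hει₁ z) = kappa ε₂ ι₂ hει₂ (θK z) := by
  show (QuotientGroup.mk (ghatMap ε₁ ε₂ θ hθε (kappa0 ε₁ ι₁ hει₁ z)) : Y ε₂ ι₂) =
    QuotientGroup.mk (kappa0 ε₂ ι₂ hει₂ (θK z))
  congr 1
  apply Subtype.ext
  show wrMap θ (inclK ι₁ (Pi.mulSingle (QuotientGroup.mk 1) z)) =
    inclK ι₂ (Pi.mulSingle (QuotientGroup.mk 1) (θK z))
  rw [wrMap_inclK ι₁ ι₂ θ θK hθι]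
  congr 1
  funext q
  exact Pi.apply_mulSingle (fun _ => θK) (fun _ => map_one θK) _ z q

end Functor

section Mono

variable [Fintype (G ⧸ H)] [DecidableEq (G ⧸ H)] {X : Type*} [Group X] (ψ : X →* G)
  (st : G ⧸ H → X) (hst : ∀ q, ψ (st q) = rep H q)
  {KX : Type*} [CommGroup KX] (ιX : KX →* X) (hψι : ∀ z, ψ (ιX z) = 1)
  (hcX : ∀ z, ιX z ∈ Subgroup.center X)

/-- The monomial embedding of `X` into `X_H ≀ (G/H)`, where `X_H` is the preimage of `H`. -/
noncomputable def mono (hst : ∀ q, ψ (st q) = rep H q) : X →* Wr H ↥(H.comap ψ) where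
  toFun x := ⟨fun q => ⟨(st q)⁻¹ * x * st ((ψ x)⁻¹ • q), by
      rw [Subgroup.mem_comap, map_mul, map_mul, map_inv, hst, hst]
      exact (cc H (ψ x) q).2⟩, ψ x⟩
  map_one' := by
    apply SemidirectProduct.ext
    · funext q
      apply Subtype.ext
      show (st q)⁻¹ * 1 * st ((ψ 1)⁻¹ • q) = 1
      rw [map_one, inv_one, one_smul, mul_one, inv_mul_cancel]
    · exact map_one ψ
  map_mul' x y := by
    apply SemidirectProduct.ext
    · funext q
      apply Subtype.ext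
      show (st q)⁻¹ * (x * y) * st ((ψ (x * y))⁻¹ • q) =
        ((st q)⁻¹ * x * st ((ψ x)⁻¹ • q)) *
          ((st ((ψ x)⁻¹ • q))⁻¹ * y * st ((ψ y)⁻¹ • (ψ x)⁻¹ • q))
      rw [map_mul, mul_inv_rev, mul_smul]
      group
    · exact map_mul ψ x y

theorem mono_mem_Ghat (hst : ∀ q, ψ (st q) = rep H q) (x : X) :
    mono ψ st hst x ∈ Ghat (ψ.subgroupComap H) := by
  rw [mem_Ghat]
  intro q
  apply Subtype.ext
  show ψ ((st q)⁻¹ * x * st ((ψ x)⁻¹ • q)) = (rep H q)⁻¹ * ψ x * rep H ((ψ x)⁻¹ • q)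
  rw [map_mul, map_mul, map_inv, hst, hst]

/-- The kernel of `ψ` inside the preimage of `H`. -/
def iotaX (hψι : ∀ z, ψ (ιX z) = 1) : KX →* ↥(H.comap ψ) :=
  ιX.codRestrict (H.comap ψ) (fun z => by
    rw [Subgroup.mem_comap, hψι]; exact H.one_mem)

theorem mono_iotaX (hst : ∀ q, ψ (st q) = rep H q) (hψι : ∀ z, ψ (ιX z) = 1)
    (hcX : ∀ z, ιX z ∈ Subgroup.center X) (z : KX) :
    mono ψ st hst (ιX z) = inclK (iotaX (H := H) ψ ιX hψι) (fun _ => z) := by
  apply SemidirectProduct.ext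
  · funext q
    apply Subtype.ext
    show (st q)⁻¹ * ιX z * st ((ψ (ιX z))⁻¹ • q) = ιX z
    rw [hψι, inv_one, one_smul, mul_assoc, ← Subgroup.mem_center_iff.1 (hcX z) (st q),
      inv_mul_cancel_left]
  · exact hψι z

/-- The monomial map into the corestriction of the restricted extension. -/
noncomputable def jbar (hst : ∀ q, ψ (st q) = rep H q) (hψι : ∀ z, ψ (ιX z) = 1) :
    X →* Y (ψ.subgroupComap H) (iotaX (H := H) ψ ιX hψι) :=
  (QuotientGroup.mk' _).comp
    ((mono ψ st hst).codRestrict (Ghat (ψ.subgroupComap H)) (mono_mem_Ghat ψ st hst))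

theorem omega_jbar (hst : ∀ q, ψ (st q) = rep H q) (hψι : ∀ z, ψ (ιX z) = 1) (x : X) :
    omega _ _ (jbar ψ st ιX hst hψι x) = ψ x := rfl

theorem subgroupComap_iotaX (hψι : ∀ z, ψ (ιX z) = 1) (z : KX) :
    (ψ.subgroupComap H) (iotaX (H := H) ψ ιX hψι z) = 1 := by
  apply Subtype.ext
  exact hψι z

theorem jbar_iotaX (hst : ∀ q, ψ (st q) = rep H q) (hψι : ∀ z, ψ (ιX z) = 1)
    (hcX : ∀ z, ιX z ∈ Subgroup.center X) (z : KX) :
    jbar ψ st ιX hst hψι (ιX z) =
      kappa (ψ.subgroupComap H) (iotaX (H := H) ψ ιX hψι) (subgroupComap_iotaX ψ ιX hψι)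
        (z ^ Fintype.card (G ⧸ H)) := by
  rw [← prodHom_const]
  exact mk_eq_kappa _ _ _ _ (fun _ => z) (mono_iotaX ψ st ιX hst hψι hcX z)

end Mono

end Cores

end Cfsg.Agent.H41
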