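import Mathlib
import Cfsg.Prelude.Def_KGroupFacts
import Cfsg.Agent.H41.SchurCover
import Cfsg.Agent.H41.SchurCover2
import Cfsg.Agent.H41.Cover2

/-!
# Uniqueness of the Schur cover over `Q` when `|Q^ab|` and `|M(Q)|` are coprime
-/

set_option autoImplicit false

namespace Cfsg.Agent.H41

open Cfsg

universe u v w

section CoverUniq

/-- The preimage of the `n`-torsion of the abelianisation: `{x : x ^ n ∈ P'}`. -/
def powTorsion (P : Type*) [Group P] (n : ℕ) : Subgroup P :=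
  ((powMonoidHom n : Abelianization P →* Abelianization P).comp Abelianization.of).ker

theorem mem_powTorsion {P : Type*} [Group P] {n : ℕ} {x : P} :
    x ∈ powTorsion P n ↔ x ^ n ∈ commutator P := by
  unfold powTorsion
  rw [MonoidHom.mem_ker, MonoidHom.comp_apply, powMonoidHom_apply, ← map_pow]
  exact QuotientGroup.eq_one_iff _

theorem zpow_bezout {G : Type*} [Group G] {n m : ℕ} (hnm : Nat.Coprime n m) (x : G)
    (hx : x ^ m = 1) : (x ^ n) ^ (Nat.gcdA n m) = x := by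
  have h1 : (1 : ℤ) = n * Nat.gcdA n m + m * Nat.gcdB n m := by
    have := Nat.gcd_eq_gcd_ab n m
    rw [hnm] at this
    exact_mod_cast this
  have h2 : x ^ (1 : ℤ) = x := zpow_one x
  rw [h1, zpow_add, zpow_mul, zpow_mul, zpow_natCast, zpow_natCast, hx, one_zpow, mul_one] at h2
  exact h2

/-- Complement lemma: `π : P → Γ` a central extension with `ker π ∩ P' = 1`, `ker π` of exponent
dividing `m`, `Γ^ab` of exponent dividing `n`, `(n, m) = 1`.  Then `π` restricts to a bijection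
from `{x : x ^ n ∈ P'}` onto `Γ`. -/
theorem bijective_restrict_powTorsion {P Γ : Type*} [Group P] [Group Γ] (π : P →* Γ)
    (hπ : Function.Surjective π) (hc : π.ker ≤ Subgroup.center P)
    (hi : π.ker ⊓ commutator P = ⊥) (n m : ℕ) (hnm : Nat.Coprime n m)
    (hm : ∀ k ∈ π.ker, k ^ m = 1) (hn : ∀ γ : Γ, γ ^ n ∈ commutator Γ) :
    Function.Bijective (π.comp (powTorsion P n).subtype) := by
  constructor
  · rw [injective_iff_map_eq_one]
    rintro ⟨x, hx⟩ h1
    have hxk : x ∈ π.ker := h1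
    have hxc : x ∈ commutator P := by
      rw [← zpow_bezout hnm x (hm x hxk)]
      exact Subgroup.zpow_mem _ (mem_powTorsion.1 hx) _
    have : x ∈ π.ker ⊓ commutator P := ⟨hxk, hxc⟩
    rw [hi, Subgroup.mem_bot] at this
    exact Subtype.ext this
  · intro γ
    obtain ⟨x, rfl⟩ := hπ γ
    have h1 : π x ^ n ∈ Subgroup.map π (commutator P) := by
      rw [map_commutator_of_surjective π hπ]
      exact hn _
    obtain ⟨c, hc', hcx⟩ := h1
    set k : P := x ^ n * c⁻¹ with hk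
    have hkk : k ∈ π.ker := by
      rw [MonoidHom.mem_ker, hk, map_mul, map_inv, map_pow, hcx, mul_inv_cancel]
    set k' : P := k ^ (Nat.gcdA n m) with hk'
    have hk'k : k' ∈ π.ker := Subgroup.zpow_mem _ hkk _
    have hk'n : k' ^ n = k := by
      rw [hk', ← zpow_natCast, ← zpow_mul, mul_comm, zpow_mul, zpow_natCast]
      exact zpow_bezout hnm k (hm k hkk)
    have hcomm : Commute x k'⁻¹ := by
      have := Subgroup.mem_center_iff.1 (hc (Subgroup.inv_mem _ hk'k)) x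
      exact this
    refine ⟨⟨x * k'⁻¹, ?_⟩, ?_⟩
    · rw [mem_powTorsion, hcomm.mul_pow, inv_pow, hk'n, hk, mul_inv_rev, inv_inv]
      have hnorm : (commutator P).Normal := inferInstance
      have := hnorm.conj_mem c hc' (x ^ n)
      rw [← mul_assoc]
      exact this
    · show π (x * k'⁻¹) = π x
      rw [map_mul, map_inv, MonoidHom.mem_ker.1 hk'k, inv_one, mul_one]

/-- If `|Q^ab| = n`, then `n`-th powers in a stem extension of `Q` are in the derived subgroup. -/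
theorem pow_card_abelianization_mem_commutator {Q : Type*} [Group Q] [Finite Q]
    {Γ : Type*} [Group Γ] (σ : Γ →* Q) (hσ : IsStemExtension σ) (γ : Γ) :
    γ ^ Nat.card (Abelianization Q) ∈ commutator Γ := by
  obtain ⟨hsurj, -, hcomm⟩ := hσ
  have h1 : σ γ ^ Nat.card (Abelianization Q) ∈ commutator Q := by
    rw [← QuotientGroup.eq_one_iff]
    show (Abelianization.of (σ γ ^ Nat.card (Abelianization Q))) = 1
    rw [map_pow, pow_card_eq_one']
  rw [← map_commutator_of_surjective σ hsurj] at h1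
  obtain ⟨c, hc, hcx⟩ := h1
  have hk : γ ^ Nat.card (Abelianization Q) * c⁻¹ ∈ σ.ker := by
    rw [MonoidHom.mem_ker, map_mul, map_inv, map_pow, hcx, mul_inv_cancel]
  have := Subgroup.mul_mem _ (hcomm hk) hc
  rwa [inv_mul_cancel_right] at this

/-- Let `τ : P → Q` be a central extension factoring through a Schur cover `σ : Γ → Q` via a
surjection `π : P → Γ`.  Then `ker π` meets the derived subgroup of `P` trivially. -/
theorem ker_inf_commutator_eq_bot_of_cover {Q : Type u} [Group Q] {A : Type v} [CommGroup A]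
    (hA : HasSchurMultiplier Q A) {Γ : Type*} [Group Γ] [Finite Γ] {P : Type w} [Group P]
    (σ : Γ →* Q) (h₁ : IsStemExtension σ) (e₁ : σ.ker ≃* A)
    (π₁ : P →* Γ) (hπ₁s : Function.Surjective π₁)
    (hτc : (σ.comp π₁).ker ≤ Subgroup.center P) :
    π₁.ker ⊓ commutator P = ⊥ := by
  classical
  have hAfin : Finite A := finite_of_hasSchurMultiplier hA
  set τ : P →* Q := σ.comp π₁ with hτ
  have hτs : Function.Surjective τ := h₁.1.comp hπ₁s
  obtain ⟨f, hf⟩ := exists_surjective_ker_inf_commutator hA τ hτs hτc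
  -- the map D → ker σ
  let D : Subgroup P := τ.ker ⊓ commutator P
  have hDfin : Finite D := Finite.of_surjective f hf
  let φ : D → σ.ker := fun d => ⟨π₁ d.1, d.2.1⟩
  have hφs : Function.Surjective φ := by
    rintro ⟨z, hz⟩
    have h1 : z ∈ Subgroup.map π₁ (commutator P) := by
      rw [map_commutator_of_surjective π₁ hπ₁s]
      exact h₁.2.2 hz
    obtain ⟨c, hc, hcz⟩ := h1
    refine ⟨⟨c, ?_, hc⟩, Subtype.ext hcz⟩
    show σ (π₁ c) = 1
    rw [hcz]; exact hz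
  have hcard : Nat.card D = Nat.card σ.ker := by
    apply le_antisymm
    · rw [Nat.card_congr e₁.toEquiv]
      exact Nat.card_le_card_of_surjective f hf
    · exact Nat.card_le_card_of_surjective φ hφs
  have hφi : Function.Injective φ :=
    ((Nat.bijective_iff_surjective_and_card φ).2 ⟨hφs, hcard⟩).1
  rw [eq_bot_iff]
  intro x hx
  have hxD : x ∈ D := ⟨by show σ (π₁ x) = 1; rw [MonoidHom.mem_ker.1 hx.1, map_one], hx.2⟩
  have h1 : φ ⟨x, hxD⟩ = φ ⟨1, D.one_mem⟩ := by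
    apply Subtype.ext
    show π₁ x = π₁ 1
    rw [MonoidHom.mem_ker.1 hx.1, map_one]
  have h2 := hφi h1
  rw [Subgroup.mem_bot]
  exact congrArg Subtype.val h2

/-- Coprime case: any two Schur covers are isomorphic over `Q`. -/
theorem exists_mulEquiv_over_of_coprime {Q : Type u} [Group Q] [Finite Q] {A : Type v}
    [CommGroup A] (hA : HasSchurMultiplier Q A)
    (hcop : Nat.Coprime (Nat.card (Abelianization Q)) (Nat.card A))
    {Γ₁ Γ₂ : Type u} [Group Γ₁] [Finite Γ₁] [Group Γ₂] [Finite Γ₂] (σ₁ : Γ₁ →* Q) (σ₂ : Γ₂ →* Q)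
    (h₁ : IsStemExtension σ₁) (h₂ : IsStemExtension σ₂) (e₁ : σ₁.ker ≃* A) (e₂ : σ₂.ker ≃* A) :
    ∃ e : Γ₁ ≃* Γ₂, σ₂.comp e.toMonoidHom = σ₁ := by
  classical
  set π₁ := pullbackFst σ₁ σ₂ with hπ₁
  set π₂ := pullbackSnd σ₁ σ₂ with hπ₂
  have hπ₁s : Function.Surjective π₁ := pullbackFst_surjective σ₁ σ₂ h₂.1
  have hπ₂s : Function.Surjective π₂ := pullbackSnd_surjective σ₁ σ₂ h₁.1
  have hcomm : σ₁.comp π₁ = σ₂.comp π₂ := pullback_comm σ₁ σ₂
  have hτc : (σ₁.comp π₁).ker ≤ Subgroup.center (pullback σ₁ σ₂) := by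
    rintro ⟨⟨g₁, g₂⟩, ha⟩ hk
    have hg₁ : σ₁ g₁ = 1 := hk
    have hg₂ : σ₂ g₂ = 1 := by
      have : σ₁ g₁ = σ₂ g₂ := ha
      rw [← this, hg₁]
    rw [Subgroup.mem_center_iff]
    rintro ⟨⟨x₁, x₂⟩, hx⟩
    apply Subtype.ext
    show (x₁ * g₁, x₂ * g₂) = (g₁ * x₁, g₂ * x₂)
    rw [Subgroup.mem_center_iff.1 (h₁.2.1 hg₁) x₁, Subgroup.mem_center_iff.1 (h₂.2.1 hg₂) x₂]
  have hi₁ := ker_inf_commutator_eq_bot_of_cover hA σ₁ h₁ e₁ π₁ hπ₁s hτc
  have hi₂ := ker_inf_commutator_eq_bot_of_cover hA σ₂ h₂ e₂ π₂ hπ₂s (hcomm ▸ hτc)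
  have hc₁ : π₁.ker ≤ Subgroup.center (pullback σ₁ σ₂) := fun x hx =>
    hτc (by show σ₁ (π₁ x) = 1; rw [MonoidHom.mem_ker.1 hx, map_one])
  have hc₂ : π₂.ker ≤ Subgroup.center (pullback σ₁ σ₂) := fun x hx =>
    hτc (by
      have : (σ₁.comp π₁) x = (σ₂.comp π₂) x := by rw [hcomm]
      show σ₁ (π₁ x) = 1
      exact this.trans (by show σ₂ (π₂ x) = 1; rw [MonoidHom.mem_ker.1 hx, map_one]))
  set n := Nat.card (Abelianization Q) with hn
  set m := Nat.card A with hm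
  have hm₁ : ∀ k ∈ π₁.ker, k ^ m = 1 := by
    rintro ⟨⟨g₁, g₂⟩, ha⟩ hk
    have hg₁ : g₁ = 1 := hk
    have hg₂ : σ₂ g₂ = 1 := by
      have : σ₁ g₁ = σ₂ g₂ := ha
      rw [← this, hg₁, map_one]
    apply Subtype.ext
    show (g₁ ^ m, g₂ ^ m) = (1, 1)
    have h3 : (⟨g₂, hg₂⟩ : σ₂.ker) ^ m = 1 := by
      rw [hm, ← Nat.card_congr e₂.toEquiv]; exact pow_card_eq_one'
    have h4 : g₂ ^ m = 1 := congrArg Subtype.val h3
    rw [hg₁, one_pow, h4]
  have hm₂ : ∀ k ∈ π₂.ker, k ^ m = 1 := by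
    rintro ⟨⟨g₁, g₂⟩, ha⟩ hk
    have hg₂ : g₂ = 1 := hk
    have hg₁ : σ₁ g₁ = 1 := by
      have : σ₁ g₁ = σ₂ g₂ := ha
      rw [this, hg₂, map_one]
    apply Subtype.ext
    show (g₁ ^ m, g₂ ^ m) = (1, 1)
    have h3 : (⟨g₁, hg₁⟩ : σ₁.ker) ^ m = 1 := by
      rw [hm, ← Nat.card_congr e₁.toEquiv]; exact pow_card_eq_one'
    have h4 : g₁ ^ m = 1 := congrArg Subtype.val h3
    rw [hg₂, one_pow, h4]
  have b₁ := bijective_restrict_powTorsion π₁ hπ₁s hc₁ hi₁ n m hcop hm₁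
    (pow_card_abelianization_mem_commutator σ₁ h₁)
  have b₂ := bijective_restrict_powTorsion π₂ hπ₂s hc₂ hi₂ n m hcop hm₂
    (pow_card_abelianization_mem_commutator σ₂ h₂)
  let E₁ := MulEquiv.ofBijective _ b₁
  let E₂ := MulEquiv.ofBijective _ b₂
  refine ⟨E₁.symm.trans E₂, ?_⟩
  ext γ
  obtain ⟨g, rfl⟩ := E₁.surjective γ
  show σ₂ (E₂ (E₁.symm (E₁ g))) = σ₁ (E₁ g)
  rw [MulEquiv.symm_apply_apply]
  show σ₂ (π₂ g.1) = σ₁ (π₁ g.1)
  exact (congrArg (fun f : pullback σ₁ σ₂ →* Q => f g.1) hcomm).symm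

end CoverUniq

end Cfsg.Agent.H41
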