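import Mathlib
import Cfsg.Prelude.Def_KGroupFacts
import Cfsg.Agent.H41.CarryTwist
import Cfsg.Agent.H41.CoverUniq

/-!
# Non-uniqueness of Schur covers over `Q` when `|Q^ab|` and `|M(Q)|` have a common prime
-/

set_option autoImplicit false
set_option linter.unusedSectionVars false
set_option linter.style.haveILetI false

namespace Cfsg.Agent.H41

open Cfsg
open scoped commutatorElement

universe u v w

section Twist

variable {Γ : Type u} [Group Γ] {Q : Type v} [Group Q] {n : ℕ} [NeZero n]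
  (σ : Γ →* Q) (χ : Q →* Multiplicative (ZMod n)) (t : ↥((χ.comp σ).ker ⊓ Subgroup.center Γ))

/-- The projection of the carry-twisted extension. -/
def twistProj (ht : σ (t : Γ) = 1) : CarryTwist Γ n (χ.comp σ) t →* Q := CarryTwist.lift σ ht

theorem twistProj_apply (ht : σ (t : Γ) = 1) (a : CarryTwist Γ n (χ.comp σ) t) :
    twistProj σ χ t ht a = σ a.val := rfl

theorem mem_commutator_of_map_mem {σ : Γ →* Q} (hσ : IsStemExtension σ) {x : Γ}
    (hx : σ x ∈ commutator Q) : x ∈ commutator Γ := by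
  obtain ⟨hsurj, -, hcomm⟩ := hσ
  rw [← map_commutator_of_surjective σ hsurj] at hx
  obtain ⟨c, hc, hcx⟩ := hx
  have hk : x * c⁻¹ ∈ σ.ker := by
    rw [MonoidHom.mem_ker, map_mul, map_inv, hcx, mul_inv_cancel]
  have := Subgroup.mul_mem _ (hcomm hk) hc
  rwa [inv_mul_cancel_right] at this

theorem isStemExtension_twistProj (hσ : IsStemExtension σ) (ht : σ (t : Γ) = 1) :
    IsStemExtension (twistProj σ χ t ht) := by
  refine ⟨?_, ?_, ?_⟩
  · intro q
    obtain ⟨g, rfl⟩ := hσ.1 q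
    exact ⟨⟨g⟩, rfl⟩
  · intro a ha
    have ha' : σ a.val = 1 := ha
    have hα : (χ.comp σ) a.val = 1 := by show χ (σ a.val) = 1; rw [ha', map_one]
    rw [Subgroup.mem_center_iff]
    intro b
    apply CarryTwist.ext
    rw [CarryTwist.mul_val_of_left hα, CarryTwist.mul_val_of_right hα]
    exact Subgroup.mem_center_iff.1 (hσ.2.1 ha') b.val
  · intro a ha
    have ha' : σ a.val = 1 := ha
    exact CarryTwist.mem_commutator_of_mem (hσ.2.2 ha')

/-- The kernel of the twisted extension is the old kernel. -/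
def twistKerEquiv (ht : σ (t : Γ) = 1) : (twistProj σ χ t ht).ker ≃* σ.ker where
  toFun a := ⟨a.1.val, a.2⟩
  invFun z := ⟨⟨z.1⟩, z.2⟩
  left_inv a := rfl
  right_inv z := rfl
  map_mul' a b := Subtype.ext (CarryTwist.mul_val_of_left (by
    show χ (σ a.1.val) = 1
    rw [show σ a.1.val = 1 from a.2, map_one]))

theorem carry_natCast_one (hn : 1 < n) (k : ℕ) (hk : k < n) :
    carry n ((k : ℕ) : ZMod n) 1 = if k + 1 = n then 1 else 0 := by
  have : Fact (1 < n) := ⟨hn⟩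
  unfold carry
  rw [ZMod.val_natCast_of_lt hk, ZMod.val_one]
  split_ifs with h
  · rw [h, Nat.div_self (by omega)]
  · exact Nat.div_eq_of_lt (by omega)

/-- The twisted extension is not isomorphic over `Q` to the original one. -/
theorem not_mulEquiv_twist (hn : 1 < n) (hσ : IsStemExtension σ) (ht : σ (t : Γ) = 1)
    (g₀ : Γ) (hg₀ : χ (σ g₀) = Multiplicative.ofAdd 1) (hg₀n : g₀ ^ n ∈ commutator Γ)
    (htn : ∀ z ∈ σ.ker, z ^ n ≠ (t : Γ))
    (e : Γ ≃* CarryTwist Γ n (χ.comp σ) t)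
    (he : (twistProj σ χ t ht).comp e.toMonoidHom = σ) : False := by
  let ζ : Γ → Γ := fun g => g⁻¹ * (e g).val
  have hσe : ∀ g, σ (e g).val = σ g := fun g => DFunLike.congr_fun he g
  have hζk : ∀ g, ζ g ∈ σ.ker := by
    intro g
    rw [MonoidHom.mem_ker, map_mul, map_inv, hσe, inv_mul_cancel]
  have hζc : ∀ g, ζ g ∈ Subgroup.center Γ := fun g => hσ.2.1 (hζk g)
  have hαζ : ∀ g, (χ.comp σ) (ζ g) = 1 := by
    intro g
    show χ (σ (ζ g)) = 1
    rw [MonoidHom.mem_ker.1 (hζk g), map_one]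
  have hval : ∀ g, (e g).val = g * ζ g := by
    intro g
    show (e g).val = g * (g⁻¹ * (e g).val)
    rw [mul_inv_cancel_left]
  have hαe : ∀ g, (χ.comp σ) (e g).val = (χ.comp σ) g := by
    intro g
    show χ (σ (e g).val) = χ (σ g)
    rw [hσe]
  have hmul : ∀ g h, ζ (g * h) = ζ g * ζ h * (t : Γ) ^ carry n ((χ.comp σ) g).toAdd ((χ.comp σ) h).toAdd := by
    intro g h
    have h1 : (e (g * h)).val = (e g * e h).val := by rw [map_mul]
    rw [CarryTwist.mul_val, hαe, hαe, hval, hval, hval] at h1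
    have h2 : g * ζ g * (h * ζ h) = g * h * (ζ g * ζ h) := by
      have hc := Subgroup.mem_center_iff.1 (hζc g) h
      calc g * ζ g * (h * ζ h) = g * (ζ g * h) * ζ h := by simp only [mul_assoc]
        _ = g * (h * ζ g) * ζ h := by rw [hc]
        _ = g * h * (ζ g * ζ h) := by simp only [mul_assoc]
    rw [h2, mul_assoc (g * h)] at h1
    exact mul_left_cancel h1
  have hleft : ∀ x h, (χ.comp σ) x = 1 → ζ (x * h) = ζ x * ζ h := by
    intro x h hx
    rw [hmul, hx, toAdd_one, carry_zero_left, pow_zero, mul_one]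
  have hcomm : ∀ g h : Γ, ζ ⁅g, h⁆ = 1 := by
    intro g h
    have h1 : ζ (g * h) = ζ (⁅g, h⁆ * (h * g)) := by
      congr 1; rw [commutatorElement_def]; group
    rw [hmul g h, hleft _ _ (CarryTwist.alpha_commutator (α := χ.comp σ) g h), hmul h g,
      carry_comm n ((χ.comp σ) h).toAdd,
      show ζ h * ζ g = ζ g * ζ h from Subgroup.mem_center_iff.1 (hζc g) (ζ h)] at h1
    exact right_eq_mul.1 h1
  have hζ1 : ζ 1 = 1 := by
    show (1 : Γ)⁻¹ * (e 1).val = 1
    rw [map_one, CarryTwist.one_val, inv_one, one_mul]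
  have hkill : ∀ x ∈ commutator Γ, ζ x = 1 := by
    intro x hx
    rw [commutator_eq_closure] at hx
    have key : (χ.comp σ) x = 1 ∧ ζ x = 1 := by
      induction hx using Subgroup.closure_induction with
      | mem y hy =>
        obtain ⟨g, h, rfl⟩ := hy
        exact ⟨CarryTwist.alpha_commutator (α := χ.comp σ) g h, hcomm g h⟩
      | one => exact ⟨map_one (χ.comp σ), hζ1⟩
      | mul y z _ _ hy hz =>
        exact ⟨by rw [map_mul, hy.1, hz.1, one_mul], by rw [hleft _ _ hy.1, hy.2, hz.2, one_mul]⟩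
      | inv y _ hy =>
        have hy' : (χ.comp σ) y⁻¹ = 1 := by rw [map_inv, hy.1, inv_one]
        refine ⟨hy', ?_⟩
        have h1 := hleft y⁻¹ y hy'
        rw [inv_mul_cancel, hζ1, hy.2, mul_one] at h1
        exact h1.symm
    exact key.2
  have hαg₀ : ∀ k : ℕ, ((χ.comp σ) (g₀ ^ k)).toAdd = ((k : ℕ) : ZMod n) := by
    intro k
    rw [map_pow]
    show ((χ (σ g₀)) ^ k).toAdd = _
    rw [hg₀, toAdd_pow, toAdd_ofAdd, nsmul_eq_mul, mul_one]
  have hαg₀1 : ((χ.comp σ) g₀).toAdd = 1 := by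
    have := hαg₀ 1
    rwa [pow_one, Nat.cast_one] at this
  have hpow : ∀ k : ℕ, k < n → ζ (g₀ ^ k) = ζ g₀ ^ k := by
    intro k
    induction k with
    | zero => intro _; rw [pow_zero, pow_zero, hζ1]
    | succ k ih =>
      intro hk
      rw [pow_succ, hmul, hαg₀, hαg₀1, carry_natCast_one hn k (by omega), if_neg (by omega),
        pow_zero, mul_one, ih (by omega), pow_succ]
  have hn1 : n - 1 + 1 = n := by omega
  have hfin : ζ (g₀ ^ n) = ζ g₀ ^ n * (t : Γ) := by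
    conv_lhs => rw [← hn1]
    rw [pow_succ, hmul, hαg₀, hαg₀1, carry_natCast_one hn (n - 1) (by omega), if_pos hn1, pow_one,
      hpow (n - 1) (by omega), ← pow_succ, hn1]
  rw [hkill _ hg₀n] at hfin
  refine htn (ζ g₀)⁻¹ (Subgroup.inv_mem _ (hζk g₀)) ?_
  rw [inv_pow]
  exact inv_eq_of_mul_eq_one_right hfin.symm

end Twist

/-- A cyclic direct factor of `Q^ab` of order divisible by `p`. -/
theorem exists_cyclic_factor_hom {Q : Type*} [Group Q] [Finite Q] (p : ℕ) (hp : p.Prime)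
    (hpd : p ∣ Nat.card (Abelianization Q)) :
    ∃ (n : ℕ) (_ : 1 < n) (χ : Q →* Multiplicative (ZMod n)) (q₀ : Q),
      p ∣ n ∧ χ q₀ = Multiplicative.ofAdd 1 ∧ q₀ ^ n ∈ commutator Q := by
  classical
  obtain ⟨ι, _, n, hn, ⟨e⟩⟩ := CommGroup.equiv_prod_multiplicative_zmod_of_finite (Abelianization Q)
  have hcard : Nat.card (Abelianization Q) = ∏ i, n i := by
    rw [Nat.card_congr e.toEquiv, Nat.card_pi]
    exact Finset.prod_congr rfl fun i _ => Nat.card_zmod (n i)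
  rw [hcard] at hpd
  obtain ⟨i₀, -, hi₀⟩ := (Nat.Prime.prime hp).dvd_finsetProd_iff _ |>.1 hpd
  let χ : Q →* Multiplicative (ZMod (n i₀)) :=
    (Pi.evalMonoidHom (fun i => Multiplicative (ZMod (n i))) i₀).comp
      (e.toMonoidHom.comp Abelianization.of)
  obtain ⟨q₀, hq₀⟩ := QuotientGroup.mk_surjective (s := commutator Q)
    (e.symm (Pi.mulSingle i₀ (Multiplicative.ofAdd (1 : ZMod (n i₀)))))
  have hq₀' : Abelianization.of q₀ =
      e.symm (Pi.mulSingle i₀ (Multiplicative.ofAdd (1 : ZMod (n i₀)))) := hq₀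
  refine ⟨n i₀, hn i₀, χ, q₀, hi₀, ?_, ?_⟩
  · show (e (Abelianization.of q₀)) i₀ = _
    rw [hq₀', MulEquiv.apply_symm_apply, Pi.mulSingle_eq_same]
  · rw [← QuotientGroup.eq_one_iff]
    show Abelianization.of (q₀ ^ n i₀) = 1
    rw [map_pow, hq₀', ← map_pow, ← Pi.mulSingle_pow]
    have : (Multiplicative.ofAdd (1 : ZMod (n i₀))) ^ (n i₀) = 1 := by
      rw [← ofAdd_nsmul, nsmul_eq_mul, mul_one, ZMod.natCast_self]; rfl
    rw [this, Pi.mulSingle_one, map_one]

/-- If any two Schur covers are isomorphic over `Q`, then `|Q^ab|` and `|A|` are coprime. -/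
theorem coprime_of_unique_cover {Q : Type u} [Group Q] [Finite Q] {A : Type v} [CommGroup A]
    (hA : HasSchurMultiplier Q A)
    (H : ∀ (Γ₁ Γ₂ : Type u) [Group Γ₁] [Finite Γ₁] [Group Γ₂] [Finite Γ₂] (σ₁ : Γ₁ →* Q)
      (σ₂ : Γ₂ →* Q), IsStemExtension σ₁ → IsStemExtension σ₂ → Nonempty (σ₁.ker ≃* A) →
      Nonempty (σ₂.ker ≃* A) → ∃ e : Γ₁ ≃* Γ₂, σ₂.comp e.toMonoidHom = σ₁) :
    Nat.Coprime (Nat.card (Abelianization Q)) (Nat.card A) := by
  classical
  by_contra hnc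
  obtain ⟨p, hp, hpQ, hpA⟩ := Nat.Prime.not_coprime_iff_dvd.1 hnc
  obtain ⟨⟨Γ, _, _, σ, hσ, ⟨e₀⟩⟩, -⟩ := hA
  obtain ⟨n, hn, χ, q₀, hpn, hχ, hq₀⟩ := exists_cyclic_factor_hom p hp hpQ
  haveI : NeZero n := ⟨by omega⟩
  obtain ⟨g₀, rfl⟩ := hσ.1 q₀
  have hg₀n : g₀ ^ n ∈ commutator Γ :=
    mem_commutator_of_map_mem hσ (by rw [map_pow]; exact hq₀)
  haveI : Fact p.Prime := ⟨hp⟩
  have hpk : p ∣ Nat.card σ.ker := by rw [Nat.card_congr e₀.toEquiv]; exact hpA
  obtain ⟨x, hx⟩ := exists_prime_orderOf_dvd_card' p hpk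
  have hnotinj : ¬ Function.Injective (fun z : σ.ker => z ^ p) := by
    intro hinj
    have h1 : x ^ p = (1 : σ.ker) ^ p := by rw [← hx, pow_orderOf_eq_one, one_pow]
    have h2 : x = 1 := hinj h1
    rw [h2, orderOf_one] at hx
    exact hp.one_lt.ne hx
  have hnotsurj : ¬ Function.Surjective (fun z : σ.ker => z ^ p) := fun hs =>
    hnotinj (Finite.injective_iff_surjective.2 hs)
  obtain ⟨t₀, ht₀⟩ := not_forall.1 hnotsurj
  have ht₀' : ∀ z : σ.ker, z ^ p ≠ t₀ := fun z hz => ht₀ ⟨z, hz⟩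
  let t : ↥((χ.comp σ).ker ⊓ Subgroup.center Γ) :=
    ⟨t₀.1, ⟨by show χ (σ t₀.1) = 1; rw [MonoidHom.mem_ker.1 t₀.2, map_one], hσ.2.1 t₀.2⟩⟩
  have ht : σ (t : Γ) = 1 := t₀.2
  have htn : ∀ z ∈ σ.ker, z ^ n ≠ (t : Γ) := by
    intro z hz hzn
    obtain ⟨c, rfl⟩ := hpn
    apply ht₀' (⟨z, hz⟩ ^ c)
    apply Subtype.ext
    show (z ^ c) ^ p = t₀.1
    rw [← pow_mul, mul_comm]
    exact hzn
  obtain ⟨e, he⟩ := H Γ (CarryTwist Γ n (χ.comp σ) t) σ (twistProj σ χ t ht) hσ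
    (isStemExtension_twistProj σ χ t hσ ht) ⟨e₀⟩ ⟨(twistKerEquiv σ χ t ht).trans e₀⟩
  exact not_mulEquiv_twist σ χ t hn hσ ht g₀ hχ hg₀n htn e he

end Cfsg.Agent.H41
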