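import Cfsg.Agent.H41.CoxBound

/-!
# Quasi-minuscule parabolic steps for simply laced Coxeter quotients (helper41)

A variant of `CoxBound.step` in which two descents `x, y` from a coset may also be adjacent
nodes, provided the coset graph then contains the hexagon of the braid relation below the coset
(`Valid2`).  This covers the step `E₇ < E₈` (240 cosets).
-/

set_option autoImplicit false

namespace Cfsg.Agent.H41.CoxBound

variable {G : Type*} [Group G]

/-- the local conditions, with hexagons allowed -/
def Valid2 (adj : ℕ → ℕ → Bool) (k : ℕ) (D : Datum) : Prop :=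
  0 < D.N ∧ D.rank 0 = 0 ∧
  (∀ a, a < D.N → ∀ i, i ≤ k →
     D.act a i < D.N ∧ D.act (D.act a i) i = a ∧
     (D.act a i = a ∨ D.rank (D.act a i) = D.rank a + 1 ∨ D.rank a = D.rank (D.act a i) + 1)) ∧
  (∀ a, a < D.N → (D.rank a = 0 → a = 0) ∧
     (0 < D.rank a → ∃ i, i ≤ k ∧ D.rank (D.act a i) + 1 = D.rank a)) ∧
  (∀ a, a < D.N → ∀ i, i ≤ k → D.act a i = a →
     D.phi a i < k ∧ (a = 0 → D.phi a i = i) ∧
     ∀ m, m ≤ k → D.rank (D.act a m) + 1 = D.rank a →
        (adj m i = false → D.act (D.act a m) i = D.act a m ∧ D.phi (D.act a m) i = D.phi a i) ∧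
        (adj m i = true → D.rank (D.act (D.act a m) i) + 1 = D.rank (D.act a m) ∧
            D.act (D.act (D.act a m) i) m = D.act (D.act a m) i ∧
            D.phi (D.act (D.act a m) i) m = D.phi a i)) ∧
  (∀ a, a < D.N → ∀ x, x ≤ k → ∀ y, y ≤ k → x ≠ y →
     D.rank (D.act a x) + 1 = D.rank a → D.rank (D.act a y) + 1 = D.rank a →
       (adj x y = false ∧ D.act (D.act a x) y = D.act (D.act a y) x ∧
         D.rank (D.act (D.act a x) y) + 2 = D.rank a) ∨
       (adj x y = true ∧
         D.act (D.act (D.act a x) y) x = D.act (D.act (D.act a y) x) y ∧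
         D.rank (D.act (D.act a x) y) + 1 = D.rank (D.act a x) ∧
         D.rank (D.act (D.act (D.act a x) y) x) + 1 = D.rank (D.act (D.act a x) y) ∧
         D.rank (D.act (D.act a y) x) + 1 = D.rank (D.act a y) ∧
         D.rank (D.act (D.act (D.act a y) x) y) + 1 = D.rank (D.act (D.act a y) x)))

section Step2

variable {D : Datum} {k : ℕ} {g : ℕ → G} {adj : ℕ → ℕ → Bool}

theorem Reach.lt2 (hD : Valid2 adj k D) {a : ℕ} {w : G} (h : Reach D k g a w) : a < D.N := by
  induction h with
  | base => exact hD.1
  | step a i w ha hi _ _ _ => exact (hD.2.2.1 a ha i hi).1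

theorem Reach.inv2 (hD : Valid2 adj k D) {b : ℕ} {w : G} (h : Reach D k g b w)
    (h0 : 0 < D.rank b) :
    ∃ a i u, a < D.N ∧ i ≤ k ∧ Reach D k g a u ∧ D.act a i = b ∧ D.rank b = D.rank a + 1 ∧
      w = u * g i := by
  cases h with
  | base => rw [hD.2.1] at h0; omega
  | step a i w ha hi hr hrk => exact ⟨a, i, w, ha, hi, hr, rfl, hrk, rfl⟩

theorem Reach.rank_zero2 {a : ℕ} {w : G} (h : Reach D k g a w)
    (h0 : D.rank a = 0) : a = 0 ∧ w = 1 := by
  cases h with
  | base => exact ⟨rfl, rfl⟩
  | step a i w ha hi _ hr => omega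

theorem key2 (hD : Valid2 adj k D) (hrel : Rel adj g (k + 1)) :
    ∀ n a, a < D.N → D.rank a = n →
      (∃ w, Reach D k g a w) ∧ (∀ w w', Reach D k g a w → Reach D k g a w' → w = w') ∧
      (∀ w i, i ≤ k → Reach D k g a w → D.act a i = a → w * g i = g (D.phi a i) * w) := by
  obtain ⟨hN, hr0, hact, hrk, hfix, hdia⟩ := hD
  have hD : Valid2 adj k D := ⟨hN, hr0, hact, hrk, hfix, hdia⟩
  intro n
  induction n using Nat.strong_induction_on with
  | _ n ih =>
  intro a ha hn
  -- existence
  have hex : ∃ w, Reach D k g a w := by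
    rcases Nat.eq_zero_or_pos n with h0 | hpos
    · have : a = 0 := (hrk a ha).1 (by omega)
      subst this
      exact ⟨1, Reach.base⟩
    · obtain ⟨i, hi, hri⟩ := (hrk a ha).2 (by omega)
      obtain ⟨hb, hinv, -⟩ := hact a ha i hi
      obtain ⟨⟨u, hu⟩, -, -⟩ := ih (D.rank (D.act a i)) (by omega) _ hb rfl
      refine ⟨u * g i, ?_⟩
      have := Reach.step (D := D) (k := k) (g := g) (D.act a i) i u hb hi hu (by rw [hinv]; omega)
      rwa [hinv] at this
  -- uniqueness
  have huniq : ∀ w w', Reach D k g a w → Reach D k g a w' → w = w' := by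
    intro w w' hw hw'
    rcases Nat.eq_zero_or_pos n with h0 | hpos
    · rw [(hw.rank_zero2 (by omega)).2, (hw'.rank_zero2 (by omega)).2]
    · obtain ⟨b, i, u, hb, hi, hu, hbi, hrb, rfl⟩ := hw.inv2 hD (by omega)
      obtain ⟨b', j, u', hb', hj, hu', hbj, hrb', rfl⟩ := hw'.inv2 hD (by omega)
      have e1 : D.act a i = b := by rw [← hbi]; exact (hact b hb i hi).2.1
      have e2 : D.act a j = b' := by rw [← hbj]; exact (hact b' hb' j hj).2.1
      by_cases hij : i = j
      · subst hij
        have : b = b' := by rw [← e1, ← e2]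
        subst this
        rw [(ih (D.rank b) (by omega) b hb rfl).2.1 u u' hu hu']
      · rcases hdia a ha i hi j hj hij (by rw [e1]; omega) (by rw [e2]; omega) with
          ⟨hadj, hnu, hrnu⟩ | ⟨hadj, hnu, hr1, hr2, hr3, hr4⟩
        swap
        · -- hexagon
          rw [e1, e2] at hnu
          rw [e1] at hr1 hr2
          rw [e2] at hr3 hr4
          have hc : D.act b j < D.N := (hact b hb j hj).1
          have hν : D.act (D.act b j) i < D.N := (hact _ hc i hi).1
          have hc' : D.act b' i < D.N := (hact b' hb' i hi).1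
          obtain ⟨⟨v, hv⟩, -, -⟩ := ih (D.rank (D.act (D.act b j) i)) (by omega) _ hν rfl
          -- words for c, b
          have rc : Reach D k g (D.act b j) (v * g i) := by
            have := Reach.step (D := D) (k := k) (g := g) (D.act (D.act b j) i) i v hν hi hv
              (by rw [(hact _ hc i hi).2.1]; omega)
            rwa [(hact _ hc i hi).2.1] at this
          have rb : Reach D k g b (v * g i * g j) := by
            have := Reach.step (D := D) (k := k) (g := g) (D.act b j) j (v * g i) hc hj rc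
              (by rw [(hact b hb j hj).2.1]; omega)
            rwa [(hact b hb j hj).2.1] at this
          have hν' : D.act (D.act b' i) j < D.N := (hact _ hc' j hj).1
          have hv' : Reach D k g (D.act (D.act b' i) j) v := by rw [← hnu]; exact hv
          have rc' : Reach D k g (D.act b' i) (v * g j) := by
            have := Reach.step (D := D) (k := k) (g := g) (D.act (D.act b' i) j) j v hν' hj hv'
              (by rw [(hact _ hc' j hj).2.1]; omega)
            rwa [(hact _ hc' j hj).2.1] at this
          have rb' : Reach D k g b' (v * g j * g i) := by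
            have := Reach.step (D := D) (k := k) (g := g) (D.act b' i) i (v * g j) hc' hi rc'
              (by rw [(hact b' hb' i hi).2.1]; omega)
            rwa [(hact b' hb' i hi).2.1] at this
          rw [(ih (D.rank b) (by omega) b hb rfl).2.1 u _ hu rb,
            (ih (D.rank b') (by omega) b' hb' rfl).2.1 u' _ hu' rb']
          have hbr := hrel.2.1 i j (by omega) (by omega) hadj
          calc v * g i * g j * g i = v * (g i * g j * g i) := by simp only [mul_assoc]
            _ = v * (g j * g i * g j) := by rw [hbr]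
            _ = v * g j * g i * g j := by simp only [mul_assoc]
        rw [e1, e2] at hnu
        rw [e1] at hrnu
        have hν : D.act b j < D.N := (hact b hb j hj).1
        obtain ⟨⟨v, hv⟩, -, -⟩ := ih (D.rank (D.act b j)) (by omega) _ hν rfl
        have r1 : Reach D k g b (v * g j) := by
          have := Reach.step (D := D) (k := k) (g := g) (D.act b j) j v hν hj hv
            (by rw [(hact b hb j hj).2.1]; omega)
          rwa [(hact b hb j hj).2.1] at this
        have hrnu' : D.rank (D.act b' i) + 2 = D.rank a := by rw [← hnu]; exact hrnu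
        have r2 : Reach D k g b' (v * g i) := by
          have := Reach.step (D := D) (k := k) (g := g) (D.act b j) i v hν hi hv
            (by rw [hnu, (hact b' hb' i hi).2.1]; omega)
          rwa [hnu, (hact b' hb' i hi).2.1] at this
        rw [(ih (D.rank b) (by omega) b hb rfl).2.1 u _ hu r1,
          (ih (D.rank b') (by omega) b' hb' rfl).2.1 u' _ hu' r2, mul_assoc, mul_assoc,
          hrel.2.2 i j (by omega) (by omega) hij hadj]
  refine ⟨hex, huniq, ?_⟩
  -- fixed pairs
  intro w i hi hw hai
  obtain ⟨hphi, hphi0, hloc⟩ := hfix a ha i hi hai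
  rcases Nat.eq_zero_or_pos n with h0 | hpos
  · obtain ⟨rfl, rfl⟩ := hw.rank_zero2 (by omega)
    rw [hphi0 rfl, one_mul, mul_one]
  · obtain ⟨b, m, u, hb, hm, hu, hbm, hrb, rfl⟩ := hw.inv2 hD (by omega)
    have e1 : D.act a m = b := by rw [← hbm]; exact (hact b hb m hm).2.1
    have hmi : m ≠ i := by
      rintro rfl
      rw [hai] at e1
      rw [← e1] at hrb
      omega
    obtain ⟨hA, hB⟩ := hloc m hm (by rw [e1]; omega)
    rw [e1] at hA hB
    cases hadj : adj m i with
    | false =>
      obtain ⟨hbi, hpb⟩ := hA hadj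
      have h1 := (ih (D.rank b) (by omega) b hb rfl).2.2 u i hi hu hbi
      rw [mul_assoc, hrel.2.2 m i (by omega) (by omega) hmi hadj, ← mul_assoc, h1, hpb, mul_assoc]
    | true =>
      obtain ⟨hrc, hcm, hpc⟩ := hB hadj
      have hc : D.act b i < D.N := (hact b hb i hi).1
      obtain ⟨⟨v, hv⟩, -, hfc⟩ := ih (D.rank (D.act b i)) (by omega) _ hc rfl
      have r1 : Reach D k g b (v * g i) := by
        have := Reach.step (D := D) (k := k) (g := g) (D.act b i) i v hc hi hv
          (by rw [(hact b hb i hi).2.1]; omega)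
        rwa [(hact b hb i hi).2.1] at this
      rw [(ih (D.rank b) (by omega) b hb rfl).2.1 u _ hu r1]
      have h1 := hfc v m hm hv hcm
      have hbr := hrel.2.1 m i (by omega) (by omega) hadj
      calc v * g i * g m * g i = v * (g i * g m * g i) := by simp only [mul_assoc]
        _ = v * (g m * g i * g m) := by rw [hbr]
        _ = (v * g m) * g i * g m := by simp only [mul_assoc]
        _ = g (D.phi a i) * (v * g i * g m) := by rw [h1, hpc]; simp only [mul_assoc]

/-- the union of the cosets is closed under right multiplication by the generators -/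
theorem mem_cosets2 (hD : Valid2 adj k D) (hrel : Rel adj g (k + 1)) (x : G)
    (hx : x ∈ Par g (k + 1)) :
    ∃ h ∈ Par g k, ∃ a w, Reach D k g a w ∧ x = h * w := by
  have hstep : ∀ (x : G), (∃ h ∈ Par g k, ∃ a w, Reach D k g a w ∧ x = h * w) → ∀ i, i ≤ k →
      ∃ h ∈ Par g k, ∃ a w, Reach D k g a w ∧ x * g i = h * w := by
    rintro x ⟨h, hh, a, w, hw, rfl⟩ i hi
    have ha := hw.lt2 hD
    obtain ⟨hb, hinv, hcase⟩ := hD.2.2.1 a ha i hi
    rcases hcase with hc | hc | hc
    · have h1 := (key2 hD hrel _ a ha rfl).2.2 w i hi hw hc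
      refine ⟨h * g (D.phi a i), (Par g k).mul_mem hh
        (mem_Par (hD.2.2.2.2.1 a ha i hi hc).1), a, w, hw, ?_⟩
      rw [mul_assoc, h1, mul_assoc]
    · exact ⟨h, hh, _, _, Reach.step a i w ha hi hw hc, by rw [mul_assoc]⟩
    · obtain ⟨v, hv⟩ := (key2 hD hrel _ _ hb rfl).1
      have r1 : Reach D k g a (v * g i) := by
        have := Reach.step (D := D) (k := k) (g := g) (D.act a i) i v hb hi hv
          (by rw [hinv]; omega)
        rwa [hinv] at this
      have e := (key2 hD hrel _ a ha rfl).2.1 w _ hw r1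
      refine ⟨h, hh, _, v, hv, ?_⟩
      rw [e, mul_assoc, mul_assoc, hrel.1 i (by omega), mul_one]
  refine Subgroup.closure_induction_right (p := fun x _ =>
    ∃ h ∈ Par g k, ∃ a w, Reach D k g a w ∧ x = h * w) ?_ ?_ ?_ hx
  · exact ⟨1, (Par g k).one_mem, 0, 1, Reach.base, by rw [mul_one]⟩
  · rintro x _ y ⟨i, hi, rfl⟩ hp
    exact hstep x hp i (by simpa using Nat.lt_succ_iff.mp hi)
  · rintro x _ y ⟨i, hi, rfl⟩ hp
    have hinv : (g i)⁻¹ = g i := by
      rw [inv_eq_iff_mul_eq_one]
      exact hrel.1 i hi
    rw [hinv]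
    exact hstep x hp i (by simpa using Nat.lt_succ_iff.mp hi)

/-- **Minuscule step**: the next parabolic subgroup has order at most `N` times the previous
one. -/
theorem step2 (hD : Valid2 adj k D) (hrel : Rel adj g (k + 1)) [Finite (Par g k)] :
    Finite (Par g (k + 1)) ∧ Nat.card (Par g (k + 1)) ≤ D.N * Nat.card (Par g k) := by
  classical
  have hex : ∀ x : Par g (k + 1), ∃ p : Par g k × Fin D.N, ∃ w, Reach D k g p.2.val w ∧
      (x : G) = (p.1 : G) * w := by
    intro x
    obtain ⟨h, hh, a, w, hw, e⟩ := mem_cosets2 hD hrel x.1 x.2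
    exact ⟨(⟨h, hh⟩, ⟨a, hw.lt2 hD⟩), w, hw, e⟩
  choose c hc using hex
  have hinj : Function.Injective c := by
    intro x y hxy
    obtain ⟨w, hw, e⟩ := hc x
    obtain ⟨w', hw', e'⟩ := hc y
    rw [hxy] at hw e
    have := (key2 hD hrel _ _ (hw.lt2 hD) rfl).2.1 w w' hw hw'
    apply Subtype.ext
    rw [e, e', this]
  refine ⟨Finite.of_injective c hinj, ?_⟩
  have := Nat.card_le_card_of_injective c hinj
  rwa [Nat.card_prod, Nat.card_fin, mul_comm] at this

end Step2

end Cfsg.Agent.H41.CoxBound
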