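import Mathlib
import Cfsg.Prelude.Def_KGroupFacts

/-!
# Central extensions of triply transitive groups (helper41)

Let `G = K ∪ K t K` (so `G` is doubly transitive on the cosets of `K`) with
`K = D ∪ D k₁ D`, where `D = K ∩ K^t`, and `t`, `k₁` involutions satisfying the braid relation
`t k₁ t = k₁ t k₁`.  If a stem extension `σ : Γ → G` splits over `K`, then `ker σ` is a
homomorphic image of `D`: there is a homomorphism `φ : D → Z(Γ)` whose image is `ker σ`.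
-/

set_option autoImplicit false
set_option linter.unusedSectionVars false
set_option linter.style.haveILetI false
set_option linter.unusedSimpArgs false

namespace Cfsg.Agent.H41.TwoPoint

open Cfsg
open scoped commutatorElement

variable {Γ G : Type*} [Group Γ] [Group G]

theorem conj_eq_of_map_eq' (σ : Γ →* G) (hc : σ.ker ≤ Subgroup.center Γ) {a a' : Γ}
    (h : σ a = σ a') (b : Γ) : a * b * a⁻¹ = a' * b * a'⁻¹ := by
  have hz : a'⁻¹ * a ∈ Subgroup.center Γ := by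
    apply hc
    rw [MonoidHom.mem_ker, map_mul, map_inv, h, inv_mul_cancel]
  have h1 := Subgroup.mem_center_iff.1 hz b
  have h2 : a = a' * (a'⁻¹ * a) := by group
  calc a * b * a⁻¹ = a' * ((a'⁻¹ * a) * b) * a⁻¹ := by group
    _ = a' * (b * (a'⁻¹ * a)) * a⁻¹ := by rw [h1]
    _ = a' * b * a'⁻¹ := by group

theorem comm_eq_of_map_eq (σ : Γ →* G) (hc : σ.ker ≤ Subgroup.center Γ) {a a' b b' : Γ}
    (ha : σ a = σ a') (hb : σ b = σ b') : ⁅a, b⁆ = ⁅a', b'⁆ := by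
  have h1 := conj_eq_of_map_eq' σ hc ha b
  have h2 := conj_eq_of_map_eq' σ hc hb a'⁻¹
  rw [commutatorElement_def, commutatorElement_def, h1]
  calc a' * b * a'⁻¹ * b⁻¹ = a' * (b * a'⁻¹ * b⁻¹) := by simp only [mul_assoc]
    _ = a' * (b' * a'⁻¹ * b'⁻¹) := by rw [h2]
    _ = a' * b' * a'⁻¹ * b'⁻¹ := by simp only [mul_assoc]

theorem cen_assoc {z : Γ} (hz : ∀ g : Γ, z * g = g * z) (x y : Γ) : z * (x * y) = x * (z * y) := by
  rw [← mul_assoc, hz, mul_assoc]

/-- Normalising a lift so that the braid relation holds exactly. -/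
theorem braid_normalise (a k c : Γ) (hc : ∀ g : Γ, c * g = g * c)
    (h : a * k * a = k * a * k * c) : (a * c⁻¹) * k * (a * c⁻¹) = k * (a * c⁻¹) * k := by
  have hci : ∀ g : Γ, c⁻¹ * g = g * c⁻¹ := by
    intro g
    have := hc g
    calc c⁻¹ * g = c⁻¹ * (g * c) * c⁻¹ := by group
      _ = c⁻¹ * (c * g) * c⁻¹ := by rw [this]
      _ = g * c⁻¹ := by group
  calc (a * c⁻¹) * k * (a * c⁻¹) = a * k * a * c⁻¹ * c⁻¹ := by
        simp only [mul_assoc, hci a, hci k, cen_assoc hci a, cen_assoc hci k]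
    _ = k * a * k * c * c⁻¹ * c⁻¹ := by rw [h]
    _ = k * a * k * c⁻¹ := by group
    _ = k * (a * c⁻¹) * k := by
        simp only [mul_assoc, hci a, hci k, cen_assoc hci a, cen_assoc hci k]

/-- From the braid relation, `a` and `k` are conjugate; so `a² = 1` if `k² = 1`. -/
theorem sq_eq_one_of_braid (a k : Γ) (h : a * k * a = k * a * k) (hk : k * k = 1) :
    a * a = 1 := by
  have h1 : k = (a * k) * a * (a * k)⁻¹ := by
    calc k = (k * a * k) * k⁻¹ * a⁻¹ := by group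
      _ = (a * k * a) * k⁻¹ * a⁻¹ := by rw [h]
      _ = (a * k) * a * (a * k)⁻¹ := by group
  have h2 : k * k = (a * k) * (a * a) * (a * k)⁻¹ := by
    calc k * k = ((a * k) * a * (a * k)⁻¹) * ((a * k) * a * (a * k)⁻¹) := by rw [← h1]
      _ = (a * k) * (a * a) * (a * k)⁻¹ := by group
  rw [hk] at h2
  calc a * a = (a * k)⁻¹ * ((a * k) * (a * a) * (a * k)⁻¹) * (a * k) := by group
    _ = 1 := by rw [← h2]; group

/-- **Two-point extension bound.**  `G = K ∪ K t K`, `K = D ∪ D k₁ D` with `D = K ∩ K^t`,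
`t² = k₁² = 1`, `t k₁ t = k₁ t k₁`.  If the stem extension `σ` has a multiplicative section `S`
over `K`, then `ker σ` is the image of a homomorphism from `D` to the centre of `Γ`. -/
theorem main (σ : Γ →* G) (hsurj : Function.Surjective σ) (hc : σ.ker ≤ Subgroup.center Γ)
    (hd : σ.ker ≤ commutator Γ)
    (K D : Subgroup G) (t k1 : G) (ht2 : t * t = 1) (htK : t ∉ K) (hk1 : k1 ∈ K)
    (hk1sq : k1 * k1 = 1) (hbraid : t * k1 * t = k1 * t * k1)
    (hDK : D ≤ K) (hD : ∀ d ∈ K, (d ∈ D ↔ t * d * t ∈ K))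
    (h2T : ∀ g : G, g ∈ K ∨ ∃ k ∈ K, ∃ k' ∈ K, g = k * t * k')
    (h3T : ∀ k ∈ K, k ∈ D ∨ ∃ d ∈ D, ∃ d' ∈ D, k = d * k1 * d')
    (S : G → Γ) (hSm : ∀ a ∈ K, ∀ b ∈ K, S (a * b) = S a * S b)
    (hSs : ∀ a ∈ K, σ (S a) = a) :
    ∃ φ : D →* Subgroup.center Γ, ∀ z ∈ σ.ker, ∃ d : D, (φ d : Γ) = z := by
  classical
  have hS1 : S 1 = 1 := by
    have h := hSm 1 K.one_mem 1 K.one_mem
    rw [mul_one] at h
    have h2 : S 1 * S 1 = S 1 * 1 := by rw [mul_one]; exact h.symm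
    exact mul_left_cancel h2
  have hSinv : ∀ a ∈ K, S a⁻¹ = (S a)⁻¹ := by
    intro a ha
    rw [eq_inv_iff_mul_eq_one, ← hSm _ (K.inv_mem ha) _ ha, inv_mul_cancel, hS1]
  have hcen : ∀ z : Γ, σ z = 1 → ∀ g : Γ, z * g = g * z := fun z hz g =>
    (Subgroup.mem_center_iff.1 (hc (MonoidHom.mem_ker.2 hz)) g).symm
  have httd : ∀ d : G, t * (t * d * t) * t = d := fun d => by
    calc t * (t * d * t) * t = (t * t) * d * (t * t) := by group
      _ = d := by rw [ht2, one_mul, mul_one]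
  have hDt : ∀ d ∈ D, t * d * t ∈ D := by
    intro d hd'
    have hdK := hDK hd'
    have h1 : t * d * t ∈ K := (hD d hdK).1 hd'
    rw [hD _ h1, httd]
    exact hdK
  -- normalised lift
  obtain ⟨tt0, htt0⟩ := hsurj t
  obtain ⟨c, hcdef⟩ : ∃ c : Γ, c = (S k1 * tt0 * S k1)⁻¹ * (tt0 * S k1 * tt0) := ⟨_, rfl⟩
  have hcσ : σ c = 1 := by
    rw [hcdef]
    simp only [map_mul, map_inv, htt0, hSs k1 hk1]
    rw [hbraid, inv_mul_cancel]
  have h0 : tt0 * S k1 * tt0 = S k1 * tt0 * S k1 * c := by rw [hcdef]; group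
  obtain ⟨tt, htt_def⟩ : ∃ tt : Γ, tt = tt0 * c⁻¹ := ⟨_, rfl⟩
  have htt : σ tt = t := by rw [htt_def, map_mul, map_inv, hcσ, htt0, inv_one, mul_one]
  have hR1 : tt * S k1 * tt = S k1 * tt * S k1 := by
    rw [htt_def]; exact braid_normalise tt0 (S k1) c (hcen c hcσ) h0
  have hSk1 : S k1 * S k1 = 1 := by rw [← hSm k1 hk1 k1 hk1, hk1sq, hS1]
  have htt2 : tt * tt = 1 := sq_eq_one_of_braid tt (S k1) hR1 hSk1
  have htt2' : ∀ x : Γ, tt * (tt * x) = x := fun x => by rw [← mul_assoc, htt2, one_mul]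
  -- the defect map
  obtain ⟨phi, hphi⟩ : ∃ phi : G → Γ, ∀ d, phi d =
      if d ∈ D then (S (t * d * t))⁻¹ * (tt * S d * tt) else 1 := ⟨_, fun _ => rfl⟩
  have hphiD : ∀ d ∈ D, tt * S d * tt = S (t * d * t) * phi d := by
    intro d hd'
    rw [hphi, if_pos hd']; group
  have hphiσ : ∀ d, σ (phi d) = 1 := by
    intro d
    rw [hphi]
    split_ifs with h
    · have h1 := hDK (hDt d h)
      rw [map_mul, map_inv, hSs _ h1, map_mul, map_mul, htt, hSs d (hDK h)]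
      exact inv_mul_cancel _
    · exact map_one σ
  have hphic : ∀ d g, phi d * g = g * phi d := fun d => hcen _ (hphiσ d)
  have hphimul : ∀ d ∈ D, ∀ d' ∈ D, phi (d * d') = phi d * phi d' := by
    intro d hd1 d' hd2
    have e1 : t * (d * d') * t = (t * d * t) * (t * d' * t) := by
      calc t * (d * d') * t = t * d * 1 * d' * t := by group
        _ = t * d * (t * t) * d' * t := by rw [ht2]
        _ = (t * d * t) * (t * d' * t) := by group
    have h1 := hphiD (d * d') (D.mul_mem hd1 hd2)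
    rw [hSm d (hDK hd1) d' (hDK hd2), e1, hSm _ (hDK (hDt d hd1)) _ (hDK (hDt d' hd2))] at h1
    have h2 : tt * (S d * S d') * tt = (tt * S d * tt) * (tt * S d' * tt) := by
      simp only [mul_assoc, htt2']
    rw [h2, hphiD d hd1, hphiD d' hd2] at h1
    have h3 : S (t * d * t) * phi d * (S (t * d' * t) * phi d') =
        S (t * d * t) * S (t * d' * t) * (phi d * phi d') := by
      calc S (t * d * t) * phi d * (S (t * d' * t) * phi d')
          = S (t * d * t) * (phi d * S (t * d' * t)) * phi d' := by group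
        _ = S (t * d * t) * (S (t * d' * t) * phi d) * phi d' := by rw [hphic d]
        _ = S (t * d * t) * S (t * d' * t) * (phi d * phi d') := by group
    rw [h3] at h1
    exact (mul_left_cancel h1).symm
  have hphi1 : phi 1 = 1 := by
    have h := hphimul 1 D.one_mem 1 D.one_mem
    rw [mul_one] at h
    have h2 : phi 1 * phi 1 = phi 1 * 1 := by rw [mul_one]; exact h.symm
    exact mul_left_cancel h2
  obtain ⟨φ, hφ⟩ : ∃ φ : D →* Subgroup.center Γ, ∀ d : D, (φ d : Γ) = phi d.1 :=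
    ⟨{ toFun := fun d => ⟨phi d.1, Subgroup.mem_center_iff.2 (fun g => (hphic d.1 g).symm)⟩
       map_one' := Subtype.ext hphi1
       map_mul' := fun a b => Subtype.ext (hphimul a.1 a.2 b.1 b.2) }, fun _ => rfl⟩
  obtain ⟨A1, hA1⟩ : ∃ A1 : Subgroup Γ,
      A1 = Subgroup.map (Subgroup.center Γ).subtype φ.range := ⟨_, rfl⟩
  have hA1mem : ∀ x, x ∈ A1 ↔ ∃ d : D, phi d.1 = x := by
    intro x
    rw [hA1, Subgroup.mem_map]
    constructor
    · rintro ⟨y, ⟨d, rfl⟩, rfl⟩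
      exact ⟨d, (hφ d).symm⟩
    · rintro ⟨d, rfl⟩
      exact ⟨φ d, ⟨d, rfl⟩, hφ d⟩
  haveI hA1n : A1.Normal := by
    constructor
    intro n hn g
    obtain ⟨d, rfl⟩ := (hA1mem n).1 hn
    rw [← hphic d.1 g, mul_inv_cancel_right]
    exact hn
  -- the quotient
  obtain ⟨π, hπ⟩ : ∃ π : Γ →* Γ ⧸ A1, π = QuotientGroup.mk' A1 := ⟨_, rfl⟩
  have hπ1 : ∀ x ∈ A1, π x = 1 := by
    intro x hx
    rw [hπ, QuotientGroup.mk'_apply, QuotientGroup.eq_one_iff]
    exact hx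
  have hπeq : ∀ x y, π x = π y → x⁻¹ * y ∈ A1 := by
    intro x y h
    rw [hπ] at h
    exact QuotientGroup.eq.1 h
  obtain ⟨T, hT⟩ : ∃ T, T = π tt := ⟨_, rfl⟩
  obtain ⟨Sb, hSb⟩ : ∃ Sb : G → Γ ⧸ A1, ∀ g, Sb g = π (S g) := ⟨_, fun _ => rfl⟩
  have hTT : T * T = 1 := by rw [hT, ← map_mul, htt2, map_one]
  have hTT' : ∀ x, T * (T * x) = x := fun x => by rw [← mul_assoc, hTT, one_mul]
  have hSbm : ∀ a ∈ K, ∀ b ∈ K, Sb (a * b) = Sb a * Sb b := by
    intro a ha b hb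
    rw [hSb, hSb, hSb, hSm a ha b hb, map_mul]
  have hSb1 : Sb 1 = 1 := by rw [hSb, hS1, map_one]
  have hTD : ∀ d ∈ D, T * Sb d * T = Sb (t * d * t) := by
    intro d hd'
    rw [hT, hSb, hSb, ← map_mul, ← map_mul, hphiD d hd', map_mul,
      hπ1 (phi d) ((hA1mem _).2 ⟨⟨d, hd'⟩, rfl⟩), mul_one]
  have hTb : T * Sb k1 * T = Sb k1 * T * Sb k1 := by
    rw [hT, hSb, ← map_mul, ← map_mul, hR1, map_mul, map_mul]
  obtain ⟨M, hM⟩ : ∃ M : Set (Γ ⧸ A1), M =
      {x | (∃ k ∈ K, x = Sb k) ∨ ∃ k ∈ K, ∃ k' ∈ K, x = Sb k * T * Sb k'} := ⟨_, rfl⟩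
  have hM1 : (1 : Γ ⧸ A1) ∈ M := by
    rw [hM]; exact Or.inl ⟨1, K.one_mem, hSb1.symm⟩
  have hMS : ∀ k ∈ K, ∀ x ∈ M, Sb k * x ∈ M := by
    intro k hk x hx
    rw [hM] at hx ⊢
    rcases hx with ⟨k2, hk2, rfl⟩ | ⟨k2, hk2, k3, hk3, rfl⟩
    · exact Or.inl ⟨k * k2, K.mul_mem hk hk2, (hSbm k hk k2 hk2).symm⟩
    · refine Or.inr ⟨k * k2, K.mul_mem hk hk2, k3, hk3, ?_⟩
      rw [hSbm k hk k2 hk2]; simp only [mul_assoc]
  have hMT : ∀ x ∈ M, T * x ∈ M := by
    intro x hx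
    rw [hM] at hx ⊢
    rcases hx with ⟨k2, hk2, rfl⟩ | ⟨k2, hk2, k3, hk3, rfl⟩
    · refine Or.inr ⟨1, K.one_mem, k2, hk2, ?_⟩
      rw [hSb1, one_mul]
    · rcases h3T k2 hk2 with h | ⟨d, hd1, d', hd2, rfl⟩
      · refine Or.inl ⟨t * k2 * t * k3, K.mul_mem (hDK (hDt k2 h)) hk3, ?_⟩
        rw [hSbm _ (hDK (hDt k2 h)) _ hk3, ← hTD k2 h]; simp only [mul_assoc]
      · have hdK := hDK hd1
        have hd'K := hDK hd2
        refine Or.inr ⟨t * d * t * k1, K.mul_mem (hDK (hDt d hd1)) hk1,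
          k1 * (t * d' * t) * k3, K.mul_mem (K.mul_mem hk1 (hDK (hDt d' hd2))) hk3, ?_⟩
        rw [hSbm _ (K.mul_mem hdK hk1) _ hd'K, hSbm d hdK k1 hk1,
          hSbm _ (hDK (hDt d hd1)) _ hk1, hSbm _ (K.mul_mem hk1 (hDK (hDt d' hd2))) _ hk3,
          hSbm k1 hk1 _ (hDK (hDt d' hd2)), ← hTD d hd1, ← hTD d' hd2]
        have e : T * (Sb d * Sb k1 * Sb d' * T * Sb k3) =
            (T * Sb d * T) * (T * Sb k1 * T) * (T * Sb d' * T) * Sb k3 := by
          simp only [mul_assoc, hTT']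
        rw [e, hTb]; simp only [mul_assoc]
  obtain ⟨Γ1, hΓ1⟩ : ∃ Γ1 : Subgroup Γ,
      Γ1 = Subgroup.closure {x | (∃ k ∈ K, x = S k) ∨ x = tt} := ⟨_, rfl⟩
  have hcl : ∀ x ∈ Γ1, (∀ y ∈ M, π x * y ∈ M) ∧ (∀ y ∈ M, (π x)⁻¹ * y ∈ M) := by
    intro x hx
    rw [hΓ1] at hx
    induction hx using Subgroup.closure_induction with
    | mem x hx =>
      rcases hx with ⟨k, hk, rfl⟩ | rfl
      · constructor
        · intro y hy
          rw [← hSb]; exact hMS k hk y hy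
        · intro y hy
          have e : (π (S k))⁻¹ = Sb k⁻¹ := by rw [hSb, hSinv k hk, map_inv]
          rw [e]; exact hMS _ (K.inv_mem hk) y hy
      · constructor
        · intro y hy
          rw [← hT]; exact hMT y hy
        · intro y hy
          have e : (π x)⁻¹ = T := by
            rw [← hT]; exact inv_eq_of_mul_eq_one_left hTT
          rw [e]; exact hMT y hy
    | one =>
      constructor
      · intro y hy; rw [map_one, one_mul]; exact hy
      · intro y hy; rw [map_one, inv_one, one_mul]; exact hy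
    | mul x y _ _ ihx ihy =>
      constructor
      · intro z hz
        rw [map_mul, mul_assoc]; exact ihx.1 _ (ihy.1 z hz)
      · intro z hz
        rw [map_mul, mul_inv_rev, mul_assoc]; exact ihy.2 _ (ihx.2 z hz)
    | inv x _ ih =>
      constructor
      · intro z hz
        rw [map_inv]; exact ih.2 z hz
      · intro z hz
        rw [map_inv, inv_inv]; exact ih.1 z hz
  have hkey : ∀ z ∈ σ.ker, z ∈ Γ1 → ∃ d : D, (φ d : Γ) = z := by
    intro z hz hz1
    have h1 := (hcl z hz1).1 1 hM1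
    rw [mul_one, hM] at h1
    have hzσ : σ z = 1 := MonoidHom.mem_ker.1 hz
    rcases h1 with ⟨k, hk, h1⟩ | ⟨k, hk, k', hk', h1⟩
    · rw [hSb] at h1
      obtain ⟨d, hd'⟩ := (hA1mem _).1 (hπeq _ _ h1)
      have h2 : σ (S k) = 1 := by
        have h3 := congrArg σ hd'
        rw [hphiσ, map_mul, map_inv, hzσ, inv_one, one_mul] at h3
        exact h3.symm
      have hk1' : k = 1 := by rw [← hSs k hk]; exact h2
      rw [hk1', hS1, mul_one] at hd'
      refine ⟨d⁻¹, ?_⟩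
      rw [map_inv, Subgroup.coe_inv, hφ, hd', inv_inv]
    · exfalso
      rw [hSb, hSb, hT, ← map_mul, ← map_mul] at h1
      obtain ⟨d, hd'⟩ := (hA1mem _).1 (hπeq _ _ h1)
      have h3 := congrArg σ hd'
      rw [hphiσ, map_mul, map_inv, hzσ, inv_one, one_mul, map_mul, map_mul, hSs k hk,
        hSs k' hk', htt] at h3
      apply htK
      have e : t = k⁻¹ * (k * t * k') * k'⁻¹ := by group
      rw [e, ← h3, mul_one]
      exact K.mul_mem (K.inv_mem hk) (K.inv_mem hk')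
  have hSmem : ∀ k ∈ K, S k ∈ Γ1 := fun k hk => by
    rw [hΓ1]; exact Subgroup.subset_closure (Or.inl ⟨k, hk, rfl⟩)
  have httmem : tt ∈ Γ1 := by
    rw [hΓ1]; exact Subgroup.subset_closure (Or.inr rfl)
  have hcover : ∀ g : Γ, ∃ x ∈ Γ1, σ x = σ g := by
    intro g
    rcases h2T (σ g) with h | ⟨k, hk, k', hk', h⟩
    · exact ⟨S (σ g), hSmem _ h, hSs _ h⟩
    · refine ⟨S k * tt * S k', Γ1.mul_mem (Γ1.mul_mem (hSmem k hk) httmem) (hSmem k' hk'), ?_⟩
      rw [map_mul, map_mul, hSs k hk, hSs k' hk', htt, h]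
  have hcomm : commutator Γ ≤ Γ1 := by
    rw [commutator_def, Subgroup.commutator_le]
    intro g1 _ g2 _
    obtain ⟨x1, hx1, e1⟩ := hcover g1
    obtain ⟨x2, hx2, e2⟩ := hcover g2
    rw [comm_eq_of_map_eq σ hc e1.symm e2.symm, commutatorElement_def]
    exact Γ1.mul_mem (Γ1.mul_mem (Γ1.mul_mem hx1 hx2) (Γ1.inv_mem hx1)) (Γ1.inv_mem hx2)
  exact ⟨φ, fun z hz => hkey z hz (hcomm (hd hz))⟩

end Cfsg.Agent.H41.TwoPoint
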