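import Cfsg.Agent.H41.CoxBound
import Cfsg.Agent.H41.TwoPoint

/-!
# Stem extensions of simply laced Coxeter groups (helper41)

The Ihara–Yokonuma argument.  Let `W` be generated by `s i` (`i < n`) and have the universal
property of the Coxeter group of a simply laced diagram `adj` which is a tree.  In a central
extension `π : E → W` the generators have lifts `t i` which satisfy the braid relations exactly
and have a common square (`normalize`); non-adjacent lifts commute up to central involutions
(`exists_comm`) which agree along the moves `(a, b) → (a, c)` for an edge `b - c` (`move`); and if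
a single involution `z` governs all non-edges and the extension is stem, then `ker π ≤ ⟨z⟩`
(`ker_le_zpowers`).
-/

set_option autoImplicit false
set_option linter.unusedSimpArgs false

namespace Cfsg.Agent.H41.CoxStem

open Cfsg.Agent.H41.CoxBound
open scoped commutatorElement

universe u v

variable {E : Type u} {W : Type v} [Group E] [Group W]

theorem ker_comm (π : E →* W) (hc : π.ker ≤ Subgroup.center E) {z : E} (hz : z ∈ π.ker) (g : E) :
    z * g = g * z :=
  (Subgroup.mem_center_iff.1 (hc hz) g).symm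

/-- one normalisation step -/
theorem normalize_step (π : E →* W) (hc : π.ker ≤ Subgroup.center E) (tp tk : E)
    (hbr : π tp * π tk * π tp = π tk * π tp * π tk) :
    π ((tp * tk) * tp * (tp * tk)⁻¹) = π tk ∧
    tp * ((tp * tk) * tp * (tp * tk)⁻¹) * tp =
      ((tp * tk) * tp * (tp * tk)⁻¹) * tp * ((tp * tk) * tp * (tp * tk)⁻¹) ∧
    ((tp * tk) * tp * (tp * tk)⁻¹) * ((tp * tk) * tp * (tp * tk)⁻¹) =
      (tp * tk) * (tp * tp) * (tp * tk)⁻¹ := by
  have h1 : π ((tp * tk) * tp * (tp * tk)⁻¹) = π tk := by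
    rw [map_mul, map_mul, map_inv, map_mul]
    calc π tp * π tk * π tp * (π tp * π tk)⁻¹ = (π tk * π tp * π tk) * (π tp * π tk)⁻¹ := by
          rw [hbr]
      _ = π tk := by group
  refine ⟨h1, ?_, by group⟩
  obtain ⟨t', ht'⟩ : ∃ t' : E, t' = (tp * tk) * tp * (tp * tk)⁻¹ := ⟨_, rfl⟩
  rw [← ht'] at h1 ⊢
  have h2 : π (tp * tk) = π (tp * t') := by rw [map_mul, map_mul, h1]
  have h3 := TwoPoint.conj_eq_of_map_eq' π hc h2 tp
  rw [← ht'] at h3
  -- t' = (tp t') tp (tp t')⁻¹
  have h4 : t' * (tp * t') = (tp * t') * tp := by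
    calc t' * (tp * t') = (tp * t' * tp * (tp * t')⁻¹) * (tp * t') := by rw [← h3]
      _ = (tp * t') * tp := by group
  calc tp * t' * tp = t' * (tp * t') := by rw [h4]
    _ = t' * tp * t' := by rw [mul_assoc]

/-- **Normalisation**: in a central extension of a group satisfying the Coxeter relations of a
tree, the generators have lifts satisfying the braid relations and having the same square. -/
theorem normalize (adj : ℕ → ℕ → Bool) (n : ℕ) (par : ℕ → ℕ)
    (hpar : ∀ k, 0 < k → k < n → par k < k ∧ adj (par k) k = true ∧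
      ∀ i, i < k → (adj i k = true ∨ adj k i = true) → i = par k)
    (π : E →* W) (hs : Function.Surjective π) (hc : π.ker ≤ Subgroup.center E)
    (s : ℕ → W) (hrel : Rel adj s n) :
    ∃ t : ℕ → E, (∀ i, π (t i) = s i) ∧
      (∀ i j, i < n → j < n → adj i j = true → t i * t j * t i = t j * t i * t j) ∧
      (∀ i, i < n → t i * t i = t 0 * t 0) := by
  classical
  suffices H : ∀ k, k ≤ n → ∃ t : ℕ → E, (∀ i, π (t i) = s i) ∧
      (∀ i j, i < k → j < k → adj i j = true → t i * t j * t i = t j * t i * t j) ∧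
      (∀ i, i < k → t i * t i = t 0 * t 0) from H n le_rfl
  intro k
  induction k with
  | zero =>
    intro _
    refine ⟨fun i => Classical.choose (hs (s i)), fun i => Classical.choose_spec (hs (s i)), ?_, ?_⟩
    · intro i j hi; omega
    · intro i hi; omega
  | succ k ih =>
    intro hk
    obtain ⟨t, hl, hb, hsq⟩ := ih (by omega)
    rcases Nat.eq_zero_or_pos k with h0 | hpos
    · subst h0
      refine ⟨t, hl, ?_, ?_⟩
      · intro i j hi hj _
        have : i = 0 := by omega
        have : j = 0 := by omega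
        subst_vars
        rfl
      · intro i hi
        have : i = 0 := by omega
        subst this
        rfl
    · obtain ⟨hp, hadj, huniq⟩ := hpar k hpos (by omega)
      obtain ⟨h1, h2, h3⟩ := normalize_step π hc (t (par k)) (t k)
        (by rw [hl, hl]; exact hrel.2.1 (par k) k (by omega) (by omega) hadj)
      obtain ⟨tn, htn⟩ : ∃ tn : E, tn = (t (par k) * t k) * t (par k) * (t (par k) * t k)⁻¹ :=
        ⟨_, rfl⟩
      rw [← htn] at h1 h2 h3
      have hne : ∀ i, i < k → Function.update t k tn i = t i := fun i hi =>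
        Function.update_of_ne (by omega) _ _
      have hself : Function.update t k tn k = tn := Function.update_self _ _ _
      have hsqp : tn * tn = t 0 * t 0 := by
        rw [h3, ← hsq (par k) hp]
        have hker : t (par k) * t (par k) ∈ π.ker := by
          rw [MonoidHom.mem_ker, map_mul, hl]
          exact hrel.1 (par k) (by omega)
        rw [← ker_comm π hc hker, mul_inv_cancel_right]
      refine ⟨Function.update t k tn, ?_, ?_, ?_⟩
      · intro i
        by_cases hik : i = k
        · subst hik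
          rw [hself, h1, hl]
        · rw [Function.update_of_ne hik, hl]
      · intro i j hi hj hij
        rcases Nat.lt_succ_iff_lt_or_eq.1 hi with hi' | rfl
        · rcases Nat.lt_succ_iff_lt_or_eq.1 hj with hj' | rfl
          · rw [hne i hi', hne j hj']
            exact hb i j hi' hj' hij
          · have : i = par j := huniq i hi' (Or.inl hij)
            subst this
            rw [hne _ hi', hself]
            exact h2
        · rcases Nat.lt_succ_iff_lt_or_eq.1 hj with hj' | rfl
          · have : j = par i := huniq j hj' (Or.inr hij)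
            subst this
            rw [hne _ hj', hself]
            exact h2.symm
          · rfl
      · intro i hi
        rw [hne 0 hpos]
        rcases Nat.lt_succ_iff_lt_or_eq.1 hi with hi' | rfl
        · rw [hne i hi']
          exact hsq i hi'
        · rw [hself]
          exact hsqp

/-- non-adjacent lifts commute up to a central involution -/
theorem exists_comm (π : E →* W) (hc : π.ker ≤ Subgroup.center E) (x y a : E) (hy : y * y = a)
    (ha : ∀ g : E, a * g = g * a) (hxy : π x * π y = π y * π x) :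
    ∃ z, z ∈ π.ker ∧ z * z = 1 ∧ x * y = z * (y * x) := by
  obtain ⟨z, hz⟩ : ∃ z : E, z = x * y * (y * x)⁻¹ := ⟨_, rfl⟩
  have hzk : z ∈ π.ker := by
    rw [MonoidHom.mem_ker, hz, map_mul, map_mul, map_inv, map_mul, hxy, mul_inv_cancel]
  have hzc := ker_comm π hc hzk
  refine ⟨z, hzk, ?_, by rw [hz]; group⟩
  have h1 : x * y * x⁻¹ = z * y := by rw [hz]; group
  have h2 : (x * y * x⁻¹) * (x * y * x⁻¹) = a := by
    calc (x * y * x⁻¹) * (x * y * x⁻¹) = x * (y * y) * x⁻¹ := by group
      _ = a := by rw [hy, ← ha x, mul_inv_cancel_right]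
  have h3 : (z * y) * (z * y) = z * z * a := by
    calc (z * y) * (z * y) = z * (y * z) * y := by group
      _ = z * (z * y) * y := by rw [← hzc y]
      _ = z * z * (y * y) := by group
      _ = z * z * a := by rw [hy]
  rw [h1, h3] at h2
  exact mul_right_cancel (b := a) (by rw [one_mul]; exact h2)

/-- the central involutions of two non-edges `(a, b)`, `(a, c)` with `b - c` an edge agree -/
theorem move (a b c z z' : E) (hz : ∀ g : E, z * g = g * z) (hz' : ∀ g : E, z' * g = g * z')
    (hzz : z * z = 1) (hz'z' : z' * z' = 1)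
    (hab : a * b = z * (b * a)) (hac : a * c = z' * (c * a)) (hbr : b * c * b = c * b * c) :
    z' = z := by
  have h1 : a * b * a⁻¹ = z * b := by rw [hab]; group
  have h2 : a * c * a⁻¹ = z' * c := by rw [hac]; group
  have h3 : a * (b * c * b) * a⁻¹ = (a * b * a⁻¹) * (a * c * a⁻¹) * (a * b * a⁻¹) := by group
  have h4 : a * (c * b * c) * a⁻¹ = (a * c * a⁻¹) * (a * b * a⁻¹) * (a * c * a⁻¹) := by group
  rw [h1, h2] at h3 h4
  have h5 : z * b * (z' * c) * (z * b) = z' * (b * c * b) := by
    calc z * b * (z' * c) * (z * b) = b * (c * (b * (z' * (z * z)))) := by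
          simp only [mul_assoc, hz b, hz c, hz z', TwoPoint.cen_assoc hz b, TwoPoint.cen_assoc hz c,
            TwoPoint.cen_assoc hz z', hz' b, hz' c, TwoPoint.cen_assoc hz' b,
            TwoPoint.cen_assoc hz' c]
      _ = z' * (b * c * b) := by
          rw [hzz, mul_one]
          simp only [mul_assoc, hz' b, hz' c, TwoPoint.cen_assoc hz' b, TwoPoint.cen_assoc hz' c]
  have h6 : z' * c * (z * b) * (z' * c) = z * (c * b * c) := by
    calc z' * c * (z * b) * (z' * c) = c * (b * (c * (z * (z' * z')))) := by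
          simp only [mul_assoc, hz b, hz c, hz' z, TwoPoint.cen_assoc hz b, TwoPoint.cen_assoc hz c,
            TwoPoint.cen_assoc hz' z, hz' b, hz' c, TwoPoint.cen_assoc hz' b,
            TwoPoint.cen_assoc hz' c]
      _ = z * (c * b * c) := by
          rw [hz'z', mul_one]
          simp only [mul_assoc, hz b, hz c, TwoPoint.cen_assoc hz b, TwoPoint.cen_assoc hz c]
  rw [h5] at h3
  rw [h6, ← hbr, h3] at h4
  exact mul_right_cancel h4

/-- central elements drop out of commutators -/
theorem comm_central {Q : Type*} [Group Q] (x y q q' : Q) (hq : ∀ r : Q, q * r = r * q)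
    (hq' : ∀ r : Q, q' * r = r * q') : ⁅x * q, y * q'⁆ = ⁅x, y⁆ := by
  have hqi : ∀ r : Q, q⁻¹ * r = r * q⁻¹ := by
    intro r
    calc q⁻¹ * r = q⁻¹ * (r * q) * q⁻¹ := by group
      _ = q⁻¹ * (q * r) * q⁻¹ := by rw [hq r]
      _ = r * q⁻¹ := by group
  have hqi' : ∀ r : Q, q'⁻¹ * r = r * q'⁻¹ := by
    intro r
    calc q'⁻¹ * r = q'⁻¹ * (r * q') * q'⁻¹ := by group
      _ = q'⁻¹ * (q' * r) * q'⁻¹ := by rw [hq' r]
      _ = r * q'⁻¹ := by group
  rw [commutatorElement_def, commutatorElement_def]
  calc x * q * (y * q') * (x * q)⁻¹ * (y * q')⁻¹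
      = x * (q * y) * (q' * (q⁻¹ * x⁻¹)) * (q'⁻¹ * y⁻¹) := by group
    _ = x * (y * q) * ((q⁻¹ * x⁻¹) * q') * (y⁻¹ * q'⁻¹) := by rw [hq y, hq' (q⁻¹ * x⁻¹), hqi' y⁻¹]
    _ = x * y * (q * q⁻¹) * x⁻¹ * (q' * y⁻¹) * q'⁻¹ := by group
    _ = x * y * (q * q⁻¹) * x⁻¹ * (y⁻¹ * q') * q'⁻¹ := by rw [hq' y⁻¹]
    _ = x * y * x⁻¹ * y⁻¹ := by group

/-- **Stem bound.**  If the lifts `t i` satisfy the braid relations, have the common square `a`
and commute up to the single central involution `z` on all non-edges, then the kernel of a stem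
extension `π : E → W` of a group `W` with the universal property of the Coxeter group lies in
`⟨z⟩`. -/
theorem ker_le_zpowers (adj : ℕ → ℕ → Bool) (n : ℕ) (π : E →* W)
    (hc : π.ker ≤ Subgroup.center E) (hd : π.ker ≤ commutator E) (s : ℕ → W)
    (UP : ∀ (H : Type u) [Group H] (h : ℕ → H), Rel adj h n →
      ∃ f : W →* H, ∀ i, i < n → f (s i) = h i)
    (hgen : Subgroup.closure (s '' {i | i < n}) = ⊤)
    (t : ℕ → E) (hlift : ∀ i, i < n → π (t i) = s i)
    (hbraid : ∀ i j, i < n → j < n → adj i j = true → t i * t j * t i = t j * t i * t j)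
    (a : E) (ha : ∀ i, i < n → t i * t i = a) (hak : a ∈ π.ker)
    (z : E) (hz : z ∈ π.ker)
    (hcomm : ∀ i j, i < n → j < n → i ≠ j → adj i j = false → t i * t j = z * (t j * t i)) :
    π.ker ≤ Subgroup.zpowers z := by
  classical
  have hac : a ∈ Subgroup.center E := hc hak
  have hzc : z ∈ Subgroup.center E := hc hz
  obtain ⟨γ, hγ⟩ : ∃ γ : Multiplicative ℤ, γ = Multiplicative.ofAdd (-1 : ℤ) := ⟨_, rfl⟩
  have hcen : ∀ k l : ℤ, a ^ k * z ^ l ∈ Subgroup.center E := fun k l =>
    (Subgroup.center E).mul_mem ((Subgroup.center E).zpow_mem hac k)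
      ((Subgroup.center E).zpow_mem hzc l)
  let N : Subgroup (E × Multiplicative ℤ) :=
    { carrier := {p | ∃ k l : ℤ, p = (a ^ k * z ^ l, γ ^ (2 * k))}
      one_mem' := ⟨0, 0, Prod.ext
        (by show (1 : E) = a ^ (0 : ℤ) * z ^ (0 : ℤ); rw [zpow_zero, zpow_zero, mul_one])
        (by show (1 : Multiplicative ℤ) = γ ^ (2 * 0 : ℤ); rw [mul_zero, zpow_zero])⟩
      mul_mem' := by
        rintro _ _ ⟨k, l, rfl⟩ ⟨k', l', rfl⟩
        refine ⟨k + k', l + l', Prod.ext ?_ ?_⟩
        · show a ^ k * z ^ l * (a ^ k' * z ^ l') = a ^ (k + k') * z ^ (l + l')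
          have h1 : z ^ l * a ^ k' = a ^ k' * z ^ l :=
            Subgroup.mem_center_iff.1 ((Subgroup.center E).zpow_mem hac k') (z ^ l)
          calc a ^ k * z ^ l * (a ^ k' * z ^ l') = a ^ k * (z ^ l * a ^ k') * z ^ l' := by group
            _ = a ^ k * (a ^ k' * z ^ l) * z ^ l' := by rw [h1]
            _ = a ^ (k + k') * z ^ (l + l') := by rw [zpow_add, zpow_add]; group
        · show γ ^ (2 * k) * γ ^ (2 * k') = γ ^ (2 * (k + k'))
          rw [← zpow_add, mul_add]
      inv_mem' := by
        rintro _ ⟨k, l, rfl⟩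
        refine ⟨-k, -l, Prod.ext ?_ ?_⟩
        · show (a ^ k * z ^ l)⁻¹ = a ^ (-k) * z ^ (-l)
          have h1 : z ^ l * a ^ k = a ^ k * z ^ l :=
            Subgroup.mem_center_iff.1 ((Subgroup.center E).zpow_mem hac k) (z ^ l)
          rw [← h1, mul_inv_rev, zpow_neg, zpow_neg]
        · show (γ ^ (2 * k))⁻¹ = γ ^ (2 * -k)
          rw [mul_neg, zpow_neg] }
  have hN : ∀ p : E × Multiplicative ℤ, p ∈ N ↔ ∃ k l : ℤ, p = (a ^ k * z ^ l, γ ^ (2 * k)) :=
    fun p => Iff.rfl
  have hNn : N.Normal := by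
    constructor
    rintro _ ⟨k, l, rfl⟩ g
    refine ⟨k, l, Prod.ext ?_ ?_⟩
    · show g.1 * (a ^ k * z ^ l) * g.1⁻¹ = a ^ k * z ^ l
      rw [Subgroup.mem_center_iff.1 (hcen k l) g.1, mul_inv_cancel_right]
    · show g.2 * γ ^ (2 * k) * g.2⁻¹ = γ ^ (2 * k)
      rw [mul_comm, inv_mul_cancel_left]
  -- the images of the twisted lifts satisfy the Coxeter relations
  obtain ⟨h, hh⟩ : ∃ h : ℕ → (E × Multiplicative ℤ) ⧸ N,
      h = fun i => QuotientGroup.mk (t i, γ) := ⟨_, rfl⟩
  have hrel : Rel adj h n := by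
    refine ⟨?_, ?_, ?_⟩
    · intro i hi
      rw [hh]
      show ((QuotientGroup.mk ((t i, γ) * (t i, γ)) : (E × Multiplicative ℤ) ⧸ N)) = 1
      rw [QuotientGroup.eq_one_iff, hN]
      refine ⟨1, 0, Prod.ext ?_ ?_⟩
      · show t i * t i = a ^ (1 : ℤ) * z ^ (0 : ℤ)
        rw [ha i hi, zpow_one, zpow_zero, mul_one]
      · show γ * γ = γ ^ (2 * 1 : ℤ)
        rw [mul_one, zpow_ofNat, pow_two]
    · intro i j hi hj hij
      rw [hh]
      show ((QuotientGroup.mk ((t i, γ) * (t j, γ) * (t i, γ)) : (E × Multiplicative ℤ) ⧸ N)) =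
        QuotientGroup.mk ((t j, γ) * (t i, γ) * (t j, γ))
      congr 1
      exact Prod.ext (hbraid i j hi hj hij) rfl
    · intro i j hi hj hne hij
      rw [hh]
      show ((QuotientGroup.mk ((t i, γ) * (t j, γ)) : (E × Multiplicative ℤ) ⧸ N)) =
        QuotientGroup.mk ((t j, γ) * (t i, γ))
      rw [QuotientGroup.eq, hN]
      refine ⟨0, -1, Prod.ext ?_ ?_⟩
      · show (t i * t j)⁻¹ * (t j * t i) = a ^ (0 : ℤ) * z ^ (-1 : ℤ)
        rw [hcomm i j hi hj hne hij, zpow_zero, one_mul, zpow_neg, zpow_one, mul_inv_rev, mul_assoc,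
          ← Subgroup.mem_center_iff.1 ((Subgroup.center E).inv_mem hzc) (t j * t i),
          inv_mul_cancel_left]
      · show (γ * γ)⁻¹ * (γ * γ) = γ ^ (2 * 0 : ℤ)
        rw [inv_mul_cancel, mul_zero, zpow_zero]
  obtain ⟨f, hf⟩ := UP _ h hrel
  obtain ⟨ι, hι⟩ : ∃ ι : E →* (E × Multiplicative ℤ) ⧸ N,
      ι = (QuotientGroup.mk' N).comp (MonoidHom.inl E (Multiplicative ℤ)) := ⟨_, rfl⟩
  have hιa : ∀ e : E, ι e = QuotientGroup.mk (e, 1) := by
    intro e; rw [hι]; rfl
  -- `E` is generated by the lifts and the kernel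
  have hgenE : ∀ e : E, e ∈ Subgroup.closure (t '' {i | i < n} ∪ (π.ker : Set E)) := by
    intro e
    have h1 : π e ∈ Subgroup.closure (s '' {i | i < n}) := by rw [hgen]; trivial
    have himg : s '' {i | i < n} = π '' (t '' {i | i < n}) := by
      rw [Set.image_image]
      exact Set.image_congr (fun i hi => (hlift i hi).symm)
    rw [himg, ← MonoidHom.map_closure] at h1
    obtain ⟨e', he', hπ⟩ := h1
    have h2 : e = e' * (e'⁻¹ * e) := by group
    rw [h2]
    refine Subgroup.mul_mem _ (Subgroup.closure_mono Set.subset_union_left he')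
      (Subgroup.subset_closure (Or.inr ?_))
    show e'⁻¹ * e ∈ π.ker
    rw [MonoidHom.mem_ker, map_mul, map_inv, hπ, inv_mul_cancel]
  -- `f ∘ π` agrees with `ι` up to central elements
  have hA : ∀ e : E, ∃ q : (E × Multiplicative ℤ) ⧸ N, (∀ r, q * r = r * q) ∧
      f (π e) = ι e * q := by
    intro e
    refine Subgroup.closure_induction (p := fun e _ => ∃ q : (E × Multiplicative ℤ) ⧸ N,
      (∀ r, q * r = r * q) ∧ f (π e) = ι e * q) ?_ ?_ ?_ ?_ (hgenE e)
    · rintro x (⟨i, hi, rfl⟩ | hx)
      · refine ⟨QuotientGroup.mk (1, γ), ?_, ?_⟩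
        · intro r
          induction r using QuotientGroup.induction_on with
          | H p =>
            show ((QuotientGroup.mk ((1, γ) * p) : (E × Multiplicative ℤ) ⧸ N)) =
              QuotientGroup.mk (p * (1, γ))
            congr 1
            exact Prod.ext (by show 1 * p.1 = p.1 * 1; rw [one_mul, mul_one])
              (mul_comm _ _)
        · rw [hlift i hi, hf i hi, hh, hιa]
          show ((QuotientGroup.mk (t i, γ) : (E × Multiplicative ℤ) ⧸ N)) =
            QuotientGroup.mk ((t i, 1) * (1, γ))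
          congr 1
          exact Prod.ext (by show t i = t i * 1; rw [mul_one]) (by show γ = 1 * γ; rw [one_mul])
      · refine ⟨(ι x)⁻¹, ?_, ?_⟩
        · have hxc : x ∈ Subgroup.center E := hc hx
          have h1 : ∀ r, ι x * r = r * ι x := by
            intro r
            induction r using QuotientGroup.induction_on with
            | H p =>
              rw [hιa]
              show ((QuotientGroup.mk ((x, 1) * p) : (E × Multiplicative ℤ) ⧸ N)) =
                QuotientGroup.mk (p * (x, 1))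
              congr 1
              exact Prod.ext (Subgroup.mem_center_iff.1 hxc p.1).symm (mul_comm _ _)
          intro r
          calc (ι x)⁻¹ * r = (ι x)⁻¹ * (r * ι x) * (ι x)⁻¹ := by group
            _ = (ι x)⁻¹ * (ι x * r) * (ι x)⁻¹ := by rw [h1 r]
            _ = r * (ι x)⁻¹ := by group
        · rw [MonoidHom.mem_ker.1 hx, map_one, mul_inv_cancel]
    · exact ⟨1, fun r => by rw [one_mul, mul_one], by rw [map_one, map_one, map_one, mul_one]⟩
    · rintro x y _ _ ⟨q, hq, e1⟩ ⟨q', hq', e2⟩
      refine ⟨q * q', fun r => by rw [mul_assoc, hq' r, ← mul_assoc, hq r, mul_assoc], ?_⟩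
      rw [map_mul, map_mul, e1, e2, map_mul]
      calc ι x * q * (ι y * q') = ι x * (q * ι y) * q' := by group
        _ = ι x * (ι y * q) * q' := by rw [hq (ι y)]
        _ = ι x * ι y * (q * q') := by group
    · rintro x _ ⟨q, hq, e1⟩
      have hqi : ∀ r, q⁻¹ * r = r * q⁻¹ := by
        intro r
        calc q⁻¹ * r = q⁻¹ * (r * q) * q⁻¹ := by group
          _ = q⁻¹ * (q * r) * q⁻¹ := by rw [hq r]
          _ = r * q⁻¹ := by group
      refine ⟨q⁻¹, hqi, ?_⟩
      rw [map_inv, map_inv, e1, mul_inv_rev, map_inv, hqi]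
  -- hence the two maps agree on the commutator subgroup
  have hB : commutator E ≤ MonoidHom.eqLocus (f.comp π) ι := by
    rw [commutator_def, Subgroup.commutator_le]
    intro g₁ _ g₂ _
    obtain ⟨q, hq, e1⟩ := hA g₁
    obtain ⟨q', hq', e2⟩ := hA g₂
    show (f.comp π) ⁅g₁, g₂⁆ = ι ⁅g₁, g₂⁆
    rw [map_commutatorElement, map_commutatorElement]
    show ⁅f (π g₁), f (π g₂)⁆ = ⁅ι g₁, ι g₂⁆
    rw [e1, e2, comm_central _ _ _ _ hq hq']
  intro x hx
  have h1 : f (π x) = ι x := hB (hd hx)
  rw [MonoidHom.mem_ker.1 hx, map_one, hιa] at h1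
  have h2 : ((x, 1) : E × Multiplicative ℤ) ∈ N := (QuotientGroup.eq_one_iff _).1 h1.symm
  obtain ⟨k, l, e⟩ := (hN _).1 h2
  have e1 : x = a ^ k * z ^ l := congrArg Prod.fst e
  have e2 : (1 : Multiplicative ℤ) = γ ^ (2 * k) := congrArg Prod.snd e
  have hk : k = 0 := by
    rw [hγ] at e2
    have : Multiplicative.toAdd (1 : Multiplicative ℤ) =
        Multiplicative.toAdd (Multiplicative.ofAdd (-1 : ℤ) ^ (2 * k)) := congrArg _ e2
    rw [toAdd_zpow, toAdd_one, toAdd_ofAdd] at this
    simp at this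
    omega
  rw [e1, hk, zpow_zero, one_mul]
  exact Subgroup.zpow_mem_zpowers z l

end Cfsg.Agent.H41.CoxStem
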