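import Cfsg.Agent.H41.CoxBound

/-!
# The minuscule chain `A₁ < A₂ < A₃ < A₄ < D₅ < E₆ < E₇` (helper41)

Nodes `0..6` with edges `0-1, 1-2, 2-3, 2-4, 3-5, 5-6`.  Any group generated by seven elements
satisfying the Coxeter relations of this diagram has order at most `2903040`.
-/

set_option autoImplicit false
set_option synthInstance.maxSize 2048
set_option synthInstance.maxHeartbeats 400000

namespace Cfsg.Agent.H41.E7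

open Cfsg.Agent.H41.CoxBound

/-- adjacency in the `E₇` diagram -/
def adjE (i j : ℕ) : Bool :=
  (([[false, true, false, false, false, false, false], [true, false, true, false, false, false, false], [false, true, false, true, true, false, false], [false, false, true, false, false, true, false], [false, false, true, false, false, false, false], [false, false, false, true, false, false, true], [false, false, false, false, false, true, false]] : List (List Bool)).getD i []).getD j false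

def actT1 : List (List ℕ) := [[1], [0]]

def rankT1 : List ℕ := [0, 1]

def phiT1 : List (List ℕ) := [[0], [0]]

def dat1 : Datum := ⟨2, fun a i => (actT1.getD a []).getD i 0, fun a => rankT1.getD a 0,
  fun a i => (phiT1.getD a []).getD i 0⟩

theorem valid1 : Valid adjE 0 dat1 := by
  unfold Valid
  decide +kernel

def actT2 : List (List ℕ) := [[0, 1], [2, 0], [1, 2]]

def rankT2 : List ℕ := [0, 1, 2]

def phiT2 : List (List ℕ) := [[0, 0], [0, 0], [0, 0]]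

def dat2 : Datum := ⟨3, fun a i => (actT2.getD a []).getD i 0, fun a => rankT2.getD a 0,
  fun a i => (phiT2.getD a []).getD i 0⟩

theorem valid2 : Valid adjE 1 dat2 := by
  unfold Valid
  decide +kernel

def actT3 : List (List ℕ) := [[0, 0, 1], [1, 2, 0], [3, 1, 2], [2, 3, 3]]

def rankT3 : List ℕ := [0, 1, 2, 3]

def phiT3 : List (List ℕ) := [[0, 1, 0], [0, 0, 0], [0, 0, 1], [0, 0, 1]]

def dat3 : Datum := ⟨4, fun a i => (actT3.getD a []).getD i 0, fun a => rankT3.getD a 0,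
  fun a i => (phiT3.getD a []).getD i 0⟩

theorem valid3 : Valid adjE 2 dat3 := by
  unfold Valid
  decide +kernel

def actT4 : List (List ℕ) := [[0, 0, 0, 1], [1, 1, 2, 0], [2, 3, 1, 2], [4, 2, 3, 3], [3, 4, 4, 4]]

def rankT4 : List ℕ := [0, 1, 2, 3, 4]

def phiT4 : List (List ℕ) := [[0, 1, 2, 0], [0, 1, 0, 0], [0, 0, 0, 2], [0, 0, 1, 2], [0, 0, 1, 2]]

def dat4 : Datum := ⟨5, fun a i => (actT4.getD a []).getD i 0, fun a => rankT4.getD a 0,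
  fun a i => (phiT4.getD a []).getD i 0⟩

theorem valid4 : Valid adjE 3 dat4 := by
  unfold Valid
  decide +kernel

def actT5 : List (List ℕ) := [[0, 0, 0, 0, 1], [1, 1, 2, 1, 0], [2, 3, 1, 4, 2], [5, 2, 3, 6, 3], [4, 6, 4, 2, 4], [3, 5, 5, 7, 5], [7, 4, 8, 3, 6], [6, 7, 9, 5, 7], [9, 8, 6, 8, 10], [8, 11, 7, 9, 12], [12, 10, 10, 10, 8], [11, 9, 11, 11, 13], [10, 13, 12, 12, 9], [13, 12, 14, 13, 11], [14, 14, 13, 15, 14], [15, 15, 15, 14, 15]]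

def rankT5 : List ℕ := [0, 1, 2, 3, 3, 4, 4, 5, 5, 6, 6, 7, 7, 8, 9, 10]

def phiT5 : List (List ℕ) := [[0, 1, 2, 3, 0], [0, 1, 0, 3, 0], [0, 0, 0, 0, 2], [0, 0, 1, 0, 2], [0, 0, 3, 0, 2], [0, 0, 1, 0, 2], [0, 0, 0, 0, 2], [0, 0, 0, 0, 2], [0, 3, 0, 1, 0], [0, 0, 0, 1, 0], [0, 3, 2, 1, 0], [3, 0, 0, 1, 0], [0, 0, 2, 1, 0], [3, 0, 0, 1, 0], [3, 2, 0, 0, 0], [3, 2, 1, 0, 0]]

def dat5 : Datum := ⟨16, fun a i => (actT5.getD a []).getD i 0, fun a => rankT5.getD a 0,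
  fun a i => (phiT5.getD a []).getD i 0⟩

theorem valid5 : Valid adjE 4 dat5 := by
  unfold Valid
  decide +kernel

def actT6 : List (List ℕ) := [[0, 0, 0, 0, 0, 1], [1, 1, 1, 2, 1, 0], [2, 2, 3, 1, 2, 2], [3, 4, 2, 3, 5, 3], [6, 3, 4, 4, 7, 4], [5, 7, 5, 5, 3, 5], [4, 6, 6, 6, 8, 6], [8, 5, 9, 7, 4, 7], [7, 8, 10, 8, 6, 8], [10, 9, 7, 11, 9, 9], [9, 12, 8, 13, 10, 10], [13, 11, 11, 9, 11, 14], [12, 10, 12, 15, 12, 12], [11, 15, 13, 10, 13, 16], [16, 14, 14, 14, 14, 11], [15, 13, 17, 12, 15, 18], [14, 18, 16, 16, 16, 13], [17, 17, 15, 17, 19, 20], [18, 16, 20, 18, 18, 15], [19, 19, 19, 19, 17, 21], [20, 20, 18, 22, 21, 17], [21, 21, 21, 23, 20, 19], [22, 22, 22, 20, 23, 22], [23, 23, 24, 21, 22, 23], [24, 25, 23, 24, 24, 24], [26, 24, 25, 25, 25, 25], [25, 26, 26, 26, 26, 26]]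

def rankT6 : List ℕ := [0, 1, 2, 3, 4, 4, 5, 5, 6, 6, 7, 7, 8, 8, 8, 9, 9, 10, 10, 11, 11, 12, 12, 13, 14, 15, 16]

def phiT6 : List (List ℕ) := [[0, 1, 2, 3, 4, 0], [0, 1, 2, 0, 4, 0], [0, 1, 0, 0, 4, 3], [0, 0, 0, 2, 0, 3], [0, 0, 1, 2, 0, 3], [0, 0, 4, 2, 0, 3], [0, 0, 1, 2, 0, 3], [0, 0, 0, 2, 0, 3], [0, 0, 0, 2, 0, 3], [0, 4, 0, 0, 1, 3], [0, 0, 0, 0, 1, 3], [0, 4, 2, 0, 1, 0], [4, 0, 0, 0, 1, 3], [0, 0, 2, 0, 1, 0], [0, 4, 2, 3, 1, 0], [4, 0, 0, 0, 1, 0], [0, 0, 2, 3, 1, 0], [4, 2, 0, 0, 0, 0], [4, 0, 0, 3, 1, 0], [4, 2, 1, 0, 0, 0], [4, 2, 0, 0, 0, 0], [4, 2, 1, 0, 0, 0], [4, 2, 3, 0, 0, 0], [4, 2, 0, 0, 0, 0], [4, 0, 0, 1, 3, 0], [0, 0, 2, 1, 3, 0], [0, 4, 2, 1, 3, 0]]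

def dat6 : Datum := ⟨27, fun a i => (actT6.getD a []).getD i 0, fun a => rankT6.getD a 0,
  fun a i => (phiT6.getD a []).getD i 0⟩

theorem valid6 : Valid adjE 5 dat6 := by
  unfold Valid
  decide +kernel

def actT7 : List (List ℕ) := [[0, 0, 0, 0, 0, 0, 1], [1, 1, 1, 1, 1, 2, 0], [2, 2, 2, 3, 2, 1, 2], [3, 3, 4, 2, 3, 3, 3], [4, 5, 3, 4, 6, 4, 4], [7, 4, 5, 5, 8, 5, 5], [6, 8, 6, 6, 4, 6, 6], [5, 7, 7, 7, 9, 7, 7], [9, 6, 10, 8, 5, 8, 8], [8, 9, 11, 9, 7, 9, 9], [11, 10, 8, 12, 10, 10, 10], [10, 13, 9, 14, 11, 11, 11], [14, 12, 12, 10, 12, 15, 12], [13, 11, 13, 16, 13, 13, 13], [12, 16, 14, 11, 14, 17, 14], [17, 15, 15, 15, 15, 12, 18], [16, 14, 19, 13, 16, 20, 16], [15, 20, 17, 17, 17, 14, 21], [21, 18, 18, 18, 18, 18, 15], [19, 19, 16, 19, 22, 23, 19], [20, 17, 23, 20, 20, 16, 24], [18, 24, 21, 21, 21, 21, 17], [22, 22, 22, 22,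 19, 25, 22], [23, 23, 20, 26, 25, 19, 27], [24, 21, 27, 24, 24, 24, 20], [25, 25, 25, 28, 23, 22, 29], [26, 26, 26, 23, 28, 26, 30], [27, 27, 24, 30, 29, 27, 23], [28, 28, 31, 25, 26, 28, 32], [29, 29, 29, 32, 27, 29, 25], [30, 30, 30, 27, 32, 33, 26], [31, 34, 28, 31, 31, 31, 35], [32, 32, 35, 29, 30, 36, 28], [33, 33, 33, 33, 36, 30, 33], [37, 31, 34, 34, 34, 34, 38], [35, 38, 32, 35, 35, 39, 31], [36, 36, 39, 36, 33, 32, 36], [34, 37, 37, 37, 37, 37, 40], [40, 35, 38, 38, 38, 41, 34], [39, 41, 36, 42, 39, 35, 39], [38, 40, 40, 40, 40, 43, 37], [43, 39, 41, 44, 41, 38, 41], [42, 44, 42, 39, 42, 42, 42], [41, 43, 43, 45, 43, 40, 43], [45, 42, 46, 41, 44, 44, 44], [44, 45, 47, 43, 45, 45, 45], [47, 46, 44, 46, 48, 46, 46], [46, 49, 45, 47, 50, 47, 47], [50, 48, 48, 48, 46, 48, 48], [49, 47, 49, 49, 51, 49, 49], [48, 51, 50, 50, 47,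 50, 50], [51, 50, 52, 51, 49, 51, 51], [52, 52, 51, 53, 52, 52, 52], [53, 53, 53, 52, 53, 54, 53], [54, 54, 54, 54, 54, 53, 55], [55, 55, 55, 55, 55, 55, 54]]

def rankT7 : List ℕ := [0, 1, 2, 3, 4, 5, 5, 6, 6, 7, 7, 8, 8, 9, 9, 9, 10, 10, 10, 11, 11, 11, 12, 12, 12, 13, 13, 13, 14, 14, 14, 15, 15, 15, 16, 16, 16, 17, 17, 17, 18, 18, 18, 19, 19, 20, 20, 21, 21, 22, 22, 23, 24, 25, 26, 27]

def phiT7 : List (List ℕ) := [[0, 1, 2, 3, 4, 5, 0], [0, 1, 2, 3, 4, 0, 0], [0, 1, 2, 0, 4, 0, 5], [0, 1, 0, 0, 4, 3, 5], [0, 0, 0, 2, 0, 3, 5], [0, 0, 1, 2, 0, 3, 5], [0, 0, 4, 2, 0, 3, 5], [0, 0, 1, 2, 0, 3, 5], [0, 0, 0, 2, 0, 3, 5], [0, 0, 0, 2, 0, 3, 5], [0, 4, 0, 0, 1, 3, 5], [0, 0, 0, 0, 1, 3, 5], [0, 4, 2, 0, 1, 0, 5], [4, 0, 0, 0, 1, 3, 5], [0, 0, 2, 0, 1, 0, 5], [0, 4, 2, 3, 1, 0, 0], [4, 0, 0, 0, 1, 0, 5], [0, 0, 2, 3, 1, 0, 0], [0, 4,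 2, 3, 1, 5, 0], [4, 2, 0, 0, 0, 0, 5], [4, 0, 0, 3, 1, 0, 0], [0, 0, 2, 3, 1, 5, 0], [4, 2, 1, 0, 0, 0, 5], [4, 2, 0, 0, 0, 0, 0], [4, 0, 0, 3, 1, 5, 0], [4, 2, 1, 0, 0, 0, 0], [4, 2, 3, 0, 0, 0, 0], [4, 2, 0, 0, 0, 5, 0], [4, 2, 0, 0, 0, 0, 0], [4, 2, 1, 0, 0, 5, 0], [4, 2, 3, 0, 0, 0, 0], [4, 0, 0, 1, 3, 0, 0], [4, 2, 0, 0, 0, 0, 0], [4, 2, 3, 5, 0, 0, 0], [0, 0, 2, 1, 3, 0, 0], [4, 0, 0, 1, 3, 0, 0], [4, 2, 0, 5, 0, 0, 0], [0, 4, 2, 1, 3, 0, 0], [0, 0, 2, 1, 3, 0, 0], [4, 0, 0, 0, 3, 0, 0], [0, 4, 2, 1, 3, 0, 0], [0, 0, 2, 0, 3, 0, 0], [4, 0, 5, 0, 3, 1, 0], [0, 4, 2, 0, 3, 0, 0], [0, 0, 0, 0, 3, 1, 0], [0, 4, 0, 0, 3, 1, 0], [0, 5, 0, 2, 0, 1, 0], [0, 0, 0, 2, 0, 1, 0], [0, 5, 3, 2, 0, 1, 0], [5, 0, 4, 2, 0, 1, 0], [0, 0, 3, 2, 0, 1, 0], [5, 0, 0, 2, 0, 1, 0], [5, 3, 0, 0, 4, 1, 0], [5, 3, 2, 0, 4, 0, 0], [5, 3, 2, 1, 4, 0, 0],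 [5, 3, 2, 1, 4, 0, 0]]

def dat7 : Datum := ⟨56, fun a i => (actT7.getD a []).getD i 0, fun a => rankT7.getD a 0,
  fun a i => (phiT7.getD a []).getD i 0⟩

theorem valid7 : Valid adjE 6 dat7 := by
  unfold Valid
  decide +kernel

/-- **Order bound**: a group generated by seven elements satisfying the `E₇` Coxeter relations
has order at most `2903040 = 2 * 3 * 4 * 5 * 16 * 27 * 56`. -/
theorem card_le {G : Type*} [Group G] (g : ℕ → G) (hrel : Rel adjE g 7) :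
    Finite (Par g 7) ∧ Nat.card (Par g 7) ≤ 2903040 := by
  obtain ⟨f0, c0⟩ := card_Par_zero g
  obtain ⟨f1, c1⟩ : Finite (Par g 1) ∧ Nat.card (Par g 1) ≤ dat1.N * Nat.card (Par g 0) :=
    step valid1 (hrel.mono (by norm_num))
  obtain ⟨f2, c2⟩ : Finite (Par g 2) ∧ Nat.card (Par g 2) ≤ dat2.N * Nat.card (Par g 1) :=
    step valid2 (hrel.mono (by norm_num))
  obtain ⟨f3, c3⟩ : Finite (Par g 3) ∧ Nat.card (Par g 3) ≤ dat3.N * Nat.card (Par g 2) :=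
    step valid3 (hrel.mono (by norm_num))
  obtain ⟨f4, c4⟩ : Finite (Par g 4) ∧ Nat.card (Par g 4) ≤ dat4.N * Nat.card (Par g 3) :=
    step valid4 (hrel.mono (by norm_num))
  obtain ⟨f5, c5⟩ : Finite (Par g 5) ∧ Nat.card (Par g 5) ≤ dat5.N * Nat.card (Par g 4) :=
    step valid5 (hrel.mono (by norm_num))
  obtain ⟨f6, c6⟩ : Finite (Par g 6) ∧ Nat.card (Par g 6) ≤ dat6.N * Nat.card (Par g 5) :=
    step valid6 (hrel.mono (by norm_num))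
  obtain ⟨f7, c7⟩ : Finite (Par g 7) ∧ Nat.card (Par g 7) ≤ dat7.N * Nat.card (Par g 6) :=
    step valid7 hrel
  refine ⟨f7, ?_⟩
  have e1 : dat1.N = 2 := rfl
  have e2 : dat2.N = 3 := rfl
  have e3 : dat3.N = 4 := rfl
  have e4 : dat4.N = 5 := rfl
  have e5 : dat5.N = 16 := rfl
  have e6 : dat6.N = 27 := rfl
  have e7 : dat7.N = 56 := rfl
  rw [e1] at c1
  rw [e2] at c2
  rw [e3] at c3
  rw [e4] at c4
  rw [e5] at c5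
  rw [e6] at c6
  rw [e7] at c7
  omega

end Cfsg.Agent.H41.E7
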