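import Cfsg.Agent.H41.CoxStem
import Cfsg.Agent.H41.E7Data

/-!
# Stem extensions of the Coxeter group of type `E₇` (helper41)

* `UP_of_card`: a group of order at least `2903040` generated by seven elements satisfying the
  `E₇` relations has the universal property of the Coxeter group.
* `stem_bound`: the kernel of a stem extension of such a group has order at most `2`.
-/

set_option autoImplicit false

namespace Cfsg.Agent.H41.E7

open Cfsg.Agent.H41.CoxBound Cfsg.Agent.H41.CoxStem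

universe u v

/-- parents in the `E₇` tree -/
def parE (k : ℕ) : ℕ := ([0, 0, 1, 2, 2, 3, 5] : List ℕ).getD k 0

theorem hparE : ∀ k, 0 < k → k < 7 → parE k < k ∧ adjE (parE k) k = true ∧
    ∀ i, i < k → (adjE i k = true ∨ adjE k i = true) → i = parE k := by
  have h : ∀ k, k < 7 → 0 < k → (parE k < k ∧ adjE (parE k) k = true ∧
      ∀ i, i < k → (adjE i k = true ∨ adjE k i = true) → i = parE k) := by decide
  exact fun k h0 hk => h k hk h0

/-- **Universal property from the order.** -/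
theorem UP_of_card {W : Type v} [Group W] [Finite W] (s : ℕ → W) (hrel : Rel adjE s 7)
    (hgen : Subgroup.closure (s '' {i | i < 7}) = ⊤) (hcard : 2903040 ≤ Nat.card W)
    (H : Type u) [Group H] (h : ℕ → H) (hh : Rel adjE h 7) :
    ∃ f : W →* H, ∀ i, i < 7 → f (s i) = h i := by
  obtain ⟨g, hg⟩ : ∃ g : ℕ → W × H, g = fun i => (s i, h i) := ⟨_, rfl⟩
  have hrg : Rel adjE g 7 := by
    rw [hg]
    refine ⟨fun i hi => Prod.ext (hrel.1 i hi) (hh.1 i hi),
      fun i j hi hj hij => Prod.ext (hrel.2.1 i j hi hj hij) (hh.2.1 i j hi hj hij),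
      fun i j hi hj hne hij => Prod.ext (hrel.2.2 i j hi hj hne hij) (hh.2.2 i j hi hj hne hij)⟩
  obtain ⟨hfin, hle⟩ := card_le g hrg
  obtain ⟨p, hp⟩ : ∃ p : Par g 7 →* W, p = (MonoidHom.fst W H).comp (Par g 7).subtype := ⟨_, rfl⟩
  have hsurj : Function.Surjective p := by
    rw [← MonoidHom.range_eq_top, eq_top_iff, ← hgen, Subgroup.closure_le]
    rintro _ ⟨i, hi, rfl⟩
    refine ⟨⟨g i, mem_Par hi⟩, ?_⟩
    rw [hp, hg]
    rfl
  have hbij : Function.Bijective p :=
    hsurj.bijective_of_nat_card_le (le_trans hle hcard)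
  let e : Par g 7 ≃* W := MulEquiv.ofBijective p hbij
  refine ⟨(MonoidHom.snd W H).comp ((Par g 7).subtype.comp e.symm.toMonoidHom), ?_⟩
  intro i hi
  have h1 : e ⟨g i, mem_Par hi⟩ = s i := by
    show p ⟨g i, mem_Par hi⟩ = s i
    rw [hp, hg]
    rfl
  have h2 : e.symm (s i) = ⟨g i, mem_Par hi⟩ := by
    rw [← h1, MulEquiv.symm_apply_apply]
  show (MonoidHom.snd W H) ((Par g 7).subtype (e.symm (s i))) = h i
  rw [h2, hg]
  rfl

/-- **Stem bound for `W(E₇)`.** -/
theorem stem_bound {E : Type u} {W : Type v} [Group E] [Group W] (π : E →* W)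
    (hs : Function.Surjective π) (hc : π.ker ≤ Subgroup.center E) (hd : π.ker ≤ commutator E)
    (s : ℕ → W) (hrel : Rel adjE s 7) (hgen : Subgroup.closure (s '' {i | i < 7}) = ⊤)
    (UP : ∀ (H : Type u) [Group H] (h : ℕ → H), Rel adjE h 7 →
      ∃ f : W →* H, ∀ i, i < 7 → f (s i) = h i) :
    ∃ z : E, z ^ 2 = 1 ∧ π.ker ≤ Subgroup.zpowers z := by
  obtain ⟨t, hl, hb, hsq⟩ := normalize adjE 7 parE hparE π hs hc s hrel
  have hak : t 0 * t 0 ∈ π.ker := by
    rw [MonoidHom.mem_ker, map_mul, hl]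
    exact hrel.1 0 (by norm_num)
  have hac := ker_comm π hc hak
  have hex : ∀ i j, i < 7 → j < 7 → i ≠ j → adjE i j = false →
      ∃ z, z ∈ π.ker ∧ z * z = 1 ∧ t i * t j = z * (t j * t i) := by
    intro i j hi hj hne hij
    refine exists_comm π hc (t i) (t j) (t 0 * t 0) (hsq j hj) hac ?_
    rw [hl, hl]
    exact hrel.2.2 i j hi hj hne hij
  obtain ⟨z, hzk, hzz, p_0_2⟩ := hex 0 2 (by norm_num) (by norm_num) (by norm_num) (by decide)
  have hzc := ker_comm π hc hzk
  have hsym : ∀ a b, t a * t b = z * (t b * t a) → t b * t a = z * (t a * t b) := by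
    intro a b hab
    rw [hab, ← mul_assoc, hzz, one_mul]
  have hmove : ∀ a b c, a < 7 → b < 7 → c < 7 → t a * t b = z * (t b * t a) →
      adjE b c = true → a ≠ c → adjE a c = false → t a * t c = z * (t c * t a) := by
    intro a b c ha hb' hc' hab hbc hne hac'
    obtain ⟨z', hz'k, hz'z', h1⟩ := hex a c ha hc' hne hac'
    have := move (t a) (t b) (t c) z z' hzc (ker_comm π hc hz'k) hzz hz'z' hab h1
      (hb b c hb' hc' hbc)
    rw [this] at h1
    exact h1
  have p_2_0 : t 2 * t 0 = z * (t 0 * t 2) := hsym 0 2 p_0_2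
  have p_0_3 : t 0 * t 3 = z * (t 3 * t 0) :=
    hmove 0 2 3 (by norm_num) (by norm_num) (by norm_num) p_0_2 (by decide) (by decide) (by decide)
  have p_0_4 : t 0 * t 4 = z * (t 4 * t 0) :=
    hmove 0 2 4 (by norm_num) (by norm_num) (by norm_num) p_0_2 (by decide) (by decide) (by decide)
  have p_3_0 : t 3 * t 0 = z * (t 0 * t 3) := hsym 0 3 p_0_3
  have p_0_5 : t 0 * t 5 = z * (t 5 * t 0) :=
    hmove 0 3 5 (by norm_num) (by norm_num) (by norm_num) p_0_3 (by decide) (by decide) (by decide)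
  have p_4_0 : t 4 * t 0 = z * (t 0 * t 4) := hsym 0 4 p_0_4
  have p_3_1 : t 3 * t 1 = z * (t 1 * t 3) :=
    hmove 3 0 1 (by norm_num) (by norm_num) (by norm_num) p_3_0 (by decide) (by decide) (by decide)
  have p_5_0 : t 5 * t 0 = z * (t 0 * t 5) := hsym 0 5 p_0_5
  have p_0_6 : t 0 * t 6 = z * (t 6 * t 0) :=
    hmove 0 5 6 (by norm_num) (by norm_num) (by norm_num) p_0_5 (by decide) (by decide) (by decide)
  have p_4_1 : t 4 * t 1 = z * (t 1 * t 4) :=
    hmove 4 0 1 (by norm_num) (by norm_num) (by norm_num) p_4_0 (by decide) (by decide) (by decide)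
  have p_1_3 : t 1 * t 3 = z * (t 3 * t 1) := hsym 3 1 p_3_1
  have p_5_1 : t 5 * t 1 = z * (t 1 * t 5) :=
    hmove 5 0 1 (by norm_num) (by norm_num) (by norm_num) p_5_0 (by decide) (by decide) (by decide)
  have p_6_0 : t 6 * t 0 = z * (t 0 * t 6) := hsym 0 6 p_0_6
  have p_1_4 : t 1 * t 4 = z * (t 4 * t 1) := hsym 4 1 p_4_1
  have p_1_5 : t 1 * t 5 = z * (t 5 * t 1) :=
    hmove 1 3 5 (by norm_num) (by norm_num) (by norm_num) p_1_3 (by decide) (by decide) (by decide)
  have p_5_2 : t 5 * t 2 = z * (t 2 * t 5) :=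
    hmove 5 1 2 (by norm_num) (by norm_num) (by norm_num) p_5_1 (by decide) (by decide) (by decide)
  have p_6_1 : t 6 * t 1 = z * (t 1 * t 6) :=
    hmove 6 0 1 (by norm_num) (by norm_num) (by norm_num) p_6_0 (by decide) (by decide) (by decide)
  have p_1_6 : t 1 * t 6 = z * (t 6 * t 1) :=
    hmove 1 5 6 (by norm_num) (by norm_num) (by norm_num) p_1_5 (by decide) (by decide) (by decide)
  have p_2_5 : t 2 * t 5 = z * (t 5 * t 2) := hsym 5 2 p_5_2
  have p_5_4 : t 5 * t 4 = z * (t 4 * t 5) :=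
    hmove 5 2 4 (by norm_num) (by norm_num) (by norm_num) p_5_2 (by decide) (by decide) (by decide)
  have p_6_2 : t 6 * t 2 = z * (t 2 * t 6) :=
    hmove 6 1 2 (by norm_num) (by norm_num) (by norm_num) p_6_1 (by decide) (by decide) (by decide)
  have p_2_6 : t 2 * t 6 = z * (t 6 * t 2) :=
    hmove 2 5 6 (by norm_num) (by norm_num) (by norm_num) p_2_5 (by decide) (by decide) (by decide)
  have p_4_5 : t 4 * t 5 = z * (t 5 * t 4) := hsym 5 4 p_5_4
  have p_6_3 : t 6 * t 3 = z * (t 3 * t 6) :=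
    hmove 6 2 3 (by norm_num) (by norm_num) (by norm_num) p_6_2 (by decide) (by decide) (by decide)
  have p_6_4 : t 6 * t 4 = z * (t 4 * t 6) :=
    hmove 6 2 4 (by norm_num) (by norm_num) (by norm_num) p_6_2 (by decide) (by decide) (by decide)
  have p_4_3 : t 4 * t 3 = z * (t 3 * t 4) :=
    hmove 4 5 3 (by norm_num) (by norm_num) (by norm_num) p_4_5 (by decide) (by decide) (by decide)
  have p_4_6 : t 4 * t 6 = z * (t 6 * t 4) :=
    hmove 4 5 6 (by norm_num) (by norm_num) (by norm_num) p_4_5 (by decide) (by decide) (by decide)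
  have p_3_6 : t 3 * t 6 = z * (t 6 * t 3) := hsym 6 3 p_6_3
  have p_3_4 : t 3 * t 4 = z * (t 4 * t 3) := hsym 4 3 p_4_3
  have hall : ∀ i j, i < 7 → j < 7 → i ≠ j → adjE i j = false →
      t i * t j = z * (t j * t i) := by
    intro i j hi hj hne hadj
    interval_cases i <;> interval_cases j <;>
      first
        | exact absurd rfl hne
        | exact absurd hadj (by decide)
        | assumption
  refine ⟨z, by rw [pow_two]; exact hzz, ?_⟩
  exact ker_le_zpowers adjE 7 π hc hd s UP hgen t (fun i _ => hl i) hb (t 0 * t 0) hsq hak z hzk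
    hall

end Cfsg.Agent.H41.E7
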