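import Cfsg.Agent.H41.TwCox

/-!
# The Ihara–Yokonuma presentation of type `E₈` (helper41)

`P` is the group generated by `g 0, …, g 7` and `z` subject to: the `g i` are involutions, they
satisfy the braid relations on the edges of the `E₈` diagram, `g i g j = z g j g i` on the
non-edges, and `z` is a central involution.  It is finite, of order at most `2 * 696729600`.
-/

set_option autoImplicit false

namespace Cfsg.Agent.H41.E8Pres

open Cfsg.Agent.H41.CoxBound Cfsg.Agent.H41.E8 Cfsg.Agent.H41.TwCox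

/-- the relators -/
def rels : Set (FreeGroup ℕ) :=
  {x | (∃ i, i < 8 ∧ x = FreeGroup.of i * FreeGroup.of i) ∨
    (∃ i j, i < 8 ∧ j < 8 ∧ adjE i j = true ∧
      x = (FreeGroup.of i * FreeGroup.of j * FreeGroup.of i) *
        (FreeGroup.of j * FreeGroup.of i * FreeGroup.of j)⁻¹) ∨
    (∃ i j, i < 8 ∧ j < 8 ∧ i ≠ j ∧ adjE i j = false ∧
      x = (FreeGroup.of i * FreeGroup.of j) *
        (FreeGroup.of 8 * (FreeGroup.of j * FreeGroup.of i))⁻¹) ∨
    (∃ i, i < 8 ∧ x = (FreeGroup.of 8 * FreeGroup.of i) * (FreeGroup.of i * FreeGroup.of 8)⁻¹) ∨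
    x = FreeGroup.of 8 * FreeGroup.of 8 ∨
    (∃ i, 8 < i ∧ x = FreeGroup.of i)}

/-- the presented group -/
abbrev P : Type := PresentedGroup rels

/-- the generators -/
def g (i : ℕ) : P := PresentedGroup.of i

/-- the central involution -/
def z : P := PresentedGroup.of 8

theorem eq_of_rel {a b : FreeGroup ℕ} (h : a * b⁻¹ ∈ rels) :
    PresentedGroup.mk rels a = PresentedGroup.mk rels b := by
  have h1 : PresentedGroup.mk rels (a * b⁻¹) = 1 := PresentedGroup.one_of_mem h
  rw [map_mul, map_inv] at h1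
  exact mul_inv_eq_one.1 h1

theorem rel2 : Rel2 adjE g z 8 := by
  refine ⟨?_, ?_, ?_, ?_, ?_⟩
  · intro i hi
    have h : FreeGroup.of i * FreeGroup.of i ∈ rels := Or.inl ⟨i, hi, rfl⟩
    exact PresentedGroup.one_of_mem h
  · intro i j hi hj hij
    exact eq_of_rel (Or.inr (Or.inl ⟨i, j, hi, hj, hij, rfl⟩))
  · intro i j hi hj hne hij
    exact eq_of_rel (Or.inr (Or.inr (Or.inl ⟨i, j, hi, hj, hne, hij, rfl⟩)))
  · intro i hi
    exact eq_of_rel (Or.inr (Or.inr (Or.inr (Or.inl ⟨i, hi, rfl⟩))))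
  · have h : FreeGroup.of 8 * FreeGroup.of 8 ∈ rels :=
      Or.inr (Or.inr (Or.inr (Or.inr (Or.inl rfl))))
    exact PresentedGroup.one_of_mem h

theorem of_big (i : ℕ) (hi : 8 < i) : (PresentedGroup.of i : P) = 1 := by
  have h : FreeGroup.of i ∈ rels := Or.inr (Or.inr (Or.inr (Or.inr (Or.inr ⟨i, hi, rfl⟩))))
  exact PresentedGroup.one_of_mem h

/-- the universal property -/
theorem UP {H : Type*} [Group H] (h : ℕ → H) (z' : H) (hr : Rel2 adjE h z' 8) :
    ∃ f : P →* H, (∀ i, i < 8 → f (g i) = h i) ∧ f z = z' := by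
  obtain ⟨φ, hφ⟩ : ∃ φ : ℕ → H, φ = fun i => if i < 8 then h i else if i = 8 then z' else 1 :=
    ⟨_, rfl⟩
  have h1 : ∀ i, i < 8 → φ i = h i := fun i hi => by rw [hφ]; exact if_pos hi
  have h2 : φ 8 = z' := by rw [hφ]; simp
  have h3 : ∀ i, 8 < i → φ i = 1 := fun i hi => by
    rw [hφ]
    simp only
    rw [if_neg (by omega), if_neg (by omega)]
  have hrel : ∀ r ∈ rels, FreeGroup.lift φ r = 1 := by
    rintro r (⟨i, hi, rfl⟩ | ⟨i, j, hi, hj, hij, rfl⟩ | ⟨i, j, hi, hj, hne, hij, rfl⟩ |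
      ⟨i, hi, rfl⟩ | rfl | ⟨i, hi, rfl⟩)
    · rw [map_mul, FreeGroup.lift_apply_of, h1 i hi]
      exact hr.1 i hi
    · simp only [map_mul, map_inv, FreeGroup.lift_apply_of]
      rw [h1 i hi, h1 j hj, hr.2.1 i j hi hj hij, mul_inv_cancel]
    · simp only [map_mul, map_inv, FreeGroup.lift_apply_of]
      rw [h1 i hi, h1 j hj, h2, hr.2.2.1 i j hi hj hne hij, mul_inv_cancel]
    · simp only [map_mul, map_inv, FreeGroup.lift_apply_of]
      rw [h1 i hi, h2, hr.2.2.2.1 i hi, mul_inv_cancel]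
    · rw [map_mul, FreeGroup.lift_apply_of, h2]
      exact hr.2.2.2.2
    · rw [FreeGroup.lift_apply_of, h3 i hi]
  refine ⟨PresentedGroup.toGroup hrel, fun i hi => ?_, ?_⟩
  · show PresentedGroup.toGroup hrel (PresentedGroup.of i) = h i
    rw [PresentedGroup.toGroup.of, h1 i hi]
  · show PresentedGroup.toGroup hrel (PresentedGroup.of 8) = z'
    rw [PresentedGroup.toGroup.of, h2]

theorem hgen : Subgroup.closure (g '' {i | i < 8} ∪ {z}) = ⊤ := by
  rw [eq_top_iff, ← PresentedGroup.closure_range_of rels, Subgroup.closure_le]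
  rintro _ ⟨i, rfl⟩
  rcases lt_trichotomy i 8 with hi | hi | hi
  · exact Subgroup.subset_closure (Or.inl ⟨i, hi, rfl⟩)
  · subst hi
    exact Subgroup.subset_closure (Or.inr rfl)
  · show (PresentedGroup.of i : P) ∈ _
    rw [of_big i hi]
    exact Subgroup.one_mem _

theorem z_comm (p : P) : z * p = p * z := by
  have h : (⊤ : Subgroup P) ≤ Subgroup.centralizer {z} := by
    rw [← hgen, Subgroup.closure_le]
    rintro x (⟨i, hi, rfl⟩ | hx)
    · intro y hy
      rw [Set.mem_singleton_iff] at hy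
      subst hy
      exact rel2.2.2.2.1 i hi
    · rw [Set.mem_singleton_iff] at hx
      subst hx
      intro y hy
      rw [Set.mem_singleton_iff] at hy
      rw [hy]
  exact h (Subgroup.mem_top p) z rfl

theorem z_sq : z * z = 1 := rel2.2.2.2.2

instance zpowers_normal : (Subgroup.zpowers z).Normal where
  conj_mem := by
    intro n hn p
    obtain ⟨k, rfl⟩ := Subgroup.mem_zpowers_iff.1 hn
    have hc : Commute p (z ^ k) := (Commute.zpow_right (z_comm p).symm k)
    rw [hc.eq, mul_inv_cancel_right]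
    exact hn

/-- the images of the generators in the Coxeter quotient -/
def gq (i : ℕ) : P ⧸ Subgroup.zpowers z := QuotientGroup.mk (g i)

theorem mk_z : (QuotientGroup.mk z : P ⧸ Subgroup.zpowers z) = 1 :=
  (QuotientGroup.eq_one_iff z).2 (Subgroup.mem_zpowers z)

theorem gq_rel : Rel adjE gq 8 := by
  refine ⟨?_, ?_, ?_⟩
  · intro i hi
    show ((QuotientGroup.mk (g i * g i) : P ⧸ Subgroup.zpowers z)) = 1
    rw [rel2.1 i hi]
    rfl
  · intro i j hi hj hij
    show ((QuotientGroup.mk (g i * g j * g i) : P ⧸ Subgroup.zpowers z)) =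
      QuotientGroup.mk (g j * g i * g j)
    rw [rel2.2.1 i j hi hj hij]
  · intro i j hi hj hne hij
    show ((QuotientGroup.mk (g i * g j) : P ⧸ Subgroup.zpowers z)) = QuotientGroup.mk (g j * g i)
    rw [rel2.2.2.1 i j hi hj hne hij, QuotientGroup.mk_mul, mk_z, one_mul]

theorem par_top : Par gq 8 = ⊤ := by
  rw [eq_top_iff]
  have h1 : (⊤ : Subgroup (P ⧸ Subgroup.zpowers z)) =
      Subgroup.map (QuotientGroup.mk' (Subgroup.zpowers z)) ⊤ :=
    (Subgroup.map_top_of_surjective _ (QuotientGroup.mk'_surjective _)).symm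
  rw [h1, ← hgen, MonoidHom.map_closure, Subgroup.closure_le]
  rintro _ ⟨x, hx | hx, rfl⟩
  · obtain ⟨i, hi, rfl⟩ := hx
    exact mem_Par hi
  · rw [Set.mem_singleton_iff] at hx
    subst hx
    show (QuotientGroup.mk z : P ⧸ Subgroup.zpowers z) ∈ _
    rw [mk_z]
    exact Subgroup.one_mem _

theorem card_zpowers_le : Finite (Subgroup.zpowers z) ∧ Nat.card (Subgroup.zpowers z) ≤ 2 := by
  have h2 : z ^ 2 = 1 := by rw [pow_two]; exact z_sq
  have hd : orderOf z ∣ 2 := orderOf_dvd_of_pow_eq_one h2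
  have hle : orderOf z ≤ 2 := Nat.le_of_dvd (by norm_num) hd
  have hpos : 0 < orderOf z := Nat.pos_of_dvd_of_pos hd (by norm_num)
  have hc : Nat.card (Subgroup.zpowers z) = orderOf z := Nat.card_zpowers z
  exact ⟨Nat.finite_of_card_ne_zero (by rw [hc]; omega), by rw [hc]; exact hle⟩

theorem finite_card : Finite P ∧ Nat.card P ≤ 1393459200 := by
  obtain ⟨f1, c1⟩ := E8.card_le gq gq_rel
  rw [par_top] at f1 c1
  rw [Subgroup.card_top] at c1
  have : Finite (P ⧸ Subgroup.zpowers z) :=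
    Finite.of_equiv _ (Subgroup.topEquiv (G := P ⧸ Subgroup.zpowers z)).toEquiv
  obtain ⟨f2, c2⟩ := card_zpowers_le
  have hfin : Finite P := Finite.of_subgroup_quotient (Subgroup.zpowers z)
  refine ⟨hfin, ?_⟩
  rw [Subgroup.card_eq_card_quotient_mul_card_subgroup (Subgroup.zpowers z)]
  calc Nat.card (P ⧸ Subgroup.zpowers z) * Nat.card (Subgroup.zpowers z)
      ≤ 696729600 * 2 := Nat.mul_le_mul c1 c2
    _ = 1393459200 := by norm_num

instance : Finite P := finite_card.1

end Cfsg.Agent.H41.E8Pres
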