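import Mathlib
import Cfsg.Prelude.Def_Characters
import Cfsg.Prelude.Def_KGroupFacts
import Cfsg.Agent.H4.Regular

/-!
# The square of the exponent of the Schur multiplier divides the group order

Character-theoretic proof: for a central subgroup `K` of a finite group `Γ` and a linear
character `lam` of `K`, `|Γ| = |K| * Σ χ(1)²`, the sum over the irreducible characters lying
over `lam`.  When `K ≤ Γ'` and `lam a` has order `m`, the determinant shows `m ∣ χ(1)`.
-/

set_option autoImplicit false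
set_option linter.style.haveILetI false

namespace Cfsg.Agent.H41

open Cfsg Cfsg.Agent.H4

universe u

section ExpSq

variable {Γ : Type u} [Group Γ]

/-- Schur's lemma: a central element acts as a scalar in an irreducible representation. -/
theorem exists_scalar_of_center {V : Type*} [AddCommGroup V] [Module ℂ V] [FiniteDimensional ℂ V]
    (ρ : Representation ℂ Γ V) [ρ.IsIrreducible] {z : Γ} (hz : z ∈ Subgroup.center Γ) :
    ∃ c : ℂ, ρ z = c • (LinearMap.id : V →ₗ[ℂ] V) := by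
  have hcomm : ∀ g : Γ, (ρ z) ∘ₗ ρ g = ρ g ∘ₗ (ρ z) := by
    intro g
    have h1 : ρ (z * g) = ρ z * ρ g := map_mul ρ z g
    have h2 : ρ (g * z) = ρ g * ρ z := map_mul ρ g z
    rw [Subgroup.mem_center_iff.1 hz g] at h2
    exact h1.symm.trans h2
  let T : Representation.IntertwiningMap ρ ρ := ⟨ρ z, hcomm⟩
  obtain ⟨c, hc⟩ :=
    (Representation.IsIrreducible.algebraMap_intertwiningMap_bijective_of_isAlgClosed (ρ := ρ)).2 T
  refine ⟨c, ?_⟩
  have := congrArg Representation.IntertwiningMap.toLinearMap hc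
  rw [Algebra.algebraMap_eq_smul_one, Representation.IntertwiningMap.toLinearMap_smul] at this
  exact this.symm

/-- Orthogonality for a "ratio of characters" on a finite group. -/
theorem sum_ratio_eq {K : Type*} [Group K] [Fintype K] (f : K → ℂ)
    (hf : ∀ z z', f (z * z') = f z * f z') :
    (∀ z, f z = 1) ∨ ∑ z : K, f z = 0 := by
  by_cases h : ∀ z, f z = 1
  · exact Or.inl h
  · right
    push Not at h
    obtain ⟨z₀, hz₀⟩ := h
    have h1 : ∑ z : K, f z = ∑ z : K, f (z₀ * z) :=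
      (Equiv.sum_comp (Equiv.mulLeft z₀) f).symm
    have h2 : ∑ z : K, f (z₀ * z) = f z₀ * ∑ z : K, f z := by
      rw [Finset.mul_sum]
      exact Finset.sum_congr rfl fun z _ => hf z₀ z
    have h3 : (1 - f z₀) * ∑ z : K, f z = 0 := by
      rw [sub_mul, one_mul, ← h2, ← h1, sub_self]
    rcases mul_eq_zero.1 h3 with h4 | h4
    · exact absurd (sub_eq_zero.1 h4).symm hz₀
    · exact h4

/-- For a central subgroup `K` and a linear character `lam` of `K`: if `m` divides the degree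
of every irreducible representation of `Γ` in which `K` acts through `lam`, then
`|K| * m²` divides `|Γ|`. -/
theorem card_mul_sq_dvd_card [Finite Γ] (K : Subgroup Γ) (hK : K ≤ Subgroup.center Γ)
    (lam : K →* ℂˣ) (m : ℕ)
    (hm : ∀ (n : ℕ) (ρ : Representation ℂ Γ (Fin n → ℂ)), ρ.IsIrreducible →
      (∀ z : K, ρ (z : Γ) = ((lam z : ℂˣ) : ℂ) • (LinearMap.id : (Fin n → ℂ) →ₗ[ℂ] _)) → m ∣ n) :
    Nat.card K * m ^ 2 ∣ Nat.card Γ := by
  classical
  haveI := Fintype.ofFinite Γ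
  letI := fintypeIrr Γ
  haveI : Fintype K := Fintype.ofFinite K
  have hrep : ∀ χ : IrrCharacter Γ, ∃ (n : ℕ) (ρ : Representation ℂ Γ (Fin n → ℂ)),
      ρ.IsIrreducible ∧ ρ.character = χ.1 := fun χ => χ.2
  choose n ρ hirr hchar using hrep
  have hsc : ∀ χ : IrrCharacter Γ, ∀ z : K, ∃ c : ℂ,
      ρ χ (z : Γ) = c • (LinearMap.id : (Fin (n χ) → ℂ) →ₗ[ℂ] _) := fun χ z => by
    haveI := hirr χ
    exact exists_scalar_of_center (ρ χ) (hK z.2)
  choose ω hω using hsc
  have hχ1 : ∀ χ : IrrCharacter Γ, χ.1 1 = (n χ : ℂ) := by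
    intro χ
    rw [← hchar χ, Representation.char_one, Module.finrank_fin_fun]
  have hnpos : ∀ χ : IrrCharacter Γ, (n χ : ℂ) ≠ 0 := by
    intro χ
    rw [← hχ1]
    exact irr_one_ne_zero χ
  have hχz : ∀ (χ : IrrCharacter Γ) (z : K), χ.1 (z : Γ) = (n χ : ℂ) * ω χ z := by
    intro χ z
    rw [← hchar χ]
    show LinearMap.trace ℂ _ (ρ χ (z : Γ)) = _
    rw [hω, map_smul, LinearMap.trace_id, smul_eq_mul, Module.finrank_fin_fun, mul_comm]
  have hωmul : ∀ (χ : IrrCharacter Γ) (z z' : K), ω χ (z * z') = ω χ z * ω χ z' := by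
    intro χ z z'
    have h1 : ρ χ ((z * z' : K) : Γ) = ρ χ (z : Γ) * ρ χ (z' : Γ) := by
      rw [Subgroup.coe_mul, map_mul]
    rw [hω, hω, hω] at h1
    have h3 := congrArg (LinearMap.trace ℂ _) h1
    rw [smul_mul_smul_comm, map_smul, map_smul] at h3
    have h4 : (LinearMap.id : (Fin (n χ) → ℂ) →ₗ[ℂ] _) * LinearMap.id = LinearMap.id := rfl
    rw [h4, LinearMap.trace_id, Module.finrank_fin_fun, smul_eq_mul, smul_eq_mul] at h3
    exact mul_right_cancel₀ (hnpos χ) h3
  have hreg : ∀ g : Γ, ∑ χ : IrrCharacter Γ, χ.1 1 * χ.1 g =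
      if g = 1 then (Nat.card Γ : ℂ) else 0 := by
    intro g
    have h := congrFun (leftRegular_character_eq (G := Γ)) g
    rw [character_leftRegular, finsum_irr_eq_sum] at h
    rw [h, Finset.sum_apply]
    rfl
  -- the ratio sums
  have hS : ∀ χ : IrrCharacter Γ,
      (∀ z : K, ω χ z = ((lam z : ℂˣ) : ℂ)) ∨
        ∑ z : K, (((lam z)⁻¹ : ℂˣ) : ℂ) * ω χ z = 0 := by
    intro χ
    have hf : ∀ z z' : K, (((lam (z * z'))⁻¹ : ℂˣ) : ℂ) * ω χ (z * z') =
        ((((lam z)⁻¹ : ℂˣ) : ℂ) * ω χ z) * ((((lam z')⁻¹ : ℂˣ) : ℂ) * ω χ z') := by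
      intro z z'
      rw [hωmul, map_mul, mul_inv, Units.val_mul]
      ring
    rcases sum_ratio_eq (fun z : K => (((lam z)⁻¹ : ℂˣ) : ℂ) * ω χ z) hf with h | h
    · left
      intro z
      have := h z
      have hu : ((lam z : ℂˣ) : ℂ) * ((((lam z)⁻¹ : ℂˣ) : ℂ) * ω χ z) = ω χ z := by
        rw [← mul_assoc, ← Units.val_mul, mul_inv_cancel, Units.val_one, one_mul]
      rw [← hu, this, mul_one]
    · exact Or.inr h
  -- double counting
  have hT1 : ∑ z : K, (((lam z)⁻¹ : ℂˣ) : ℂ) * ∑ χ : IrrCharacter Γ, χ.1 1 * χ.1 (z : Γ) =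
      (Nat.card Γ : ℂ) := by
    rw [Finset.sum_eq_single (1 : K)]
    · rw [hreg, if_pos (by simp), map_one, inv_one, Units.val_one, one_mul]
    · intro z _ hz
      have hz' : (z : Γ) ≠ 1 := fun h => hz (Subtype.ext h)
      rw [hreg, if_neg hz', mul_zero]
    · intro h
      exact absurd (Finset.mem_univ _) h
  have hT2 : ∑ z : K, (((lam z)⁻¹ : ℂˣ) : ℂ) * ∑ χ : IrrCharacter Γ, χ.1 1 * χ.1 (z : Γ) =
      ∑ χ : IrrCharacter Γ, (n χ : ℂ) ^ 2 * ∑ z : K, (((lam z)⁻¹ : ℂˣ) : ℂ) * ω χ z := by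
    simp only [Finset.mul_sum]
    rw [Finset.sum_comm]
    refine Finset.sum_congr rfl fun χ _ => Finset.sum_congr rfl fun z _ => ?_
    rw [hχ1, hχz]
    ring
  have hT3 : ∀ χ : IrrCharacter Γ, ∃ t : ℕ,
      (n χ : ℂ) ^ 2 * ∑ z : K, (((lam z)⁻¹ : ℂˣ) : ℂ) * ω χ z = ((Nat.card K * m ^ 2 * t : ℕ) : ℂ) := by
    intro χ
    rcases hS χ with h | h
    · have hd : m ∣ n χ := hm (n χ) (ρ χ) (hirr χ) (fun z => by rw [hω, h])
      obtain ⟨t, ht⟩ := hd
      refine ⟨t ^ 2, ?_⟩
      have hsum : ∑ z : K, (((lam z)⁻¹ : ℂˣ) : ℂ) * ω χ z = (Nat.card K : ℂ) := by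
        rw [Finset.sum_congr rfl (fun z _ => by
          rw [h z, ← Units.val_mul, inv_mul_cancel, Units.val_one] :
          ∀ z ∈ (Finset.univ : Finset K), (((lam z)⁻¹ : ℂˣ) : ℂ) * ω χ z = 1)]
        rw [Finset.sum_const, Finset.card_univ, Nat.card_eq_fintype_card]
        simp
      rw [hsum, ht]
      push_cast
      ring
    · exact ⟨0, by rw [h]; simp⟩
  choose t ht using hT3
  have hfinal : (Nat.card Γ : ℂ) = ((Nat.card K * m ^ 2 * ∑ χ : IrrCharacter Γ, t χ : ℕ) : ℂ) := by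
    rw [← hT1, hT2, Finset.sum_congr rfl (fun χ _ => ht χ), Finset.mul_sum]
    push_cast
    rfl
  exact ⟨_, Nat.cast_injective hfinal⟩

/-- In a finite stem extension of a finite group `Q`, the square of the exponent of the kernel
divides `|Q|`. -/
theorem exponent_ker_sq_dvd {Q : Type*} [Group Q] [Finite Q] [Finite Γ] (σ : Γ →* Q)
    (hσ : IsStemExtension σ) : Monoid.exponent σ.ker ^ 2 ∣ Nat.card Q := by
  classical
  obtain ⟨hsurj, hcen, hcomm⟩ := hσ
  have hcard : Nat.card Γ = Nat.card σ.ker * Nat.card Q := by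
    rw [Subgroup.card_eq_card_quotient_mul_card_subgroup σ.ker, mul_comm,
      Nat.card_congr (QuotientGroup.quotientKerEquivOfSurjective σ hsurj).toEquiv]
  have hkpos : 0 < Nat.card σ.ker := Nat.card_pos
  have hQpos : Nat.card Q ≠ 0 := Nat.card_pos.ne'
  have he0 : Monoid.exponent σ.ker ≠ 0 := Monoid.exponent_ne_zero_of_finite
  haveI : NeZero (Monoid.exponent σ.ker) := ⟨he0⟩
  letI : CommGroup σ.ker := { (inferInstance : Group σ.ker) with
    mul_comm := fun a b => Subtype.ext (Subgroup.mem_center_iff.1 (hcen b.2) a) }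
  -- prime-power claim
  have key : ∀ p : ℕ, p.Prime → ∀ k : ℕ, p ^ k ∣ Monoid.exponent σ.ker →
      (p ^ k) ^ 2 ∣ Nat.card Q := by
    intro p hp k hk
    rcases Nat.eq_zero_or_pos k with rfl | hkpos'
    · simp
    obtain ⟨g, hg⟩ := Monoid.exists_orderOf_eq_exponent
      (Monoid.ExponentExists.of_finite (G := σ.ker))
    obtain ⟨c, hc⟩ := hk
    have hc0 : c ≠ 0 := by rintro rfl; exact he0 (by rw [hc, mul_zero])
    have hpk0 : p ^ k ≠ 0 := pow_ne_zero _ hp.pos.ne'
    set a : σ.ker := g ^ c with ha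
    have hoa : orderOf a = p ^ k := by
      rw [ha, orderOf_pow_of_dvd hc0 (by rw [hg, hc]; exact dvd_mul_left _ _), hg, hc,
        Nat.mul_div_cancel _ (Nat.pos_of_ne_zero hc0)]
    obtain ⟨j, rfl⟩ : ∃ j, k = j + 1 := ⟨k - 1, by omega⟩
    have hb : a ^ p ^ j ≠ 1 := by
      intro h
      have := orderOf_dvd_of_pow_eq_one h
      rw [hoa] at this
      have h2 := Nat.le_of_dvd (pow_pos hp.pos _) this
      exact absurd h2 (not_le.2 (Nat.pow_lt_pow_right hp.one_lt (Nat.lt_succ_self j)))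
    haveI : NeZero ((Monoid.exponent σ.ker : ℕ) : ℂ) := ⟨Nat.cast_ne_zero.2 he0⟩
    obtain ⟨lam, hlam⟩ := CommGroup.exists_apply_ne_one_of_hasEnoughRootsOfUnity σ.ker ℂ hb
    haveI : Fact p.Prime := ⟨hp⟩
    have hol : orderOf (lam a) = p ^ (j + 1) := by
      apply orderOf_eq_prime_pow
      · rw [← map_pow]; exact hlam
      · rw [← map_pow, ← hoa, pow_orderOf_eq_one, map_one]
    have hdvd := card_mul_sq_dvd_card σ.ker hcen lam (p ^ (j + 1)) (by
      intro n ρ hρ hsc
      let D : Γ →* ℂ := (LinearMap.det : ((Fin n → ℂ) →ₗ[ℂ] (Fin n → ℂ)) →* ℂ).comp ρ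
      have hDa : D (a : Γ) = 1 := by
        have h1 : (a : Γ) ∈ (D.toHomUnits).ker :=
          Abelianization.commutator_subset_ker D.toHomUnits (hcomm a.2)
        have h2 : D.toHomUnits (a : Γ) = 1 := h1
        have h3 := congrArg (fun u : ℂˣ => (u : ℂ)) h2
        simpa using h3
      have hDa' : D (a : Γ) = ((lam a : ℂˣ) : ℂ) ^ n := by
        show LinearMap.det (ρ (a : Γ)) = _
        rw [hsc a, LinearMap.det_smul, Module.finrank_fin_fun, LinearMap.det_id, mul_one]
      have h4 : (lam a) ^ n = 1 := by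
        apply Units.ext
        rw [Units.val_pow_eq_pow_val, ← hDa', hDa, Units.val_one]
      rw [← hol]
      exact orderOf_dvd_of_pow_eq_one h4)
    rw [hcard] at hdvd
    exact Nat.dvd_of_mul_dvd_mul_left hkpos hdvd
  -- assemble over primes
  rw [← Nat.factorization_le_iff_dvd (pow_ne_zero 2 he0) hQpos]
  intro p
  by_cases hp : p.Prime
  · have h1 := key p hp _ (Nat.ordProj_dvd (Monoid.exponent σ.ker) p)
    rw [← pow_mul] at h1
    have h2 := (hp.pow_dvd_iff_le_factorization hQpos).1 h1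
    rw [Nat.factorization_pow]
    simpa [mul_comm] using h2
  · simp [Nat.factorization_eq_zero_of_not_prime _ hp]

end ExpSq

end Cfsg.Agent.H41
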