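import Mathlib
import Cfsg.Agent.H41.Stem
import Cfsg.Agent.H41.TwoPoint

/-!
# Central extensions of a Frobenius group `2³ : 7`

A group generated by `g` and an involution `e` such that `e`, `g e g⁻¹`, `g² e g⁻²` commute and
`g³ e g⁻³ = e · g e g⁻¹` has no stem extension: the relations lift to any central extension after
correcting the lift of `e` by a central element, and the lifted elementary abelian subgroup is a
normal complement to the kernel inside the derived subgroup.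
-/

set_option autoImplicit false

namespace Cfsg.Agent.H41

open scoped commutatorElement

universe u

namespace Frob

variable {Γ : Type*} [Group Γ]

/-- The relations of `2³ : 7` on a pair `γ, x`. -/
structure FT (γ x : Γ) : Prop where
  sq : x * x = 1
  c1 : x * (γ * x * γ⁻¹) = γ * x * γ⁻¹ * x
  c2 : x * (γ * (γ * x * γ⁻¹) * γ⁻¹) = γ * (γ * x * γ⁻¹) * γ⁻¹ * x
  rel : γ * (γ * (γ * x * γ⁻¹) * γ⁻¹) * γ⁻¹ = x * (γ * x * γ⁻¹)

theorem FT.of_injective {Δ : Type*} [Group Δ] (f : Γ →* Δ) (hf : Function.Injective f) {γ x : Γ}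
    (h : FT (f γ) (f x)) : FT γ x := by
  refine ⟨hf ?_, hf ?_, hf ?_, hf ?_⟩
  · simp only [map_mul, map_one]; exact h.sq
  · simp only [map_mul, map_inv]; exact h.c1
  · simp only [map_mul, map_inv]; exact h.c2
  · simp only [map_mul, map_inv]; exact h.rel

theorem mul_form {x y z : Γ} (hxy : Commute x y) (hxz : Commute x z) (hyz : Commute y z)
    (i j k i' j' k' : ℕ) :
    x ^ i * y ^ j * z ^ k * (x ^ i' * y ^ j' * z ^ k') =
      x ^ (i + i') * y ^ (j + j') * z ^ (k + k') := by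
  have e1 : z ^ k * x ^ i' = x ^ i' * z ^ k := (hxz.symm.pow_pow k i').eq
  have e2 : y ^ j * x ^ i' = x ^ i' * y ^ j := (hxy.symm.pow_pow j i').eq
  have e3 : z ^ k * y ^ j' = y ^ j' * z ^ k := (hyz.symm.pow_pow k j').eq
  calc x ^ i * y ^ j * z ^ k * (x ^ i' * y ^ j' * z ^ k')
      = x ^ i * y ^ j * (z ^ k * x ^ i') * y ^ j' * z ^ k' := by simp only [mul_assoc]
    _ = x ^ i * y ^ j * (x ^ i' * z ^ k) * y ^ j' * z ^ k' := by rw [e1]
    _ = x ^ i * (y ^ j * x ^ i') * (z ^ k * y ^ j') * z ^ k' := by simp only [mul_assoc]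
    _ = x ^ i * (x ^ i' * y ^ j) * (y ^ j' * z ^ k) * z ^ k' := by rw [e2, e3]
    _ = x ^ (i + i') * y ^ (j + j') * z ^ (k + k') := by simp only [pow_add, mul_assoc]

theorem conj_sq {γ u : Γ} (hu : u * u = 1) : (γ * u * γ⁻¹) * (γ * u * γ⁻¹) = 1 := by
  calc (γ * u * γ⁻¹) * (γ * u * γ⁻¹) = γ * (u * u) * γ⁻¹ := by group
    _ = 1 := by rw [hu]; group

theorem conj_comm {γ u v : Γ} (huv : u * v = v * u) :
    (γ * u * γ⁻¹) * (γ * v * γ⁻¹) = (γ * v * γ⁻¹) * (γ * u * γ⁻¹) := by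
  calc (γ * u * γ⁻¹) * (γ * v * γ⁻¹) = γ * (u * v) * γ⁻¹ := by group
    _ = γ * (v * u) * γ⁻¹ := by rw [huv]
    _ = (γ * v * γ⁻¹) * (γ * u * γ⁻¹) := by group

theorem pow_cases {u : Γ} (hu : u * u = 1) (i : ℕ) : u ^ i = 1 ∨ u ^ i = u := by
  induction i with
  | zero => exact Or.inl (pow_zero u)
  | succ n ih =>
    rcases ih with h | h
    · right; rw [pow_succ, h, one_mul]
    · left; rw [pow_succ, h, hu]

theorem sq_pow_one {u : Γ} (hu : u * u = 1) (i : ℕ) : u ^ (i + i) = 1 := by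
  rw [← two_mul, pow_mul, pow_two, hu, one_pow]

theorem conj_three (γ a b c : Γ) :
    γ * (a * b * c) * γ⁻¹ = (γ * a * γ⁻¹) * (γ * b * γ⁻¹) * (γ * c * γ⁻¹) := by group

theorem inv_conj_three (γ a b c : Γ) :
    γ⁻¹ * (a * b * c) * γ = (γ⁻¹ * a * γ) * (γ⁻¹ * b * γ) * (γ⁻¹ * c * γ) := by group

theorem inv_conj_pow (γ b : Γ) (i : ℕ) : (γ⁻¹ * b * γ) ^ i = γ⁻¹ * b ^ i * γ := by
  have := conj_pow (a := γ⁻¹) (b := b) (i := i)
  rwa [inv_inv] at this

section Sub

variable {γ x : Γ}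

theorem FT.cyz (h : FT γ x) : (γ * x * γ⁻¹) * (γ * (γ * x * γ⁻¹) * γ⁻¹) =
    (γ * (γ * x * γ⁻¹) * γ⁻¹) * (γ * x * γ⁻¹) := conj_comm h.c1

/-- The elementary abelian subgroup generated by `x`, `γ x γ⁻¹`, `γ² x γ⁻²`. -/
def FT.sub (h : FT γ x) : Subgroup Γ where
  carrier := {m | ∃ i j k : ℕ, m = x ^ i * (γ * x * γ⁻¹) ^ j * (γ * (γ * x * γ⁻¹) * γ⁻¹) ^ k}
  mul_mem' := by
    rintro _ _ ⟨i, j, k, rfl⟩ ⟨i', j', k', rfl⟩
    exact ⟨i + i', j + j', k + k', mul_form h.c1 h.c2 h.cyz _ _ _ _ _ _⟩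
  one_mem' := ⟨0, 0, 0, by simp⟩
  inv_mem' := by
    rintro _ ⟨i, j, k, rfl⟩
    refine ⟨i, j, k, ?_⟩
    apply inv_eq_of_mul_eq_one_right
    rw [mul_form h.c1 h.c2 h.cyz, sq_pow_one h.sq, sq_pow_one (conj_sq h.sq),
      sq_pow_one (conj_sq (conj_sq h.sq)), one_mul, one_mul]

theorem FT.x_mem (h : FT γ x) : x ∈ h.sub := ⟨1, 0, 0, by simp⟩

theorem FT.y_mem (h : FT γ x) : γ * x * γ⁻¹ ∈ h.sub := ⟨0, 1, 0, by simp⟩

theorem FT.z_mem (h : FT γ x) : γ * (γ * x * γ⁻¹) * γ⁻¹ ∈ h.sub := ⟨0, 0, 1, by simp⟩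

theorem FT.sub_conj (h : FT γ x) {m : Γ} (hm : m ∈ h.sub) : γ * m * γ⁻¹ ∈ h.sub := by
  obtain ⟨i, j, k, rfl⟩ := hm
  rw [conj_three, ← conj_pow, ← conj_pow, ← conj_pow, h.rel]
  exact mul_mem (mul_mem (pow_mem h.y_mem _) (pow_mem h.z_mem _))
    (pow_mem (mul_mem h.x_mem h.y_mem) _)

theorem FT.sub_conj' (h : FT γ x) {m : Γ} (hm : m ∈ h.sub) : γ⁻¹ * m * γ ∈ h.sub := by
  obtain ⟨i, j, k, rfl⟩ := hm
  rw [inv_conj_three, ← inv_conj_pow, ← inv_conj_pow, ← inv_conj_pow]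
  have e1 : γ⁻¹ * x * γ = (γ * (γ * x * γ⁻¹) * γ⁻¹) * x := by
    have h1 : γ * ((γ * (γ * x * γ⁻¹) * γ⁻¹) * x) * γ⁻¹ = x := by
      calc γ * ((γ * (γ * x * γ⁻¹) * γ⁻¹) * x) * γ⁻¹
          = (γ * (γ * (γ * x * γ⁻¹) * γ⁻¹) * γ⁻¹) * (γ * x * γ⁻¹) := by group
        _ = x * ((γ * x * γ⁻¹) * (γ * x * γ⁻¹)) := by rw [h.rel, mul_assoc]
        _ = x := by rw [conj_sq h.sq, mul_one]
    calc γ⁻¹ * x * γ = γ⁻¹ * (γ * ((γ * (γ * x * γ⁻¹) * γ⁻¹) * x) * γ⁻¹) * γ := by rw [h1]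
      _ = (γ * (γ * x * γ⁻¹) * γ⁻¹) * x := by group
  have e2 : γ⁻¹ * (γ * x * γ⁻¹) * γ = x := by group
  have e3 : γ⁻¹ * (γ * (γ * x * γ⁻¹) * γ⁻¹) * γ = γ * x * γ⁻¹ := by group
  rw [e1, e2, e3]
  exact mul_mem (mul_mem (pow_mem (mul_mem h.z_mem h.x_mem) _) (pow_mem h.x_mem _))
    (pow_mem h.y_mem _)

theorem conj_isConj {γ x u : Γ} (hu : ∃ δ : Γ, u = δ * x * δ⁻¹) :
    ∃ δ : Γ, γ * u * γ⁻¹ = δ * x * δ⁻¹ := by
  obtain ⟨δ, rfl⟩ := hu
  exact ⟨γ * δ, by group⟩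

theorem FT.sub_cases (h : FT γ x) {m : Γ} (hm : m ∈ h.sub) :
    m = 1 ∨ ∃ δ : Γ, m = δ * x * δ⁻¹ := by
  obtain ⟨i, j, k, rfl⟩ := hm
  obtain ⟨y, hy⟩ : ∃ y, y = γ * x * γ⁻¹ := ⟨_, rfl⟩
  obtain ⟨z, hz⟩ : ∃ z, z = γ * y * γ⁻¹ := ⟨_, rfl⟩
  have hxy : x * y = y * x := by rw [hy]; exact h.c1
  have hxz : x * z = z * x := by rw [hz, hy]; exact h.c2
  have hyz : y * z = z * y := by rw [hz, hy]; exact h.cyz
  have hyy : y * y = 1 := by rw [hy]; exact conj_sq h.sq
  have hzz : z * z = 1 := by rw [hz]; exact conj_sq hyy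
  have hrel : γ * z * γ⁻¹ = x * y := by rw [hz, hy]; exact h.rel
  have C0 : ∃ δ : Γ, x = δ * x * δ⁻¹ := ⟨1, by group⟩
  have C1 : ∃ δ : Γ, y = δ * x * δ⁻¹ := ⟨γ, hy⟩
  have C2 : ∃ δ : Γ, z = δ * x * δ⁻¹ := by rw [hz]; exact conj_isConj C1
  have C3 : ∃ δ : Γ, x * y = δ * x * δ⁻¹ := by rw [← hrel]; exact conj_isConj C2
  have C4 : ∃ δ : Γ, y * z = δ * x * δ⁻¹ := by
    have e : y * z = γ * (x * y) * γ⁻¹ := by rw [hz, hy]; group
    rw [e]; exact conj_isConj C3
  have C5 : ∃ δ : Γ, x * y * z = δ * x * δ⁻¹ := by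
    have e : x * y * z = γ * (y * z) * γ⁻¹ := by
      calc x * y * z = x * (z * y) := by rw [mul_assoc, hyz]
        _ = z * (x * y) := by rw [← mul_assoc, hxz, mul_assoc]
        _ = (γ * y * γ⁻¹) * (γ * z * γ⁻¹) := by rw [← hz, hrel]
        _ = γ * (y * z) * γ⁻¹ := by group
    rw [e]; exact conj_isConj C4
  have C6 : ∃ δ : Γ, x * z = δ * x * δ⁻¹ := by
    have e : x * z = γ * (x * y * z) * γ⁻¹ := by
      calc x * z = z * x := hxz
        _ = (y * y) * z * x := by rw [hyy, one_mul]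
        _ = y * (y * z) * x := by simp only [mul_assoc]
        _ = y * (z * y) * x := by rw [hyz]
        _ = y * z * (y * x) := by simp only [mul_assoc]
        _ = y * z * (x * y) := by rw [hxy]
        _ = (γ * x * γ⁻¹) * (γ * y * γ⁻¹) * (γ * z * γ⁻¹) := by rw [← hy, ← hz, hrel]
        _ = γ * (x * y * z) * γ⁻¹ := by group
    rw [e]; exact conj_isConj C5
  rw [← hy, ← hz]
  rcases pow_cases h.sq i with px | px <;> rcases pow_cases hyy j with py | py <;>
    rcases pow_cases hzz k with pz | pz <;> rw [px, py, pz]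
  · left; simp
  · right; rw [one_mul, one_mul]; exact C2
  · right; rw [one_mul, mul_one]; exact C1
  · right; rw [one_mul]; exact C4
  · right; rw [mul_one, mul_one]; exact C0
  · right; rw [mul_one]; exact C6
  · right; rw [mul_one]; exact C3
  · right; exact C5

end Sub

/-- A normal abelian-quotient complement to the kernel kills `ker ⊓ commutator`. -/
theorem ker_inf_commutator_eq_bot {K E : Type*} [Group K] [Group E] (π : E →* K)
    (hc : π.ker ≤ Subgroup.center E) (M : Subgroup E) (γ : E)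
    (hM : ∀ m ∈ M, π m = 1 → m = 1)
    (hn : ∀ m ∈ M, γ * m * γ⁻¹ ∈ M) (hn' : ∀ m ∈ M, γ⁻¹ * m * γ ∈ M)
    (hgen : Subgroup.map π M ⊔ Subgroup.zpowers (π γ) = ⊤) :
    π.ker ⊓ commutator E = ⊥ := by
  have hL : (M ⊔ Subgroup.zpowers γ) ⊔ π.ker = ⊤ := by
    rw [← Subgroup.comap_map_eq, Subgroup.map_sup, MonoidHom.map_zpowers, hgen, Subgroup.comap_top]
  have hγN : γ ∈ Subgroup.normalizer (M : Set E) := by
    rw [Subgroup.mem_normalizer_iff]
    intro m
    constructor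
    · exact hn m
    · intro hm
      have := hn' _ hm
      have e : γ⁻¹ * (γ * m * γ⁻¹) * γ = m := by group
      rwa [e] at this
  have hnorm : Subgroup.normalizer (M : Set E) = ⊤ := by
    rw [eq_top_iff, ← hL]
    exact sup_le (sup_le Subgroup.le_normalizer ((Subgroup.zpowers_le).2 hγN))
      (hc.trans (Subgroup.center_le_normalizer _))
  have : M.Normal := Subgroup.normalizer_eq_top_iff.1 hnorm
  have hcommS : ∀ p ∈ (insert γ (π.ker : Set E)), ∀ q ∈ (insert γ (π.ker : Set E)),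
      p * q = q * p := by
    rintro p (rfl | hp) q (rfl | hq)
    · rfl
    · exact (Subgroup.mem_center_iff.1 (hc hq) p)
    · exact (Subgroup.mem_center_iff.1 (hc hp) q).symm
    · exact (Subgroup.mem_center_iff.1 (hc hq) p)
  have hH : IsMulCommutative (Subgroup.closure (insert γ (π.ker : Set E))) :=
    Subgroup.isMulCommutative_closure hcommS
  have hsup : M ⊔ Subgroup.closure (insert γ (π.ker : Set E)) = ⊤ := by
    rw [eq_top_iff, ← hL]
    refine sup_le (sup_le le_sup_left ?_) ?_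
    · exact le_sup_of_le_right
        ((Subgroup.zpowers_le).2 (Subgroup.subset_closure (Set.mem_insert _ _)))
    · exact le_sup_of_le_right
        (fun t ht => Subgroup.subset_closure (Set.mem_insert_of_mem _ ht))
  have hle : commutator E ≤ M :=
    Subgroup.Normal.commutator_le_of_self_sup_commutative_eq_top hsup hH
  rw [eq_bot_iff]
  rintro t ⟨ht1, ht2⟩
  rw [Subgroup.mem_bot]
  exact hM t (hle ht2) (MonoidHom.mem_ker.1 ht1)

/-- The relations lift to a central extension after a central correction of the lift of `x`. -/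
theorem exists_lift {K E : Type*} [Group K] [Group E] (π : E →* K)
    (hc : π.ker ≤ Subgroup.center E) (γ a : E) (h : FT (π γ) (π a)) :
    ∃ a' : E, π a' = π a ∧ FT γ a' := by
  have cen : ∀ w : E, π w = 1 → ∀ t : E, w * t = t * w := by
    intro w hw t
    exact (Subgroup.mem_center_iff.1 (hc (MonoidHom.mem_ker.2 hw)) t).symm
  have conj_cen : ∀ w : E, (∀ t, w * t = t * w) → ∀ g : E, g * w * g⁻¹ = w := by
    intro w hw g
    rw [← hw g, mul_inv_cancel_right]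
  obtain ⟨y, hy⟩ : ∃ y, y = γ * a * γ⁻¹ := ⟨_, rfl⟩
  obtain ⟨z, hz⟩ : ∃ z, z = γ * y * γ⁻¹ := ⟨_, rfl⟩
  obtain ⟨u, hu⟩ : ∃ u, u = γ * z * γ⁻¹ := ⟨_, rfl⟩
  have py : π y = π γ * π a * (π γ)⁻¹ := by rw [hy]; simp only [map_mul, map_inv]
  have pz : π z = π γ * (π γ * π a * (π γ)⁻¹) * (π γ)⁻¹ := by
    rw [hz, map_mul, map_mul, map_inv, py]
  have pu : π u = π a * π y := by rw [hu, map_mul, map_mul, map_inv, pz, h.rel, py]
  have hs : ∀ t, (a * a) * t = t * (a * a) := cen _ (by rw [map_mul]; exact h.sq)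
  obtain ⟨c, hcdef⟩ : ∃ c, c = ⁅a, y⁆ := ⟨_, rfl⟩
  have hcc : ∀ t, c * t = t * c := by
    rw [hcdef]
    exact cen _ (by
      rw [map_commutatorElement, commutatorElement_eq_one_iff_mul_comm, py]; exact h.c1)
  have hcci : ∀ g : E, g * c⁻¹ * g⁻¹ = c⁻¹ := by
    intro g
    have e : g * c⁻¹ * g⁻¹ = (g * c * g⁻¹)⁻¹ := by group
    rw [e, conj_cen c hcc]
  have hc2 : ∀ t, ⁅a, z⁆ * t = t * ⁅a, z⁆ :=
    cen _ (by rw [map_commutatorElement, commutatorElement_eq_one_iff_mul_comm, pz]; exact h.c2)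
  have k1 : ⁅y, z⁆ = c := by
    have := conjugate_commutatorElement a y γ
    rw [← hy, ← hz, ← hcdef, conj_cen c hcc] at this
    exact this.symm
  have k2 : ⁅y, u⁆ = ⁅a, z⁆ := by
    have := conjugate_commutatorElement a z γ
    rw [← hy, ← hu, conj_cen _ hc2] at this
    exact this.symm
  have k3 : ⁅y, u⁆ = ⁅y, a * y⁆ :=
    TwoPoint.comm_eq_of_map_eq π hc rfl (by rw [pu, map_mul])
  have k4 : ⁅y, a * y⁆ = c⁻¹ := by
    rw [hcdef, commutatorElement_inv]
    simp only [commutatorElement_def]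
    group
  have hA : ⁅a, z⁆ = c⁻¹ := by rw [← k2, k3, k4]
  have k5 : ⁅z, u⁆ = c := by
    have := conjugate_commutatorElement y z γ
    rw [← hz, ← hu, k1, conj_cen c hcc] at this
    exact this.symm
  have k6 : ⁅z, u⁆ = ⁅z, a * y⁆ :=
    TwoPoint.comm_eq_of_map_eq π hc rfl (by rw [pu, map_mul])
  have k7 : ⁅z, a * y⁆ = ⁅z, a⁆ * (a * ⁅z, y⁆ * a⁻¹) := by
    simp only [commutatorElement_def]
    group
  have hza : ⁅z, a⁆ = c := by rw [← commutatorElement_inv, hA, inv_inv]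
  have hzy : ⁅z, y⁆ = c⁻¹ := by rw [← commutatorElement_inv, k1]
  have hc1 : c = 1 := by
    have : c = c * c⁻¹ := by
      calc c = ⁅z, u⁆ := k5.symm
        _ = ⁅z, a * y⁆ := k6
        _ = ⁅z, a⁆ * (a * ⁅z, y⁆ * a⁻¹) := k7
        _ = c * c⁻¹ := by rw [hza, hzy, hcci]
    rw [this, mul_inv_cancel]
  have hay : a * y = y * a := by
    rw [← commutatorElement_eq_one_iff_mul_comm, ← hcdef, hc1]
  have haz : a * z = z * a := by
    rw [← commutatorElement_eq_one_iff_mul_comm, hA, hc1, inv_one]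
  obtain ⟨w, hw⟩ : ∃ w, w = (a * y)⁻¹ * u := ⟨_, rfl⟩
  have pw : π w = 1 := by rw [hw, map_mul, map_inv, pu, map_mul, inv_mul_cancel]
  have hwc : ∀ t, w * t = t * w := cen w pw
  have huw : u = a * y * w := by rw [hw]; group
  have hyy : y * y = a * a := by
    calc y * y = γ * (a * a) * γ⁻¹ := by rw [hy]; group
      _ = a * a := conj_cen _ hs γ
  have hzz : z * z = a * a := by
    calc z * z = γ * (y * y) * γ⁻¹ := by rw [hz]; group
      _ = γ * (a * a) * γ⁻¹ := by rw [hyy]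
      _ = a * a := conj_cen _ hs γ
  have huu : u * u = a * a := by
    calc u * u = γ * (z * z) * γ⁻¹ := by rw [hu]; group
      _ = γ * (a * a) * γ⁻¹ := by rw [hzz]
      _ = a * a := conj_cen _ hs γ
  have huu' : u * u = (a * a) * ((a * a) * (w * w)) := by
    rw [huw]
    calc (a * y * w) * (a * y * w) = a * y * (w * (a * y)) * w := by group
      _ = a * y * ((a * y) * w) * w := by rw [hwc (a * y)]
      _ = a * (y * a) * y * (w * w) := by group
      _ = a * (a * y) * y * (w * w) := by rw [hay]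
      _ = (a * a) * ((y * y) * (w * w)) := by group
      _ = (a * a) * ((a * a) * (w * w)) := by rw [hyy]
  have hsw : (a * a) * (w * w) = 1 := by
    have : (a * a) * ((a * a) * (w * w)) = (a * a) * 1 := by rw [mul_one, ← huu', huu]
    exact mul_left_cancel this
  have hconj : ∀ v : E, γ * (v * w) * γ⁻¹ = γ * v * γ⁻¹ * w := by
    intro v
    calc γ * (v * w) * γ⁻¹ = γ * v * (w * γ⁻¹) := by group
      _ = γ * v * (γ⁻¹ * w) := by rw [hwc γ⁻¹]
      _ = γ * v * γ⁻¹ * w := by group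
  have mulc : ∀ p q : E, p * q = q * p → (p * w) * (q * w) = (q * w) * (p * w) := by
    intro p q hpq
    calc (p * w) * (q * w) = p * (w * q) * w := by group
      _ = p * (q * w) * w := by rw [hwc q]
      _ = (p * q) * w * w := by group
      _ = (q * p) * w * w := by rw [hpq]
      _ = q * (p * w) * w := by group
      _ = q * (w * p) * w := by rw [hwc p]
      _ = (q * w) * (p * w) := by group
  refine ⟨a * w, by rw [map_mul, pw, mul_one], ?_, ?_, ?_, ?_⟩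
  · calc (a * w) * (a * w) = a * (w * a) * w := by group
      _ = a * (a * w) * w := by rw [hwc a]
      _ = (a * a) * (w * w) := by group
      _ = 1 := hsw
  · rw [hconj a, ← hy]
    exact mulc a y hay
  · rw [hconj a, ← hy, hconj y, ← hz]
    exact mulc a z haz
  · rw [hconj a, ← hy, hconj y, ← hz, hconj z, ← hu, huw]
    calc a * y * w * w = a * (y * w) * w := by group
      _ = a * (w * y) * w := by rw [hwc y]
      _ = (a * w) * (y * w) := by group

/-- A group with the relations of `2³ : 7` (on generators) has no stem extension. -/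
theorem noStem_of_FT {K : Type u} [Group K] (g e : K) (h : FT g e) (he : e ≠ 1)
    (hgen : Subgroup.closure {g, e} = ⊤) : NoStem K := by
  intro E _ π hπ hc
  obtain ⟨γ, hγ⟩ := hπ g
  obtain ⟨a, ha⟩ := hπ e
  obtain ⟨a', ha', hFT⟩ := exists_lift π hc γ a (by rw [hγ, ha]; exact h)
  apply ker_inf_commutator_eq_bot π hc hFT.sub γ
  · intro m hm hm1
    rcases hFT.sub_cases hm with rfl | ⟨δ, rfl⟩
    · rfl
    · exfalso
      apply he
      rw [map_mul, map_mul, map_inv, ha', ha] at hm1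
      have e1 : e = (π δ)⁻¹ * (π δ * e * (π δ)⁻¹) * π δ := by group
      rw [e1, hm1]; group
  · exact fun m hm => hFT.sub_conj hm
  · exact fun m hm => hFT.sub_conj' hm
  · rw [eq_top_iff, ← hgen, Subgroup.closure_le]
    rintro t (rfl | rfl)
    · rw [hγ]
      exact (le_sup_right : Subgroup.zpowers t ≤ _) (Subgroup.mem_zpowers t)
    · exact (le_sup_left : Subgroup.map π hFT.sub ≤ _)
        ⟨a', hFT.x_mem, by rw [ha', ha]⟩

end Frob

end Cfsg.Agent.H41
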