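import Cfsg.Agent.H35.TCMain

/-!
# A covering presentation of the Held group on five conjugate involutions, as word lists (helper41)

`a, b, c, d, e` are involutions of the Held group with `(ab)¹⁷ = (ac)³ = (ad)³ = (ae)³ = 1` (the
tree relators, which stay exact), `⟨a, b, c⟩ = L₂(16)`, `⟨a, b, c, d⟩ = Sp₄(4)`, and further
relators which are only required to be central.  Groups presented by lists of words, their
universal property, and the glue for helper35's Todd–Coxeter replay certificates.
-/

set_option autoImplicit false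

namespace Cfsg.Agent.H41.HeP

open Cfsg.Agent.H35

/-- the five generators -/
inductive Gen : Type
  | a | b | c | d | e
  deriving DecidableEq

noncomputable def h_gi : Gen → ℕ := fun x => Gen.rec (motive := fun _ => ℕ) 0 1 2 3 4 x

def h_gens : List Gen := [.a, .b, .c, .d, .e]

def h_gof : ℕ → Gen := fun i => h_gens.getD i .a

theorem h_gof_gi (x : Gen) : h_gof (h_gi x) = x := by cases x <;> rfl

theorem h_gens_all (x : Gen) : x ∈ h_gens := by cases x <;> decide

noncomputable abbrev ku_gi := h_gi
noncomputable abbrev kv_gi := h_gi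
noncomputable abbrev kw_gi := h_gi
abbrev ku_gof := h_gof
abbrev kv_gof := h_gof
abbrev kw_gof := h_gof
abbrev ku_gens := h_gens
abbrev kv_gens := h_gens
abbrev kw_gens := h_gens

/-- squares of `a, b, c` -/
def sq3 : List (List Gen) := [[.a, .a], [.b, .b], [.c, .c]]
/-- squares of `a, b, c, d` -/
def sq4 : List (List Gen) := sq3 ++ [[.d, .d]]
/-- squares of all generators -/
def sq5 : List (List Gen) := sq4 ++ [[.e, .e]]

/-- `(ab)¹⁷` -/
def wAB : List Gen :=
  [.a, .b, .a, .b, .a, .b, .a, .b, .a, .b, .a, .b, .a, .b, .a, .b, .a, .b, .a, .b, .a, .b, .a,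
    .b, .a, .b, .a, .b, .a, .b, .a, .b, .a, .b]

/-- `(ac)³` -/
def wAC : List Gen :=
  [.a, .c, .a, .c, .a, .c]

/-- `(ad)³` -/
def wAD : List Gen :=
  [.a, .d, .a, .d, .a, .d]

/-- `(ae)³` -/
def wAE : List Gen :=
  [.a, .e, .a, .e, .a, .e]

/-- the tree relators inside `L₂(16)` -/
def tree3 : List (List Gen) := [wAB, wAC]
/-- the tree relators inside `Sp₄(4)` -/
def tree4 : List (List Gen) := tree3 ++ [wAD]
/-- the tree relators -/
def tree5 : List (List Gen) := tree4 ++ [wAE]

/-- a further relator of `L₂(16)` -/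
def wU1 : List Gen :=
  [.b, .c, .b, .c, .b, .c, .b, .c, .b, .c]

/-- a further relator of `L₂(16)` -/
def wU2 : List Gen :=
  [.a, .b, .c, .a, .b, .c, .a, .b, .c, .a, .b, .c, .a, .b, .c]

/-- a further relator of `L₂(16)` -/
def wU3 : List Gen :=
  [.c, .a, .b, .a, .b, .a, .c, .a, .b, .a, .b, .a]

/-- a further relator of `Sp₄(4)` -/
def wV1 : List Gen :=
  [.c, .d, .c, .d]

/-- a further relator of `Sp₄(4)` -/
def wV2 : List Gen :=
  [.b, .d, .b, .d, .b, .d, .b, .d]

/-- a further relator of `Sp₄(4)` -/
def wV3 : List Gen :=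
  [.a, .c, .a, .d, .a, .c, .a, .d, .a, .c, .a, .d]

/-- a further relator of `Sp₄(4)` -/
def wV4 : List Gen :=
  [.a, .c, .d, .a, .c, .d, .a, .c, .d, .a, .c, .d]

/-- a further relator of `Sp₄(4)` -/
def wV5 : List Gen :=
  [.a, .c, .d, .c, .a, .c, .d, .c, .a, .c, .d, .c]

/-- a further relator of `Sp₄(4)` -/
def wV6 : List Gen :=
  [.a, .d, .c, .d, .a, .d, .c, .d, .a, .d, .c, .d]

/-- a further relator of `Sp₄(4)` -/
def wV7 : List Gen :=
  [.b, .c, .d, .b, .c, .d, .b, .c, .d, .b, .c, .d, .b, .c, .d]

/-- a further relator of `Sp₄(4)` -/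
def wV8 : List Gen :=
  [.b, .c, .b, .d, .b, .c, .b, .d, .b, .c, .b, .d, .b, .c, .b, .d]

/-- a further relator of `Sp₄(4)` -/
def wV9 : List Gen :=
  [.b, .c, .d, .c, .b, .c, .d, .c, .b, .c, .d, .c, .b, .c, .d, .c]

/-- a further relator of `Sp₄(4)` -/
def wV10 : List Gen :=
  [.b, .d, .c, .d, .b, .d, .c, .d, .b, .d, .c, .d, .b, .d, .c, .d, .b, .d, .c, .d]

/-- a further relator of `Sp₄(4)` -/
def wV11 : List Gen :=
  [.d, .a, .c, .b, .a, .d, .a, .c, .b, .a]

/-- a further relator of the Held group -/
def wW1 : List Gen :=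
  [.c, .e, .c, .e]

/-- a further relator of the Held group -/
def wW2 : List Gen :=
  [.c, .d, .e, .d, .c, .d, .e, .d]

/-- a further relator of the Held group -/
def wW3 : List Gen :=
  [.c, .e, .d, .e, .c, .e, .d, .e]

/-- a further relator of the Held group -/
def wW4 : List Gen :=
  [.d, .e, .d, .e, .d, .e, .d, .e]

/-- a further relator of the Held group -/
def wW5 : List Gen :=
  [.b, .e, .b, .e, .b, .e, .b, .e, .b, .e]

/-- a further relator of the Held group -/
def wW6 : List Gen :=
  [.a, .c, .a, .e, .a, .c, .a, .e, .a, .c, .a, .e]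

/-- a further relator of the Held group -/
def wW7 : List Gen :=
  [.a, .c, .e, .a, .c, .e, .a, .c, .e, .a, .c, .e]

/-- a further relator of the Held group -/
def wW8 : List Gen :=
  [.a, .c, .e, .c, .a, .c, .e, .c, .a, .c, .e, .c]

/-- a further relator of the Held group -/
def wW9 : List Gen :=
  [.a, .e, .c, .e, .a, .e, .c, .e, .a, .e, .c, .e]

/-- a further relator of the Held group -/
def wW10 : List Gen :=
  [.b, .c, .e, .b, .c, .e, .b, .c, .e, .b, .c, .e]

/-- a further relator of the Held group -/
def wW11 : List Gen :=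
  [.c, .d, .e, .c, .d, .e, .c, .d, .e, .c, .d, .e]

/-- a further relator of the Held group -/
def wW12 : List Gen :=
  [.a, .d, .a, .e, .a, .d, .a, .e, .a, .d, .a, .e, .a, .d, .a, .e]

/-- a further relator of the Held group -/
def wW13 : List Gen :=
  [.a, .d, .e, .d, .a, .d, .e, .d, .a, .d, .e, .d, .a, .d, .e, .d]

/-- a further relator of the Held group -/
def wW14 : List Gen :=
  [.a, .e, .d, .e, .a, .e, .d, .e, .a, .e, .d, .e, .a, .e, .d, .e]

/-- a further relator of the Held group -/
def wW15 : List Gen :=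
  [.b, .d, .e, .d, .b, .d, .e, .d, .b, .d, .e, .d, .b, .d, .e, .d]

/-- a further relator of the Held group -/
def wW16 : List Gen :=
  [.c, .d, .c, .e, .c, .d, .c, .e, .c, .d, .c, .e, .c, .d, .c, .e]

/-- a further relator of the Held group -/
def wW17 : List Gen :=
  [.b, .c, .b, .e, .b, .c, .b, .e, .b, .c, .b, .e, .b, .c, .b, .e, .b, .c, .b, .e]

/-- a further relator of the Held group -/
def wW18 : List Gen :=
  [.b, .c, .e, .c, .b, .c, .e, .c, .b, .c, .e, .c, .b, .c, .e, .c, .b, .c, .e, .c]

/-- a further relator of the Held group -/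
def wW19 : List Gen :=
  [.b, .d, .b, .e, .b, .d, .b, .e, .b, .d, .b, .e, .b, .d, .b, .e, .b, .d, .b, .e]

/-- a further relator of the Held group -/
def wW20 : List Gen :=
  [.b, .e, .c, .e, .b, .e, .c, .e, .b, .e, .c, .e, .b, .e, .c, .e, .b, .e, .c, .e]

/-- a further relator of the Held group -/
def wW21 : List Gen :=
  [.b, .e, .d, .e, .b, .e, .d, .e, .b, .e, .d, .e, .b, .e, .d, .e, .b, .e, .d, .e]

/-- a further relator of the Held group -/
def wW22 : List Gen :=
  [.a, .d, .e, .a, .d, .e, .a, .d, .e, .a, .d, .e, .a, .d, .e, .a, .d, .e, .a, .d, .e]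

/-- a further relator of the Held group -/
def wW23 : List Gen :=
  [.a, .b, .e, .d, .a, .b, .e, .d, .a, .b, .e, .d, .a, .b, .e, .d, .a, .b, .e, .d, .a, .b, .e, .d]

/-- a further relator of the Held group -/
def wW24 : List Gen :=
  [.e, .d, .e, .d, .c]

/-- a further relator of the Held group -/
def wW25 : List Gen :=
  [.e, .a, .b, .a, .b, .a, .e, .d, .b, .c, .b, .a, .c, .b, .c, .a, .b, .d, .b, .a, .c, .b, .c,
    .a, .b, .c, .b, .a, .c, .b, .a]

/-- a further relator of the Held group -/
def wW26 : List Gen :=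
  [.e, .b, .e, .d, .b, .c, .b, .e, .b, .d, .b, .c, .b, .a, .c, .b, .c, .a, .b, .d, .a, .b, .a,
    .c, .b, .c, .a, .b, .c, .b, .c, .b]

/-- a further relator of the Held group -/
def wW27 : List Gen :=
  [.e, .a, .b, .c, .b, .a, .b, .c, .b, .a, .e, .d, .b, .a, .c, .b, .c, .a, .b, .c, .b, .d, .b,
    .a, .c, .b, .c, .b, .a, .b, .a, .b, .c, .a, .b]

/-- a further relator of the Held group -/
def wW28 : List Gen :=
  [.e, .b, .a, .b, .a, .e, .d, .b, .d, .b, .a, .e, .d, .a, .b, .c, .a, .b, .d, .a, .b, .c, .a,
    .b, .d, .a, .c, .b, .a, .b, .a, .b, .c, .a, .b, .c, .b, .a, .b, .a]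

/-- the further relators of `L₂(16)` -/
def rest3 : List (List Gen) :=
  [wU1, wU2, wU3]
/-- the further relators of `Sp₄(4)` -/
def rest4 : List (List Gen) :=
  [wV1, wV2, wV3, wV4, wV5, wV6, wV7, wV8, wV9, wV10, wV11]
/-- the further relators of the Held group -/
def rest5 : List (List Gen) :=
  [wW1, wW2, wW3, wW4, wW5, wW6, wW7, wW8, wW9, wW10, wW11, wW12, wW13, wW14, wW15, wW16, wW17,
    wW18, wW19, wW20, wW21, wW22, wW23, wW24, wW25, wW26, wW27, wW28]
/-- the further relators inside `Sp₄(4)` -/
def restB : List (List Gen) := rest3 ++ rest4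
/-- all the further relators -/
def restA : List (List Gen) := restB ++ rest5

/-- the relators saying that the word `R` commutes with the generators in `gs` -/
def cen (gs : List Gen) (R : List Gen) : List (List Gen) :=
  gs.map (fun g => R ++ [g] ++ R.reverse ++ [g])

def g3 : List Gen := [.a, .b, .c]
def g4 : List Gen := [.a, .b, .c, .d]

/-- the relators of the covering group of `L₂(16)` (the generators `d, e` are killed) -/
def hatU : List (List Gen) := sq3 ++ tree3 ++ rest3.flatMap (cen g3) ++ [[.d], [.e]]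
/-- the relators of the covering group of `Sp₄(4)` (the generator `e` is killed) -/
def hatV : List (List Gen) := sq4 ++ tree4 ++ restB.flatMap (cen g4) ++ [[.e]]
/-- the relators of the covering group of the Held group -/
def hatW : List (List Gen) := sq5 ++ tree5 ++ restA.flatMap (cen h_gens)

def ku_rws : List (List Gen × List Gen) := hatU.map (fun w => (w, []))
def kv_rws : List (List Gen × List Gen) := hatV.map (fun w => (w, []))
def kw_rws : List (List Gen × List Gen) := hatW.map (fun w => (w, []))
def ku_prels : List (List Gen × ℕ × ℕ) := []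
def kv_prels : List (List Gen × ℕ × ℕ) := []
def kw_prels : List (List Gen × ℕ × ℕ) := []

/-- a word in the free group -/
def fw (w : List Gen) : FreeGroup Gen := (w.map FreeGroup.of).prod

/-- the group presented by a list of words -/
abbrev Pr (L : List (List Gen)) : Type :=
  PresentedGroup {r : FreeGroup Gen | ∃ w ∈ L, r = fw w}

/-- the generators of a presented group -/
def pg (L : List (List Gen)) (x : Gen) : Pr L := PresentedGroup.of x

theorem lift_fw {K : Type*} [Group K] (f : Gen → K) (w : List Gen) :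
    FreeGroup.lift f (fw w) = uw f w := by
  unfold fw uw
  rw [map_list_prod, List.map_map]
  congr 1
  apply List.map_congr_left
  intro x _
  simp

theorem uw_pg (L : List (List Gen)) (w : List Gen) :
    uw (pg L) w = PresentedGroup.mk _ (fw w) := by
  unfold fw uw
  rw [map_list_prod, List.map_map]
  rfl

theorem pg_rel (L : List (List Gen)) (w : List Gen) (hw : w ∈ L) : uw (pg L) w = 1 := by
  rw [uw_pg]
  exact (PresentedGroup.mk_eq_one_iff).2 (Subgroup.subset_normalClosure ⟨w, hw, rfl⟩)

/-- the universal property -/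
def up (L : List (List Gen)) {K : Type*} [Group K] (f : Gen → K) (h : ∀ w ∈ L, uw f w = 1) :
    Pr L →* K :=
  PresentedGroup.toGroup (f := f) (by
    rintro r ⟨w, hw, rfl⟩
    rw [lift_fw]
    exact h w hw)

theorem up_pg (L : List (List Gen)) {K : Type*} [Group K] (f : Gen → K)
    (h : ∀ w ∈ L, uw f w = 1) (x : Gen) : up L f h (pg L x) = f x :=
  PresentedGroup.toGroup.of _

theorem closure_pg (L : List (List Gen)) : Subgroup.closure (Set.range (pg L)) = ⊤ :=
  PresentedGroup.closure_range_of _

theorem hom_ext (L : List (List Gen)) {K : Type*} [Group K] (f g : Pr L →* K)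
    (h : ∀ x, f (pg L x) = g (pg L x)) : f = g :=
  PresentedGroup.ext h

theorem map_uw {K K' : Type*} [Group K] [Group K'] (φ : K →* K') (f : Gen → K) (w : List Gen) :
    φ (uw f w) = uw (fun x => φ (f x)) w := by
  unfold uw
  rw [map_list_prod, List.map_map]
  rfl

theorem uw_append {K : Type*} [Group K] (f : Gen → K) (u v : List Gen) :
    uw f (u ++ v) = uw f u * uw f v := by
  unfold uw
  rw [List.map_append, List.prod_append]

theorem uw_cons {K : Type*} [Group K] (f : Gen → K) (x : Gen) (w : List Gen) :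
    uw f (x :: w) = f x * uw f w := by
  simp [uw]

theorem uw_nil {K : Type*} [Group K] (f : Gen → K) : uw f [] = 1 := by
  simp [uw]

theorem uw_reverse {K : Type*} [Group K] (f : Gen → K) (hf : ∀ x, f x * f x = 1) (w : List Gen) :
    uw f w.reverse = (uw f w)⁻¹ := by
  induction w with
  | nil => simp [uw]
  | cons x w ih =>
    rw [List.reverse_cons, uw_append, ih]
    have h1 : uw f (x :: w) = f x * uw f w := by simp [uw]
    rw [h1, mul_inv_rev]
    congr 1
    have : uw f [x] = f x := by simp [uw]
    rw [this]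
    exact eq_inv_of_mul_eq_one_left (hf x)

theorem full_one (L : List (List Gen)) :
    ∀ w ∈ fullW (L.map (fun w => (w, ([] : List Gen)))) [], uw (pg L) w = 1 := by
  apply fullW_one
  · intro r hr
    rw [List.mem_map] at hr
    obtain ⟨w, hw, rfl⟩ := hr
    simpa using pg_rel L w hw
  · intro r hr
    simp at hr

theorem inv_of_sq (L : List (List Gen)) (x : Gen) (h : [x, x] ∈ L) : pg L x * pg L x = 1 := by
  have h' : uw (pg L) [x, x] = 1 := pg_rel L _ h
  simpa [uw] using h'

theorem one_of_kill (L : List (List Gen)) (x : Gen) (h : [x] ∈ L) : pg L x = 1 := by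
  have h' : uw (pg L) [x] = 1 := pg_rel L _ h
  simpa [uw] using h'


theorem hatW_inv (x : Gen) : pg hatW x * pg hatW x = 1 :=
  inv_of_sq hatW x (by cases x <;> decide)

theorem hatV_inv (x : Gen) : pg hatV x * pg hatV x = 1 := by
  cases x
  · exact inv_of_sq hatV _ (by decide)
  · exact inv_of_sq hatV _ (by decide)
  · exact inv_of_sq hatV _ (by decide)
  · exact inv_of_sq hatV _ (by decide)
  · rw [one_of_kill hatV .e (by decide), mul_one]

theorem hatU_inv (x : Gen) : pg hatU x * pg hatU x = 1 := by
  cases x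
  · exact inv_of_sq hatU _ (by decide)
  · exact inv_of_sq hatU _ (by decide)
  · exact inv_of_sq hatU _ (by decide)
  · rw [one_of_kill hatU .d (by decide), mul_one]
  · rw [one_of_kill hatU .e (by decide), mul_one]

end Cfsg.Agent.H41.HeP
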