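import Cfsg.Agent.H41.HeTC.Ku.RAll
import Cfsg.Agent.H41.HeTC.Kv.RAll
import Cfsg.Agent.H41.HeTC.Kw.RAll
import Cfsg.Agent.H41.HeGlue
import Cfsg.Agent.H41.SzOrder

/-!
# The order of the covering presentation of the Held group (helper41)

Helper35's replay certificates bound the index of `⟨a, b⟩` in the covering presentation of
`L₂(16)` by `240`, the index of `⟨a, b, c⟩` in the covering presentation of `Sp₄(4)` by `240` and
the index of `⟨a, b, c, d⟩` in the covering presentation of the Held group by `4116`; the tower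
gives `|Pr hatW| ≤ 4116 · 240 · 240 · 34 = 2 · 4030387200`.
-/

set_option autoImplicit false
set_option maxRecDepth 1000000

namespace Cfsg.Agent.H41.HeP

open Cfsg Cfsg.Agent.H35
open Cfsg.Agent.H41.SzP (dihedral_card_le)

/-! ### The dihedral subgroup -/

theorem ab17 (L : List (List Gen)) (h : wAB ∈ L) : (pg L .a * pg L .b) ^ 17 = 1 := by
  have h' : uw (pg L) wAB = 1 := pg_rel L _ h
  rw [← h']
  simp [wAB, uw, pow_succ, mul_assoc]

/-- the dihedral subgroup `⟨a, b⟩` -/
def Hab (L : List (List Gen)) : Subgroup (Pr L) := Subgroup.closure {pg L .a, pg L .b}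

theorem Hab_card (L : List (List Gen)) (h : wAB ∈ L)
    (ha : pg L .a * pg L .a = 1) (hb : pg L .b * pg L .b = 1) :
    Finite (Hab L) ∧ Nat.card (Hab L) ≤ 2 * 17 :=
  dihedral_card_le _ _ ha hb 17 (by norm_num) (ab17 L h)

theorem mem_hatV_of_cen (R : List Gen) (hR : R ∈ restB) (g : Gen) (hg : g ∈ g4) :
    R ++ [g] ++ R.reverse ++ [g] ∈ hatV := by
  unfold hatV
  apply List.mem_append_left
  apply List.mem_append_right
  rw [List.mem_flatMap]
  exact ⟨R, hR, List.mem_map.2 ⟨g, hg, rfl⟩⟩

theorem mem_hatW_of_cen (R : List Gen) (hR : R ∈ restA) (g : Gen) :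
    R ++ [g] ++ R.reverse ++ [g] ∈ hatW := by
  unfold hatW
  apply List.mem_append_right
  rw [List.mem_flatMap]
  exact ⟨R, hR, List.mem_map.2 ⟨g, h_gens_all g, rfl⟩⟩

/-! ### The covering presentation of `L₂(16)` -/

theorem ku_rhyp : RHyp tku_rd (Hab hatU) (pg hatU) := by
  refine ⟨hatU_inv, h_gof_gi, by decide, fun p hp => wrapRow_of_le _ _ p hp, ?_, ?_, tku_h0,
    by decide⟩
  · exact circTab_valid (pg hatU) hatU_inv _ (full_one hatU) tku_circT tku_ccert tku_circ_ok
  · refine hcTab_valid (pg hatU) hatU_inv (Hab hatU) tku_rsw ?_ tku_hc1T tku_hc2T _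
      (fun c hc => allR_sound _ _ _ 0 tku_hc_ok c (Nat.zero_le _) (by omega) hc)
    intro w hw
    simp only [tku_rsw, List.mem_cons, List.not_mem_nil, or_false] at hw
    rcases hw with rfl | rfl
    · exact Subgroup.subset_closure (by simp [uw])
    · exact Subgroup.subset_closure (by simp [uw])

theorem ku_index : Finite (Pr hatU ⧸ Hab hatU) ∧ Nat.card (Pr hatU ⧸ Hab hatU) ≤ 240 :=
  replay_bound ku_rhyp h_gens_all (closure_pg hatU) (by decide) (by decide) tku_rall

instance hatU_finite : Finite (Pr hatU) := by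
  have := ku_index.1
  have := (Hab_card hatU (by decide) (hatU_inv .a) (hatU_inv .b)).1
  exact Finite.of_equiv _ (Subgroup.groupEquivQuotientProdSubgroup (s := Hab hatU)).symm

theorem hatU_card_le : Nat.card (Pr hatU) ≤ 8160 := by
  rw [Subgroup.card_eq_card_quotient_mul_card_subgroup (Hab hatU)]
  calc Nat.card (Pr hatU ⧸ Hab hatU) * Nat.card (Hab hatU) ≤ 240 * (2 * 17) :=
        Nat.mul_le_mul ku_index.2 (Hab_card hatU (by decide) (hatU_inv .a) (hatU_inv .b)).2
    _ = 8160 := by norm_num

/-! ### Subgroups generated by some of the generators -/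

/-- the subgroup generated by the generators in `S` -/
def HS (L : List (List Gen)) (S : Gen → Bool) : Subgroup (Pr L) :=
  Subgroup.closure {y | ∃ g, S g = true ∧ y = pg L g}

/-- the generators outside `S` killed -/
def kf (L : List (List Gen)) (S : Gen → Bool) (g : Gen) : Pr L :=
  if S g = true then pg L g else 1

/-- words in the generators of `S` -/
def okW (S : Gen → Bool) (w : List Gen) : Bool := w.all S

theorem uw_kf (L : List (List Gen)) (S : Gen → Bool) (w : List Gen) (h : okW S w = true) :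
    uw (kf L S) w = uw (pg L) w := by
  induction w with
  | nil => rfl
  | cons g w ih =>
    simp only [okW, List.all_cons, Bool.and_eq_true] at h
    rw [uw_cons, uw_cons, ih (by simpa [okW] using h.2)]
    unfold kf
    rw [if_pos h.1]

theorem kf_range (L : List (List Gen)) (S : Gen → Bool) {K : Type*} [Group K] (φ : K →* Pr L)
    (f : Gen → K) (hφ : ∀ x, φ (f x) = kf L S x) (hcl : Subgroup.closure (Set.range f) = ⊤) :
    φ.range = HS L S := by
  rw [MonoidHom.range_eq_map, ← hcl, MonoidHom.map_closure]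
  apply le_antisymm
  · rw [Subgroup.closure_le]
    rintro _ ⟨_, ⟨x, rfl⟩, rfl⟩
    rw [hφ]
    unfold kf
    by_cases hx : S x = true
    · rw [if_pos hx]
      exact Subgroup.subset_closure ⟨x, hx, rfl⟩
    · rw [if_neg hx]
      exact (HS L S).one_mem
  · unfold HS
    rw [Subgroup.closure_le]
    rintro y ⟨g, hg, rfl⟩
    refine Subgroup.subset_closure ⟨f g, ⟨g, rfl⟩, ?_⟩
    rw [hφ]
    unfold kf
    rw [if_pos hg]

theorem card_HS_le (L : List (List Gen)) (S : Gen → Bool) {K : Type*} [Group K] [Finite K]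
    (φ : K →* Pr L) (f : Gen → K) (hφ : ∀ x, φ (f x) = kf L S x)
    (hcl : Subgroup.closure (Set.range f) = ⊤) :
    Finite (HS L S) ∧ Nat.card (HS L S) ≤ Nat.card K := by
  rw [← kf_range L S φ f hφ hcl]
  have : Finite φ.range := Finite.of_surjective φ.rangeRestrict φ.rangeRestrict_surjective
  exact ⟨this, Nat.card_le_card_of_surjective φ.rangeRestrict φ.rangeRestrict_surjective⟩

/-- `a, b, c` -/
def S3 : Gen → Bool := fun g => decide (g ∈ g3)
/-- `a, b, c, d` -/
def S4 : Gen → Bool := fun g => decide (g ∈ g4)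

theorem kf_eq_of_not (L : List (List Gen)) (S : Gen → Bool) (g : Gen) (h : S g = false) :
    kf L S g = 1 := by
  unfold kf
  rw [if_neg (by rw [h]; exact Bool.false_ne_true)]

/-! ### The covering presentation of `Sp₄(4)` -/

theorem okU_cen : ∀ R ∈ rest3, ∀ g ∈ g3, okW S3 (R ++ [g] ++ R.reverse ++ [g]) = true := by
  decide

theorem rest3_sub : ∀ R ∈ rest3, R ∈ restB := fun R hR => List.mem_append_left _ hR

theorem g3_sub : ∀ g ∈ g3, g ∈ g4 := by decide

theorem hatU_kf : ∀ w ∈ hatU, uw (kf hatV S3) w = 1 := by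
  intro w hw
  unfold hatU at hw
  rw [List.mem_append, List.mem_append, List.mem_append] at hw
  rcases hw with ((hw | hw) | hw) | hw
  · have hn : okW S3 w = true := by
      revert w
      decide
    rw [uw_kf hatV S3 w hn]
    exact pg_rel hatV w (by
      revert w
      decide)
  · have hn : okW S3 w = true := by
      revert w
      decide
    rw [uw_kf hatV S3 w hn]
    exact pg_rel hatV w (by
      revert w
      decide)
  · rw [List.mem_flatMap] at hw
    obtain ⟨R, hR, hw⟩ := hw
    obtain ⟨g, hg, rfl⟩ := List.mem_map.1 hw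
    rw [uw_kf hatV S3 _ (okU_cen R hR g hg)]
    exact pg_rel hatV _ (mem_hatV_of_cen R (rest3_sub R hR) g (g3_sub g hg))
  · simp only [List.mem_cons, List.not_mem_nil, or_false] at hw
    rcases hw with rfl | rfl
    · rw [uw_cons, uw_nil, mul_one]
      exact kf_eq_of_not hatV S3 .d (by decide)
    · rw [uw_cons, uw_nil, mul_one]
      exact kf_eq_of_not hatV S3 .e (by decide)

/-- the covering group of `L₂(16)` maps onto `⟨a, b, c⟩` -/
noncomputable def iU : Pr hatU →* Pr hatV := up hatU (kf hatV S3) hatU_kf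

theorem hatV_H3 : Finite (HS hatV S3) ∧ Nat.card (HS hatV S3) ≤ 8160 := by
  have h := card_HS_le hatV S3 iU (pg hatU) (fun x => up_pg hatU _ hatU_kf x) (closure_pg hatU)
  exact ⟨h.1, h.2.trans hatU_card_le⟩

theorem kv_rhyp : RHyp tkv_rd (HS hatV S3) (pg hatV) := by
  refine ⟨hatV_inv, h_gof_gi, by decide, fun p hp => wrapRow_of_le _ _ p hp, ?_, ?_, tkv_h0,
    by decide⟩
  · exact circTab_valid (pg hatV) hatV_inv _ (full_one hatV) tkv_circT tkv_ccert tkv_circ_ok
  · refine hcTab_valid (pg hatV) hatV_inv (HS hatV S3) tkv_rsw ?_ tkv_hc1T tkv_hc2T _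
      (fun c hc => allR_sound _ _ _ 0 tkv_hc_ok c (Nat.zero_le _) (by omega) hc)
    intro w hw
    simp only [tkv_rsw, List.mem_cons, List.not_mem_nil, or_false] at hw
    rcases hw with rfl | rfl | rfl
    · exact Subgroup.subset_closure ⟨.a, by decide, by simp [uw]⟩
    · exact Subgroup.subset_closure ⟨.b, by decide, by simp [uw]⟩
    · exact Subgroup.subset_closure ⟨.c, by decide, by simp [uw]⟩

theorem kv_index : Finite (Pr hatV ⧸ HS hatV S3) ∧ Nat.card (Pr hatV ⧸ HS hatV S3) ≤ 240 :=
  replay_bound kv_rhyp h_gens_all (closure_pg hatV) (by decide) (by decide) tkv_rall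

instance hatV_finite : Finite (Pr hatV) := by
  have := kv_index.1
  have := hatV_H3.1
  exact Finite.of_equiv _ (Subgroup.groupEquivQuotientProdSubgroup (s := HS hatV S3)).symm

theorem hatV_card_le : Nat.card (Pr hatV) ≤ 1958400 := by
  rw [Subgroup.card_eq_card_quotient_mul_card_subgroup (HS hatV S3)]
  calc Nat.card (Pr hatV ⧸ HS hatV S3) * Nat.card (HS hatV S3) ≤ 240 * 8160 :=
        Nat.mul_le_mul kv_index.2 hatV_H3.2
    _ = 1958400 := by norm_num

/-! ### The covering presentation of the Held group -/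

theorem okV_cen : ∀ R ∈ restB, ∀ g ∈ g4, okW S4 (R ++ [g] ++ R.reverse ++ [g]) = true := by
  decide

theorem restB_sub : ∀ R ∈ restB, R ∈ restA := fun R hR => List.mem_append_left _ hR

theorem hatV_kf : ∀ w ∈ hatV, uw (kf hatW S4) w = 1 := by
  intro w hw
  unfold hatV at hw
  rw [List.mem_append, List.mem_append, List.mem_append] at hw
  rcases hw with ((hw | hw) | hw) | hw
  · have hn : okW S4 w = true := by
      revert w
      decide
    rw [uw_kf hatW S4 w hn]
    exact pg_rel hatW w (by
      revert w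
      decide)
  · have hn : okW S4 w = true := by
      revert w
      decide
    rw [uw_kf hatW S4 w hn]
    exact pg_rel hatW w (by
      revert w
      decide)
  · rw [List.mem_flatMap] at hw
    obtain ⟨R, hR, hw⟩ := hw
    obtain ⟨g, hg, rfl⟩ := List.mem_map.1 hw
    rw [uw_kf hatW S4 _ (okV_cen R hR g hg)]
    exact pg_rel hatW _ (mem_hatW_of_cen R (restB_sub R hR) g)
  · rw [List.mem_singleton] at hw
    subst hw
    rw [uw_cons, uw_nil, mul_one]
    exact kf_eq_of_not hatW S4 .e (by decide)

/-- the covering group of `Sp₄(4)` maps onto `⟨a, b, c, d⟩` -/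
noncomputable def iV : Pr hatV →* Pr hatW := up hatV (kf hatW S4) hatV_kf

theorem hatW_H4 : Finite (HS hatW S4) ∧ Nat.card (HS hatW S4) ≤ 1958400 := by
  have h := card_HS_le hatW S4 iV (pg hatV) (fun x => up_pg hatV _ hatV_kf x) (closure_pg hatV)
  exact ⟨h.1, h.2.trans hatV_card_le⟩

theorem kw_rhyp : RHyp tkw_rd (HS hatW S4) (pg hatW) := by
  refine ⟨hatW_inv, h_gof_gi, by decide, fun p hp => wrapRow_of_le _ _ p hp, ?_, ?_, tkw_h0,
    by decide⟩
  · exact circTab_valid (pg hatW) hatW_inv _ (full_one hatW) tkw_circT tkw_ccert tkw_circ_ok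
  · refine hcTab_valid (pg hatW) hatW_inv (HS hatW S4) tkw_rsw ?_ tkw_hc1T tkw_hc2T _
      (fun c hc => allR_sound _ _ _ 0 tkw_hc_ok c (Nat.zero_le _) (by omega) hc)
    intro w hw
    simp only [tkw_rsw, List.mem_cons, List.not_mem_nil, or_false] at hw
    rcases hw with rfl | rfl | rfl | rfl
    · exact Subgroup.subset_closure ⟨.a, by decide, by simp [uw]⟩
    · exact Subgroup.subset_closure ⟨.b, by decide, by simp [uw]⟩
    · exact Subgroup.subset_closure ⟨.c, by decide, by simp [uw]⟩
    · exact Subgroup.subset_closure ⟨.d, by decide, by simp [uw]⟩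

theorem kw_index : Finite (Pr hatW ⧸ HS hatW S4) ∧ Nat.card (Pr hatW ⧸ HS hatW S4) ≤ 4116 :=
  replay_bound kw_rhyp h_gens_all (closure_pg hatW) (by decide) (by decide) tkw_rall

instance hatW_finite : Finite (Pr hatW) := by
  have := kw_index.1
  have := hatW_H4.1
  exact Finite.of_equiv _ (Subgroup.groupEquivQuotientProdSubgroup (s := HS hatW S4)).symm

/-- the covering group has at most `2 · 4030387200` elements -/
theorem hatW_card_le : Nat.card (Pr hatW) ≤ 8060774400 := by
  rw [Subgroup.card_eq_card_quotient_mul_card_subgroup (HS hatW S4)]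
  calc Nat.card (Pr hatW ⧸ HS hatW S4) * Nat.card (HS hatW S4) ≤ 4116 * 1958400 :=
        Nat.mul_le_mul kw_index.2 hatW_H4.2
    _ = 8060774400 := by norm_num

end Cfsg.Agent.H41.HeP
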