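import Mathlib
import Cfsg.Agent.H41.Frob56
import Cfsg.Agent.H41.LocalStem
import Cfsg.Agent.H41.AltMult2
import Cfsg.Agent.H61.J1Data

/-!
# The Schur multiplier of `J₁` is trivial

Odd primes divide the order once.  For the prime `2` the subgroup `2³ : 7` generated by `X³` and
an involution of the `X`-invariant Sylow `2`-subgroup has odd index and no stem extension.
-/

set_option autoImplicit false

namespace Cfsg.Agent.H41

namespace J1M

open Cfsg.Agent.H61.J1 Frob

/-- The word of `X³`. -/
def gW : List Bool := [false, false, false]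
/-- The word of `X⁻³ = X⁴`. -/
def gI : List Bool := [false, false, false, false]
/-- The word of an involution. -/
def eW : List Bool := [true, true, true, true, false, true, false]

theorem g_inv : (wp gW)⁻¹ = wp gI := by
  apply inv_eq_of_mul_eq_one_right
  rw [← wp_append]
  exact wp_eq_of_eqW (w := []) (by decide +kernel)

theorem ft : FT (wp gW) (wp eW) := by
  refine ⟨?_, ?_, ?_, ?_⟩
  · rw [← wp_append]
    exact wp_eq_of_eqW (w := []) (by decide +kernel)
  · rw [g_inv]
    simp only [← wp_append]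
    exact wp_eq_of_eqW (by decide +kernel)
  · rw [g_inv]
    simp only [← wp_append]
    exact wp_eq_of_eqW (by decide +kernel)
  · rw [g_inv]
    simp only [← wp_append]
    exact wp_eq_of_eqW (by decide +kernel)

theorem e_ne : wp eW ≠ 1 := (isCode_wp eW).ne isCode_one (by decide +kernel)

/-- The subgroup `2³ : 7`. -/
def K : Subgroup ↥Cfsg.Spor.J1 := Subgroup.closure {wp gW, wp eW}

theorem g_mem : wp gW ∈ K := Subgroup.subset_closure (by simp)

theorem e_mem : wp eW ∈ K := Subgroup.subset_closure (by simp)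

theorem x_mem : wp [false] ∈ K := by
  have : wp [false] = wp gW ^ 5 := by
    rw [← wp_replicate]
    exact wp_eq_of_eqW (by decide +kernel)
  rw [this]
  exact pow_mem g_mem 5

theorem conj_mem (j : ℕ) (v : List Bool)
    (h : eqW ((List.replicate j [false]).flatten ++ eW) (v ++ (List.replicate j [false]).flatten)
      = true) : wp v ∈ K := by
  have h1 := wp_eq_of_eqW h
  rw [wp_append, wp_append, wp_replicate] at h1
  have h2 : wp v = wp [false] ^ j * wp eW * (wp [false] ^ j)⁻¹ := by
    rw [h1, mul_inv_cancel_right]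
  rw [h2]
  exact mul_mem (mul_mem (pow_mem x_mem j) e_mem) (inv_mem (pow_mem x_mem j))

theorem eight_dvd : 2 ^ 3 ∣ Nat.card K := by
  obtain ⟨_, hne1, hmul⟩ := sylOK_sound WE EC sylChk
  have hE0 : wp (wordAt WE 0) = 1 := rfl
  have hP0 := card_xorSubgroup (fun k => wp (wordAt WE k)) hE0 hmul hne1
  have hle : xorSubgroup (fun k => wp (wordAt WE k)) hE0 hmul ≤ K := by
    rintro t ⟨k, hk, rfl⟩
    show wp (wordAt WE k) ∈ K
    interval_cases k
    · rw [hE0]; exact one_mem _
    · exact e_mem
    · exact conj_mem 1 _ (by decide +kernel)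
    · exact conj_mem 5 _ (by decide +kernel)
    · exact conj_mem 4 _ (by decide +kernel)
    · exact conj_mem 6 _ (by decide +kernel)
    · exact conj_mem 3 _ (by decide +kernel)
    · exact conj_mem 2 _ (by decide +kernel)
  have := Subgroup.card_dvd_of_le hle
  rw [hP0] at this
  exact this

theorem index_K : ¬ 2 ∣ K.index := by
  apply not_dvd_index_of_pow_dvd_card K 2 3 eight_dvd
  rw [J1_simple_card.2]
  norm_num

theorem ftK : FT (⟨wp gW, g_mem⟩ : K) ⟨wp eW, e_mem⟩ :=
  FT.of_injective K.subtype Subtype.val_injective ft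

theorem e_neK : (⟨wp eW, e_mem⟩ : K) ≠ 1 := by
  intro h
  apply e_ne
  have h1 : ((⟨wp eW, e_mem⟩ : K) : ↥Cfsg.Spor.J1) = ((1 : K) : ↥Cfsg.Spor.J1) :=
    congrArg Subtype.val h
  rw [Subgroup.coe_one] at h1
  exact h1

theorem gen_K : Subgroup.closure {(⟨wp gW, g_mem⟩ : K), ⟨wp eW, e_mem⟩} = ⊤ :=
  AltMult.closure_pair_subtype (wp gW) (wp eW) g_mem e_mem

theorem noStem_K : NoStem K :=
  noStem_of_FT (⟨wp gW, g_mem⟩ : K) ⟨wp eW, e_mem⟩ ftK e_neK gen_K

theorem j1_hasCyclicSchurMultiplier_one : HasCyclicSchurMultiplier ↥Cfsg.Spor.J1 1 := by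
  apply hasCyclicSchurMultiplier_one_of_ker
  intro Γ _ _ σ hσ
  apply stem_ker_eq_bot _ Γ σ hσ
  intro r hr
  have : Fact r.Prime := ⟨hr⟩
  by_cases h2 : r = 2
  · subst h2
    exact ⟨K, noStem_K.noStemIn _, index_K⟩
  · apply exists_noStemIn_zpowers r
    rw [J1_simple_card.2]
    intro hdvd
    have hcop : Nat.Coprime (r ^ 2) (2 ^ 3) :=
      Nat.Coprime.pow _ _ ((Nat.coprime_primes hr Nat.prime_two).2 h2)
    have h175 : (175560 : ℕ) = 21945 * 2 ^ 3 := by norm_num
    rw [h175] at hdvd
    have h3 : r ^ 2 ∣ 21945 := hcop.dvd_of_dvd_mul_right hdvd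
    have hsq : Squarefree (21945 : ℕ) := by decide +kernel
    have h4 : IsUnit r := hsq r (by rw [← pow_two]; exact h3)
    exact hr.one_lt.ne' (Nat.isUnit_iff.1 h4)

end J1M

end Cfsg.Agent.H41
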