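import Cfsg.Agent.H41.J2Glue
import Cfsg.Agent.H41.SzLift

/-!
# The covering map of the presented Hall–Janko group has central kernel (helper41)

`psi : Pr hatW → Pr relW` is surjective and its kernel is generated by the values of the eleven
further relators, which are central in `Pr hatW`.
-/

set_option autoImplicit false

namespace Cfsg.Agent.H41.J2P

open Cfsg Cfsg.Agent.H35
open Cfsg.Agent.H41.SzP (Cen)

/-- all the further relators -/
def restA : List (List Gen) := restU0 ++ restJ ++ [wU6]

theorem mem_hatW_of_cen (R : List Gen) (hR : R ∈ restA) (g : Gen) :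
    R ++ [g] ++ R.reverse ++ [g] ∈ hatW := by
  simp only [restA, List.mem_append, List.mem_singleton] at hR
  unfold hatW
  rcases hR with hR | rfl
  · apply List.mem_append_left
    apply List.mem_append_right
    rw [List.mem_flatMap]
    exact ⟨R, List.mem_append.2 hR, List.mem_map.2 ⟨g, j_gens_all g, rfl⟩⟩
  · apply List.mem_append_right
    exact List.mem_map.2 ⟨g, j_gens_all g, rfl⟩

theorem mem_relW_of_restA (R : List Gen) (hR : R ∈ restA) : R ∈ relW := by
  simp only [restA, List.mem_append, List.mem_singleton] at hR
  unfold relW restU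
  rcases hR with (hR | hR) | rfl
  · exact List.mem_append_left _ (List.mem_append_right _ (List.mem_append_left _ hR))
  · exact List.mem_append_right _ hR
  · exact List.mem_append_left _ (List.mem_append_right _ (List.mem_append_right _ (by simp)))

/-- a commutator relator is trivial when the word is -/
theorem cen_rel {K : Type*} [Group K] (f : Gen → K) (hf : ∀ x, f x * f x = 1) (R : List Gen)
    (hR : uw f R = 1) (g : Gen) : uw f (R ++ [g] ++ R.reverse ++ [g]) = 1 := by
  have hx : uw f [g] = f g := by simp [uw]
  rw [uw_append, uw_append, uw_append, uw_reverse f hf, hx, hR]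
  simp [hf g]

theorem psi_rel : ∀ w ∈ hatW, uw (pg relW) w = 1 := by
  intro w hw
  unfold hatW at hw
  rw [List.mem_append, List.mem_append, List.mem_append] at hw
  rcases hw with ((hw | hw) | hw) | hw
  · exact pg_rel relW w (by
      unfold relW
      exact List.mem_append_left _ (List.mem_append_left _ (List.mem_append_left _ hw)))
  · exact pg_rel relW w (by
      unfold relW
      exact List.mem_append_left _ (List.mem_append_left _ (List.mem_append_right _ hw)))
  · rw [List.mem_flatMap] at hw
    obtain ⟨R, hR, hw⟩ := hw
    obtain ⟨g, -, rfl⟩ := List.mem_map.1 hw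
    exact cen_rel _ relW_inv R (pg_rel relW R (mem_relW_of_restA R (by
      unfold restA; exact List.mem_append_left _ hR))) g
  · obtain ⟨g, -, rfl⟩ := List.mem_map.1 hw
    exact cen_rel _ relW_inv wU6 (pg_rel relW wU6 (mem_relW_of_restA wU6 (by
      unfold restA; simp))) g

/-- the covering map -/
noncomputable def psi : Pr hatW →* Pr relW := up hatW (pg relW) psi_rel

theorem psi_pg (x : Gen) : psi (pg hatW x) = pg relW x := up_pg hatW (pg relW) psi_rel x

theorem psi_surj : Function.Surjective psi := by
  rw [← MonoidHom.range_eq_top, eq_top_iff, ← closure_pg relW, Subgroup.closure_le]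
  rintro _ ⟨x, rfl⟩
  exact ⟨pg hatW x, psi_pg x⟩

theorem psi_uw (w : List Gen) : psi (uw (pg hatW) w) = uw (pg relW) w := by
  rw [map_uw]
  have h : (fun x => psi (pg hatW x)) = pg relW := funext psi_pg
  rw [h]

theorem gen_comm (R : List Gen) (x : Gen) (hm : R ++ [x] ++ R.reverse ++ [x] ∈ hatW) :
    uw (pg hatW) R * pg hatW x = pg hatW x * uw (pg hatW) R := by
  have h := pg_rel hatW _ hm
  have hx : uw (pg hatW) [x] = pg hatW x := by simp [uw]
  rw [uw_append, uw_append, uw_append, uw_reverse _ hatW_inv, hx] at h
  have hgi : (pg hatW x)⁻¹ = pg hatW x := inv_eq_of_mul_eq_one_left (hatW_inv x)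
  calc uw (pg hatW) R * pg hatW x
      = (uw (pg hatW) R * pg hatW x * (uw (pg hatW) R)⁻¹ * pg hatW x) *
          ((pg hatW x)⁻¹ * uw (pg hatW) R) := by group
    _ = pg hatW x * uw (pg hatW) R := by rw [h, one_mul, hgi]

theorem cen_of_gen (r : Pr hatW) (h : ∀ x, r * pg hatW x = pg hatW x * r) : Cen r := by
  intro p
  have hp : p ∈ Subgroup.closure (Set.range (pg hatW)) := by rw [closure_pg]; trivial
  have hle : Subgroup.closure (Set.range (pg hatW)) ≤ Subgroup.centralizer {r} := by
    rw [Subgroup.closure_le]
    rintro _ ⟨x, rfl⟩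
    rw [SetLike.mem_coe, Subgroup.mem_centralizer_iff]
    intro y hy
    rw [Set.mem_singleton_iff] at hy
    subst hy
    exact h x
  have h2 := hle hp
  rw [Subgroup.mem_centralizer_iff] at h2
  exact h2 r rfl

/-- the values of the further relators are central -/
theorem val_cen (R : List Gen) (hR : R ∈ restA) : Cen (uw (pg hatW) R) :=
  cen_of_gen _ (fun x => gen_comm R x (mem_hatW_of_cen R hR x))

/-- the subgroup generated by the values of the further relators -/
def N : Subgroup (Pr hatW) := Subgroup.closure {z | ∃ R ∈ restA, z = uw (pg hatW) R}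

theorem N_le_center : N ≤ Subgroup.center (Pr hatW) := by
  unfold N
  rw [Subgroup.closure_le]
  rintro z ⟨R, hR, rfl⟩
  rw [SetLike.mem_coe, Subgroup.mem_center_iff]
  intro g
  exact (val_cen R hR g).symm

instance N_normal : N.Normal :=
  ⟨fun x hx g => by
    have h := Subgroup.mem_center_iff.1 (N_le_center hx) g
    have e : g * x * g⁻¹ = x := by rw [h, mul_assoc, mul_inv_cancel, mul_one]
    rw [e]; exact hx⟩

/-- the presented group maps to the quotient of the covering group by `N` -/
noncomputable def theta : Pr relW →* Pr hatW ⧸ N :=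
  up relW (fun x => QuotientGroup.mk' N (pg hatW x)) (by
    intro w hw
    rw [← map_uw (QuotientGroup.mk' N) (pg hatW) w, QuotientGroup.mk'_apply,
      QuotientGroup.eq_one_iff]
    unfold relW restU at hw
    rw [List.mem_append, List.mem_append, List.mem_append, List.mem_append] at hw
    rcases hw with ((hw | hw) | (hw | hw)) | hw
    · rw [pg_rel hatW w (by
        unfold hatW
        exact List.mem_append_left _ (List.mem_append_left _ (List.mem_append_left _ hw)))]
      exact N.one_mem
    · rw [pg_rel hatW w (by
        unfold hatW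
        exact List.mem_append_left _ (List.mem_append_left _ (List.mem_append_right _ hw)))]
      exact N.one_mem
    · exact Subgroup.subset_closure ⟨w, by unfold restA; simp [hw], rfl⟩
    · exact Subgroup.subset_closure ⟨w, by
        unfold restA; rw [List.mem_singleton] at hw; simp [hw], rfl⟩
    · exact Subgroup.subset_closure ⟨w, by unfold restA; simp [hw], rfl⟩)

theorem theta_psi : theta.comp psi = QuotientGroup.mk' N :=
  hom_ext hatW _ _ (fun x => by
    rw [MonoidHom.comp_apply, psi_pg]
    exact up_pg relW _ _ x)

theorem ker_le : psi.ker ≤ N := by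
  intro p hp
  have h : QuotientGroup.mk' N p = 1 := by
    rw [← theta_psi, MonoidHom.comp_apply, MonoidHom.mem_ker.1 hp, map_one]
  exact (QuotientGroup.eq_one_iff p).1 h

/-- the kernel of the covering map is central -/
theorem ker_cen (k : Pr hatW) (hk : psi k = 1) : Cen k := by
  intro g
  exact (Subgroup.mem_center_iff.1 (N_le_center (ker_le (MonoidHom.mem_ker.2 hk))) g).symm

theorem psi_val (R : List Gen) (hR : R ∈ restA) : psi (uw (pg hatW) R) = 1 := by
  rw [psi_uw]
  exact pg_rel relW R (mem_relW_of_restA R hR)

end Cfsg.Agent.H41.J2P
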