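import Cfsg.Agent.H41.J2TC.Ju.RAll
import Cfsg.Agent.H41.J2TC.Jw.RAll
import Cfsg.Agent.H41.J2TC.Ku.RAll
import Cfsg.Agent.H41.J2TC.Kw.RAll
import Cfsg.Agent.H41.J2Ker
import Cfsg.Agent.H41.SzOrder

/-!
# Orders of the presented groups (helper41)

Helper35's replay certificates bound the indices of `⟨a, b⟩` in the two presentations of
`U₃(3)` type and of `⟨a, b, c, d⟩` in the two presentations of `J₂` type; the tower gives
`|Pr relW| ≤ 604800` and `|Pr hatW| ≤ 2419200`.
-/

set_option autoImplicit false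
set_option maxRecDepth 1000000

namespace Cfsg.Agent.H41.J2P

open Cfsg Cfsg.Agent.H35
open Cfsg.Agent.H41.SzP (Cen dihedral_card_le)

/-! ### The dihedral subgroups -/

theorem ab3 (L : List (List Gen)) (h : [Gen.b, .a, .b, .a, .b, .a] ∈ L)
    (ha : pg L .a * pg L .a = 1) (hb : pg L .b * pg L .b = 1) :
    (pg L .a * pg L .b) ^ 3 = 1 := by
  have h' : uw (pg L) [Gen.b, .a, .b, .a, .b, .a] = 1 := pg_rel L _ h
  have h3 : (pg L .b * pg L .a) ^ 3 = 1 := by
    rw [← h']
    simp [uw, pow_succ, mul_assoc]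
  have hai : (pg L .a)⁻¹ = pg L .a := inv_eq_of_mul_eq_one_left ha
  have hbi : (pg L .b)⁻¹ = pg L .b := inv_eq_of_mul_eq_one_left hb
  have e : pg L .a * pg L .b = (pg L .b * pg L .a)⁻¹ := by rw [mul_inv_rev, hai, hbi]
  rw [e, inv_pow, h3, inv_one]

/-- the dihedral subgroup `⟨a, b⟩` -/
def Hab (L : List (List Gen)) : Subgroup (Pr L) := Subgroup.closure {pg L .a, pg L .b}

theorem Hab_card (L : List (List Gen)) (h : [Gen.b, .a, .b, .a, .b, .a] ∈ L)
    (ha : pg L .a * pg L .a = 1) (hb : pg L .b * pg L .b = 1) :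
    Finite (Hab L) ∧ Nat.card (Hab L) ≤ 6 :=
  dihedral_card_le _ _ ha hb 3 (by norm_num) (ab3 L h ha hb)

/-! ### The presentation of `U₃(3)` -/

theorem ju_rhyp : RHyp tju_rd (Hab relU) (pg relU) := by
  refine ⟨relU_inv, j_gof_gi, by decide, fun p hp => wrapRow_of_le _ _ p hp, ?_, ?_, tju_h0,
    by decide⟩
  · exact circTab_valid (pg relU) relU_inv _ (full_one relU) tju_circT tju_ccert tju_circ_ok
  · refine hcTab_valid (pg relU) relU_inv (Hab relU) tju_rsw ?_ tju_hc1T tju_hc2T _
      (fun c hc => allR_sound _ _ _ 0 tju_hc_ok c (Nat.zero_le _) (by omega) hc)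
    intro w hw
    simp only [tju_rsw, List.mem_cons, List.not_mem_nil, or_false] at hw
    rcases hw with rfl | rfl
    · exact Subgroup.subset_closure (by simp [uw])
    · exact Subgroup.subset_closure (by simp [uw])

theorem ju_index : Finite (Pr relU ⧸ Hab relU) ∧ Nat.card (Pr relU ⧸ Hab relU) ≤ 1008 :=
  replay_bound ju_rhyp j_gens_all (closure_pg relU) (by decide) (by decide) tju_rall

instance relU_finite : Finite (Pr relU) := by
  have := ju_index.1
  have := (Hab_card relU (by decide) (relU_inv .a) (relU_inv .b)).1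
  exact Finite.of_equiv _ (Subgroup.groupEquivQuotientProdSubgroup (s := Hab relU)).symm

theorem relU_card_le : Nat.card (Pr relU) ≤ 6048 := by
  rw [Subgroup.card_eq_card_quotient_mul_card_subgroup (Hab relU)]
  calc Nat.card (Pr relU ⧸ Hab relU) * Nat.card (Hab relU) ≤ 1008 * 6 :=
        Nat.mul_le_mul ju_index.2 (Hab_card relU (by decide) (relU_inv .a) (relU_inv .b)).2
    _ = 6048 := by norm_num

/-! ### The covering presentation of `U₃(3)` -/

theorem ku_rhyp : RHyp tku_rd (Hab hatU) (pg hatU) := by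
  refine ⟨hatU_inv, j_gof_gi, by decide, fun p hp => wrapRow_of_le _ _ p hp, ?_, ?_, tku_h0,
    by decide⟩
  · exact circTab_valid (pg hatU) hatU_inv _ (full_one hatU) tku_circT tku_ccert tku_circ_ok
  · refine hcTab_valid (pg hatU) hatU_inv (Hab hatU) tku_rsw ?_ tku_hc1T tku_hc2T _
      (fun c hc => allR_sound _ _ _ 0 tku_hc_ok c (Nat.zero_le _) (by omega) hc)
    intro w hw
    simp only [tku_rsw, List.mem_cons, List.not_mem_nil, or_false] at hw
    rcases hw with rfl | rfl
    · exact Subgroup.subset_closure (by simp [uw])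
    · exact Subgroup.subset_closure (by simp [uw])

theorem ku_index : Finite (Pr hatU ⧸ Hab hatU) ∧ Nat.card (Pr hatU ⧸ Hab hatU) ≤ 2016 :=
  replay_bound ku_rhyp j_gens_all (closure_pg hatU) (by decide) (by decide) tku_rall

instance hatU_finite : Finite (Pr hatU) := by
  have := ku_index.1
  have := (Hab_card hatU (by decide) (hatU_inv .a) (hatU_inv .b)).1
  exact Finite.of_equiv _ (Subgroup.groupEquivQuotientProdSubgroup (s := Hab hatU)).symm

theorem hatU_card_le : Nat.card (Pr hatU) ≤ 12096 := by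
  rw [Subgroup.card_eq_card_quotient_mul_card_subgroup (Hab hatU)]
  calc Nat.card (Pr hatU ⧸ Hab hatU) * Nat.card (Hab hatU) ≤ 2016 * 6 :=
        Nat.mul_le_mul ku_index.2 (Hab_card hatU (by decide) (hatU_inv .a) (hatU_inv .b)).2
    _ = 12096 := by norm_num

/-! ### The subgroups `⟨a, b, c, d⟩` -/

/-- the subgroup `⟨a, b, c, d⟩` -/
def H4 (L : List (List Gen)) : Subgroup (Pr L) :=
  Subgroup.closure {pg L .a, pg L .b, pg L .c, pg L .d}

/-- the generators with `e` killed -/
def kf (L : List (List Gen)) : Gen → Pr L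
  | .e => 1
  | x => pg L x

/-- words without `e` -/
def noE (w : List Gen) : Bool := w.all (fun g => decide (g ≠ Gen.e))

theorem uw_kf (L : List (List Gen)) (w : List Gen) (h : noE w = true) :
    uw (kf L) w = uw (pg L) w := by
  induction w with
  | nil => rfl
  | cons g w ih =>
    simp only [noE, List.all_cons, Bool.and_eq_true, decide_eq_true_eq] at h
    have h1 : uw (kf L) (g :: w) = kf L g * uw (kf L) w := by simp [uw]
    have h2 : uw (pg L) (g :: w) = pg L g * uw (pg L) w := by simp [uw]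
    rw [h1, h2, ih (by simpa [noE] using h.2)]
    cases g <;> first | rfl | exact absurd rfl h.1

theorem kf_range (L : List (List Gen)) {K : Type*} [Group K] (φ : K →* Pr L) (f : Gen → K)
    (hφ : ∀ x, φ (f x) = kf L x) (hcl : Subgroup.closure (Set.range f) = ⊤) :
    φ.range = H4 L := by
  rw [MonoidHom.range_eq_map, ← hcl, MonoidHom.map_closure]
  apply le_antisymm
  · rw [Subgroup.closure_le]
    rintro _ ⟨_, ⟨x, rfl⟩, rfl⟩
    rw [hφ]
    cases x
    · exact Subgroup.subset_closure (by simp [kf])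
    · exact Subgroup.subset_closure (by simp [kf])
    · exact Subgroup.subset_closure (by simp [kf])
    · exact Subgroup.subset_closure (by simp [kf])
    · exact (H4 L).one_mem
  · unfold H4
    rw [Subgroup.closure_le]
    rintro y (rfl | rfl | rfl | rfl)
    · exact Subgroup.subset_closure ⟨f .a, ⟨.a, rfl⟩, hφ .a⟩
    · exact Subgroup.subset_closure ⟨f .b, ⟨.b, rfl⟩, hφ .b⟩
    · exact Subgroup.subset_closure ⟨f .c, ⟨.c, rfl⟩, hφ .c⟩
    · exact Subgroup.subset_closure ⟨f .d, ⟨.d, rfl⟩, hφ .d⟩

theorem card_H4_le (L : List (List Gen)) {K : Type*} [Group K] [Finite K] (φ : K →* Pr L)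
    (f : Gen → K) (hφ : ∀ x, φ (f x) = kf L x) (hcl : Subgroup.closure (Set.range f) = ⊤) :
    Finite (H4 L) ∧ Nat.card (H4 L) ≤ Nat.card K := by
  rw [← kf_range L φ f hφ hcl]
  have : Finite φ.range := Finite.of_surjective φ.rangeRestrict φ.rangeRestrict_surjective
  exact ⟨this, Nat.card_le_card_of_surjective φ.rangeRestrict φ.rangeRestrict_surjective⟩

/-! ### The presentation of `J₂` -/

theorem relU_kf : ∀ w ∈ relU, uw (kf relW) w = 1 := by
  intro w hw
  unfold relU at hw
  rw [List.mem_append] at hw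
  rcases hw with hw | hw
  · have hn : noE w = true := by
      revert w
      decide
    rw [uw_kf relW w hn]
    exact pg_rel relW w (by
      revert w
      decide)
  · rw [List.mem_singleton] at hw
    subst hw
    simp [uw, kf]

/-- `U₃(3)` maps onto `⟨a, b, c, d⟩` -/
noncomputable def iU : Pr relU →* Pr relW := up relU (kf relW) relU_kf

theorem relW_H4 : Finite (H4 relW) ∧ Nat.card (H4 relW) ≤ 6048 := by
  have h := card_H4_le relW iU (pg relU) (fun x => up_pg relU _ relU_kf x) (closure_pg relU)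
  exact ⟨h.1, h.2.trans relU_card_le⟩

theorem jw_rhyp : RHyp tjw_rd (H4 relW) (pg relW) := by
  refine ⟨relW_inv, j_gof_gi, by decide, fun p hp => wrapRow_of_le _ _ p hp, ?_, ?_, tjw_h0,
    by decide⟩
  · exact circTab_valid (pg relW) relW_inv _ (full_one relW) tjw_circT tjw_ccert tjw_circ_ok
  · refine hcTab_valid (pg relW) relW_inv (H4 relW) tjw_rsw ?_ tjw_hc1T tjw_hc2T _
      (fun c hc => allR_sound _ _ _ 0 tjw_hc_ok c (Nat.zero_le _) (by omega) hc)
    intro w hw
    simp only [tjw_rsw, List.mem_cons, List.not_mem_nil, or_false] at hw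
    rcases hw with rfl | rfl | rfl | rfl
    · exact Subgroup.subset_closure (by simp [uw])
    · exact Subgroup.subset_closure (by simp [uw])
    · exact Subgroup.subset_closure (by simp [uw])
    · exact Subgroup.subset_closure (by simp [uw])

theorem jw_index : Finite (Pr relW ⧸ H4 relW) ∧ Nat.card (Pr relW ⧸ H4 relW) ≤ 100 :=
  replay_bound jw_rhyp j_gens_all (closure_pg relW) (by decide) (by decide) tjw_rall

instance relW_finite : Finite (Pr relW) := by
  have := jw_index.1
  have := relW_H4.1
  exact Finite.of_equiv _ (Subgroup.groupEquivQuotientProdSubgroup (s := H4 relW)).symm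

/-- the presented group has at most `604800` elements -/
theorem relW_card_le : Nat.card (Pr relW) ≤ 604800 := by
  rw [Subgroup.card_eq_card_quotient_mul_card_subgroup (H4 relW)]
  calc Nat.card (Pr relW ⧸ H4 relW) * Nat.card (H4 relW) ≤ 100 * 6048 :=
        Nat.mul_le_mul jw_index.2 relW_H4.2
    _ = 604800 := by norm_num

/-! ### The covering presentation of `J₂` -/

theorem noE_cen : ∀ R ∈ restU, ∀ g ∈ g4, noE (R ++ [g] ++ R.reverse ++ [g]) = true := by
  decide

theorem restU_sub : ∀ R ∈ restU, R ∈ restA := by decide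

theorem hatU_kf : ∀ w ∈ hatU, uw (kf hatW) w = 1 := by
  intro w hw
  unfold hatU at hw
  rw [List.mem_append, List.mem_append, List.mem_append] at hw
  rcases hw with ((hw | hw) | hw) | hw
  · have hn : noE w = true := by
      revert w
      decide
    rw [uw_kf hatW w hn]
    exact pg_rel hatW w (by
      revert w
      decide)
  · have hn : noE w = true := by
      revert w
      decide
    rw [uw_kf hatW w hn]
    exact pg_rel hatW w (by
      revert w
      decide)
  · rw [List.mem_flatMap] at hw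
    obtain ⟨R, hR, hw⟩ := hw
    obtain ⟨g, hg, rfl⟩ := List.mem_map.1 hw
    rw [uw_kf hatW _ (noE_cen R hR g hg)]
    exact pg_rel hatW _ (mem_hatW_of_cen R (restU_sub R hR) g)
  · rw [List.mem_singleton] at hw
    subst hw
    simp [uw, kf]

/-- the covering group of `U₃(3)` maps onto `⟨a, b, c, d⟩` -/
noncomputable def iH : Pr hatU →* Pr hatW := up hatU (kf hatW) hatU_kf

theorem hatW_H4 : Finite (H4 hatW) ∧ Nat.card (H4 hatW) ≤ 12096 := by
  have h := card_H4_le hatW iH (pg hatU) (fun x => up_pg hatU _ hatU_kf x) (closure_pg hatU)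
  exact ⟨h.1, h.2.trans hatU_card_le⟩

theorem kw_rhyp : RHyp tkw_rd (H4 hatW) (pg hatW) := by
  refine ⟨hatW_inv, j_gof_gi, by decide, fun p hp => wrapRow_of_le _ _ p hp, ?_, ?_, tkw_h0,
    by decide⟩
  · exact circTab_valid (pg hatW) hatW_inv _ (full_one hatW) tkw_circT tkw_ccert tkw_circ_ok
  · refine hcTab_valid (pg hatW) hatW_inv (H4 hatW) tkw_rsw ?_ tkw_hc1T tkw_hc2T _
      (fun c hc => allR_sound _ _ _ 0 tkw_hc_ok c (Nat.zero_le _) (by omega) hc)
    intro w hw
    simp only [tkw_rsw, List.mem_cons, List.not_mem_nil, or_false] at hw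
    rcases hw with rfl | rfl | rfl | rfl
    · exact Subgroup.subset_closure (by simp [uw])
    · exact Subgroup.subset_closure (by simp [uw])
    · exact Subgroup.subset_closure (by simp [uw])
    · exact Subgroup.subset_closure (by simp [uw])

theorem kw_index : Finite (Pr hatW ⧸ H4 hatW) ∧ Nat.card (Pr hatW ⧸ H4 hatW) ≤ 200 :=
  replay_bound kw_rhyp j_gens_all (closure_pg hatW) (by decide) (by decide) tkw_rall

instance hatW_finite : Finite (Pr hatW) := by
  have := kw_index.1
  have := hatW_H4.1
  exact Finite.of_equiv _ (Subgroup.groupEquivQuotientProdSubgroup (s := H4 hatW)).symm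

/-- the covering group has at most `2419200` elements -/
theorem hatW_card_le : Nat.card (Pr hatW) ≤ 2419200 := by
  rw [Subgroup.card_eq_card_quotient_mul_card_subgroup (H4 hatW)]
  calc Nat.card (Pr hatW ⧸ H4 hatW) * Nat.card (H4 hatW) ≤ 200 * 12096 :=
        Nat.mul_le_mul kw_index.2 hatW_H4.2
    _ = 2419200 := by norm_num

end Cfsg.Agent.H41.J2P
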