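import Cfsg.Agent.H41.J2Ker
import Cfsg.Agent.H41.J2Model
import Cfsg.Agent.H41.J2Order
import Cfsg.Prelude.Def_KGroupFacts

/-!
# The Schur multiplier of the presented Hall–Janko group (helper41)

`Pr relW` is the group presented by the relators of `J2Glue`, `Pr hatW` its covering group, in which
the generators are involutions, the tree relators `(bx)³` stay exact and the further relators are
only central.  Given that `Pr relW` has `604800` elements, the even subgroup of `Pr hatW` is a stem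
extension of `Pr relW` with kernel of order two, and every stem extension `σ : Γ → Pr relW` has a
kernel of order at most two: lifts `x̂` of the generators can be chosen with a common central square
`z` and `(x̂_b x̂_x)³ = z³`, and after adjoining a square root of `z⁻¹` (on two copies of `Γ`) they
satisfy the relators of the covering group.
-/

set_option autoImplicit false

namespace Cfsg.Agent.H41.J2P

open Cfsg Cfsg.Agent.H35
open Cfsg.Agent.H41.SzP (Cen)
open scoped commutatorElement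

/-! ### Word evaluation -/

theorem ev_tree {K : Type*} [Group K] (f : Gen → K) (g : Gen) :
    uw f [.b, g, .b, g, .b, g] = (f .b * f g) ^ 3 := by
  simp [uw, pow_succ, mul_assoc]

theorem uw_const {K : Type*} [Group K] (c : K) (w : List Gen) :
    uw (fun _ => c) w = c ^ w.length := by
  induction w with
  | nil => simp [uw]
  | cons x w ih => rw [uw_cons, ih, List.length_cons, pow_succ']

theorem cen_rel' {K : Type*} [Group K] (f : Gen → K) (hf : ∀ x, f x * f x = 1) (R : List Gen)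
    (g : Gen) (h : uw f R * f g = f g * uw f R) : uw f (R ++ [g] ++ R.reverse ++ [g]) = 1 := by
  have hx : uw f [g] = f g := by simp [uw]
  rw [uw_append, uw_append, uw_append, uw_reverse f hf, hx, h, mul_assoc (f g),
    mul_inv_cancel, mul_one]
  exact hf g

theorem treeJ_form : ∀ w ∈ treeJ, ∃ g ∈ j_gens, w = [.b, g, .b, g, .b, g] := by decide

theorem sq5_form : ∀ w ∈ sq5, ∃ g ∈ j_gens, w = [g, g] := by decide

theorem mem_treeJ (g : Gen) (hg : g ≠ .b) : [.b, g, .b, g, .b, g] ∈ treeJ := by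
  cases g
  · decide
  · exact absurd rfl hg
  · decide
  · decide
  · decide

theorem relW_tree (g : Gen) : (pg relW .b * pg relW g) ^ 3 = 1 := by
  by_cases hg : g = .b
  · subst hg; rw [relW_inv, one_pow]
  · rw [← ev_tree]
    exact pg_rel relW _ (by
      unfold relW
      exact List.mem_append_left _ (List.mem_append_left _
        (List.mem_append_right _ (mem_treeJ g hg))))

theorem hatW_tree (g : Gen) : (pg hatW .b * pg hatW g) ^ 3 = 1 := by
  by_cases hg : g = .b
  · subst hg; rw [hatW_inv, one_pow]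
  · rw [← ev_tree]
    exact pg_rel hatW _ (by
      unfold hatW
      exact List.mem_append_left _ (List.mem_append_left _
        (List.mem_append_right _ (mem_treeJ g hg))))

theorem tree_conj {G : Type*} [Group G] (u v : G) (hu : u * u = 1) (hv : v * v = 1)
    (h : (u * v) ^ 3 = 1) : (u * v) * u * (u * v)⁻¹ = v := by
  have hu' : u⁻¹ = u := inv_eq_of_mul_eq_one_left hu
  have hv' : v⁻¹ = v := inv_eq_of_mul_eq_one_left hv
  have h3 : u * v * u * v * u * v = 1 := by
    rw [← h, pow_succ, pow_two]; simp only [mul_assoc]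
  have h5 : u * v * u * v * u = v⁻¹ := eq_inv_of_mul_eq_one_left h3
  rw [mul_inv_rev, hv', hu', ← mul_assoc, h5, hv']

/-! ### Twisted lifts -/

theorem tw_cube {Γ : Type*} [Group Γ] (xb xc z : Γ) (hz : Cen z) (hb : xb * xb = z)
    (hcc : xc * xc = z) (hconj : xc * (xb * xc) = (xb * xc) * xb) : (xb * xc) ^ 3 = z ^ 3 := by
  have h2 : (xb * xc) * (xb * xc) = z * (xc * xb) := by
    calc (xb * xc) * (xb * xc) = xb * (xc * (xb * xc)) := by group
      _ = xb * ((xb * xc) * xb) := by rw [hconj]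
      _ = (xb * xb) * (xc * xb) := by group
      _ = z * (xc * xb) := by rw [hb]
  calc (xb * xc) ^ 3 = (xb * xc) * (xb * xc) * (xb * xc) := by rw [pow_succ, pow_two]
    _ = z * (xc * xb) * (xb * xc) := by rw [h2]
    _ = z * (xc * (xb * xb) * xc) := by group
    _ = z * (xc * z * xc) := by rw [hb]
    _ = z * (z * xc * xc) := by rw [← hz xc]
    _ = z * (z * (xc * xc)) := by group
    _ = z ^ 3 := by rw [hcc, pow_succ, pow_two, mul_assoc]

/-- lifts of the generators with a common central square `z` and `(x̂_b x̂_x)³ = z³` -/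
theorem tw_lifts {Γ : Type*} [Group Γ] (σ : Γ →* Pr relW) (hsurj : Function.Surjective σ)
    (hc : ∀ z, σ z = 1 → Cen z) :
    ∃ (x : Gen → Γ) (z : Γ), Cen z ∧ (∀ g, σ (x g) = pg relW g) ∧ (∀ g, x g * x g = z) ∧
      (∀ g, (x .b * x g) ^ 3 = z ^ 3) := by
  choose y hy using fun g => hsurj (pg relW g)
  obtain ⟨xb, hxb⟩ : ∃ xb, xb = y .b := ⟨_, rfl⟩
  have hσb : σ xb = pg relW .b := by rw [hxb, hy]
  obtain ⟨z, hzdef⟩ : ∃ z, z = xb * xb := ⟨_, rfl⟩
  have hz : Cen z := hc z (by rw [hzdef, map_mul, hσb, relW_inv])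
  obtain ⟨x, hxdef⟩ : ∃ x : Gen → Γ, x = fun g => (xb * y g) * xb * (xb * y g)⁻¹ := ⟨_, rfl⟩
  have hxg : ∀ g, x g = (xb * y g) * xb * (xb * y g)⁻¹ := fun g => by rw [hxdef]
  have hxb' : x .b = xb := by rw [hxg, ← hxb]; group
  have hσx : ∀ g, σ (x g) = pg relW g := by
    intro g
    rw [hxg, map_mul, map_mul, map_inv, map_mul, hσb, hy]
    exact tree_conj _ _ (relW_inv .b) (relW_inv g) (relW_tree g)
  have hxx : ∀ g, x g * x g = z := by
    intro g
    rw [hxg]
    calc (xb * y g) * xb * (xb * y g)⁻¹ * ((xb * y g) * xb * (xb * y g)⁻¹)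
        = (xb * y g) * (xb * xb) * (xb * y g)⁻¹ := by group
      _ = z := by rw [← hzdef, hz.conj]
  refine ⟨x, z, hz, hσx, hxx, ?_⟩
  intro g
  have hconj : x g * (x .b * x g) = (x .b * x g) * x .b := by
    obtain ⟨t, ht⟩ : ∃ t, t = x .b * x g := ⟨_, rfl⟩
    obtain ⟨k, hk⟩ : ∃ k, k = t⁻¹ * (xb * y g) := ⟨_, rfl⟩
    have hkc : Cen k := hc k (by
      rw [hk, map_mul, map_inv, ht, map_mul, map_mul, hσx, hσx, hσb, hy, inv_mul_cancel])
    have e1 : xb * y g = t * k := by rw [hk]; group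
    rw [← ht, hxb']
    calc x g * t = (xb * y g) * xb * (xb * y g)⁻¹ * t := by rw [hxg]
      _ = t * (k * xb * k⁻¹) := by rw [e1]; group
      _ = t * xb := by rw [hkc xb]; group
  exact tw_cube (x .b) (x g) z hz (hxx .b) (hxx g) hconj

/-! ### Two sheets -/

section Sheets

variable {Γ : Type*} [Group Γ]

/-- left multiplication on both sheets -/
def lmul : Γ →* Equiv.Perm (Γ × Bool) where
  toFun k :=
    { toFun := fun p => (k * p.1, p.2)
      invFun := fun p => (k⁻¹ * p.1, p.2)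
      left_inv := fun p => by simp
      right_inv := fun p => by simp }
  map_one' := Equiv.ext fun p => by simp
  map_mul' a b := Equiv.ext fun p => by simp [mul_assoc]

theorem lmul_apply (k : Γ) (p : Γ × Bool) : lmul k p = (k * p.1, p.2) := rfl

/-- the sheet swap, a square root of the left multiplication by `z⁻¹` -/
def omg (z : Γ) : Equiv.Perm (Γ × Bool) where
  toFun p := if p.2 then (p.1, false) else (z⁻¹ * p.1, true)
  invFun p := if p.2 then (z * p.1, false) else (p.1, true)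
  left_inv := by rintro ⟨h, b⟩; cases b <;> simp
  right_inv := by rintro ⟨h, b⟩; cases b <;> simp

theorem omg_apply (z : Γ) (p : Γ × Bool) :
    omg z p = if p.2 then (p.1, false) else (z⁻¹ * p.1, true) := rfl

theorem omg_lmul (z : Γ) (hz : Cen z) (k : Γ) : omg z * lmul k = lmul k * omg z := by
  apply Equiv.ext
  rintro ⟨h, b⟩
  have e : z⁻¹ * (k * h) = k * (z⁻¹ * h) := by
    rw [← mul_assoc, ← mul_assoc, hz.inv k]
  cases b <;> simp [Equiv.Perm.mul_apply, omg_apply, lmul_apply, e]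

theorem omg_sq (z : Γ) : omg z * omg z = lmul z⁻¹ := by
  apply Equiv.ext
  rintro ⟨h, b⟩
  cases b <;> rfl

theorem lmul_inj : Function.Injective (lmul (Γ := Γ)) := by
  intro a b h
  have h1 := congrArg (fun f : Equiv.Perm (Γ × Bool) => (f (1, false)).1) h
  simpa [lmul_apply] using h1

theorem omg_not_range (z : Γ) : omg z ∉ (lmul (Γ := Γ)).range := by
  rintro ⟨k, hk⟩
  have h1 := congrArg (fun f : Equiv.Perm (Γ × Bool) => (f (1, true)).2) hk
  simp [lmul_apply, omg_apply] at h1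

end Sheets

theorem uw_tw {Γ T : Type*} [Group Γ] [Group T] (L : Γ →* T) (Ω : T)
    (hΩ : ∀ k, Ω * L k = L k * Ω) (x : Gen → Γ) (w : List Gen) :
    uw (fun g => L (x g) * Ω) w = L (uw x w) * Ω ^ w.length := by
  induction w with
  | nil => simp [uw]
  | cons g w ih =>
    rw [uw_cons, uw_cons, ih, List.length_cons, pow_succ', map_mul]
    calc L (x g) * Ω * (L (uw x w) * Ω ^ w.length)
        = L (x g) * (Ω * L (uw x w)) * Ω ^ w.length := by simp only [mul_assoc]
      _ = L (x g) * L (uw x w) * (Ω * Ω ^ w.length) := by rw [hΩ]; simp only [mul_assoc]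

/-! ### Counting -/

theorem card_ker_le (hcard : Nat.card (Pr relW) = 604800) : Nat.card psi.ker ≤ 4 := by
  have h1 : Nat.card (Pr hatW) = Nat.card (Pr hatW ⧸ psi.ker) * Nat.card psi.ker :=
    Subgroup.card_eq_card_quotient_mul_card_subgroup psi.ker
  have h2 : Nat.card (Pr hatW ⧸ psi.ker) = Nat.card (Pr relW) :=
    Nat.card_congr (QuotientGroup.quotientKerEquivOfSurjective psi psi_surj).toEquiv
  have h3 := hatW_card_le
  rw [h1, h2, hcard] at h3
  omega

theorem card_inf_le (hcard : Nat.card (Pr relW) = 604800) (E : Subgroup (Pr hatW)) (κ : Pr hatW)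
    (hκ : psi κ = 1) (hE : κ ∉ E) : Nat.card ↥(E ⊓ psi.ker) ≤ 2 := by
  have h4 := card_ker_le hcard
  have hdvd : Nat.card ↥(E ⊓ psi.ker) ∣ Nat.card psi.ker := Subgroup.card_dvd_of_le inf_le_right
  have hne : Nat.card ↥(E ⊓ psi.ker) ≠ Nat.card psi.ker := by
    intro h
    have h5 : E ⊓ psi.ker = psi.ker := Subgroup.eq_of_le_of_card_ge inf_le_right h.ge
    have h6 : κ ∈ E ⊓ psi.ker := by rw [h5]; exact MonoidHom.mem_ker.2 hκ
    exact hE h6.1
  have hpos : 0 < Nat.card psi.ker := Nat.card_pos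
  obtain ⟨m, hm⟩ := hdvd
  have hm1 : m ≠ 1 := fun h => hne (by rw [hm, h, mul_one])
  have hm0 : m ≠ 0 := fun h => by rw [hm, h, mul_zero] at hpos; exact lt_irrefl _ hpos
  have hm2 : 2 ≤ m := by omega
  have h7 : Nat.card ↥(E ⊓ psi.ker) * 2 ≤ Nat.card ↥(E ⊓ psi.ker) * m :=
    Nat.mul_le_mul_left _ hm2
  linarith

theorem surj_of_card_le {K : Type*} [Group K] [Finite K] (h : Nat.card K ≤ 2) :
    ∃ π : Multiplicative (ZMod 2) →* K, Function.Surjective π := by
  have hpos : 0 < Nat.card K := Nat.card_pos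
  by_cases h1 : Nat.card K = 1
  · have : Subsingleton K := (Nat.card_eq_one_iff_unique.1 h1).1
    exact ⟨1, fun b => ⟨1, Subsingleton.elim _ _⟩⟩
  · have h2 : Nat.card K = 2 := by omega
    have : Fact (Nat.Prime 2) := ⟨Nat.prime_two⟩
    have hcard2 : Nat.card (Multiplicative (ZMod 2)) = 2 := by
      rw [Nat.card_eq_fintype_card]; rfl
    let e : Multiplicative (ZMod 2) ≃* K := mulEquivOfPrimeCardEq hcard2 h2
    exact ⟨e.toMonoidHom, e.surjective⟩

/-! ### Commutators -/

theorem comm_right {T : Type*} [Group T] (Y B Q : T) (hY : Q * Y = Y * Q) :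
    ⁅Y, B * Q⁆ = ⁅Y, B⁆ := by
  rw [commutatorElement_def, commutatorElement_def, mul_inv_rev]
  have h : Q * Y⁻¹ = Y⁻¹ * Q := by
    calc Q * Y⁻¹ = Y⁻¹ * (Y * Q) * Y⁻¹ := by group
      _ = Y⁻¹ * (Q * Y) * Y⁻¹ := by rw [hY]
      _ = Y⁻¹ * Q := by group
  calc Y * (B * Q) * Y⁻¹ * (Q⁻¹ * B⁻¹) = Y * B * (Q * Y⁻¹) * Q⁻¹ * B⁻¹ := by group
    _ = Y * B * (Y⁻¹ * Q) * Q⁻¹ * B⁻¹ := by rw [h]
    _ = Y * B * Y⁻¹ * B⁻¹ := by group

theorem comm_tw {T : Type*} [Group T] (A B P Q : T) (hQA : Q * A = A * Q) (hQP : Q * P = P * Q)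
    (hPB : P * B = B * P) : ⁅A * P, B * Q⁆ = ⁅A, B⁆ := by
  have h1 : ⁅A * P, B * Q⁆ = ⁅A * P, B⁆ := comm_right _ _ _ (by
    rw [← mul_assoc, hQA, mul_assoc, hQP, ← mul_assoc])
  have h2 : ⁅B, A * P⁆ = ⁅B, A⁆ := comm_right _ _ _ hPB
  rw [h1, ← commutatorElement_inv, h2, commutatorElement_inv]

/-! ### The bound -/

/-- **The bound**: the kernel of a stem extension of the presented group has at most two
elements. -/
theorem bound (hcard : Nat.card (Pr relW) = 604800) (Γ : Type) [Group Γ] (σ : Γ →* Pr relW)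
    (hσ : IsStemExtension σ) :
    ∃ π : Multiplicative (ZMod 2) →* σ.ker, Function.Surjective π := by
  obtain ⟨hsurj, hcen, hcomm⟩ := hσ
  have hc : ∀ z, σ z = 1 → Cen z := fun z hz g =>
    (Subgroup.mem_center_iff.1 (hcen (MonoidHom.mem_ker.2 hz)) g).symm
  obtain ⟨x, z, hz, hσx, hxx, hx3⟩ := tw_lifts σ hsurj hc
  obtain ⟨L, hL⟩ : ∃ L : Γ →* Equiv.Perm (Γ × Bool), L = lmul := ⟨_, rfl⟩
  obtain ⟨Ω, hΩdef⟩ : ∃ Ω : Equiv.Perm (Γ × Bool), Ω = omg z := ⟨_, rfl⟩
  have hΩ : ∀ k, Ω * L k = L k * Ω := fun k => by rw [hΩdef, hL]; exact omg_lmul z hz k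
  have hΩ2 : Ω * Ω = L z⁻¹ := by rw [hΩdef, hL]; exact omg_sq z
  have hLinj : Function.Injective L := by rw [hL]; exact lmul_inj
  have hΩr : Ω ∉ L.range := by rw [hΩdef, hL]; exact omg_not_range z
  have hfun : (fun g => σ (x g)) = pg relW := funext hσx
  obtain ⟨S, hSdef⟩ : ∃ S : Gen → Equiv.Perm (Γ × Bool), S = fun g => L (x g) * Ω := ⟨_, rfl⟩
  have hSg : ∀ g, S g = L (x g) * Ω := fun g => by rw [hSdef]
  have hSw : ∀ w, uw S w = L (uw x w) * Ω ^ w.length := fun w => by
    rw [hSdef]; exact uw_tw L Ω hΩ x w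
  have hΩpow : ∀ n : ℕ, Ω ^ (2 * n) = L (z⁻¹ ^ n) := fun n => by
    rw [pow_mul, pow_two, hΩ2, map_pow]
  have hS : ∀ g, S g * S g = 1 := by
    intro g
    have h := hSw [g, g]
    have e : uw S [g, g] = S g * S g := by simp [uw]
    have e2 : uw x [g, g] = z := by simp [uw, hxx]
    rw [e, e2] at h
    rw [h]
    show L z * Ω ^ 2 = 1
    rw [pow_two, hΩ2, ← map_mul, mul_inv_cancel, map_one]
  have hcenrel : ∀ R ∈ restA, ∀ g, uw S (R ++ [g] ++ R.reverse ++ [g]) = 1 := by
    intro R hR g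
    apply cen_rel' S hS
    have hRc : Cen (uw x R) := hc _ (by
      rw [map_uw, hfun]; exact pg_rel relW R (mem_relW_of_restA R hR))
    rw [hSw, hSg]
    have c1 : Commute (L (uw x R)) (L (x g)) := by
      show L (uw x R) * L (x g) = L (x g) * L (uw x R)
      rw [← map_mul, ← map_mul, hRc (x g)]
    have c2 : Commute (L (uw x R)) Ω := (hΩ _).symm
    have c3 : Commute (Ω ^ R.length) (L (x g)) :=
      Commute.pow_left (show Commute Ω (L (x g)) from hΩ _) _
    have c4 : Commute (Ω ^ R.length) Ω := Commute.pow_left (Commute.refl Ω) _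
    exact ((c1.mul_right c2).mul_left (c3.mul_right c4)).eq
  have htree : ∀ g, uw S [.b, g, .b, g, .b, g] = 1 := by
    intro g
    rw [hSw, ev_tree, hx3]
    show L (z ^ 3) * Ω ^ (2 * 3) = 1
    rw [hΩpow, ← map_mul, inv_pow, mul_inv_cancel, map_one]
  have hrel : ∀ w ∈ hatW, uw S w = 1 := by
    intro w hw
    unfold hatW at hw
    rw [List.mem_append, List.mem_append, List.mem_append] at hw
    rcases hw with ((hw | hw) | hw) | hw
    · obtain ⟨g, -, rfl⟩ := sq5_form w hw
      simpa [uw] using hS g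
    · obtain ⟨g, -, rfl⟩ := treeJ_form w hw
      exact htree g
    · rw [List.mem_flatMap] at hw
      obtain ⟨R, hR, hw⟩ := hw
      obtain ⟨g, -, rfl⟩ := List.mem_map.1 hw
      exact hcenrel R (by unfold restA; exact List.mem_append_left _ hR) g
    · obtain ⟨g, -, rfl⟩ := List.mem_map.1 hw
      exact hcenrel wU6 (by unfold restA; simp) g
  obtain ⟨φ, hφ⟩ : ∃ φ : Pr hatW →* Equiv.Perm (Γ × Bool), ∀ g, φ (pg hatW g) = S g :=
    ⟨up hatW S hrel, up_pg hatW S hrel⟩
  have hrep : ∀ e : Pr hatW, ∃ k : Γ, ∃ n : ℤ, φ e = L k * Ω ^ n ∧ σ k = psi e := by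
    intro e
    have he : e ∈ Subgroup.closure (Set.range (pg hatW)) := by rw [closure_pg]; trivial
    induction he using Subgroup.closure_induction with
    | mem y hy =>
      obtain ⟨g, rfl⟩ := hy
      exact ⟨x g, 1, by rw [hφ, hSg, zpow_one], by rw [hσx, psi_pg]⟩
    | one => exact ⟨1, 0, by simp, by simp⟩
    | mul a b _ _ iha ihb =>
      obtain ⟨k1, n1, h1, h1'⟩ := iha
      obtain ⟨k2, n2, h2, h2'⟩ := ihb
      refine ⟨k1 * k2, n1 + n2, ?_, by rw [map_mul, map_mul, h1', h2']⟩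
      have hcm : Ω ^ n1 * L k2 = L k2 * Ω ^ n1 :=
        (Commute.zpow_left (show Commute Ω (L k2) from hΩ k2) n1).eq
      rw [map_mul, h1, h2, map_mul, zpow_add]
      calc L k1 * Ω ^ n1 * (L k2 * Ω ^ n2) = L k1 * (Ω ^ n1 * L k2) * Ω ^ n2 := by
            simp only [mul_assoc]
        _ = L k1 * L k2 * (Ω ^ n1 * Ω ^ n2) := by rw [hcm]; simp only [mul_assoc]
    | inv a _ iha =>
      obtain ⟨k, n, h, h'⟩ := iha
      refine ⟨k⁻¹, -n, ?_, by rw [map_inv, map_inv, h']⟩
      have hcm : Commute (Ω ^ n) (L k) :=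
        Commute.zpow_left (show Commute Ω (L k) from hΩ k) n
      rw [map_inv, h, mul_inv_rev, map_inv, zpow_neg]
      exact hcm.inv_inv.eq
  have hM : commutator Γ ≤ Subgroup.comap (L.prod σ) (φ.prod psi).range := by
    rw [commutator_def, Subgroup.commutator_le]
    intro g1 _ g2 _
    obtain ⟨e1, he1⟩ := psi_surj (σ g1)
    obtain ⟨e2, he2⟩ := psi_surj (σ g2)
    obtain ⟨k1, n1, h1, h1'⟩ := hrep e1
    obtain ⟨k2, n2, h2, h2'⟩ := hrep e2
    have hz1 : Cen (k1⁻¹ * g1) := hc _ (by rw [map_mul, map_inv, h1', he1, inv_mul_cancel])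
    have hz2 : Cen (k2⁻¹ * g2) := hc _ (by rw [map_mul, map_inv, h2', he2, inv_mul_cancel])
    have eg1 : k1 * (k1⁻¹ * g1) = g1 := by group
    have eg2 : k2 * (k2⁻¹ * g2) = g2 := by group
    have hgk : ⁅g1, g2⁆ = ⁅k1, k2⁆ := by
      have h := comm_tw k1 k2 (k1⁻¹ * g1) (k2⁻¹ * g2) (hz2 k1) (hz2 _) (hz1 k2)
      rwa [eg1, eg2] at h
    have hφc : φ ⁅e1, e2⁆ = L ⁅k1, k2⁆ := by
      rw [map_commutatorElement φ e1 e2, h1, h2, map_commutatorElement L k1 k2]
      exact comm_tw _ _ _ _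
        (Commute.zpow_left (show Commute Ω (L k1) from hΩ k1) n2).eq
        (Commute.zpow_zpow (Commute.refl Ω) n2 n1).eq
        (Commute.zpow_left (show Commute Ω (L k2) from hΩ k2) n1).eq
    rw [Subgroup.mem_comap, MonoidHom.mem_range]
    refine ⟨⁅e1, e2⁆, ?_⟩
    rw [MonoidHom.prod_apply, MonoidHom.prod_apply]
    exact Prod.ext (by show φ _ = L _; rw [hφc, hgk])
      (by show psi _ = σ _
          rw [map_commutatorElement psi e1 e2, map_commutatorElement σ g1 g2, he1, he2])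
  have hker : ∀ α : σ.ker, ∃ e : Pr hatW, φ e = L α.1 ∧ psi e = 1 := by
    intro α
    obtain ⟨e, he⟩ := hM (hcomm α.2)
    refine ⟨e, congrArg Prod.fst he, ?_⟩
    have h2 : psi e = σ α.1 := congrArg Prod.snd he
    exact h2.trans (MonoidHom.mem_ker.1 α.2)
  obtain ⟨E, hE⟩ : ∃ E : Subgroup (Pr hatW), E = Subgroup.comap φ L.range := ⟨_, rfl⟩
  choose f hf using hker
  have hfmem : ∀ α, f α ∈ E ⊓ psi.ker := fun α => by
    refine ⟨?_, MonoidHom.mem_ker.2 (hf α).2⟩
    rw [hE]
    exact ⟨α.1, (hf α).1.symm⟩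
  have hfinj : Function.Injective (fun α : σ.ker => (⟨f α, hfmem α⟩ : ↥(E ⊓ psi.ker))) := by
    intro α β h
    have h1 : f α = f β := congrArg Subtype.val h
    have h2 : L α.1 = L β.1 := by rw [← (hf α).1, ← (hf β).1, h1]
    exact Subtype.ext (hLinj h2)
  have hκ : uw (pg hatW) wJ1 ∉ E := by
    intro h
    rw [hE] at h
    obtain ⟨k', hk'⟩ := h
    have e1 : φ (uw (pg hatW) wJ1) = L (uw x wJ1) * Ω ^ 5 := by
      have h5 := hSw wJ1
      rw [map_uw, (funext hφ : (fun g => φ (pg hatW g)) = S)]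
      exact h5
    apply hΩr
    refine ⟨z * z * ((uw x wJ1)⁻¹ * k'), ?_⟩
    have e5 : Ω ^ 5 = L z⁻¹ * L z⁻¹ * Ω := by
      rw [show (5 : ℕ) = 2 + 2 + 1 from rfl, pow_add, pow_add, pow_two, pow_one, hΩ2]
    rw [map_mul, map_mul, map_mul, map_inv, hk', e1, e5, map_inv]
    group
  have hle : Nat.card σ.ker ≤ 2 :=
    (Nat.card_le_card_of_injective _ hfinj).trans
      (card_inf_le hcard E _ (psi_val wJ1 (by decide)) hκ)
  have : Finite σ.ker := Finite.of_injective _ hfinj
  exact surj_of_card_le hle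

/-! ### The even subgroup of the covering group -/

theorem hatW_even : ∀ w ∈ hatW, w.length % 2 = 0 := by decide

/-- the sign of a word -/
noncomputable def sgn : Pr hatW →* ℤˣ :=
  up hatW (fun _ => -1) (by
    intro w hw
    rw [uw_const]
    exact Even.neg_one_pow (Nat.even_iff.2 (hatW_even w hw)))

theorem sgn_pg (g : Gen) : sgn (pg hatW g) = -1 := up_pg hatW _ _ g

theorem sgn_uw (w : List Gen) : sgn (uw (pg hatW) w) = (-1) ^ w.length := by
  rw [map_uw, (funext sgn_pg : (fun g => sgn (pg hatW g)) = fun _ => -1), uw_const]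

/-- the even subgroup -/
noncomputable def Ev : Subgroup (Pr hatW) := sgn.ker

/-- an odd element of the kernel -/
noncomputable def kap : Pr hatW := uw (pg hatW) wJ1

/-- an even element of the kernel -/
noncomputable def rho : Pr hatW := uw (pg hatW) wJ5

theorem psi_kap : psi kap = 1 := psi_val wJ1 (by decide)

theorem sgn_kap : sgn kap = -1 := by
  unfold kap
  rw [sgn_uw]
  exact Odd.neg_one_pow (by decide)

theorem kap_not_mem : kap ∉ Ev := by
  intro h
  have h1 : sgn kap = 1 := MonoidHom.mem_ker.1 h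
  rw [sgn_kap] at h1
  exact absurd h1 (by decide)

theorem psi_rho : psi rho = 1 := psi_val wJ5 (by decide)

theorem sgn_rho : sgn rho = 1 := by
  unfold rho
  rw [sgn_uw]
  exact Even.neg_one_pow (by decide)

theorem card_ev_ker (hcard : Nat.card (Pr relW) = 604800) : Nat.card ↥(Ev ⊓ psi.ker) ≤ 2 :=
  card_inf_le hcard Ev kap psi_kap kap_not_mem

/-- the subgroup generated by the products `b x` -/
noncomputable def Tg : Subgroup (Pr hatW) :=
  Subgroup.closure (Set.range fun x => pg hatW .b * pg hatW x)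

theorem even_or (g : Pr hatW) : g ∈ Tg ∨ pg hatW .b * g ∈ Tg := by
  have hg : g ∈ Subgroup.closure (Set.range (pg hatW)) := by rw [closure_pg]; trivial
  have hstep : ∀ (x : Gen) (y : Pr hatW), (y ∈ Tg ∨ pg hatW .b * y ∈ Tg) →
      (pg hatW x * y ∈ Tg ∨ pg hatW .b * (pg hatW x * y) ∈ Tg) := by
    intro x y h
    have hx : pg hatW .b * pg hatW x ∈ Tg := Subgroup.subset_closure ⟨x, rfl⟩
    rcases h with h | h
    · right
      rw [← mul_assoc]
      exact Tg.mul_mem hx h
    · left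
      have e : pg hatW x * y = (pg hatW .b * pg hatW x)⁻¹ * (pg hatW .b * y) := by
        have hb : pg hatW .b * (pg hatW .b * y) = y := by
          rw [← mul_assoc, hatW_inv, one_mul]
        rw [mul_inv_rev, inv_eq_of_mul_eq_one_left (hatW_inv x),
          inv_eq_of_mul_eq_one_left (hatW_inv .b), mul_assoc, hb]
      rw [e]
      exact Tg.mul_mem (Tg.inv_mem hx) h
  induction hg using Subgroup.closure_induction_left with
  | one => left; exact Tg.one_mem
  | mul_left x hx y hy ih =>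
    obtain ⟨x, rfl⟩ := hx
    exact hstep x y ih
  | inv_mul_cancel x hx y hy ih =>
    obtain ⟨x, rfl⟩ := hx
    rw [inv_eq_of_mul_eq_one_left (hatW_inv x)]
    exact hstep x y ih

theorem Tg_le : Tg ≤ Ev := by
  unfold Tg
  rw [Subgroup.closure_le]
  rintro _ ⟨x, rfl⟩
  show _ ∈ sgn.ker
  rw [MonoidHom.mem_ker, map_mul, sgn_pg, sgn_pg]
  decide

theorem Ev_le : Ev ≤ Tg := by
  intro e he
  rcases even_or e with h | h
  · exact h
  · exfalso
    have h1 : sgn (pg hatW .b * e) = 1 := MonoidHom.mem_ker.1 (Tg_le h)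
    rw [map_mul, sgn_pg, MonoidHom.mem_ker.1 he, mul_one] at h1
    exact absurd h1 (by decide)

/-- **Existence**: the even subgroup of the covering group is a stem extension with kernel of
order two. -/
theorem exist (hcard : Nat.card (Pr relW) = 604800) :
    ∃ (Γ : Type) (_ : Group Γ) (_ : Finite Γ) (σ : Γ →* Pr relW),
      IsStemExtension σ ∧ Nonempty (σ.ker ≃* Multiplicative (ZMod 2)) := by
  obtain ⟨σ, hσdef⟩ : ∃ σ : ↥Ev →* Pr relW, σ = psi.comp Ev.subtype := ⟨_, rfl⟩
  have hσ : ∀ e : ↥Ev, σ e = psi e.1 := fun e => by rw [hσdef]; rfl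
  have hkpsi : ∀ k : ↥Ev, k ∈ σ.ker → psi k.1 = 1 := fun k hk => by
    rw [← hσ]; exact MonoidHom.mem_ker.1 hk
  have hinj : Function.Injective (fun k : σ.ker =>
      (⟨k.1.1, ⟨k.1.2, MonoidHom.mem_ker.2 (hkpsi k.1 k.2)⟩⟩ : ↥(Ev ⊓ psi.ker))) := by
    intro a b h
    have h1 : a.1.1 = b.1.1 := congrArg (fun k : ↥(Ev ⊓ psi.ker) => k.1) h
    exact Subtype.ext (Subtype.ext h1)
  have hle : Nat.card σ.ker ≤ 2 :=
    (Nat.card_le_card_of_injective _ hinj).trans (card_ev_ker hcard)
  have hρE : rho ∈ Ev := MonoidHom.mem_ker.2 sgn_rho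
  have hρk : (⟨rho, hρE⟩ : ↥Ev) ∈ σ.ker := MonoidHom.mem_ker.2 (by rw [hσ]; exact psi_rho)
  have hnt : Nontrivial σ.ker :=
    ⟨⟨⟨⟨rho, hρE⟩, hρk⟩, 1, fun h => rho_ne (congrArg (fun k : σ.ker => k.1.1) h)⟩⟩
  have h2 : Nat.card σ.ker = 2 := by
    have := Finite.one_lt_card_iff_nontrivial.2 hnt
    omega
  have hsq : ∀ k : ↥Ev, k ∈ σ.ker → k ^ 2 = 1 := by
    intro k hk
    have h := pow_card_eq_one' (G := σ.ker) (x := ⟨k, hk⟩)
    rw [h2] at h
    exact congrArg Subtype.val h
  have h3 : ∀ e : ↥Ev, (Abelianization.of e) ^ 3 = 1 := by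
    obtain ⟨t, htdef⟩ : ∃ t : Gen → ↥Ev, ∀ x, (t x).1 = pg hatW .b * pg hatW x :=
      ⟨fun x => ⟨pg hatW .b * pg hatW x, Tg_le (Subgroup.subset_closure ⟨x, rfl⟩)⟩,
        fun _ => rfl⟩
    have hmap : (Subgroup.closure (Set.range t)).map Ev.subtype = Tg := by
      rw [MonoidHom.map_closure, ← Set.range_comp]
      have : (⇑Ev.subtype ∘ t) = fun x => pg hatW .b * pg hatW x := funext htdef
      rw [this]
      rfl
    have htop : Subgroup.closure (Set.range t) = ⊤ := by
      rw [eq_top_iff]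
      intro e _
      have he : e.1 ∈ Tg := Ev_le e.2
      rw [← hmap] at he
      obtain ⟨e', he', hee⟩ := he
      have : e' = e := Subtype.ext hee
      rw [← this]; exact he'
    have hle3 : Subgroup.closure (Set.range t) ≤ Subgroup.comap Abelianization.of
        (powMonoidHom 3 : Abelianization ↥Ev →* Abelianization ↥Ev).ker := by
      rw [Subgroup.closure_le]
      rintro _ ⟨x, rfl⟩
      rw [SetLike.mem_coe, Subgroup.mem_comap, MonoidHom.mem_ker, powMonoidHom_apply, ← map_pow]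
      have : t x ^ 3 = 1 := Subtype.ext (by
        rw [Subgroup.coe_pow, htdef]; exact hatW_tree x)
      rw [this, map_one]
    intro e
    have h := hle3 (by rw [htop]; trivial : e ∈ Subgroup.closure (Set.range t))
    rw [Subgroup.mem_comap, MonoidHom.mem_ker, powMonoidHom_apply] at h
    exact h
  refine ⟨↥Ev, inferInstance, inferInstance, σ, ⟨?_, ?_, ?_⟩, ?_⟩
  · intro q
    obtain ⟨e, he⟩ := psi_surj q
    rcases Int.units_eq_one_or (sgn e) with h | h
    · exact ⟨⟨e, MonoidHom.mem_ker.2 h⟩, by rw [hσ]; exact he⟩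
    · refine ⟨⟨e * kap, MonoidHom.mem_ker.2 (by rw [map_mul, h, sgn_kap]; decide)⟩, ?_⟩
      rw [hσ]
      show psi (e * kap) = q
      rw [map_mul, he, psi_kap, mul_one]
  · intro k hk
    rw [Subgroup.mem_center_iff]
    intro g
    apply Subtype.ext
    exact (ker_cen k.1 (hkpsi k hk) g.1).symm
  · intro k hk
    rw [← Abelianization.ker_of, MonoidHom.mem_ker]
    have h2' : (Abelianization.of k) ^ 2 = 1 := by rw [← map_pow, hsq k hk, map_one]
    calc Abelianization.of k = (Abelianization.of k) ^ 3 * ((Abelianization.of k) ^ 2)⁻¹ := by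
          group
      _ = 1 := by rw [h3, h2', inv_one, mul_one]
  · have : Fact (Nat.Prime 2) := ⟨Nat.prime_two⟩
    have hcard2 : Nat.card (Multiplicative (ZMod 2)) = 2 := by
      rw [Nat.card_eq_fintype_card]; rfl
    exact ⟨mulEquivOfPrimeCardEq h2 hcard2⟩

/-- **The Schur multiplier of the presented group has order two**, given its order. -/
theorem hasSchur_pres (hcard : Nat.card (Pr relW) = 604800) :
    HasSchurMultiplier (Pr relW) (Multiplicative (ZMod 2)) :=
  ⟨exist hcard, fun Γ _ _ σ hσ => bound hcard Γ σ hσ⟩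

end Cfsg.Agent.H41.J2P
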