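import Cfsg.Agent.H9.J2.Ord
import Cfsg.Agent.H41.J2Twist
import Cfsg.Agent.H41.Transport

/-!
# The presented group `Pr relW` is the Hall–Janko group (helper41)

The five generators are sent to the reflections in the mirrors `0, 1, 10, 169, 188` of helper9's
list of the 315 mirrors of the icosian reflection group.  Each relator acts as `±1` on the three
vectors `2e₁, 2e₂, 2e₃` (a computation in helper9's integral model), so it is central; the five
reflections generate the reflection group (every mirror is reached by reflecting known mirrors in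
known mirrors); and the presented group has at most `604800` elements.  Hence it is isomorphic to
`J₂`, and the Schur multiplier of `J₂` has order two.
-/

set_option autoImplicit false
open Quaternion

namespace Cfsg.Agent.H41.J2P

open Cfsg Cfsg.Agent.H35 Cfsg.Spor
open Cfsg.Agent.H9.J2 (Fk Fk_mem wordG wordG_mem applyW applyW_vec applyW_spec repL dV unitL
  usmB usmB_spec unit_props getD_unit rep_MV reflV reflV_smul reflOf reflOf_eq_reflV repL_min
  repL_length exists_rep tj_rigid tj_rigid2 nu nu_mem nu_apply nu_center EL eV eV_mem LL V V3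
  frcV frcV_eq card_J2 toH_two two)
open Cfsg.Agent.H9.J2.Q8 (zero neg one toH toH_zero toH_neg)

/-- the mirror indices of the five generators -/
def kidx : Gen → ℕ
  | .a => 0
  | .b => 1
  | .c => 10
  | .d => 169
  | .e => 188

/-- the mirror indices of a word, in the order of application -/
def wl (w : List Gen) : List ℕ := (w.map kidx).reverse

theorem wordG_append (u v : List ℕ) : wordG (u ++ v) = wordG v * wordG u := by
  induction u with
  | nil => simp [wordG]
  | cons m u ih => simp only [List.cons_append, wordG, ih, mul_assoc]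

theorem uw_Fk (w : List Gen) : uw (fun g => Fk (kidx g)) w = wordG (wl w) := by
  induction w with
  | nil => simp [uw, wl, wordG]
  | cons g w ih =>
    rw [uw_cons, ih]
    unfold wl
    rw [List.map_cons, List.reverse_cons, wordG_append]
    simp [wordG]

/-! ### The relators -/

/-- the vectors `2e₁, 2e₂, 2e₃` in the model -/
def e3 (s : ℕ) : V3 :=
  match s with
  | 0 => ⟨two, zero, zero⟩
  | 1 => ⟨zero, two, zero⟩
  | _ => ⟨zero, zero, two⟩

/-- the negative of a vector -/
def negV (v : V3) : V3 := ⟨neg v.x, neg v.y, neg v.z⟩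

theorem e3_toV (s : Fin 3) : (e3 s.1).toV = eV s := by
  funext t
  fin_cases s <;> fin_cases t <;> simp [e3, eV, toH_two, toH_zero]

theorem negV_toV (v : V3) : (negV v).toV = -v.toV := by
  funext t
  fin_cases t <;> simp [negV, toH_neg]

theorem e3_mem (s : Fin 3) : (e3 s.1).toV ∈ icoLeech := by
  rw [e3_toV]; exact eV_mem s

theorem EL_eq (s : Fin 3) : (⟨(e3 s.1).toV, e3_mem s⟩ : LL) = EL s := Subtype.ext (e3_toV s)

/-- the word `l` maps the vector `x` to `y` -/
def vecOK (l : List ℕ) (x y : V3) : Bool :=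
  match applyW l x with
  | some z => decide (z = y)
  | none => false

theorem vecOK_spec {l : List ℕ} {x y : V3} (h : vecOK l x y = true) (hx : x.toV ∈ icoLeech) :
    ((wordG l ⟨x.toV, hx⟩ : LL) : V) = y.toV := by
  unfold vecOK at h
  cases ha : applyW l x with
  | none => rw [ha] at h; exact absurd h (by simp)
  | some z =>
    rw [ha] at h
    simp only [decide_eq_true_eq] at h
    subst h
    exact applyW_vec l x z ha hx

/-- the word acts as `1` or as `-1` on the three vectors -/
def relOK (w : List Gen) : Bool :=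
  (vecOK (wl w) (e3 0) (e3 0) && vecOK (wl w) (e3 1) (e3 1) && vecOK (wl w) (e3 2) (e3 2)) ||
  (vecOK (wl w) (e3 0) (negV (e3 0)) && vecOK (wl w) (e3 1) (negV (e3 1)) &&
    vecOK (wl w) (e3 2) (negV (e3 2)))

set_option maxRecDepth 100000 in
theorem relW_ok : relW.all relOK = true := by decide +kernel

theorem relOK_spec {w : List Gen} (h : relOK w = true) :
    wordG (wl w) = 1 ∨ wordG (wl w) = nu := by
  unfold relOK at h
  rw [Bool.or_eq_true, Bool.and_eq_true, Bool.and_eq_true, Bool.and_eq_true,
    Bool.and_eq_true] at h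
  rcases h with ⟨⟨h0, h1⟩, h2⟩ | ⟨⟨h0, h1⟩, h2⟩
  · left
    apply tj_rigid (wordG_mem _)
    intro s
    have key : vecOK (wl w) (e3 s.1) (e3 s.1) = true := by
      fin_cases s
      · exact h0
      · exact h1
      · exact h2
    have hv := vecOK_spec key (e3_mem s)
    rw [EL_eq] at hv
    apply Subtype.ext
    rw [hv, e3_toV]
    rfl
  · right
    apply tj_rigid2 (wordG_mem _) nu_mem
    intro s
    have key : vecOK (wl w) (e3 s.1) (negV (e3 s.1)) = true := by
      fin_cases s
      · exact h0
      · exact h1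
      · exact h2
    have hv := vecOK_spec key (e3_mem s)
    rw [EL_eq] at hv
    apply Subtype.ext
    rw [hv, negV_toV, e3_toV, nu_apply]
    rfl

/-- the generators in the reflection group -/
noncomputable def gT (g : Gen) : ↥twoJ2 := ⟨Fk (kidx g), Fk_mem _⟩

/-- the generators in `J₂` -/
noncomputable def gJ (g : Gen) : Spor.J2 :=
  QuotientGroup.mk' (Subgroup.center ↥twoJ2) (gT g)

theorem uw_gT (w : List Gen) : ((uw gT w : ↥twoJ2) : Equiv.Perm LL) = wordG (wl w) := by
  rw [← uw_Fk]
  exact map_uw (twoJ2.subtype) gT w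

theorem gJ_rel : ∀ w ∈ relW, uw gJ w = 1 := by
  intro w hw
  have h := relOK_spec (List.all_eq_true.1 relW_ok w hw)
  have e : uw gJ w = QuotientGroup.mk' (Subgroup.center ↥twoJ2) (uw gT w) :=
    (map_uw _ gT w).symm
  rw [e, QuotientGroup.mk'_apply, QuotientGroup.eq_one_iff]
  rcases h with h | h
  · have h1 : uw gT w = 1 := Subtype.ext (by rw [uw_gT, h]; rfl)
    rw [h1]
    exact one_mem _
  · have h1 : uw gT w = ⟨nu, nu_mem⟩ := Subtype.ext (by rw [uw_gT, h])
    rw [h1]
    exact nu_center

/-- the presented group maps to `J₂` -/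
noncomputable def toJ : Pr relW →* Spor.J2 := up relW gJ gJ_rel

theorem toJ_pg (g : Gen) : toJ (pg relW g) = gJ g := up_pg relW gJ gJ_rel g

/-! ### Generation -/

/-- the mirror `k` is the image of the mirror `j` under the reflection in the mirror `i` -/
def stepOK (k i j ui : ℕ) : Bool :=
  match frcV (repL.getD j dV) (fun x => applyW [i] x) with
  | some y => frcV (repL.getD k dV) (fun v => usmB (unitL.getD ui one) v y)
  | none => false

theorem stepOK_spec {k i j ui : ℕ} (h : stepOK k i j ui = true) :
    Fk i * Fk j * (Fk i)⁻¹ = Fk k := by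
  rw [stepOK, frcV_eq] at h
  cases ha : applyW [i] (repL.getD j dV) with
  | none => rw [ha] at h; exact absurd h (by simp)
  | some y =>
    rw [ha] at h
    simp only [frcV_eq] at h
    obtain ⟨hy, e⟩ := applyW_spec _ _ _ ha (rep_MV j)
    have hu := usmB_spec h
    have hunit := unit_props (getD_unit ui)
    have hw : wordG [i] = Fk i := by simp [wordG]
    rw [hw] at e
    have e' : Fk i * Fk j * (Fk i)⁻¹ = reflV y.toV := e
    rw [e', hu]
    exact reflV_smul hunit.1 hunit.2 (rep_MV k)

/-- the certificate: `(k, i, j, u)` says that the mirror `k` is the image of the mirror `j` under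
the reflection in the mirror `i`, up to the unit number `u` -/
def genL : List (ℕ × ℕ × ℕ × ℕ) :=
  [(3, 0, 1, 119), (25, 0, 10, 119), (20, 1, 10, 119), (260, 1, 169, 72), (275, 1, 188, 53),
    (7, 1, 25, 119), (77, 10, 0, 63), (301, 10, 169, 26), (305, 10, 188, 83), (16, 10, 3, 0),
    (170, 10, 260, 64), (189, 10, 275, 62), (124, 10, 7, 54), (107, 169, 188, 62),
    (255, 169, 3, 55), (219, 169, 25, 12), (245, 169, 20, 11), (9, 169, 275, 70),
    (256, 169, 7, 119), (28, 169, 77, 71), (31, 169, 305, 96), (182, 169, 16, 13),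
    (93, 169, 170, 57), (177, 169, 189, 13), (312, 169, 124, 60), (91, 188, 169, 55),
    (276, 188, 3, 62), (226, 188, 25, 7), (267, 188, 20, 13), (8, 188, 260, 68),
    (277, 188, 7, 0), (30, 188, 301, 75), (163, 188, 16, 11), (157, 188, 170, 11),
    (106, 188, 189, 55), (309, 188, 124, 74), (17, 188, 245, 109), (4, 188, 256, 0),
    (55, 188, 182, 8), (43, 188, 93, 112), (86, 188, 177, 100), (126, 188, 312, 22),
    (54, 0, 20, 119), (2, 0, 7, 119), (6, 0, 16, 119), (92, 0, 170, 119), (108, 0, 189, 119),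
    (148, 0, 124, 104), (172, 0, 245, 28), (265, 0, 256, 49), (266, 0, 182, 119),
    (133, 0, 93, 95), (97, 0, 177, 119), (314, 0, 312, 48), (191, 0, 267, 35), (249, 0, 277, 68),
    (244, 0, 163, 119), (82, 0, 157, 119), (140, 0, 106, 85), (311, 0, 309, 67), (18, 0, 17, 0),
    (5, 0, 4, 0), (56, 0, 55, 0), (101, 0, 43, 119), (35, 0, 86, 119), (127, 0, 126, 0),
    (11, 1, 77, 56), (19, 1, 16, 119), (45, 1, 107, 0), (173, 1, 219, 90), (57, 1, 9, 0),
    (263, 1, 256, 49), (125, 1, 28, 119), (149, 1, 31, 0), (228, 1, 177, 76), (268, 1, 312, 119),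
    (38, 1, 91, 0), (187, 1, 226, 76), (65, 1, 8, 0), (247, 1, 277, 68), (153, 1, 30, 0),
    (229, 1, 157, 90), (246, 1, 309, 119), (76, 1, 17, 76), (40, 1, 4, 0), (147, 1, 55, 43),
    (261, 1, 43, 30), (160, 1, 86, 10), (241, 1, 126, 119), (253, 1, 92, 1), (270, 1, 108, 20),
    (52, 1, 148, 113), (252, 1, 172, 118), (239, 1, 265, 62), (302, 1, 266, 19),
    (258, 1, 133, 90), (143, 1, 97, 76), (271, 1, 191, 99), (243, 1, 249, 67), (306, 1, 244, 17),
    (145, 1, 82, 90), (273, 1, 140, 76), (74, 1, 18, 90), (32, 1, 5, 0), (144, 1, 56, 29),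
    (179, 1, 101, 8), (240, 1, 35, 33), (250, 1, 127, 18), (181, 10, 255, 49), (196, 10, 9, 112),
    (67, 10, 256, 68), (290, 10, 177, 12), (66, 10, 312, 85), (164, 10, 276, 68),
    (204, 10, 8, 107), (58, 10, 277, 49), (283, 10, 157, 7), (59, 10, 309, 95), (75, 10, 17, 90),
    (146, 10, 4, 29), (83, 10, 55, 9), (236, 10, 43, 13), (281, 10, 86, 54), (53, 10, 54, 119),
    (310, 10, 92, 55), (313, 10, 108, 57), (215, 10, 97, 119), (222, 10, 82, 119),
    (73, 10, 18, 76), (142, 10, 5, 43), (100, 10, 56, 14), (292, 10, 101, 65), (232, 10, 35, 11),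
    (193, 10, 57, 86), (257, 10, 263, 34), (99, 10, 149, 44), (122, 10, 228, 19),
    (175, 10, 65, 89), (278, 10, 247, 24), (85, 10, 153, 23), (115, 10, 229, 17),
    (161, 10, 40, 0), (42, 10, 147, 111), (151, 10, 261, 65), (128, 10, 160, 11),
    (95, 10, 241, 89), (286, 10, 253, 36), (296, 10, 270, 26), (29, 10, 52, 54),
    (158, 10, 239, 69), (162, 10, 243, 67), (180, 10, 32, 0), (33, 10, 144, 109),
    (135, 10, 179, 13), (154, 10, 240, 54), (110, 10, 250, 89), (304, 169, 11, 30),
    (37, 169, 38, 119), (186, 169, 187, 102), (242, 169, 247, 82), (234, 169, 153, 44),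
    (150, 169, 229, 30), (227, 169, 246, 39), (217, 169, 76, 108), (60, 169, 40, 8),
    (198, 169, 147, 96), (113, 169, 261, 105), (285, 169, 160, 119), (303, 169, 253, 4),
    (192, 169, 270, 2), (298, 169, 143, 52), (274, 169, 271, 115), (248, 169, 243, 66),
    (206, 169, 306, 21), (279, 169, 145, 88), (269, 169, 273, 102), (167, 169, 32, 109),
    (183, 169, 179, 9), (121, 169, 250, 40), (213, 169, 164, 82), (130, 169, 204, 8),
    (15, 169, 58, 119), (194, 169, 283, 64), (44, 169, 59, 0), (280, 169, 75, 31),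
    (195, 169, 146, 31), (134, 169, 236, 12), (208, 169, 313, 84), (294, 169, 215, 13),
    (176, 169, 222, 6), (212, 169, 142, 67), (223, 169, 100, 10), (141, 169, 292, 77),
    (259, 169, 193, 40), (211, 169, 99, 88), (209, 169, 122, 73), (299, 169, 175, 94),
    (207, 169, 278, 35), (284, 169, 85, 0), (200, 169, 115, 54), (78, 169, 161, 10),
    (39, 169, 42, 105), (159, 169, 151, 88), (12, 169, 128, 12), (14, 169, 95, 112),
    (233, 169, 296, 117), (221, 169, 29, 30), (102, 169, 158, 102), (190, 169, 162, 110),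
    (112, 169, 180, 37), (90, 169, 33, 10), (71, 169, 135, 7), (224, 169, 154, 13),
    (63, 169, 110, 107), (300, 188, 11, 33), (46, 188, 45, 119), (168, 188, 173, 100),
    (262, 188, 263, 87), (238, 188, 149, 23), (155, 188, 228, 33), (230, 188, 268, 31),
    (185, 188, 40, 111), (165, 188, 160, 14), (116, 188, 241, 69), (174, 188, 253, 4),
    (264, 188, 239, 104), (199, 188, 302, 40), (251, 188, 258, 100), (291, 188, 143, 80),
    (297, 188, 145, 71), (68, 188, 32, 10), (289, 188, 179, 117), (118, 188, 240, 110),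
    (220, 188, 181, 87), (137, 188, 196, 10), (13, 188, 67, 119), (36, 188, 66, 0),
    (210, 188, 146, 48), (216, 188, 83, 8), (282, 188, 222, 11), (293, 188, 73, 39),
    (203, 188, 142, 39), (288, 188, 99, 2), (119, 188, 161, 32), (105, 188, 42, 8),
    (62, 188, 128, 12), (70, 188, 95, 112), (237, 188, 286, 115), (214, 188, 29, 33),
    (171, 188, 158, 10), (88, 188, 162, 59), (80, 188, 180, 8), (47, 188, 33, 110),
    (178, 188, 154, 80), (27, 188, 304, 96), (23, 188, 37, 119), (205, 188, 150, 96),
    (225, 188, 113, 112), (51, 188, 285, 23), (117, 188, 298, 118), (81, 188, 279, 22),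
    (114, 188, 183, 98), (111, 188, 130, 6), (156, 188, 280, 97), (123, 188, 195, 110),
    (197, 188, 294, 95), (79, 188, 212, 67), (152, 188, 223, 88), (218, 188, 78, 88),
    (69, 188, 39, 7), (50, 188, 159, 110), (308, 188, 233, 4), (26, 188, 221, 23),
    (64, 188, 102, 4), (139, 188, 190, 13), (22, 188, 90, 11), (21, 3, 8, 119), (48, 3, 17, 119),
    (104, 3, 43, 119), (89, 3, 35, 119), (136, 3, 67, 119), (129, 3, 58, 119),
    (307, 3, 236, 103), (231, 3, 151, 119), (103, 3, 158, 2), (87, 3, 162, 119),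
    (235, 3, 154, 119), (287, 3, 304, 106), (272, 3, 186, 119), (132, 3, 190, 29),
    (295, 3, 300, 108), (254, 3, 168, 119), (96, 3, 165, 119), (201, 3, 174, 85),
    (202, 3, 118, 119), (120, 3, 62, 96), (49, 3, 117, 119), (138, 3, 69, 119), (166, 25, 40, 0),
    (184, 25, 32, 0), (34, 25, 99, 118), (41, 25, 85, 99), (72, 25, 259, 116), (24, 25, 288, 76),
    (98, 25, 27, 75), (84, 25, 26, 96), (131, 25, 307, 10), (61, 25, 254, 119),
    (109, 20, 113, 105), (94, 20, 118, 110)]

/-- check a certificate against the list of known mirrors -/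
def genChk : List (ℕ × ℕ × ℕ × ℕ) → List ℕ → Bool
  | [], known => (List.range 315).all (fun k => known.contains k)
  | q :: l, known =>
    known.contains q.2.1 && known.contains q.2.2.1 && stepOK q.1 q.2.1 q.2.2.1 q.2.2.2 &&
      genChk l (q.1 :: known)

/-- the subgroup generated by the five reflections -/
noncomputable def H5 : Subgroup (Equiv.Perm LL) :=
  Subgroup.closure (Set.range fun g => Fk (kidx g))

theorem genChk_sound : ∀ (l : List (ℕ × ℕ × ℕ × ℕ)) (known : List ℕ), genChk l known = true →
    (∀ m ∈ known, Fk m ∈ H5) → ∀ k, k < 315 → Fk k ∈ H5 := by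
  intro l
  induction l with
  | nil =>
    intro known h hk k hk315
    rw [genChk, List.all_eq_true] at h
    have h1 := h k (List.mem_range.2 hk315)
    exact hk k (by simpa using h1)
  | cons q l ih =>
    intro known h hk
    rw [genChk, Bool.and_eq_true, Bool.and_eq_true, Bool.and_eq_true] at h
    obtain ⟨⟨⟨h1, h2⟩, h3⟩, h4⟩ := h
    apply ih (q.1 :: known) h4
    intro m hm
    rcases List.mem_cons.1 hm with rfl | hm
    · rw [← stepOK_spec h3]
      have hi := hk _ (by simpa using h1)
      have hj := hk _ (by simpa using h2)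
      exact H5.mul_mem (H5.mul_mem hi hj) (H5.inv_mem hi)
    · exact hk m hm

set_option maxRecDepth 100000 in
theorem genL_ok : genChk genL [0, 1, 10, 169, 188] = true := by decide +kernel

theorem Fk_mem_H5 (k : ℕ) (hk : k < 315) : Fk k ∈ H5 := by
  have hs := genChk_sound genL [0, 1, 10, 169, 188] genL_ok
  refine hs ?_ k hk
  intro m hm
  simp only [List.mem_cons, List.not_mem_nil, or_false] at hm
  rcases hm with rfl | rfl | rfl | rfl | rfl
  · exact Subgroup.subset_closure ⟨.a, rfl⟩
  · exact Subgroup.subset_closure ⟨.b, rfl⟩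
  · exact Subgroup.subset_closure ⟨.c, rfl⟩
  · exact Subgroup.subset_closure ⟨.d, rfl⟩
  · exact Subgroup.subset_closure ⟨.e, rfl⟩

theorem H5_le : H5 ≤ twoJ2 := by
  unfold H5
  rw [Subgroup.closure_le]
  rintro _ ⟨g, rfl⟩
  exact Fk_mem _

theorem twoJ2_le : twoJ2 ≤ H5 := by
  unfold twoJ2
  rw [Subgroup.closure_le]
  intro f hf
  obtain ⟨v, hv, rfl⟩ := exists_rep (f := f) hf
  obtain ⟨i, hi, rfl⟩ := List.getElem_of_mem hv
  have hi' : i < 315 := by rw [← repL_length]; exact hi
  have e : reflOf (repL[i]'hi) = Fk i := by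
    rw [reflOf_eq_reflV (repL_min _ (List.getElem_mem hi)), Fk, List.getD_eq_getElem _ _ hi]
  rw [SetLike.mem_coe, e]
  exact Fk_mem_H5 i hi'

theorem toJ_surj : Function.Surjective toJ := by
  intro q
  induction q using QuotientGroup.induction_on with
  | H k =>
    have key : ∀ (x : Equiv.Perm LL) (_ : x ∈ Subgroup.closure (Set.range fun g => Fk (kidx g)))
        (hx' : x ∈ twoJ2), (QuotientGroup.mk (⟨x, hx'⟩ : ↥twoJ2) : Spor.J2) ∈ toJ.range := by
      intro x hx
      induction hx using Subgroup.closure_induction with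
      | mem x hx =>
        intro hx'
        obtain ⟨g, rfl⟩ := hx
        exact ⟨pg relW g, toJ_pg g⟩
      | one =>
        intro hx'
        exact toJ.range.one_mem
      | mul x y hx hy ihx ihy =>
        intro hx'
        have hxt : x ∈ twoJ2 := H5_le hx
        have hyt : y ∈ twoJ2 := H5_le hy
        have e : (⟨x * y, hx'⟩ : ↥twoJ2) = ⟨x, hxt⟩ * ⟨y, hyt⟩ := rfl
        rw [e, QuotientGroup.mk_mul]
        exact toJ.range.mul_mem (ihx hxt) (ihy hyt)
      | inv x hx ihx =>
        intro hx'
        have hxt : x ∈ twoJ2 := H5_le hx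
        have e : (⟨x⁻¹, hx'⟩ : ↥twoJ2) = (⟨x, hxt⟩ : ↥twoJ2)⁻¹ := rfl
        rw [e, QuotientGroup.mk_inv]
        exact toJ.range.inv_mem (ihx hxt)
    exact key k.1 (twoJ2_le k.2) k.2

theorem toJ_bij : Function.Bijective toJ :=
  Function.Surjective.bijective_of_nat_card_le toJ_surj (by rw [card_J2]; exact relW_card_le)

/-- the presented group is the Hall–Janko group -/
noncomputable def isoJ : Pr relW ≃* Spor.J2 := MulEquiv.ofBijective toJ toJ_bij

theorem relW_card : Nat.card (Pr relW) = 604800 := by
  rw [Nat.card_congr isoJ.toEquiv, card_J2]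

/-- **The Schur multiplier of the Hall–Janko group has order two.** -/
theorem hasSchur_J2 : HasSchurMultiplier Spor.J2 (Multiplicative (ZMod 2)) :=
  hasSchurMultiplier_of_mulEquiv isoJ (hasSchur_pres relW_card)

end Cfsg.Agent.H41.J2P
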