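import Cfsg.Agent.H35.TCMain

/-!
# A presentation of the Hall–Janko group on five reflections, as word lists (helper41)

`J₂ = ⟨a, b, c, d, e⟩` with `a, b, c, d` generating `U₃(3)`.  All generators are involutions,
`(ba)³ = (bc)³ = (bd)³ = (be)³ = 1` (the tree relators), and there are eleven further relators.
In the covering presentations the tree relators stay exact and the further relators become
central.  Groups presented by lists of words, their universal property, and the glue for
helper35's Todd–Coxeter replay certificates.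
-/

set_option autoImplicit false

namespace Cfsg.Agent.H41.J2P

open Cfsg.Agent.H35

/-- the five generators -/
inductive Gen : Type
  | a | b | c | d | e
  deriving DecidableEq

noncomputable def j_gi : Gen → ℕ := fun x => Gen.rec (motive := fun _ => ℕ) 0 1 2 3 4 x

def j_gens : List Gen := [.a, .b, .c, .d, .e]

def j_gof : ℕ → Gen := fun i => j_gens.getD i .a

theorem j_gof_gi (x : Gen) : j_gof (j_gi x) = x := by cases x <;> rfl

theorem j_gens_all (x : Gen) : x ∈ j_gens := by cases x <;> decide

noncomputable abbrev ju_gi := j_gi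
noncomputable abbrev jw_gi := j_gi
noncomputable abbrev ku_gi := j_gi
noncomputable abbrev kw_gi := j_gi
abbrev ju_gof := j_gof
abbrev jw_gof := j_gof
abbrev ku_gof := j_gof
abbrev kw_gof := j_gof
abbrev ju_gens := j_gens
abbrev jw_gens := j_gens
abbrev ku_gens := j_gens
abbrev kw_gens := j_gens

/-- squares of `a, b, c, d` -/
def sq4 : List (List Gen) := [[.a, .a], [.b, .b], [.c, .c], [.d, .d]]
/-- squares of all generators -/
def sq5 : List (List Gen) := sq4 ++ [[.e, .e]]
/-- the tree relators inside `U₃(3)` -/
def treeU : List (List Gen) :=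
  [[.b, .a, .b, .a, .b, .a], [.b, .c, .b, .c, .b, .c], [.b, .d, .b, .d, .b, .d]]
/-- the tree relators -/
def treeJ : List (List Gen) := treeU ++ [[.b, .e, .b, .e, .b, .e]]

/-- `(ad)²` -/
def wU1 : List Gen := [.a, .d, .a, .d]
/-- `(cd)³` -/
def wU2 : List Gen := [.c, .d, .c, .d, .c, .d]
/-- `(ac)⁴` -/
def wU3 : List Gen := [.a, .c, .a, .c, .a, .c, .a, .c]
/-- `(bdcd)³` -/
def wU4 : List Gen := [.b, .d, .c, .d, .b, .d, .c, .d, .b, .d, .c, .d]
/-- `(acbcd)³` -/
def wU5 : List Gen := [.a, .c, .b, .c, .d, .a, .c, .b, .c, .d, .a, .c, .b, .c, .d]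
/-- `(acd)³` -/
def wU6 : List Gen := [.a, .c, .d, .a, .c, .d, .a, .c, .d]
/-- `a(de)²` -/
def wJ1 : List Gen := [.a, .d, .e, .d, .e]
/-- `(ce)³` -/
def wJ2 : List Gen := [.c, .e, .c, .e, .c, .e]
/-- `(ace)³` -/
def wJ3 : List Gen := [.a, .c, .e, .a, .c, .e, .a, .c, .e]
/-- `(bece)³` -/
def wJ4 : List Gen := [.b, .e, .c, .e, .b, .e, .c, .e, .b, .e, .c, .e]
/-- `(bdce)⁶` -/
def wJ5 : List Gen := [.b, .d, .c, .e, .b, .d, .c, .e, .b, .d, .c, .e, .b, .d, .c, .e,
  .b, .d, .c, .e, .b, .d, .c, .e]

/-- the further relators of `U₃(3)` used in the covering group of `J₂` -/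
def restU0 : List (List Gen) := [wU1, wU2, wU3, wU4, wU5]
/-- the further relators of `U₃(3)` -/
def restU : List (List Gen) := restU0 ++ [wU6]
/-- the further relators of `J₂` -/
def restJ : List (List Gen) := [wJ1, wJ2, wJ3, wJ4, wJ5]

/-- the relators saying that the word `R` commutes with the generators in `gs` -/
def cen (gs : List Gen) (R : List Gen) : List (List Gen) :=
  gs.map (fun g => R ++ [g] ++ R.reverse ++ [g])

def g4 : List Gen := [.a, .b, .c, .d]

/-- the relators of `U₃(3)` (the generator `e` is killed) -/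
def relU : List (List Gen) := sq4 ++ treeU ++ restU ++ [[.e]]
/-- the relators of `J₂` -/
def relW : List (List Gen) := sq5 ++ treeJ ++ restU ++ restJ
/-- the relators of the covering group of `U₃(3)` (the generator `e` is killed) -/
def hatU : List (List Gen) := sq4 ++ treeU ++ restU.flatMap (cen g4) ++ [[.e]]
/-- the relators of the covering group of `J₂` -/
def hatW : List (List Gen) :=
  sq5 ++ treeJ ++ (restU0 ++ restJ).flatMap (cen j_gens) ++ cen j_gens wU6

def ju_rws : List (List Gen × List Gen) := relU.map (fun w => (w, []))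
def jw_rws : List (List Gen × List Gen) := relW.map (fun w => (w, []))
def ku_rws : List (List Gen × List Gen) := hatU.map (fun w => (w, []))
def kw_rws : List (List Gen × List Gen) := hatW.map (fun w => (w, []))
def ju_prels : List (List Gen × ℕ × ℕ) := []
def jw_prels : List (List Gen × ℕ × ℕ) := []
def ku_prels : List (List Gen × ℕ × ℕ) := []
def kw_prels : List (List Gen × ℕ × ℕ) := []

/-- a word in the free group -/
def fw (w : List Gen) : FreeGroup Gen := (w.map FreeGroup.of).prod

/-- the group presented by a list of words -/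
abbrev Pr (L : List (List Gen)) : Type :=
  PresentedGroup {r : FreeGroup Gen | ∃ w ∈ L, r = fw w}

/-- the generators of a presented group -/
def pg (L : List (List Gen)) (x : Gen) : Pr L := PresentedGroup.of x

theorem lift_fw {K : Type*} [Group K] (f : Gen → K) (w : List Gen) :
    FreeGroup.lift f (fw w) = uw f w := by
  unfold fw uw
  rw [map_list_prod, List.map_map]
  congr 1
  apply List.map_congr_left
  intro x _
  simp

theorem uw_pg (L : List (List Gen)) (w : List Gen) :
    uw (pg L) w = PresentedGroup.mk _ (fw w) := by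
  unfold fw uw
  rw [map_list_prod, List.map_map]
  rfl

theorem pg_rel (L : List (List Gen)) (w : List Gen) (hw : w ∈ L) : uw (pg L) w = 1 := by
  rw [uw_pg]
  exact (PresentedGroup.mk_eq_one_iff).2 (Subgroup.subset_normalClosure ⟨w, hw, rfl⟩)

/-- the universal property -/
def up (L : List (List Gen)) {K : Type*} [Group K] (f : Gen → K) (h : ∀ w ∈ L, uw f w = 1) :
    Pr L →* K :=
  PresentedGroup.toGroup (f := f) (by
    rintro r ⟨w, hw, rfl⟩
    rw [lift_fw]
    exact h w hw)

theorem up_pg (L : List (List Gen)) {K : Type*} [Group K] (f : Gen → K)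
    (h : ∀ w ∈ L, uw f w = 1) (x : Gen) : up L f h (pg L x) = f x :=
  PresentedGroup.toGroup.of _

theorem closure_pg (L : List (List Gen)) : Subgroup.closure (Set.range (pg L)) = ⊤ :=
  PresentedGroup.closure_range_of _

theorem hom_ext (L : List (List Gen)) {K : Type*} [Group K] (f g : Pr L →* K)
    (h : ∀ x, f (pg L x) = g (pg L x)) : f = g :=
  PresentedGroup.ext h

theorem map_uw {K K' : Type*} [Group K] [Group K'] (φ : K →* K') (f : Gen → K) (w : List Gen) :
    φ (uw f w) = uw (fun x => φ (f x)) w := by
  unfold uw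
  rw [map_list_prod, List.map_map]
  rfl

theorem uw_append {K : Type*} [Group K] (f : Gen → K) (u v : List Gen) :
    uw f (u ++ v) = uw f u * uw f v := by
  unfold uw
  rw [List.map_append, List.prod_append]

theorem uw_cons {K : Type*} [Group K] (f : Gen → K) (x : Gen) (w : List Gen) :
    uw f (x :: w) = f x * uw f w := by
  simp [uw]

theorem uw_nil {K : Type*} [Group K] (f : Gen → K) : uw f [] = 1 := by
  simp [uw]

theorem uw_reverse {K : Type*} [Group K] (f : Gen → K) (hf : ∀ x, f x * f x = 1) (w : List Gen) :
    uw f w.reverse = (uw f w)⁻¹ := by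
  induction w with
  | nil => simp [uw]
  | cons x w ih =>
    rw [List.reverse_cons, uw_append, ih]
    have h1 : uw f (x :: w) = f x * uw f w := by simp [uw]
    rw [h1, mul_inv_rev]
    congr 1
    have : uw f [x] = f x := by simp [uw]
    rw [this]
    exact eq_inv_of_mul_eq_one_left (hf x)

theorem full_one (L : List (List Gen)) :
    ∀ w ∈ fullW (L.map (fun w => (w, ([] : List Gen)))) [], uw (pg L) w = 1 := by
  apply fullW_one
  · intro r hr
    rw [List.mem_map] at hr
    obtain ⟨w, hw, rfl⟩ := hr
    simpa using pg_rel L w hw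
  · intro r hr
    simp at hr

theorem inv_of_sq (L : List (List Gen)) (x : Gen) (h : [x, x] ∈ L) : pg L x * pg L x = 1 := by
  have h' : uw (pg L) [x, x] = 1 := pg_rel L _ h
  simpa [uw] using h'

theorem one_of_kill (L : List (List Gen)) (x : Gen) (h : [x] ∈ L) : pg L x = 1 := by
  have h' : uw (pg L) [x] = 1 := pg_rel L _ h
  simpa [uw] using h'

theorem relW_inv (x : Gen) : pg relW x * pg relW x = 1 :=
  inv_of_sq relW x (by cases x <;> decide)

theorem hatW_inv (x : Gen) : pg hatW x * pg hatW x = 1 :=
  inv_of_sq hatW x (by cases x <;> decide)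

theorem relU_inv (x : Gen) : pg relU x * pg relU x = 1 := by
  cases x
  · exact inv_of_sq relU _ (by decide)
  · exact inv_of_sq relU _ (by decide)
  · exact inv_of_sq relU _ (by decide)
  · exact inv_of_sq relU _ (by decide)
  · rw [one_of_kill relU .e (by decide), mul_one]

theorem hatU_inv (x : Gen) : pg hatU x * pg hatU x = 1 := by
  cases x
  · exact inv_of_sq hatU _ (by decide)
  · exact inv_of_sq hatU _ (by decide)
  · exact inv_of_sq hatU _ (by decide)
  · exact inv_of_sq hatU _ (by decide)
  · rw [one_of_kill hatU .e (by decide), mul_one]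

end Cfsg.Agent.H41.J2P
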