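import Mathlib
import Cfsg.Prelude.Def_KGroupFacts
import Cfsg.Prelude.Def_Spor_Mathieu
import Cfsg.Agent.H88.M12Fus
import Cfsg.Agent.H9.M12c
import Cfsg.Agent.S0384

/-!
# Explicit elements and sharp 5-transitivity of `M₁₂` (helper41)

Packed permutations (helper34 / helper88 encoding) for a few elements of `Spor.M12`, and the
sharp 5-transitivity of `Spor.M12` on the dodecad of squares (from S0384, helper9) in a form
convenient for explicit points.
-/

set_option autoImplicit false
set_option linter.unusedSectionVars false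
set_option linter.style.haveILetI false

namespace Cfsg.Agent.H41.M12

open Cfsg Cfsg.Agent.H9 Cfsg.Agent.H34 Cfsg.Agent.H88
open scoped Pointwise

def idN : ℕ := 984818244535754528103549039458486304
def tN : ℕ := 984573615201180725592165913404213249
def k1N : ℕ := 233233386906768391987032901617288256
def uN : ℕ := 486338753864131570254606920598427680
def vN : ℕ := 630285153831837282034696675362385952
def iN : ℕ := 715872302521680643580706198532491296
def jN : ℕ := 232652365823391711183829569059784736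
def xN : ℕ := 807624915598249115347046449124282633
def tkN : ℕ := 608132182080247986231149538876424257
def ktN : ℕ := 232830186133421440756815622813352962
def vuN : ℕ := 837957258103530972499076594734112800

theorem tN_ok : okF [0x5335f] tN = true := by decide +kernel
theorem k1N_ok : okF [0x5335f] k1N = true := by decide +kernel
theorem uN_ok : okF [0x5335f] uN = true := by decide +kernel
theorem vN_ok : okF [0x5335f] vN = true := by decide +kernel
theorem iN_ok : okF [0x5335f] iN = true := by decide +kernel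
theorem jN_ok : okF [0x5335f] jN = true := by decide +kernel
theorem xN_ok : okF [0x5335f] xN = true := by decide +kernel
theorem idN_valid : svalid idN = true := by decide +kernel
theorem tkN_valid : svalid tkN = true := by decide +kernel
theorem ktN_valid : svalid ktN = true := by decide +kernel
theorem vuN_valid : svalid vuN = true := by decide +kernel

theorem idN_sv : ∀ i, i < 24 → sv idN i = i := by decide +kernel

theorem lperm_idN : lperm idN = 1 := by
  apply Equiv.ext
  intro p
  apply gIdx_injective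
  rw [gIdx_lperm idN_valid, idN_sv _ (gIdx_lt p)]
  rfl

theorem sval {s : ℕ} (h : okF [0x5335f] s = true) : svalid s = true := Cfsg.Agent.H88.PG.okF_svalid h

/-- Evaluation of a packed permutation at a point. -/
theorem lperm_gPt {s a b : ℕ} (h : svalid s = true) (ha : a < 24) (hb : sv s a = b) :
    lperm s (gPt a) = gPt b := by
  rw [lperm_apply h, gIdx_gPt ha, hb]

theorem mem_dod {a : ℕ} (ha : a < 24) (h : Nat.testBit 0x5335f a = true) :
    gPt a ∈ Spor.squareDodecad := by
  rw [squareDodecad_eq, mem_fs, gIdx_gPt ha]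
  exact h

theorem dod_cases : ∀ n, n < 24 → Nat.testBit 0x5335f n = true →
    n = 0 ∨ n = 1 ∨ n = 2 ∨ n = 3 ∨ n = 4 ∨ n = 6 ∨ n = 8 ∨ n = 9 ∨ n = 12 ∨ n = 13 ∨ n = 16 ∨
      n = 18 := by decide

/-- A point of the dodecad is one of twelve explicit points. -/
theorem eq_gPt_of_mem_dod {q : GolayPt} (hq : q ∈ Spor.squareDodecad) :
    ∃ n, q = gPt n ∧ (n = 0 ∨ n = 1 ∨ n = 2 ∨ n = 3 ∨ n = 4 ∨ n = 6 ∨ n = 8 ∨ n = 9 ∨ n = 12 ∨
      n = 13 ∨ n = 16 ∨ n = 18) := by
  rw [squareDodecad_eq, mem_fs] at hq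
  exact ⟨gIdx q, (gPt_gIdx q).symm, dod_cases _ (gIdx_lt q) hq⟩

theorem gPt_ne {a b : ℕ} (ha : a < 24) (hb : b < 24) (h : a ≠ b) : gPt a ≠ gPt b := by
  intro he
  apply h
  have := congrArg gIdx he
  rwa [gIdx_gPt ha, gIdx_gPt hb] at this

/-- The points of the dodecad, as a type. -/
abbrev Dd : Type := {p : GolayPt // p ∈ Spor.squareDodecad}

theorem card_Dd : Nat.card Dd = 12 := by
  rw [Nat.card_eq_fintype_card, Fintype.card_coe]
  exact squareDodecad_mem.2

theorem mem_M12_iff {g : Equiv.Perm GolayPt} :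
    g ∈ Spor.M12 ↔ g ∈ M24 ∧ g • Spor.squareDodecad = Spor.squareDodecad := Iff.rfl

theorem smul_mem_dod (g : Spor.M12) {p : GolayPt} (hp : p ∈ Spor.squareDodecad) :
    g.1 p ∈ Spor.squareDodecad := by
  have h := (mem_M12_iff.1 g.2).2
  rw [← h]
  exact Finset.smul_mem_smul_finset hp

/-- `k`-transitivity of `M₁₂` on the dodecad, `k ≤ 5`. -/
theorem trans_emb {m : ℕ} (hm : m ≤ 5) (a b : Fin m ↪ Dd) :
    ∃ g : Spor.M12, ∀ i, g.1 (a i).1 = (b i).1 := by
  have h5 : 5 ≤ Nat.card Dd := by rw [card_Dd]; norm_num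
  obtain ⟨a5, ha5⟩ := Fin.Embedding.restrictSurjective_of_le_natCard hm h5 a
  obtain ⟨b5, hb5⟩ := Fin.Embedding.restrictSurjective_of_le_natCard hm h5 b
  obtain ⟨g, hg, -⟩ := Cfsg.Agent.S0384.result Spor.squareDodecad squareDodecad_mem
    (a5.trans (Function.Embedding.subtype _)) (b5.trans (Function.Embedding.subtype _))
    (fun i => (a5 i).2) (fun i => (b5 i).2)
  refine ⟨⟨((g : M24) : Equiv.Perm GolayPt), mem_M12_iff.2
    ⟨(g : M24).2, MulAction.mem_stabilizer_iff.1 g.2⟩⟩, fun i => ?_⟩
  have h1 := hg (Fin.castLE hm i)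
  have e1 : a5 (Fin.castLE hm i) = a i := by rw [← ha5]; rfl
  have e2 : b5 (Fin.castLE hm i) = b i := by rw [← hb5]; rfl
  show ((g : M24) : Equiv.Perm GolayPt) (a i).1 = (b i).1
  rw [← e1, ← e2]
  exact h1

/-- Sharpness: an element of `M₁₂` fixing five points of the dodecad is trivial. -/
theorem sharp_emb (g : Spor.M12) (a : Fin 5 ↪ Dd) (h : ∀ i, g.1 (a i).1 = (a i).1) : g = 1 := by
  have huniq := Cfsg.Agent.S0384.result Spor.squareDodecad squareDodecad_mem
    (a.trans (Function.Embedding.subtype _)) (a.trans (Function.Embedding.subtype _))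
    (fun i => (a i).2) (fun i => (a i).2)
  obtain ⟨g', hg'⟩ : ∃ g' : MulAction.stabilizer M24 Spor.squareDodecad,
      ((g' : M24) : Equiv.Perm GolayPt) = g.1 :=
    ⟨⟨⟨g.1, (mem_M12_iff.1 g.2).1⟩, MulAction.mem_stabilizer_iff.2 (mem_M12_iff.1 g.2).2⟩, rfl⟩
  have h1 : g' = 1 := by
    apply huniq.unique
    · intro i
      rw [hg']
      exact h i
    · intro i
      rfl
  apply Subtype.ext
  rw [← hg', h1]
  rfl

/-- Transitivity for tuples of points given as functions. -/
theorem trans_pts {m : ℕ} (hm : m ≤ 5) (a b : Fin m → GolayPt)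
    (ha : ∀ i, a i ∈ Spor.squareDodecad) (hb : ∀ i, b i ∈ Spor.squareDodecad)
    (hai : Function.Injective a) (hbi : Function.Injective b) :
    ∃ g : Spor.M12, ∀ i, g.1 (a i) = b i :=
  trans_emb hm ⟨fun i => ⟨a i, ha i⟩, fun i j h => hai (congrArg Subtype.val h)⟩
    ⟨fun i => ⟨b i, hb i⟩, fun i j h => hbi (congrArg Subtype.val h)⟩

theorem sharp_pts (g : Spor.M12) (a : Fin 5 → GolayPt) (ha : ∀ i, a i ∈ Spor.squareDodecad)
    (hai : Function.Injective a) (h : ∀ i, g.1 (a i) = a i) : g = 1 :=
  sharp_emb g ⟨fun i => ⟨a i, ha i⟩, fun i j h => hai (congrArg Subtype.val h)⟩ h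

section Inj

variable {α : Type*}

theorem inj2 (a b : α) (hab : a ≠ b) : Function.Injective ![a, b] := by
  intro i j h
  fin_cases i <;> fin_cases j <;> first | rfl | (exfalso; simp at h; tauto)

theorem inj3 (a b c : α) (hab : a ≠ b) (hac : a ≠ c) (hbc : b ≠ c) :
    Function.Injective ![a, b, c] := by
  intro i j h
  fin_cases i <;> fin_cases j <;> first | rfl | (exfalso; simp at h; tauto)

theorem inj4 (a b c d : α) (hab : a ≠ b) (hac : a ≠ c) (had : a ≠ d) (hbc : b ≠ c)
    (hbd : b ≠ d) (hcd : c ≠ d) : Function.Injective ![a, b, c, d] := by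
  intro i j h
  fin_cases i <;> fin_cases j <;> first | rfl | (exfalso; simp at h; tauto)

theorem inj5 (a b c d e : α) (hab : a ≠ b) (hac : a ≠ c) (had : a ≠ d) (hae : a ≠ e)
    (hbc : b ≠ c) (hbd : b ≠ d) (hbe : b ≠ e) (hcd : c ≠ d) (hce : c ≠ e) (hde : d ≠ e) :
    Function.Injective ![a, b, c, d, e] := by
  intro i j h
  fin_cases i <;> fin_cases j <;> first | rfl | (exfalso; simp at h; tauto)

end Inj

end Cfsg.Agent.H41.M12
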