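import Mathlib
import Cfsg.Prelude.Def_KGroupFacts
import Cfsg.Agent.H41.Spin
import Cfsg.Agent.H41.Spin2
import Cfsg.Agent.H41.Cover2
import Cfsg.Agent.H41.SchurCover2

/-!
# Double covers from fixed-point-free involutions (helper41)

A perfect finite group `G` with a homomorphism to `A_n` under which some involution goes to a
product of six disjoint transpositions has a stem extension with kernel of order two: in the
spin cover every lift of such a permutation has order four.
-/

set_option autoImplicit false
set_option linter.unusedSectionVars false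
set_option linter.style.haveILetI false
set_option linter.unusedSimpArgs false

namespace Cfsg.Agent.H41.Spin

open Cfsg
open scoped commutatorElement

section Abstract

variable {A : Type*} [Ring A]

theorem abs_pair_sq (a b : A) (hab : a * b = -(b * a)) (ha : a * a = -1) (hb : b * b = -1) :
    (a * b) * (a * b) = -1 := by
  have hba : b * a = -(a * b) := by rw [hab, neg_neg]
  calc a * b * (a * b) = a * (b * a) * b := by simp only [mul_assoc]
    _ = a * (-(a * b)) * b := by rw [hba]
    _ = -((a * a) * (b * b)) := by simp only [mul_neg, neg_mul, mul_assoc]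
    _ = -1 := by rw [ha, hb]; simp

theorem abs_pair_comm (a b c d : A) (hac : a * c = -(c * a)) (had : a * d = -(d * a))
    (hbc : b * c = -(c * b)) (hbd : b * d = -(d * b)) :
    (a * b) * (c * d) = (c * d) * (a * b) := by
  calc a * b * (c * d) = a * (b * c) * d := by simp only [mul_assoc]
    _ = a * (-(c * b)) * d := by rw [hbc]
    _ = -((a * c) * (b * d)) := by simp only [mul_neg, neg_mul, mul_assoc]
    _ = -((-(c * a)) * (-(d * b))) := by rw [hac, hbd]
    _ = -(c * (a * d) * b) := by simp only [mul_neg, neg_mul, neg_neg, mul_assoc]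
    _ = -(c * (-(d * a)) * b) := by rw [had]
    _ = c * d * (a * b) := by simp only [mul_neg, neg_mul, neg_neg, mul_assoc]

theorem abs_triple_sq (P Q R : A) (hPQ : P * Q = Q * P) (hPR : P * R = R * P)
    (hQR : Q * R = R * Q) (hP : P * P = -1) (hQ : Q * Q = -1) (hR : R * R = -1) :
    (P * Q * R) * (P * Q * R) = -1 := by
  calc P * Q * R * (P * Q * R) = P * Q * (R * P) * Q * R := by simp only [mul_assoc]
    _ = P * Q * (P * R) * Q * R := by rw [hPR]
    _ = P * (Q * P) * (R * Q) * R := by simp only [mul_assoc]
    _ = P * (P * Q) * (Q * R) * R := by rw [hPQ, hQR]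
    _ = (P * P) * (Q * Q) * (R * R) := by simp only [mul_assoc]
    _ = -1 := by rw [hP, hQ, hR]; simp

end Abstract

variable {n : ℕ}

/-- The lift of a product of six disjoint transpositions squares to the central involution. -/
theorem six_swaps_lift_sq (f : Fin 12 → Fin n) (hf : Function.Injective f) (g : GamSub n)
    (hg : ((proj n g : alternatingGroup (Fin n)) : Equiv.Perm (Fin n)) =
      Equiv.swap (f 0) (f 1) * Equiv.swap (f 2) (f 3) *
        (Equiv.swap (f 4) (f 5) * Equiv.swap (f 6) (f 7)) *
        (Equiv.swap (f 8) (f 9) * Equiv.swap (f 10) (f 11))) :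
    g * g = zEl := by
  have hne : ∀ i j : Fin 12, i ≠ j → f i ≠ f j := fun i j h => hf.ne h
  obtain ⟨g0, hg0⟩ : ∃ g0 : GamSub n, g0 =
      (⟨_, pair_mem (f 0) (f 1) (f 2) (f 3) (hne 0 1 (by decide)) (hne 2 3 (by decide))⟩ :
        GamSub n) *
      ⟨_, pair_mem (f 4) (f 5) (f 6) (f 7) (hne 4 5 (by decide)) (hne 6 7 (by decide))⟩ *
      ⟨_, pair_mem (f 8) (f 9) (f 10) (f 11) (hne 8 9 (by decide)) (hne 10 11 (by decide))⟩ :=
    ⟨_, rfl⟩
  have hac : ∀ i j k l : Fin 12, i ≠ k → i ≠ l → j ≠ k → j ≠ l →
      v (f i) (f j) * v (f k) (f l) = -(v (f k) (f l) * v (f i) (f j)) :=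
    fun i j k l h1 h2 h3 h4 => v_anticomm _ _ _ _ (hne _ _ h1) (hne _ _ h2) (hne _ _ h3) (hne _ _ h4)
  have hsq : ∀ i j : Fin 12, i ≠ j → v (f i) (f j) * v (f i) (f j) = -1 :=
    fun i j h => v_mul_self _ _ (hne _ _ h)
  have hg0sq : g0 * g0 = zEl := by
    apply eq_zEl_of_fst
    apply Units.ext
    rw [hg0]
    show (v (f 0) (f 1) * v (f 2) (f 3) * (v (f 4) (f 5) * v (f 6) (f 7)) *
        (v (f 8) (f 9) * v (f 10) (f 11))) *
      (v (f 0) (f 1) * v (f 2) (f 3) * (v (f 4) (f 5) * v (f 6) (f 7)) *
        (v (f 8) (f 9) * v (f 10) (f 11))) = ((-1 : (R n)ˣ) : R n)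
    rw [Units.val_neg, Units.val_one]
    apply abs_triple_sq
    · exact abs_pair_comm _ _ _ _ (hac 0 1 4 5 (by decide) (by decide) (by decide) (by decide))
        (hac 0 1 6 7 (by decide) (by decide) (by decide) (by decide))
        (hac 2 3 4 5 (by decide) (by decide) (by decide) (by decide))
        (hac 2 3 6 7 (by decide) (by decide) (by decide) (by decide))
    · exact abs_pair_comm _ _ _ _ (hac 0 1 8 9 (by decide) (by decide) (by decide) (by decide))
        (hac 0 1 10 11 (by decide) (by decide) (by decide) (by decide))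
        (hac 2 3 8 9 (by decide) (by decide) (by decide) (by decide))
        (hac 2 3 10 11 (by decide) (by decide) (by decide) (by decide))
    · exact abs_pair_comm _ _ _ _ (hac 4 5 8 9 (by decide) (by decide) (by decide) (by decide))
        (hac 4 5 10 11 (by decide) (by decide) (by decide) (by decide))
        (hac 6 7 8 9 (by decide) (by decide) (by decide) (by decide))
        (hac 6 7 10 11 (by decide) (by decide) (by decide) (by decide))
    · exact abs_pair_sq _ _ (hac 0 1 2 3 (by decide) (by decide) (by decide) (by decide))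
        (hsq 0 1 (by decide)) (hsq 2 3 (by decide))
    · exact abs_pair_sq _ _ (hac 4 5 6 7 (by decide) (by decide) (by decide) (by decide))
        (hsq 4 5 (by decide)) (hsq 6 7 (by decide))
    · exact abs_pair_sq _ _ (hac 8 9 10 11 (by decide) (by decide) (by decide) (by decide))
        (hsq 8 9 (by decide)) (hsq 10 11 (by decide))
  have hproj : proj n g0 = proj n g := by
    apply Subtype.ext
    rw [hg, hg0]
    rfl
  have hz2 : (zEl : GamSub n) * zEl = 1 := by
    have := orderOf_zEl (n := n)
    rw [← pow_two, ← this]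
    exact pow_orderOf_eq_one _
  have hzc : ∀ x : GamSub n, x * zEl = zEl * x :=
    Subgroup.mem_center_iff.1 zEl_mem_center
  have h1 : proj n (g0⁻¹ * g) = 1 := by
    rw [map_mul, map_inv, hproj, inv_mul_cancel]
  rcases eq_one_or_eq_zEl _ h1 with h | h
  · have : g = g0 := by
      calc g = g0 * (g0⁻¹ * g) := by group
        _ = g0 := by rw [h, mul_one]
    rw [this]; exact hg0sq
  · have : g = g0 * zEl := by
      calc g = g0 * (g0⁻¹ * g) := by group
        _ = g0 * zEl := by rw [h]
    rw [this]
    calc g0 * zEl * (g0 * zEl) = g0 * (zEl * g0) * zEl := by simp only [mul_assoc]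
      _ = g0 * (g0 * zEl) * zEl := by rw [hzc g0]
      _ = (g0 * g0) * (zEl * zEl) := by simp only [mul_assoc]
      _ = zEl := by rw [hg0sq, hz2, mul_one]

/-- A perfect finite group mapping to `A_n` with an involution going to a product of six
disjoint transpositions has a stem extension with kernel of order `2`. -/
theorem exists_double_cover_of_six_swaps {G : Type} [Group G] [Finite G]
    (hperf : commutator G = ⊤) (ι : G →* alternatingGroup (Fin n)) (x : G) (hx : x * x = 1)
    (f : Fin 12 → Fin n) (hf : Function.Injective f)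
    (hιx : ((ι x : alternatingGroup (Fin n)) : Equiv.Perm (Fin n)) =
      Equiv.swap (f 0) (f 1) * Equiv.swap (f 2) (f 3) *
        (Equiv.swap (f 4) (f 5) * Equiv.swap (f 6) (f 7)) *
        (Equiv.swap (f 8) (f 9) * Equiv.swap (f 10) (f 11))) :
    ∃ (Γ : Type) (_ : Group Γ) (_ : Finite Γ) (σ : Γ →* G), IsStemExtension σ ∧
      Nonempty (σ.ker ≃* Multiplicative (ZMod 2)) := by
  have hs : Function.Surjective (pullbackFst ι (proj n)) :=
    pullbackFst_surjective ι (proj n) proj_surjective
  have hc : (pullbackFst ι (proj n)).ker ≤ Subgroup.center (pullback ι (proj n)) := by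
    apply pullbackFst_ker_le_center
    rw [ker_proj, Subgroup.zpowers_le]
    exact zEl_mem_center
  obtain ⟨z', hz'⟩ : ∃ z' : pullback ι (proj n), z' = ⟨(1, zEl), by
      rw [mem_pullback, map_one]; rfl⟩ := ⟨_, rfl⟩
  have hz'ker : z' ∈ (pullbackFst ι (proj n)).ker := by
    rw [hz']; rfl
  have hz'1 : z' ≠ 1 := by
    intro h
    rw [hz'] at h
    have h2 : (zEl : GamSub n) = 1 := congrArg (fun w : pullback ι (proj n) => w.1.2) h
    exact zEl_ne_one h2
  have hall : ∀ w ∈ (pullbackFst ι (proj n)).ker, w = 1 ∨ w = z' := by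
    intro w hw
    have h1 : w.1.1 = 1 := hw
    have h2 : proj n w.1.2 = 1 := by
      have := w.2
      rw [mem_pullback, h1, map_one] at this
      exact this.symm
    rcases eq_one_or_eq_zEl w.1.2 h2 with h | h
    · left; exact Subtype.ext (Prod.ext h1 h)
    · right; rw [hz']; exact Subtype.ext (Prod.ext h1 h)
  have hz'comm : z' ∈ commutator (pullback ι (proj n)) := by
    have hmap := map_commutator_of_surjective (pullbackFst ι (proj n)) hs
    have hxm : x ∈ Subgroup.map (pullbackFst ι (proj n)) (commutator (pullback ι (proj n))) := by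
      rw [hmap, hperf]; exact Subgroup.mem_top x
    obtain ⟨w, hw, hwx⟩ := hxm
    have hw1 : w.1.1 = x := hwx
    have hw2 : proj n w.1.2 = ι x := by
      have := w.2
      rw [mem_pullback, hw1] at this
      exact this.symm
    have hsq : w.1.2 * w.1.2 = zEl := by
      apply six_swaps_lift_sq f hf
      rw [hw2]; exact hιx
    have hww : w * w = z' := by
      rw [hz']
      apply Subtype.ext
      apply Prod.ext
      · show w.1.1 * w.1.1 = 1
        rw [hw1, hx]
      · exact hsq
    rw [← hww]
    exact Subgroup.mul_mem _ hw hw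
  refine ⟨pullback ι (proj n), inferInstance, inferInstance, pullbackFst ι (proj n),
    ⟨hs, hc, ?_⟩, ?_⟩
  · intro w hw
    rcases hall w hw with h | h
    · rw [h]; exact Subgroup.one_mem _
    · rw [h]; exact hz'comm
  · have hcard : Nat.card (pullbackFst ι (proj n)).ker = 2 := by
      rw [Nat.card_eq_two_iff]
      refine ⟨1, ⟨z', hz'ker⟩, ?_, ?_⟩
      · intro h
        exact hz'1 (congrArg Subtype.val h).symm
      · ext w
        simp only [Set.mem_insert_iff, Set.mem_singleton_iff, Set.mem_univ, iff_true]
        rcases hall w.1 w.2 with h | h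
        · left; exact Subtype.ext h
        · right; exact Subtype.ext h
    haveI : Fact (Nat.Prime 2) := ⟨Nat.prime_two⟩
    haveI hcyc : IsCyclic (pullbackFst ι (proj n)).ker := isCyclic_of_prime_card hcard
    have e := zmodCyclicMulEquiv hcyc
    rw [hcard] at e
    exact ⟨e.symm⟩

end Cfsg.Agent.H41.Spin
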