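import Mathlib
import Cfsg.Prelude.Def_KGroupFacts
import Cfsg.Prelude.Def_Spor_Mathieu
import Cfsg.Agent.H41.M12Base
import Cfsg.Agent.H41.TwoPoint
import Cfsg.Agent.H41.SpinInv
import Cfsg.Agent.H41.M11Mult
import Cfsg.Agent.H41.Cover2
import Cfsg.Agent.H41.StemAb
import Cfsg.Agent.H41.Restrict

/-!
# The Schur multiplier of `M₁₂` is cyclic of order 2 (helper41)

Upper bound: `M₁₂` is sharply 5-transitive on the dodecad (S0384, helper9); the point stabiliser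
`M₁₁` is perfect with trivial multiplier (S2034), so every stem extension splits over it, and
`TwoPoint.main` shows that the kernel is a homomorphic image of the two-point stabiliser `M₁₀`,
whose abelianisation has order 2.  Existence: the spin cover of `A₁₂` restricted to `M₁₂`.
-/

set_option autoImplicit false
set_option linter.unusedSectionVars false
set_option linter.style.haveILetI false
set_option linter.unusedVariables false
set_option linter.unusedSimpArgs false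

namespace Cfsg.Agent.H41.M12

open Cfsg Cfsg.Agent.H9 Cfsg.Agent.H34 Cfsg.Agent.H88
open scoped Pointwise

theorem mul_eq {s t u : ℕ} (hs : svalid s = true) (ht : svalid t = true) (hu : svalid u = true)
    (h : mulB s t u idN = true) : lperm s * lperm t = lperm u := by
  have := mulB_sound hs ht hu idN_valid h
  rwa [lperm_idN, mul_one] at this

theorem mul_eq_one {s t : ℕ} (hs : svalid s = true) (ht : svalid t = true)
    (h : mulB s t idN idN = true) : lperm s * lperm t = 1 := by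
  have := mulB_sound hs ht idN_valid idN_valid h
  rwa [lperm_idN, mul_one] at this

noncomputable def gt : Spor.M12 := ⟨lperm tN, Cfsg.Agent.H88.M12D.okF_mem _ tN_ok⟩
noncomputable def gk : Spor.M12 := ⟨lperm k1N, Cfsg.Agent.H88.M12D.okF_mem _ k1N_ok⟩
noncomputable def gu : Spor.M12 := ⟨lperm uN, Cfsg.Agent.H88.M12D.okF_mem _ uN_ok⟩
noncomputable def gv : Spor.M12 := ⟨lperm vN, Cfsg.Agent.H88.M12D.okF_mem _ vN_ok⟩
noncomputable def gi : Spor.M12 := ⟨lperm iN, Cfsg.Agent.H88.M12D.okF_mem _ iN_ok⟩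
noncomputable def gj : Spor.M12 := ⟨lperm jN, Cfsg.Agent.H88.M12D.okF_mem _ jN_ok⟩
noncomputable def gx : Spor.M12 := ⟨lperm xN, Cfsg.Agent.H88.M12D.okF_mem _ xN_ok⟩

theorem gt_sq : gt * gt = 1 :=
  Subtype.ext (mul_eq_one (sval tN_ok) (sval tN_ok) (by decide +kernel))

theorem gk_sq : gk * gk = 1 :=
  Subtype.ext (mul_eq_one (sval k1N_ok) (sval k1N_ok) (by decide +kernel))

theorem gx_sq : gx * gx = 1 :=
  Subtype.ext (mul_eq_one (sval xN_ok) (sval xN_ok) (by decide +kernel))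

theorem braid : gt * gk * gt = gk * gt * gk := by
  apply Subtype.ext
  show lperm tN * lperm k1N * lperm tN = lperm k1N * lperm tN * lperm k1N
  rw [mul_eq (sval tN_ok) (sval k1N_ok) tkN_valid (by decide +kernel),
    mul_eq (sval k1N_ok) (sval tN_ok) ktN_valid (by decide +kernel)]
  exact mulB_sound tkN_valid (sval tN_ok) ktN_valid (sval k1N_ok) (by decide +kernel)

theorem uv_rel : gu * gv = gi * (gv * gu) := by
  apply Subtype.ext
  show lperm uN * lperm vN = lperm iN * (lperm vN * lperm uN)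
  rw [mul_eq (sval vN_ok) (sval uN_ok) vuN_valid (by decide +kernel)]
  exact mulB_sound (sval uN_ok) (sval vN_ok) (sval iN_ok) vuN_valid (by decide +kernel)

theorem jj_rel : gj * gj = gi * gi :=
  Subtype.ext (mulB_sound (sval jN_ok) (sval jN_ok) (sval iN_ok) (sval iN_ok) (by decide +kernel))

/-- Evaluation of our elements at points: `ev s a b` proves `lperm s (gPt a) = gPt b`. -/
theorem ev {s : ℕ} (h : okF [0x5335f] s = true) (a b : ℕ) (ha : a < 24) (hb : sv s a = b) :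
    lperm s (gPt a) = gPt b := lperm_gPt (sval h) ha hb

/-- The point stabiliser `M₁₁`, inside `M₁₂`. -/
def K : Subgroup Spor.M12 := Spor.M11.subgroupOf Spor.M12

theorem mem_K {g : Spor.M12} : g ∈ K ↔ g.1 (gPt 0) = gPt 0 := by
  rw [K, Subgroup.mem_subgroupOf, mem_sporM11]
  constructor
  · exact fun h => h.2.2
  · intro h
    refine ⟨(mem_M12_iff.1 g.2).1, ?_, h⟩
    rw [← squareDodecad_eq]
    exact (mem_M12_iff.1 g.2).2

/-- The two-point stabiliser `M₁₀`. -/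
def D : Subgroup Spor.M12 where
  carrier := {g | g.1 (gPt 0) = gPt 0 ∧ g.1 (gPt 1) = gPt 1}
  one_mem' := ⟨rfl, rfl⟩
  mul_mem' := by
    rintro a b ⟨ha0, ha1⟩ ⟨hb0, hb1⟩
    refine ⟨?_, ?_⟩
    · show a.1 (b.1 (gPt 0)) = gPt 0
      rw [hb0, ha0]
    · show a.1 (b.1 (gPt 1)) = gPt 1
      rw [hb1, ha1]
  inv_mem' := by
    rintro a ⟨ha0, ha1⟩
    refine ⟨?_, ?_⟩
    · show (a.1)⁻¹ (gPt 0) = gPt 0
      rw [Equiv.Perm.inv_eq_iff_eq, ha0]
    · show (a.1)⁻¹ (gPt 1) = gPt 1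
      rw [Equiv.Perm.inv_eq_iff_eq, ha1]

theorem mem_D {g : Spor.M12} : g ∈ D ↔ g.1 (gPt 0) = gPt 0 ∧ g.1 (gPt 1) = gPt 1 := Iff.rfl

theorem D_le_K : D ≤ K := fun g hg => mem_K.2 (mem_D.1 hg).1

theorem t0 : gt.1 (gPt 0) = gPt 1 := ev tN_ok 0 1 (by norm_num) (by decide +kernel)
theorem t1 : gt.1 (gPt 1) = gPt 0 := ev tN_ok 1 0 (by norm_num) (by decide +kernel)
theorem k0 : gk.1 (gPt 0) = gPt 0 := ev k1N_ok 0 0 (by norm_num) (by decide +kernel)
theorem k1 : gk.1 (gPt 1) = gPt 2 := ev k1N_ok 1 2 (by norm_num) (by decide +kernel)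

theorem d0 : gPt 0 ∈ Spor.squareDodecad := mem_dod (by norm_num) (by decide)
theorem d1 : gPt 1 ∈ Spor.squareDodecad := mem_dod (by norm_num) (by decide)
theorem d2 : gPt 2 ∈ Spor.squareDodecad := mem_dod (by norm_num) (by decide)
theorem d3 : gPt 3 ∈ Spor.squareDodecad := mem_dod (by norm_num) (by decide)
theorem d4 : gPt 4 ∈ Spor.squareDodecad := mem_dod (by norm_num) (by decide)
theorem d9 : gPt 9 ∈ Spor.squareDodecad := mem_dod (by norm_num) (by decide)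

theorem gt_notMem : gt ∉ K := by
  rw [mem_K, t0]
  exact gPt_ne (by norm_num) (by norm_num) (by norm_num)

theorem gk_mem : gk ∈ K := mem_K.2 k0

theorem hD (d : Spor.M12) (hd : d ∈ K) : d ∈ D ↔ gt * d * gt ∈ K := by
  rw [mem_K] at hd
  rw [mem_D, mem_K]
  have e : (gt * d * gt).1 (gPt 0) = gt.1 (d.1 (gPt 1)) := by
    show gt.1 (d.1 (gt.1 (gPt 0))) = _
    rw [t0]
  rw [e]
  constructor
  · rintro ⟨-, h1⟩
    rw [h1, t1]
  · intro h
    refine ⟨hd, ?_⟩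
    apply gt.1.injective
    rw [h, t1]

theorem h2T (g : Spor.M12) : g ∈ K ∨ ∃ k ∈ K, ∃ k' ∈ K, g = k * gt * k' := by
  by_cases hg : g ∈ K
  · exact Or.inl hg
  right
  rw [mem_K] at hg
  have hq : g.1 (gPt 0) ∈ Spor.squareDodecad := smul_mem_dod g d0
  obtain ⟨k, hk⟩ := trans_pts (m := 2) (by norm_num) ![gPt 0, gPt 1] ![gPt 0, g.1 (gPt 0)]
    (fun i => by fin_cases i; exacts [d0, d1]) (fun i => by fin_cases i; exacts [d0, hq])
    (inj2 _ _ (gPt_ne (by norm_num) (by norm_num) (by norm_num)))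
    (inj2 _ _ (fun h => hg h.symm))
  have hk0 : k.1 (gPt 0) = gPt 0 := hk 0
  have hk1 : k.1 (gPt 1) = g.1 (gPt 0) := hk 1
  refine ⟨k, mem_K.2 hk0, (k * gt)⁻¹ * g, ?_, by group⟩
  rw [mem_K]
  show (k.1 * gt.1)⁻¹ (g.1 (gPt 0)) = gPt 0
  rw [Equiv.Perm.inv_eq_iff_eq, Equiv.Perm.mul_apply, t0, hk1]

theorem h3T (k : Spor.M12) (hk : k ∈ K) : k ∈ D ∨ ∃ d ∈ D, ∃ d' ∈ D, k = d * gk * d' := by
  by_cases hkD : k ∈ D
  · exact Or.inl hkD
  right
  rw [mem_K] at hk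
  have hk1 : k.1 (gPt 1) ≠ gPt 1 := fun h => hkD (mem_D.2 ⟨hk, h⟩)
  have hk0 : k.1 (gPt 1) ≠ gPt 0 := by
    intro h
    rw [← hk] at h
    exact gPt_ne (by norm_num) (by norm_num) (by norm_num : (1 : ℕ) ≠ 0) (k.1.injective h)
  have hq : k.1 (gPt 1) ∈ Spor.squareDodecad := smul_mem_dod k d1
  obtain ⟨e, he⟩ := trans_pts (m := 3) (by norm_num) ![gPt 0, gPt 1, gPt 2]
    ![gPt 0, gPt 1, k.1 (gPt 1)]
    (fun i => by fin_cases i; exacts [d0, d1, d2]) (fun i => by fin_cases i; exacts [d0, d1, hq])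
    (inj3 _ _ _ (gPt_ne (by norm_num) (by norm_num) (by norm_num))
      (gPt_ne (by norm_num) (by norm_num) (by norm_num))
      (gPt_ne (by norm_num) (by norm_num) (by norm_num)))
    (inj3 _ _ _ (gPt_ne (by norm_num) (by norm_num) (by norm_num)) (fun h => hk0 h.symm)
      (fun h => hk1 h.symm))
  have he0 : e.1 (gPt 0) = gPt 0 := he 0
  have he1 : e.1 (gPt 1) = gPt 1 := he 1
  have he2 : e.1 (gPt 2) = k.1 (gPt 1) := he 2
  refine ⟨e, mem_D.2 ⟨he0, he1⟩, (e * gk)⁻¹ * k, ?_, by group⟩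
  rw [mem_D]
  constructor
  · show (e.1 * gk.1)⁻¹ (k.1 (gPt 0)) = gPt 0
    rw [Equiv.Perm.inv_eq_iff_eq, Equiv.Perm.mul_apply, k0, he0, hk]
  · show (e.1 * gk.1)⁻¹ (k.1 (gPt 1)) = gPt 1
    rw [Equiv.Perm.inv_eq_iff_eq, Equiv.Perm.mul_apply, k1, he2]

/-! ### Perfectness and the section over `M₁₁` -/

theorem commutator_eq_top_of_simple {G : Type*} [Group G] [Finite G] [IsSimpleGroup G]
    (h : ¬ (Nat.card G).Prime) : commutator G = ⊤ := by
  rcases Subgroup.Normal.eq_bot_or_eq_top (inferInstance : (commutator G).Normal) with h0 | h0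
  · exfalso
    rw [commutator_eq_bot_iff_center_eq_top] at h0
    letI : CommGroup G := { (inferInstance : Group G) with
      mul_comm := fun a b => by
        have : a ∈ Subgroup.center G := by rw [h0]; exact Subgroup.mem_top a
        exact (Subgroup.mem_center_iff.1 this b).symm }
    exact h IsSimpleGroup.prime_card
  · exact h0

instance : Finite Spor.M12 :=
  Nat.finite_of_card_ne_zero (by rw [Cfsg.Agent.H88.M12D.card_sporM12]; norm_num)

theorem m11_simple : IsSimpleGroup Spor.M11 := by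
  haveI := dod_pt_stab_simple squareDodecad_mem some_zero_mem
  have e1 := (MulAction.stabilizer M24 Spor.squareDodecad ⊓
    MulAction.stabilizer M24 (some 0 : GolayPt)).equivMapOfInjective M24.subtype
      M24.subtype_injective
  have e2 := MulEquiv.subgroupCongr sporM11_eq_map
  exact (e1.trans e2).symm.isSimpleGroup

theorem m12_eq_map :
    (MulAction.stabilizer M24 Spor.squareDodecad).map M24.subtype = Spor.M12 := by
  ext g
  constructor
  · rintro ⟨h, hh, rfl⟩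
    exact ⟨h.2, hh⟩
  · rintro ⟨hg, h1⟩
    exact ⟨⟨g, hg⟩, h1, rfl⟩

theorem m12_simple : IsSimpleGroup Spor.M12 := by
  haveI := dod_stab_simple squareDodecad_mem
  have e1 := (MulAction.stabilizer M24 Spor.squareDodecad).equivMapOfInjective M24.subtype
      M24.subtype_injective
  have e2 := MulEquiv.subgroupCongr m12_eq_map
  exact (e1.trans e2).symm.isSimpleGroup

theorem m11_perfect : Group.IsPerfect Spor.M11 := by
  haveI := m11_simple
  refine ⟨commutator_eq_top_of_simple ?_⟩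
  rw [card_sporM11]
  norm_num

theorem m12_perfect : commutator Spor.M12 = ⊤ := by
  haveI := m12_simple
  apply commutator_eq_top_of_simple
  rw [Cfsg.Agent.H88.M12D.card_sporM12]
  norm_num

/-- A multiplicative section over `M₁₁` of any central extension of `M₁₂`. -/
theorem exists_section {Γ : Type} [Group Γ] [Finite Γ] (σ : Γ →* Spor.M12)
    (hs : Function.Surjective σ) (hc : σ.ker ≤ Subgroup.center Γ) :
    ∃ S : Spor.M12 → Γ, (∀ a ∈ K, ∀ b ∈ K, S (a * b) = S a * S b) ∧ ∀ a ∈ K, σ (S a) = a := by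
  classical
  have hle : Spor.M11 ≤ Spor.M12 := inf_le_left
  obtain ⟨e, he⟩ : ∃ e : K ≃* Spor.M11, e = Subgroup.subgroupOfEquivOfLe hle := ⟨_, rfl⟩
  obtain ⟨p, hp⟩ : ∃ p : ↥(K.comap σ) →* Spor.M11,
      p = e.toMonoidHom.comp (σ.subgroupComap K) := ⟨_, rfl⟩
  have hps : Function.Surjective p := by
    rw [hp]
    exact e.surjective.comp (σ.subgroupComap_surjective_of_surjective K hs)
  have hpc : p.ker ≤ Subgroup.center ↥(K.comap σ) := by
    have h1 := subgroupComap_ker_le_center σ hc K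
    intro x hx
    apply h1
    rw [MonoidHom.mem_ker] at hx ⊢
    rw [hp] at hx
    exact e.injective (by rw [map_one]; exact hx)
  obtain ⟨s, hs'⟩ := exists_section_of_perfect m11_perfect
    M11.m11_hasCyclicSchurMultiplier_one p hps hpc
  have hs'' : ∀ y : Spor.M11, (σ.subgroupComap K) (s y) = e.symm y := by
    intro y
    apply e.injective
    rw [MulEquiv.apply_symm_apply]
    have := congrArg (fun f => f y) hs'
    rw [hp] at this
    exact this
  refine ⟨fun g => if h : g ∈ K then ((s (e ⟨g, h⟩) : ↥(K.comap σ)) : Γ) else 1, ?_, ?_⟩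
  · intro a ha b hb
    simp only [dif_pos ha, dif_pos hb, dif_pos (K.mul_mem ha hb)]
    have : (⟨a * b, K.mul_mem ha hb⟩ : K) = ⟨a, ha⟩ * ⟨b, hb⟩ := rfl
    rw [this, map_mul, map_mul]
    rfl
  · intro a ha
    simp only [dif_pos ha]
    have h1 := hs'' (e ⟨a, ha⟩)
    rw [MulEquiv.symm_apply_apply] at h1
    exact congrArg Subtype.val h1

/-! ### Homomorphisms from `M₁₀` to abelian groups -/

theorem i0 : gi.1 (gPt 0) = gPt 0 := ev iN_ok 0 0 (by norm_num) (by decide +kernel)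
theorem i1 : gi.1 (gPt 1) = gPt 1 := ev iN_ok 1 1 (by norm_num) (by decide +kernel)
theorem i2 : gi.1 (gPt 2) = gPt 2 := ev iN_ok 2 2 (by norm_num) (by decide +kernel)
theorem i3 : gi.1 (gPt 3) = gPt 3 := ev iN_ok 3 3 (by norm_num) (by decide +kernel)
theorem i4 : gi.1 (gPt 4) = gPt 9 := ev iN_ok 4 9 (by norm_num) (by decide +kernel)
theorem i9 : gi.1 (gPt 9) = gPt 12 := ev iN_ok 9 12 (by norm_num) (by decide +kernel)
theorem i12 : gi.1 (gPt 12) = gPt 6 := ev iN_ok 12 6 (by norm_num) (by decide +kernel)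
theorem i18 : gi.1 (gPt 18) = gPt 16 := ev iN_ok 18 16 (by norm_num) (by decide +kernel)
theorem i16 : gi.1 (gPt 16) = gPt 13 := ev iN_ok 16 13 (by norm_num) (by decide +kernel)
theorem i13 : gi.1 (gPt 13) = gPt 8 := ev iN_ok 13 8 (by norm_num) (by decide +kernel)
theorem j0 : gj.1 (gPt 0) = gPt 0 := ev jN_ok 0 0 (by norm_num) (by decide +kernel)
theorem j1 : gj.1 (gPt 1) = gPt 1 := ev jN_ok 1 1 (by norm_num) (by decide +kernel)
theorem j2 : gj.1 (gPt 2) = gPt 2 := ev jN_ok 2 2 (by norm_num) (by decide +kernel)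
theorem j3 : gj.1 (gPt 3) = gPt 3 := ev jN_ok 3 3 (by norm_num) (by decide +kernel)
theorem j4 : gj.1 (gPt 4) = gPt 18 := ev jN_ok 4 18 (by norm_num) (by decide +kernel)
theorem u0 : gu.1 (gPt 0) = gPt 0 := ev uN_ok 0 0 (by norm_num) (by decide +kernel)
theorem u1 : gu.1 (gPt 1) = gPt 1 := ev uN_ok 1 1 (by norm_num) (by decide +kernel)
theorem v0 : gv.1 (gPt 0) = gPt 0 := ev vN_ok 0 0 (by norm_num) (by decide +kernel)
theorem v1 : gv.1 (gPt 1) = gPt 1 := ev vN_ok 1 1 (by norm_num) (by decide +kernel)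

theorem gi_mem : gi ∈ D := mem_D.2 ⟨i0, i1⟩
theorem gj_mem : gj ∈ D := mem_D.2 ⟨j0, j1⟩
theorem gu_mem : gu ∈ D := mem_D.2 ⟨u0, u1⟩
theorem gv_mem : gv ∈ D := mem_D.2 ⟨v0, v1⟩

theorem ne01 : gPt 0 ≠ gPt 1 := gPt_ne (by norm_num) (by norm_num) (by norm_num)
theorem ne02 : gPt 0 ≠ gPt 2 := gPt_ne (by norm_num) (by norm_num) (by norm_num)
theorem ne03 : gPt 0 ≠ gPt 3 := gPt_ne (by norm_num) (by norm_num) (by norm_num)
theorem ne04 : gPt 0 ≠ gPt 4 := gPt_ne (by norm_num) (by norm_num) (by norm_num)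
theorem ne09 : gPt 0 ≠ gPt 9 := gPt_ne (by norm_num) (by norm_num) (by norm_num)
theorem ne12 : gPt 1 ≠ gPt 2 := gPt_ne (by norm_num) (by norm_num) (by norm_num)
theorem ne13 : gPt 1 ≠ gPt 3 := gPt_ne (by norm_num) (by norm_num) (by norm_num)
theorem ne14 : gPt 1 ≠ gPt 4 := gPt_ne (by norm_num) (by norm_num) (by norm_num)
theorem ne19 : gPt 1 ≠ gPt 9 := gPt_ne (by norm_num) (by norm_num) (by norm_num)
theorem ne23 : gPt 2 ≠ gPt 3 := gPt_ne (by norm_num) (by norm_num) (by norm_num)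
theorem ne24 : gPt 2 ≠ gPt 4 := gPt_ne (by norm_num) (by norm_num) (by norm_num)
theorem ne29 : gPt 2 ≠ gPt 9 := gPt_ne (by norm_num) (by norm_num) (by norm_num)
theorem ne34 : gPt 3 ≠ gPt 4 := gPt_ne (by norm_num) (by norm_num) (by norm_num)
theorem ne49 : gPt 4 ≠ gPt 9 := gPt_ne (by norm_num) (by norm_num) (by norm_num)

/-- An element of `M₁₂` fixing the points `0, 1, 2, 3` is determined by the image of `4`. -/
theorem eq_of_fix (h e : Spor.M12) (h0 : h.1 (gPt 0) = gPt 0) (h1 : h.1 (gPt 1) = gPt 1)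
    (h2 : h.1 (gPt 2) = gPt 2) (h3 : h.1 (gPt 3) = gPt 3) (e0 : e.1 (gPt 0) = gPt 0)
    (e1 : e.1 (gPt 1) = gPt 1) (e2 : e.1 (gPt 2) = gPt 2) (e3 : e.1 (gPt 3) = gPt 3)
    (h4 : h.1 (gPt 4) = e.1 (gPt 4)) : h = e := by
  have key : e⁻¹ * h = 1 := by
    apply sharp_pts (e⁻¹ * h) ![gPt 0, gPt 1, gPt 2, gPt 3, gPt 4]
      (fun i => by fin_cases i; exacts [d0, d1, d2, d3, d4])
      (inj5 _ _ _ _ _ ne01 ne02 ne03 ne04 ne12 ne13 ne14 ne23 ne24 ne34)
    intro i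
    fin_cases i
    · show (e.1)⁻¹ (h.1 (gPt 0)) = gPt 0
      rw [Equiv.Perm.inv_eq_iff_eq, h0, e0]
    · show (e.1)⁻¹ (h.1 (gPt 1)) = gPt 1
      rw [Equiv.Perm.inv_eq_iff_eq, h1, e1]
    · show (e.1)⁻¹ (h.1 (gPt 2)) = gPt 2
      rw [Equiv.Perm.inv_eq_iff_eq, h2, e2]
    · show (e.1)⁻¹ (h.1 (gPt 3)) = gPt 3
      rw [Equiv.Perm.inv_eq_iff_eq, h3, e3]
    · show (e.1)⁻¹ (h.1 (gPt 4)) = gPt 4
      rw [Equiv.Perm.inv_eq_iff_eq, h4]
  calc h = e * (e⁻¹ * h) := by group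
    _ = e := by rw [key, mul_one]

/-- Every homomorphism from the two-point stabiliser to an abelian group has image of order at
most two, generated by the image of `j`. -/
theorem d_hom_bound {C : Type*} [CommGroup C] (f : D →* C) (x : D) :
    f x = 1 ∨ f x = f ⟨gj, gj_mem⟩ := by
  obtain ⟨I, hI⟩ : ∃ I : D, I = ⟨gi, gi_mem⟩ := ⟨_, rfl⟩
  obtain ⟨J, hJ⟩ : ∃ J : D, J = ⟨gj, gj_mem⟩ := ⟨_, rfl⟩
  rw [← hJ]
  have hfi : f I = 1 := by
    have h1 : (⟨gu, gu_mem⟩ : D) * ⟨gv, gv_mem⟩ = I * (⟨gv, gv_mem⟩ * ⟨gu, gu_mem⟩) := by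
      rw [hI]; exact Subtype.ext uv_rel
    have h2 := congrArg f h1
    rw [map_mul, map_mul, map_mul, mul_comm (f ⟨gv, gv_mem⟩) (f ⟨gu, gu_mem⟩)] at h2
    have h3 : f I * (f ⟨gu, gu_mem⟩ * f ⟨gv, gv_mem⟩) = 1 * (f ⟨gu, gu_mem⟩ * f ⟨gv, gv_mem⟩) := by
      rw [one_mul]; exact h2.symm
    exact mul_right_cancel h3
  have hIv : ∀ p : GolayPt, I.1.1 p = gi.1 p := fun p => by rw [hI]
  have hJv : ∀ p : GolayPt, J.1.1 p = gj.1 p := fun p => by rw [hJ]
  have hx0 : x.1.1 (gPt 0) = gPt 0 := (mem_D.1 x.2).1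
  have hx1 : x.1.1 (gPt 1) = gPt 1 := (mem_D.1 x.2).2
  -- conjugates of `I` lie in the kernel
  have hconj : ∀ g : D, f (g * I * g⁻¹) = 1 := by
    intro g
    rw [map_mul, map_mul, hfi, mul_one, map_inv, mul_inv_cancel]
  -- step 1: move the point 2 back
  obtain ⟨n1, hn1, hn1x⟩ : ∃ n : D, f n = 1 ∧ (n⁻¹ * x).1.1 (gPt 2) = gPt 2 := by
    by_cases hq : x.1.1 (gPt 2) = gPt 2
    · exact ⟨1, map_one f, by rw [inv_one, one_mul]; exact hq⟩
    have hq0 : gPt 0 ≠ x.1.1 (gPt 2) := by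
      intro h
      rw [← hx0] at h
      exact ne02 (x.1.1.injective h)
    have hq1 : gPt 1 ≠ x.1.1 (gPt 2) := by
      intro h
      rw [← hx1] at h
      exact ne12 (x.1.1.injective h)
    obtain ⟨g, hg⟩ := trans_pts (m := 4) (by norm_num) ![gPt 0, gPt 1, gPt 4, gPt 9]
      ![gPt 0, gPt 1, gPt 2, x.1.1 (gPt 2)]
      (fun i => by fin_cases i; exacts [d0, d1, d4, d9])
      (fun i => by fin_cases i; exacts [d0, d1, d2, smul_mem_dod x.1 d2])
      (inj4 _ _ _ _ ne01 ne04 ne09 ne14 ne19 ne49)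
      (inj4 _ _ _ _ ne01 ne02 hq0 ne12 hq1 (fun h => hq h.symm))
    have hg0 : g.1 (gPt 0) = gPt 0 := hg 0
    have hg1 : g.1 (gPt 1) = gPt 1 := hg 1
    have hg2 : g.1 (gPt 4) = gPt 2 := hg 2
    have hg3 : g.1 (gPt 9) = x.1.1 (gPt 2) := hg 3
    refine ⟨⟨g, mem_D.2 ⟨hg0, hg1⟩⟩ * I * ⟨g, mem_D.2 ⟨hg0, hg1⟩⟩⁻¹, hconj _, ?_⟩
    show (g.1 * I.1.1 * (g.1)⁻¹)⁻¹ (x.1.1 (gPt 2)) = gPt 2
    rw [Equiv.Perm.inv_eq_iff_eq, Equiv.Perm.mul_apply, Equiv.Perm.mul_apply]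
    have e1 : (g.1)⁻¹ (gPt 2) = gPt 4 := by rw [Equiv.Perm.inv_eq_iff_eq, hg2]
    rw [e1, hIv, i4, hg3]
  obtain ⟨y, hy⟩ : ∃ y : D, y = n1⁻¹ * x := ⟨_, rfl⟩
  rw [← hy] at hn1x
  have hy0 : y.1.1 (gPt 0) = gPt 0 := (mem_D.1 y.2).1
  have hy1 : y.1.1 (gPt 1) = gPt 1 := (mem_D.1 y.2).2
  -- step 2: move the point 3 back
  obtain ⟨n2, hn2, hn22, hn2y⟩ : ∃ n : D, f n = 1 ∧ n.1.1 (gPt 2) = gPt 2 ∧
      (n⁻¹ * y).1.1 (gPt 3) = gPt 3 := by
    by_cases hq : y.1.1 (gPt 3) = gPt 3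
    · exact ⟨1, map_one f, rfl, by rw [inv_one, one_mul]; exact hq⟩
    have hq0 : gPt 0 ≠ y.1.1 (gPt 3) := by
      intro h
      rw [← hy0] at h
      exact ne03 (y.1.1.injective h)
    have hq1 : gPt 1 ≠ y.1.1 (gPt 3) := by
      intro h
      rw [← hy1] at h
      exact ne13 (y.1.1.injective h)
    have hq2 : gPt 2 ≠ y.1.1 (gPt 3) := by
      intro h
      rw [← hn1x] at h
      exact ne23 (y.1.1.injective h)
    obtain ⟨g, hg⟩ := trans_pts (m := 5) (by norm_num) ![gPt 0, gPt 1, gPt 2, gPt 4, gPt 9]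
      ![gPt 0, gPt 1, gPt 2, gPt 3, y.1.1 (gPt 3)]
      (fun i => by fin_cases i; exacts [d0, d1, d2, d4, d9])
      (fun i => by fin_cases i; exacts [d0, d1, d2, d3, smul_mem_dod y.1 d3])
      (inj5 _ _ _ _ _ ne01 ne02 ne04 ne09 ne12 ne14 ne19 ne24 ne29 ne49)
      (inj5 _ _ _ _ _ ne01 ne02 ne03 hq0 ne12 ne13 hq1 ne23 hq2 (fun h => hq h.symm))
    have hg0 : g.1 (gPt 0) = gPt 0 := hg 0
    have hg1 : g.1 (gPt 1) = gPt 1 := hg 1
    have hg2 : g.1 (gPt 2) = gPt 2 := hg 2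
    have hg3 : g.1 (gPt 4) = gPt 3 := hg 3
    have hg4 : g.1 (gPt 9) = y.1.1 (gPt 3) := hg 4
    refine ⟨⟨g, mem_D.2 ⟨hg0, hg1⟩⟩ * I * ⟨g, mem_D.2 ⟨hg0, hg1⟩⟩⁻¹, hconj _, ?_, ?_⟩
    · show g.1 (I.1.1 ((g.1)⁻¹ (gPt 2))) = gPt 2
      have e1 : (g.1)⁻¹ (gPt 2) = gPt 2 := by rw [Equiv.Perm.inv_eq_iff_eq, hg2]
      rw [e1, hIv, i2, hg2]
    · show (g.1 * I.1.1 * (g.1)⁻¹)⁻¹ (y.1.1 (gPt 3)) = gPt 3
      rw [Equiv.Perm.inv_eq_iff_eq, Equiv.Perm.mul_apply, Equiv.Perm.mul_apply]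
      have e1 : (g.1)⁻¹ (gPt 3) = gPt 4 := by rw [Equiv.Perm.inv_eq_iff_eq, hg3]
      rw [e1, hIv, i4, hg4]
  obtain ⟨h, hh⟩ : ∃ h : D, h = n2⁻¹ * y := ⟨_, rfl⟩
  rw [← hh] at hn2y
  have hh0 : h.1.1 (gPt 0) = gPt 0 := (mem_D.1 h.2).1
  have hh1 : h.1.1 (gPt 1) = gPt 1 := (mem_D.1 h.2).2
  have hh2 : h.1.1 (gPt 2) = gPt 2 := by
    rw [hh]
    show (n2.1.1)⁻¹ (y.1.1 (gPt 2)) = gPt 2
    rw [Equiv.Perm.inv_eq_iff_eq, hn1x, hn22]
  have hfx : f x = f h := by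
    have e : x = n1 * (n2 * h) := by rw [hh, hy]; group
    rw [e, map_mul, map_mul, hn1, hn2, one_mul, one_mul]
  rw [hfx]
  -- step 3: `h` fixes `0, 1, 2, 3`, so it is one of eight explicit elements
  have hfin : ∀ e : D, e.1.1 (gPt 0) = gPt 0 → e.1.1 (gPt 1) = gPt 1 → e.1.1 (gPt 2) = gPt 2 →
      e.1.1 (gPt 3) = gPt 3 → h.1.1 (gPt 4) = e.1.1 (gPt 4) → (f e = 1 ∨ f e = f J) →
      (f h = 1 ∨ f h = f J) := by
    intro e e0 e1 e2 e3 e4 hfe
    have : h = e := Subtype.ext (eq_of_fix h.1 e.1 hh0 hh1 hh2 hn2y e0 e1 e2 e3 e4)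
    rw [this]; exact hfe
  have hq : h.1.1 (gPt 4) ∈ Spor.squareDodecad := smul_mem_dod h.1 d4
  obtain ⟨m, hm, hcases⟩ := eq_gPt_of_mem_dod hq
  have hinj := h.1.1.injective
  rcases hcases with rfl | rfl | rfl | rfl | rfl | rfl | rfl | rfl | rfl | rfl | rfl | rfl
  · exact absurd (hinj (hm.trans hh0.symm)) ne04.symm
  · exact absurd (hinj (hm.trans hh1.symm)) ne14.symm
  · exact absurd (hinj (hm.trans hh2.symm)) ne24.symm
  · exact absurd (hinj (hm.trans hn2y.symm)) ne34.symm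
  · -- 4 : identity
    exact hfin 1 rfl rfl rfl rfl hm (Or.inl (map_one f))
  · -- 6 : i^3
    refine hfin (I * I * I) ?_ ?_ ?_ ?_ ?_ (Or.inl (by rw [map_mul, map_mul, hfi, one_mul, one_mul]))
    · show I.1.1 (I.1.1 (I.1.1 (gPt 0))) = gPt 0
      simp only [hIv, hJv, i0, i1, i2, i3, i4, i9, i12, i18, i16, i13, j0, j1, j2, j3, j4, hm]
    · show I.1.1 (I.1.1 (I.1.1 (gPt 1))) = gPt 1
      simp only [hIv, hJv, i0, i1, i2, i3, i4, i9, i12, i18, i16, i13, j0, j1, j2, j3, j4, hm]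
    · show I.1.1 (I.1.1 (I.1.1 (gPt 2))) = gPt 2
      simp only [hIv, hJv, i0, i1, i2, i3, i4, i9, i12, i18, i16, i13, j0, j1, j2, j3, j4, hm]
    · show I.1.1 (I.1.1 (I.1.1 (gPt 3))) = gPt 3
      simp only [hIv, hJv, i0, i1, i2, i3, i4, i9, i12, i18, i16, i13, j0, j1, j2, j3, j4, hm]
    · show h.1.1 (gPt 4) = I.1.1 (I.1.1 (I.1.1 (gPt 4)))
      simp only [hIv, hJv, i0, i1, i2, i3, i4, i9, i12, i18, i16, i13, j0, j1, j2, j3, j4, hm]
  · -- 8 : i^3 j
    refine hfin (I * I * I * J) ?_ ?_ ?_ ?_ ?_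
      (Or.inr (by rw [map_mul, map_mul, map_mul, hfi, one_mul, one_mul, one_mul]))
    · show I.1.1 (I.1.1 (I.1.1 (J.1.1 (gPt 0)))) = gPt 0
      simp only [hIv, hJv, i0, i1, i2, i3, i4, i9, i12, i18, i16, i13, j0, j1, j2, j3, j4, hm]
    · show I.1.1 (I.1.1 (I.1.1 (J.1.1 (gPt 1)))) = gPt 1
      simp only [hIv, hJv, i0, i1, i2, i3, i4, i9, i12, i18, i16, i13, j0, j1, j2, j3, j4, hm]
    · show I.1.1 (I.1.1 (I.1.1 (J.1.1 (gPt 2)))) = gPt 2
      simp only [hIv, hJv, i0, i1, i2, i3, i4, i9, i12, i18, i16, i13, j0, j1, j2, j3, j4, hm]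
    · show I.1.1 (I.1.1 (I.1.1 (J.1.1 (gPt 3)))) = gPt 3
      simp only [hIv, hJv, i0, i1, i2, i3, i4, i9, i12, i18, i16, i13, j0, j1, j2, j3, j4, hm]
    · show h.1.1 (gPt 4) = I.1.1 (I.1.1 (I.1.1 (J.1.1 (gPt 4))))
      simp only [hIv, hJv, i0, i1, i2, i3, i4, i9, i12, i18, i16, i13, j0, j1, j2, j3, j4, hm]
  · -- 9 : i
    refine hfin I ?_ ?_ ?_ ?_ ?_ (Or.inl hfi)
    · simp only [hIv, hJv, i0, i1, i2, i3, i4, i9, i12, i18, i16, i13, j0, j1, j2, j3, j4, hm]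
    · simp only [hIv, hJv, i0, i1, i2, i3, i4, i9, i12, i18, i16, i13, j0, j1, j2, j3, j4, hm]
    · simp only [hIv, hJv, i0, i1, i2, i3, i4, i9, i12, i18, i16, i13, j0, j1, j2, j3, j4, hm]
    · simp only [hIv, hJv, i0, i1, i2, i3, i4, i9, i12, i18, i16, i13, j0, j1, j2, j3, j4, hm]
    · simp only [hIv, hJv, i0, i1, i2, i3, i4, i9, i12, i18, i16, i13, j0, j1, j2, j3, j4, hm]
  · -- 12 : i^2
    refine hfin (I * I) ?_ ?_ ?_ ?_ ?_ (Or.inl (by rw [map_mul, hfi, one_mul]))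
    · show I.1.1 (I.1.1 (gPt 0)) = gPt 0
      simp only [hIv, hJv, i0, i1, i2, i3, i4, i9, i12, i18, i16, i13, j0, j1, j2, j3, j4, hm]
    · show I.1.1 (I.1.1 (gPt 1)) = gPt 1
      simp only [hIv, hJv, i0, i1, i2, i3, i4, i9, i12, i18, i16, i13, j0, j1, j2, j3, j4, hm]
    · show I.1.1 (I.1.1 (gPt 2)) = gPt 2
      simp only [hIv, hJv, i0, i1, i2, i3, i4, i9, i12, i18, i16, i13, j0, j1, j2, j3, j4, hm]
    · show I.1.1 (I.1.1 (gPt 3)) = gPt 3
      simp only [hIv, hJv, i0, i1, i2, i3, i4, i9, i12, i18, i16, i13, j0, j1, j2, j3, j4, hm]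
    · show h.1.1 (gPt 4) = I.1.1 (I.1.1 (gPt 4))
      simp only [hIv, hJv, i0, i1, i2, i3, i4, i9, i12, i18, i16, i13, j0, j1, j2, j3, j4, hm]
  · -- 13 : i^2 j
    refine hfin (I * I * J) ?_ ?_ ?_ ?_ ?_
      (Or.inr (by rw [map_mul, map_mul, hfi, one_mul, one_mul]))
    · show I.1.1 (I.1.1 (J.1.1 (gPt 0))) = gPt 0
      simp only [hIv, hJv, i0, i1, i2, i3, i4, i9, i12, i18, i16, i13, j0, j1, j2, j3, j4, hm]
    · show I.1.1 (I.1.1 (J.1.1 (gPt 1))) = gPt 1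
      simp only [hIv, hJv, i0, i1, i2, i3, i4, i9, i12, i18, i16, i13, j0, j1, j2, j3, j4, hm]
    · show I.1.1 (I.1.1 (J.1.1 (gPt 2))) = gPt 2
      simp only [hIv, hJv, i0, i1, i2, i3, i4, i9, i12, i18, i16, i13, j0, j1, j2, j3, j4, hm]
    · show I.1.1 (I.1.1 (J.1.1 (gPt 3))) = gPt 3
      simp only [hIv, hJv, i0, i1, i2, i3, i4, i9, i12, i18, i16, i13, j0, j1, j2, j3, j4, hm]
    · show h.1.1 (gPt 4) = I.1.1 (I.1.1 (J.1.1 (gPt 4)))
      simp only [hIv, hJv, i0, i1, i2, i3, i4, i9, i12, i18, i16, i13, j0, j1, j2, j3, j4, hm]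
  · -- 16 : i j
    refine hfin (I * J) ?_ ?_ ?_ ?_ ?_ (Or.inr (by rw [map_mul, hfi, one_mul]))
    · show I.1.1 (J.1.1 (gPt 0)) = gPt 0
      simp only [hIv, hJv, i0, i1, i2, i3, i4, i9, i12, i18, i16, i13, j0, j1, j2, j3, j4, hm]
    · show I.1.1 (J.1.1 (gPt 1)) = gPt 1
      simp only [hIv, hJv, i0, i1, i2, i3, i4, i9, i12, i18, i16, i13, j0, j1, j2, j3, j4, hm]
    · show I.1.1 (J.1.1 (gPt 2)) = gPt 2
      simp only [hIv, hJv, i0, i1, i2, i3, i4, i9, i12, i18, i16, i13, j0, j1, j2, j3, j4, hm]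
    · show I.1.1 (J.1.1 (gPt 3)) = gPt 3
      simp only [hIv, hJv, i0, i1, i2, i3, i4, i9, i12, i18, i16, i13, j0, j1, j2, j3, j4, hm]
    · show h.1.1 (gPt 4) = I.1.1 (J.1.1 (gPt 4))
      simp only [hIv, hJv, i0, i1, i2, i3, i4, i9, i12, i18, i16, i13, j0, j1, j2, j3, j4, hm]
  · -- 18 : j
    refine hfin J ?_ ?_ ?_ ?_ ?_ (Or.inr rfl)
    · simp only [hIv, hJv, i0, i1, i2, i3, i4, i9, i12, i18, i16, i13, j0, j1, j2, j3, j4, hm]
    · simp only [hIv, hJv, i0, i1, i2, i3, i4, i9, i12, i18, i16, i13, j0, j1, j2, j3, j4, hm]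
    · simp only [hIv, hJv, i0, i1, i2, i3, i4, i9, i12, i18, i16, i13, j0, j1, j2, j3, j4, hm]
    · simp only [hIv, hJv, i0, i1, i2, i3, i4, i9, i12, i18, i16, i13, j0, j1, j2, j3, j4, hm]
    · simp only [hIv, hJv, i0, i1, i2, i3, i4, i9, i12, i18, i16, i13, j0, j1, j2, j3, j4, hm]

/-! ### The action on the dodecad as a homomorphism to `A₁₂` -/

/-- The indices of the twelve points of the dodecad. -/
def pts12 : Fin 12 → ℕ := ![0, 1, 2, 3, 4, 6, 8, 9, 12, 13, 16, 18]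

theorem pts12_lt : ∀ i : Fin 12, pts12 i < 24 := by decide
theorem pts12_bit : ∀ i : Fin 12, Nat.testBit 0x5335f (pts12 i) = true := by decide
theorem pts12_inj : Function.Injective pts12 := by decide

/-- The dodecad is in bijection with `Fin 12`. -/
noncomputable def eD : Fin 12 ≃ Dd :=
  Equiv.ofBijective (fun i => ⟨gPt (pts12 i), mem_dod (pts12_lt i) (pts12_bit i)⟩) (by
    rw [Fintype.bijective_iff_injective_and_card]
    constructor
    · intro i j h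
      have h1 : gPt (pts12 i) = gPt (pts12 j) := congrArg Subtype.val h
      have h2 := congrArg gIdx h1
      rw [gIdx_gPt (pts12_lt i), gIdx_gPt (pts12_lt j)] at h2
      exact pts12_inj h2
    · rw [Fintype.card_fin, ← Nat.card_eq_fintype_card, card_Dd])

theorem mem_dod_iff (g : Spor.M12) (x : GolayPt) :
    g.1 x ∈ Spor.squareDodecad ↔ x ∈ Spor.squareDodecad := by
  constructor
  · intro h
    have h1 := smul_mem_dod g⁻¹ h
    have h2 : (g⁻¹).1 (g.1 x) = x := by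
      show (g.1)⁻¹ (g.1 x) = x
      rw [Equiv.Perm.inv_eq_iff_eq]
    rwa [h2] at h1
  · exact fun h => smul_mem_dod g h

/-- The action of `M₁₂` on the dodecad. -/
noncomputable def actD : Spor.M12 →* Equiv.Perm Dd where
  toFun g := Equiv.Perm.subtypePerm g.1 (mem_dod_iff g)
  map_one' := by
    ext x
    rfl
  map_mul' := fun a b => by
    ext x
    rfl

/-- The action of `M₁₂` on twelve points. -/
noncomputable def iota0 : Spor.M12 →* Equiv.Perm (Fin 12) :=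
  (eD.symm.permCongrHom).toMonoidHom.comp actD

theorem iota0_apply (g : Spor.M12) (i j : Fin 12)
    (h : g.1 (gPt (pts12 i)) = gPt (pts12 j)) : iota0 g i = j := by
  show eD.symm.permCongr (actD g) i = j
  rw [Equiv.permCongr_apply, Equiv.symm_symm, Equiv.symm_apply_eq]
  apply Subtype.ext
  exact h

/-- The action of `M₁₂` on twelve points is by even permutations. -/
noncomputable def iota : Spor.M12 →* alternatingGroup (Fin 12) :=
  iota0.codRestrict (alternatingGroup (Fin 12)) (fun g => by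
    rw [Equiv.Perm.mem_alternatingGroup]
    have h1 := Abelianization.commutator_subset_ker (Equiv.Perm.sign.comp iota0)
    have h2 : g ∈ commutator Spor.M12 := by rw [m12_perfect]; exact Subgroup.mem_top g
    exact MonoidHom.mem_ker.1 (h1 h2))

/-- The pairing of the twelve points given by the involution `x`. -/
def f12 : Fin 12 → Fin 12 := ![0, 7, 1, 6, 2, 4, 3, 11, 5, 8, 9, 10]

theorem f12_inj : Function.Injective f12 := by decide

theorem iota_gx : ((iota gx : alternatingGroup (Fin 12)) : Equiv.Perm (Fin 12)) =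
    Equiv.swap (f12 0) (f12 1) * Equiv.swap (f12 2) (f12 3) *
      (Equiv.swap (f12 4) (f12 5) * Equiv.swap (f12 6) (f12 7)) *
      (Equiv.swap (f12 8) (f12 9) * Equiv.swap (f12 10) (f12 11)) := by
  show iota0 gx = _
  apply Equiv.ext
  intro i
  fin_cases i
  · exact (iota0_apply gx 0 7 (ev xN_ok 0 9 (by norm_num) (by decide +kernel))).trans (by decide)
  · exact (iota0_apply gx 1 6 (ev xN_ok 1 8 (by norm_num) (by decide +kernel))).trans (by decide)
  · exact (iota0_apply gx 2 4 (ev xN_ok 2 4 (by norm_num) (by decide +kernel))).trans (by decide)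
  · exact (iota0_apply gx 3 11 (ev xN_ok 3 18 (by norm_num) (by decide +kernel))).trans (by decide)
  · exact (iota0_apply gx 4 2 (ev xN_ok 4 2 (by norm_num) (by decide +kernel))).trans (by decide)
  · exact (iota0_apply gx 5 8 (ev xN_ok 6 12 (by norm_num) (by decide +kernel))).trans (by decide)
  · exact (iota0_apply gx 6 1 (ev xN_ok 8 1 (by norm_num) (by decide +kernel))).trans (by decide)
  · exact (iota0_apply gx 7 0 (ev xN_ok 9 0 (by norm_num) (by decide +kernel))).trans (by decide)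
  · exact (iota0_apply gx 8 5 (ev xN_ok 12 6 (by norm_num) (by decide +kernel))).trans (by decide)
  · exact (iota0_apply gx 9 10 (ev xN_ok 13 16 (by norm_num) (by decide +kernel))).trans (by decide)
  · exact (iota0_apply gx 10 9 (ev xN_ok 16 13 (by norm_num) (by decide +kernel))).trans (by decide)
  · exact (iota0_apply gx 11 3 (ev xN_ok 18 3 (by norm_num) (by decide +kernel))).trans (by decide)

/-! ### The multiplier -/

theorem exists_m12_double : ∃ (Γ : Type) (_ : Group Γ) (_ : Finite Γ) (σ : Γ →* Spor.M12),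
    IsStemExtension σ ∧ Nonempty (σ.ker ≃* Multiplicative (ZMod 2)) :=
  Spin.exists_double_cover_of_six_swaps m12_perfect iota gx gx_sq f12 f12_inj iota_gx

open scoped IsMulCommutative in
theorem m12_bound (Γ : Type) [Group Γ] [Finite Γ] (σ : Γ →* Spor.M12)
    (hσ : IsStemExtension σ) : ∃ π : Multiplicative (ZMod 2) →* σ.ker, Function.Surjective π := by
  classical
  obtain ⟨hs, hc, hd⟩ := hσ
  obtain ⟨S, hSm, hSs⟩ := exists_section σ hs hc
  obtain ⟨φ, hφ⟩ := TwoPoint.main σ hs hc hd K D gt gk gt_sq gt_notMem gk_mem gk_sq braid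
    D_le_K hD h2T h3T S hSm hSs
  obtain ⟨a0, ha0⟩ : ∃ a0 : Γ, a0 = (φ ⟨gj, gj_mem⟩ : Γ) := ⟨_, rfl⟩
  have hall : ∀ z ∈ σ.ker, z = 1 ∨ z = a0 := by
    intro z hz
    obtain ⟨d, hd'⟩ := hφ z hz
    rcases d_hom_bound (C := Subgroup.center Γ) φ d with h | h
    · left
      rw [← hd', h]
      rfl
    · right
      rw [← hd', h, ha0]
  obtain ⟨c, hcdef⟩ : ∃ c : Γ, c = if a0 ∈ σ.ker then a0 else 1 := ⟨_, rfl⟩
  have hc2 : c ^ 2 = 1 := by
    rw [hcdef]
    split_ifs with h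
    · rcases hall (a0 ^ 2) (Subgroup.pow_mem _ h 2) with h1 | h1
      · exact h1
      · have h2 : a0 = 1 := by
          rw [pow_two] at h1
          exact mul_left_cancel (a := a0) (by rw [mul_one]; exact h1)
        rw [h2, one_pow]
    · exact one_pow 2
  have hle : σ.ker ≤ Subgroup.zpowers c := by
    intro z hz
    rcases hall z hz with h | h
    · rw [h]; exact Subgroup.one_mem _
    · have h2 : a0 ∈ σ.ker := by rw [← h]; exact hz
      rw [h, hcdef, if_pos h2]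
      exact Subgroup.mem_zpowers _
  exact exists_surjective_zmod_of_le_zpowers hc2 σ.ker hle

/-- The Schur multiplier of `M₁₂` is cyclic of order 2. -/
theorem m12_hasCyclicSchurMultiplier : HasCyclicSchurMultiplier Spor.M12 2 :=
  ⟨exists_m12_double, fun Γ _ _ σ hσ => m12_bound Γ σ hσ⟩

end Cfsg.Agent.H41.M12
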