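import Cfsg.Agent.H41.OrthH1Data
import Cfsg.Agent.H41.E8Data
import Cfsg.Agent.S0293

/-!
# `O₈⁺(2)` as a quotient of the Coxeter group of type `E₈` (helper41)

Eight orthogonal transvections `rO i` in vectors forming the `E₈` diagram satisfy the Coxeter
relations, generate `O₈⁺(2)` and lie outside `Ω₈⁺(2)`; the Coxeter element has order `15`.
-/

set_option autoImplicit false
set_option maxRecDepth 100000

namespace Cfsg.Agent.H41.O8

open Cfsg Cfsg.Agent.H49 Cfsg.Agent.H41.OrthH1 Cfsg.Agent.H41.CoxBound Cfsg.Agent.H41.E8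

/-- the hyperbolic quadratic form in dimension 8 over `𝔽₂` -/
abbrev Q8 : QuadraticForm (ZMod 2) (Fin 4 ⊕ Fin 4 → ZMod 2) := QP 4 (ZMod 2)

/-- the orthogonal group `O₈⁺(2)` -/
abbrev O0 : Type := OG Q8

/-- codes of the simple roots -/
def codes : List ℕ := [17, 35, 21, 68, 76, 140, 27, 34]

/-- the code of the `i`-th root -/
def cd (i : ℕ) : ℕ := codes.getD i 0

/-- the generating transvections -/
def rO (i : ℕ) : O0 := reflG Q8 (mkVec (posP 4) (cd i))

theorem hQ : ∀ i, i < 8 → mQ8 (cd i) = true := by decide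

theorem hbr : ∀ i, i < 8 → ∀ j, j < 8 → adjE i j = true → ∀ c, c < 2 ^ 8 →
    [cd i, cd j, cd i].foldr (R mQ8) c = [cd j, cd i, cd j].foldr (R mQ8) c := by
  decide +kernel

theorem hcm : ∀ i, i < 8 → ∀ j, j < 8 → adjE i j = false → ∀ c, c < 2 ^ 8 →
    [cd i, cd j].foldr (R mQ8) c = [cd j, cd i].foldr (R mQ8) c := by
  decide +kernel

theorem rO_sq (i : ℕ) : rO i * rO i = 1 := reflG_mul_self _ _

theorem rO_rel : Rel adjE rO 8 := by
  refine ⟨fun i _ => rO_sq i, ?_, ?_⟩
  · intro i j hi hj hij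
    have h := prodR_eq model8 [cd i, cd j, cd i] [cd j, cd i, cd j]
      (by
        intro cu hcu
        simp only [List.mem_cons, List.not_mem_nil, or_false] at hcu
        rcases hcu with rfl | rfl | rfl
        · exact hQ i hi
        · exact hQ j hj
        · exact hQ i hi)
      (by
        intro cu hcu
        simp only [List.mem_cons, List.not_mem_nil, or_false] at hcu
        rcases hcu with rfl | rfl | rfl
        · exact hQ j hj
        · exact hQ i hi
        · exact hQ j hj)
      (hbr i hi j hj hij)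
    simp only [prodR, List.map_cons, List.map_nil, List.prod_cons, List.prod_nil, mul_one] at h
    show rO i * rO j * rO i = rO j * rO i * rO j
    rw [mul_assoc, mul_assoc]
    exact h
  · intro i j hi hj _ hij
    have h := prodR_eq model8 [cd i, cd j] [cd j, cd i]
      (by
        intro cu hcu
        simp only [List.mem_cons, List.not_mem_nil, or_false] at hcu
        rcases hcu with rfl | rfl
        · exact hQ i hi
        · exact hQ j hj)
      (by
        intro cu hcu
        simp only [List.mem_cons, List.not_mem_nil, or_false] at hcu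
        rcases hcu with rfl | rfl
        · exact hQ j hj
        · exact hQ i hi)
      (hcm i hi j hj hij)
    simp only [prodR, List.map_cons, List.map_nil, List.prod_cons, List.prod_nil, mul_one] at h
    exact h

/-! ### Generation -/

/-- a derivation of all non-singular codes from the simple roots: `(e, i, d)` with
`e = R (cd i) d` and `d` known -/
def der : List (ℕ × ℕ × ℕ) := [(50, 1, 17), (54, 2, 35), (81, 3, 21), (89, 4, 21), (200, 5, 68), (151, 6, 140), (57, 7, 27), (39, 2, 50), (114, 3, 54), (122, 4, 54), (29, 4, 81), (221, 5, 81), (211, 6, 200), (181, 7, 151), (99, 3, 39), (107, 4, 39), (62, 4, 114), (254, 5, 114), (145, 5, 29), (198, 6, 221), (241, 7, 211), (47, 4, 99), (239, 5, 99), (43, 2, 62), (178, 5, 62), (229, 6, 254), (138, 6, 145), (228, 7, 198), (58, 2, 47), (163, 5, 47), (244, 6, 239), (167, 5, 43), (169, 6, 178), (199, 7, 229), (168, 7, 138), (25, 1, 58), (182, 5, 58), (184, 6, 163), (214, 7, 244), (227, 3, 167), (188, 6, 167), (139, 7, 169), (149,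 5, 25), (242, 3, 182), (173, 6, 182), (154, 7, 184), (248, 6, 227), (158, 7, 188), (209, 3, 149), (142, 6, 149), (233, 6, 242), (143, 7, 173), (116, 5, 248), (218, 7, 248), (196, 2, 209), (202, 6, 209), (172, 7, 142), (101, 5, 233), (203, 7, 233), (86, 7, 116), (136, 4, 196), (223, 6, 196), (70, 5, 202), (232, 7, 202), (71, 7, 101), (77, 6, 86), (147, 6, 136), (83, 5, 223), (253, 7, 223), (100, 7, 70), (92, 6, 71), (31, 5, 147), (177, 7, 147), (23, 3, 83), (113, 7, 83), (127, 6, 100), (91, 3, 31), (61, 7, 31), (53, 7, 23), (106, 6, 113), (78, 2, 91), (121, 7, 91), (38, 6, 61), (46, 6, 53), (109, 1, 78), (108, 7, 78), (98, 6, 121), (162, 5, 46), (124, 0, 109), (79, 7, 109), (119, 6, 108), (238, 5, 98), (94, 7, 124), (84, 6, 79), (251, 5, 119), (69, 6, 94), (216, 5, 84), (191, 3, 251), (201, 5, 69), (156, 3, 216), (141, 3, 201), (137, 2, 156), (152, 2, 141), (197, 4, 137), (187, 1, 152), (212, 4, 152), (247, 4, 187), (226, 2, 247), (166, 3, 226), (42, 5, 166), (49, 6, 42), (19,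 7, 49)]

/-- run a derivation -/
def runDer : List ℕ → List (ℕ × ℕ × ℕ) → List ℕ
  | S, [] => S
  | S, (e, i, d) :: rest =>
    if i < 8 ∧ S.contains d = true ∧ R mQ8 (cd i) d = e then runDer (e :: S) rest else []

theorem runDer_sound (Pr : ℕ → Prop) (hP : ∀ i, i < 8 → ∀ d, Pr d → Pr (R mQ8 (cd i) d)) :
    ∀ (rest : List (ℕ × ℕ × ℕ)) (S : List ℕ), (∀ c ∈ S, Pr c) → ∀ c ∈ runDer S rest, Pr c := by
  intro rest
  induction rest with
  | nil => intro S hS c hc; exact hS c hc
  | cons x rest ih =>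
    obtain ⟨e, i, d⟩ := x
    intro S hS c hc
    unfold runDer at hc
    split_ifs at hc with h
    · obtain ⟨hi, hd, he⟩ := h
      refine ih (e :: S) ?_ c hc
      intro c' hc'
      rcases List.mem_cons.1 hc' with rfl | h'
      · rw [← he]
        exact hP i hi d (hS d (List.contains_iff_mem.1 hd))
      · exact hS c' h'
    · exact absurd hc (List.not_mem_nil)

theorem hder : ∀ c, c < 2 ^ 8 → mQ8 c = true → c ∈ runDer codes der := by decide +kernel

theorem hcodes : ∀ c ∈ codes, ∃ i, i < 8 ∧ c = cd i := by decide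

theorem h2 : (2 : ZMod 2) = 0 := by decide

theorem closure_reflSet : Subgroup.closure (reflSet Q8) = ⊤ :=
  closure_reflSet_eq_top_two Q8 h2 (QP_nondeg 4 (ZMod 2)) (finrank_plus 4 (ZMod 2))
    (Or.inr (by norm_num))

theorem rO_gen : Subgroup.closure (rO '' {i | i < 8}) = ⊤ := by
  rw [eq_top_iff, ← closure_reflSet, Subgroup.closure_le]
  rintro _ ⟨v, hv, rfl⟩
  obtain ⟨c, hc, rfl⟩ := model8.surj v
  have hmc := (Q_ne_iff model8 c).mp hv
  have key : ∀ c ∈ runDer codes der,
      reflG Q8 (mkVec (posP 4) c) ∈ Subgroup.closure (rO '' {i | i < 8}) := by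
    apply runDer_sound (fun c => reflG Q8 (mkVec (posP 4) c) ∈ Subgroup.closure (rO '' {i | i < 8}))
    · intro i hi d hd
      have h1 : rO i * reflG Q8 (mkVec (posP 4) d) * (rO i)⁻¹ =
          reflG Q8 (mkVec (posP 4) (R mQ8 (cd i) d)) := by
        rw [rO, conj_reflG]
        exact congrArg (reflG Q8) (refl_vec model8 (cd i) (hQ i hi) d)
      show reflG Q8 (mkVec (posP 4) (R mQ8 (cd i) d)) ∈ _
      rw [← h1]
      have hri : rO i ∈ Subgroup.closure (rO '' {i | i < 8}) :=
        Subgroup.subset_closure ⟨i, hi, rfl⟩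
      exact mul_mem (mul_mem hri hd) (inv_mem hri)
    · intro c hc
      obtain ⟨i, hi, rfl⟩ := hcodes c hc
      exact Subgroup.subset_closure ⟨i, hi, rfl⟩
  exact key c (hder c hc hmc)

/-! ### `Ω₈⁺(2)` -/

/-- the sign character -/
noncomputable def chi : O0 →* ℤˣ :=
  tsHom Q8 (QP_nondeg 4 (ZMod 2)) (finrank_plus 4 (ZMod 2)) (U0 4 (ZMod 2)) (U0_ts 4 (ZMod 2))
    (finrank_U0 4 (ZMod 2))

theorem chi_rO (i : ℕ) (hi : i < 8) : chi (rO i) = -1 :=
  tsHom_reflG _ _ _ _ _ _ _ ((Q_ne_iff model8 (cd i)).mpr (hQ i hi))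

theorem rO_not_mem (i : ℕ) (hi : i < 8) : rO i ∉ commutator O0 := by
  intro h
  have h1 : chi (rO i) = 1 := MonoidHom.mem_ker.1 (Abelianization.commutator_subset_ker chi h)
  rw [chi_rO i hi] at h1
  exact absurd h1 (by decide)

theorem rO_mul_mem (i j : ℕ) (hi : i < 8) (hj : j < 8) : rO i * rO j ∈ commutator O0 := by
  rw [comm_eq8]
  exact Subgroup.subset_closure ⟨_, ⟨_, (Q_ne_iff model8 (cd i)).mpr (hQ i hi), rfl⟩, _,
    ⟨_, (Q_ne_iff model8 (cd j)).mpr (hQ j hj), rfl⟩, rfl⟩

theorem comm_le : commutator O0 ≤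
    Subgroup.closure {x | ∃ i j, i < 8 ∧ j < 8 ∧ x = rO i * rO j} := by
  refine le_trans (commutator_le_evenSub (rO '' {i | i < 8}) ?_ rO_gen) ?_
  · rintro _ ⟨i, _, rfl⟩
    exact rO_sq i
  · rw [evenSub]
    apply Subgroup.closure_mono
    rintro _ ⟨_, ⟨i, hi, rfl⟩, _, ⟨j, hj, rfl⟩, rfl⟩
    exact ⟨i, j, hi, hj, rfl⟩

theorem card_O0 : Nat.card O0 = 348364800 := by
  have h := Cfsg.Agent.S0287.result (F := ZMod 2) (ZMod.card 2) 4 (by norm_num)
  change Nat.card O0 = _ at h
  rw [h]
  norm_num [Finset.prod_range_succ]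

instance : Finite O0 := Nat.finite_of_card_ne_zero (by rw [card_O0]; norm_num)

theorem center_bot : Subgroup.center ↥(commutator O0) = ⊥ := by
  rw [Subgroup.eq_bot_iff_forall]
  intro c hc
  obtain ⟨l, hl, hl2⟩ := Cfsg.Agent.S0293.center_scalar (F := ZMod 2) 4 le_rfl c hc
  have hl1 : l = 1 := by
    have key : ∀ l : ZMod 2, l * l = 1 → l = 1 := by decide
    exact key l hl2
  apply Subtype.ext
  apply Subtype.ext
  apply Units.ext
  rw [hl, hl1, one_smul]
  rfl

/-! ### The Coxeter element -/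

theorem prodR_pow {ι : Type} [Fintype ι] [DecidableEq ι] (Q : QuadraticForm (ZMod 2) (ι → ZMod 2))
    (vec : ℕ → ι → ZMod 2) (w : List ℕ) (k : ℕ) :
    prodR Q vec (List.replicate k w).flatten = prodR Q vec w ^ k := by
  induction k with
  | zero => simp [prodR]
  | succ k ih =>
    rw [List.replicate_succ, List.flatten_cons, prodR_append, ih, pow_succ']

theorem hcox : ∀ c, c < 2 ^ 8 → (List.replicate 15 codes).flatten.foldr (R mQ8) c = c := by
  decide +kernel

theorem cox_pow : (rO 0 * rO 1 * rO 2 * rO 3 * rO 4 * rO 5 * rO 6 * rO 7) ^ 15 = 1 := by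
  have e : rO 0 * rO 1 * rO 2 * rO 3 * rO 4 * rO 5 * rO 6 * rO 7 =
      prodR Q8 (mkVec (posP 4)) codes := by
    simp only [prodR, codes, List.map_cons, List.map_nil, List.prod_cons, List.prod_nil, mul_one,
      mul_assoc]
    rfl
  rw [e, ← prodR_pow]
  have h := prodR_eq model8 (List.replicate 15 codes).flatten []
    (by decide) (by simp) (fun c hc => by rw [hcox c hc]; rfl)
  rw [h]
  rfl

end Cfsg.Agent.H41.O8
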