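import Cfsg.Agent.H41.WrC2
import Cfsg.Agent.H41.Stem

/-!
# The kernel bound from the twisted normalisation (helper41)

`bound_abstract`: let `Ω ≤ O` and let `O` be generated by involutions `r i ∉ Ω` (`i < 8`)
satisfying the `E₈` Coxeter relations, with `r i * r 0 ∈ Ω`.  Let `P` be the group with the
universal property of the Ihara–Yokonuma presentation, `ψ : P → O` the natural map, and assume
that `ker ψ` has order at most `4` and exponent `2`.  Then the kernel of every finite stem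
extension of `Ω` is a homomorphic image of the four-group.
-/

set_option autoImplicit false

namespace Cfsg.Agent.H41.TwCox

open Cfsg Cfsg.Agent.H41 Cfsg.Agent.H41.CoxBound Cfsg.Agent.H41.E8
open scoped commutatorElement

universe u v w

/-- a finite group of exponent two and order at most four is an image of the four-group -/
theorem klein_quotient {A : Type*} [Group A] [Finite A] (hexp : ∀ a : A, a * a = 1)
    (hcard : Nat.card A ≤ 4) :
    ∃ f : Multiplicative (ZMod 2 × ZMod 2) →* A, Function.Surjective f := by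
  classical
  by_cases hsmall : ∃ g0 : A, ∀ g : A, g = 1 ∨ g = g0
  · obtain ⟨g0, hg0⟩ := hsmall
    obtain ⟨π, hπ⟩ := exists_surjective_zmod_two g0 hg0
    refine ⟨π.comp (AddMonoidHom.toMultiplicative (AddMonoidHom.fst (ZMod 2) (ZMod 2))), ?_⟩
    intro a
    obtain ⟨x, hx⟩ := hπ a
    exact ⟨Multiplicative.ofAdd (Multiplicative.toAdd x, 0), hx⟩
  · push Not at hsmall
    obtain ⟨a, ha1, -⟩ := hsmall 1
    obtain ⟨b, hb1, hba⟩ := hsmall a
    have hinv : ∀ g : A, g⁻¹ = g := fun g => inv_eq_of_mul_eq_one_left (hexp g)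
    have hab1 : a * b ≠ 1 := by
      intro h
      apply hba
      have : b = a⁻¹ := eq_inv_of_mul_eq_one_right h
      rw [this, hinv]
    have haba : a * b ≠ a := by
      intro h
      exact hb1 (mul_eq_left.1 h)
    have habb : a * b ≠ b := by
      intro h
      exact ha1 (mul_eq_right.1 h)
    haveI : Fintype A := Fintype.ofFinite A
    have h4 : ({1, a, b, a * b} : Finset A).card = 4 := by
      rw [Finset.card_insert_of_notMem, Finset.card_insert_of_notMem,
        Finset.card_insert_of_notMem, Finset.card_singleton]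
      · rw [Finset.mem_singleton]; exact fun h => habb h.symm
      · rw [Finset.mem_insert, Finset.mem_singleton]
        rintro (h | h)
        · exact hba h.symm
        · exact haba h.symm
      · rw [Finset.mem_insert, Finset.mem_insert, Finset.mem_singleton]
        rintro (h | h | h)
        · exact ha1 h.symm
        · exact hb1 h.symm
        · exact hab1 h.symm
    have hge : 4 ≤ Nat.card A := by
      rw [Nat.card_eq_fintype_card, ← h4]
      exact Finset.card_le_univ _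
    have hc4 : Nat.card A = 4 := le_antisymm hcard hge
    have hexp2 : Monoid.exponent A = 2 := by
      have hd : Monoid.exponent A ∣ 2 :=
        Monoid.exponent_dvd_of_forall_pow_eq_one (fun g => by rw [pow_two]; exact hexp g)
      rcases (Nat.dvd_prime Nat.prime_two).1 hd with h | h
      · exfalso
        apply ha1
        have := Monoid.pow_exponent_eq_one a
        rwa [h, pow_one] at this
      · exact h
    have : IsKleinFour A := ⟨hc4, hexp2⟩
    obtain ⟨e⟩ := IsKleinFour.nonempty_mulEquiv (G₁ := Multiplicative (ZMod 2 × ZMod 2)) (G₂ := A)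
    exact ⟨e.toMonoidHom, e.surjective⟩

/-- the quotient of a stem extension by a subgroup of its kernel is a stem extension -/
theorem stem_quotient {Γ : Type u} {G : Type v} [Group Γ] [Group G] (σ : Γ →* G)
    (hσ : IsStemExtension σ) (B : Subgroup Γ) [B.Normal] (hB : B ≤ σ.ker) :
    IsStemExtension (QuotientGroup.lift B σ hB) := by
  obtain ⟨hs, hc, hd⟩ := hσ
  refine ⟨?_, ?_, ?_⟩
  · intro g
    obtain ⟨x, hx⟩ := hs g
    exact ⟨QuotientGroup.mk x, hx⟩
  · intro c hcK
    induction c using QuotientGroup.induction_on with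
    | H a =>
      have ha : a ∈ σ.ker := hcK
      rw [Subgroup.mem_center_iff]
      intro y
      induction y using QuotientGroup.induction_on with
      | H b =>
        show ((QuotientGroup.mk (b * a) : Γ ⧸ B)) = QuotientGroup.mk (a * b)
        rw [Subgroup.mem_center_iff.1 (hc ha) b]
  · intro c hcK
    induction c using QuotientGroup.induction_on with
    | H a =>
      have ha : a ∈ σ.ker := hcK
      exact Cfsg.Agent.H41.map_commutator_le (QuotientGroup.mk' B) ⟨a, hd ha, rfl⟩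

/-- the elements of the kernel killed by `2 ^ n` -/
def twoPart {Γ : Type u} {G : Type v} [Group Γ] [Group G] (σ : Γ →* G)
    (hc : σ.ker ≤ Subgroup.center Γ) (n : ℕ) : Subgroup Γ where
  carrier := {a | σ a = 1 ∧ a ^ (2 ^ n) = 1}
  mul_mem' := by
    rintro a b ⟨h1, h2⟩ ⟨h1', h2'⟩
    have hcm : Commute a b := Subgroup.mem_center_iff.1 (hc (MonoidHom.mem_ker.2 h1')) a
    exact ⟨by rw [map_mul, h1, h1', one_mul], by rw [hcm.mul_pow, h2, h2', one_mul]⟩
  one_mem' := ⟨map_one _, one_pow _⟩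
  inv_mem' := by
    rintro a ⟨h1, h2⟩
    exact ⟨by rw [map_inv, h1, inv_one], by rw [inv_pow, h2, inv_one]⟩

instance twoPart_normal {Γ : Type u} {G : Type v} [Group Γ] [Group G] (σ : Γ →* G)
    (hc : σ.ker ≤ Subgroup.center Γ) (n : ℕ) : (twoPart σ hc n).Normal where
  conj_mem := by
    rintro a ⟨h1, h2⟩ g
    have : g * a * g⁻¹ = a := by
      rw [Subgroup.mem_center_iff.1 (hc (MonoidHom.mem_ker.2 h1)) g, mul_inv_cancel_right]
    rw [this]
    exact ⟨h1, h2⟩

section Bound

variable {Γ : Type u} [Group Γ] {O : Type v} [Group O] (Ω : Subgroup O)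
  (r : ℕ → O) (hrel : Rel adjE r 8) (hodd : ∀ i, i < 8 → r i ∉ Ω)
  (hev : ∀ i, i < 8 → r i * r 0 ∈ Ω)
  {P : Type w} [Group P] (g : ℕ → P) (z : P)
  (UP : ∀ (H : Type u) [Group H] (h : ℕ → H) (z' : H), Rel2 adjE h z' 8 →
    ∃ f : P →* H, (∀ i, i < 8 → f (g i) = h i) ∧ f z = z')
  (hgen : Subgroup.closure (g '' {i | i < 8} ∪ {z}) = ⊤)
  (ψ : P →* O) (hψ : ∀ i, i < 8 → ψ (g i) = r i) (hψz : ψ z = 1)
  (hΩ : ∀ ω : Ω, ∃ p ∈ commutator P, ψ p = ω)
include hrel hodd hev UP hgen hψ hψz hΩ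

theorem exists_hom_of_rel2 (σ : Γ →* Ω) (hσ : IsStemExtension σ)
    (t : ℕ → Ehat Ω σ (r 0) (hrel.1 0 (by norm_num))) (z1 : Ehat Ω σ (r 0) (hrel.1 0 (by norm_num)))
    (hl : ∀ i, i < 8 → piHat Ω σ (r 0) (hrel.1 0 (by norm_num)) (t i) = r i)
    (hz1 : piHat Ω σ (r 0) (hrel.1 0 (by norm_num)) z1 = 1) (hrel2 : Rel2 adjE t z1 8) :
    ∃ φ : ↥(commutator P) →* Γ, ∀ a : Γ, σ a = 1 →
      ∃ p : ↥(commutator P), ψ (p : P) = 1 ∧ φ p = a := by
  obtain ⟨hs, hc, hd⟩ := hσ
  obtain ⟨F, hFg, hFz⟩ := UP _ t z1 hrel2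
  have hF : (piHat Ω σ (r 0) (hrel.1 0 (by norm_num))).comp F = ψ := by
    apply MonoidHom.eq_of_eqOn_dense hgen
    rintro x (⟨i, hi, rfl⟩ | hx)
    · show piHat Ω σ (r 0) _ (F (g i)) = ψ (g i)
      rw [hFg i hi, hl i hi, hψ i hi]
    · rw [Set.mem_singleton_iff] at hx
      subst hx
      show piHat Ω σ (r 0) _ (F x) = ψ x
      rw [hFz, hz1, hψz]
  exact consequence _ hs hc hd ψ hΩ F (fun p => by rw [← hF]; rfl)

theorem exists_hom_two (σ : Γ →* Ω) (hσ : IsStemExtension σ) (n : ℕ)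
    (h2 : ∀ a : Γ, σ a = 1 → a ^ (2 ^ n) = 1) :
    ∃ φ : ↥(commutator P) →* Γ, ∀ a : Γ, σ a = 1 →
      ∃ p : ↥(commutator P), ψ (p : P) = 1 ∧ φ p = a := by
  have S := setting (hrel.1 0 (by norm_num)) hσ.1 hσ.2.1 r hrel rfl hodd hev
  obtain ⟨t, z1, hl, hz1, hrel2⟩ := S.T2 (n := n)
    (ker_piHat_pow _ (hodd 0 (by norm_num)) _ h2)
  exact exists_hom_of_rel2 Ω r hrel hodd hev g z UP hgen ψ hψ hψz hΩ σ hσ t z1 hl hz1 hrel2

theorem exists_hom_odd (σ : Γ →* Ω) (hσ : IsStemExtension σ) (m : ℕ)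
    (ho : ∀ a : Γ, σ a = 1 → a ^ (2 * m + 1) = 1) :
    ∃ φ : ↥(commutator P) →* Γ, ∀ a : Γ, σ a = 1 →
      ∃ p : ↥(commutator P), ψ (p : P) = 1 ∧ φ p = a := by
  have S := setting (hrel.1 0 (by norm_num)) hσ.1 hσ.2.1 r hrel rfl hodd hev
  obtain ⟨t, hl, hrel1⟩ := S.Todd (m := m)
    (ker_piHat_pow _ (hodd 0 (by norm_num)) _ ho)
  exact exists_hom_of_rel2 Ω r hrel hodd hev g z UP hgen ψ hψ hψz hΩ σ hσ t 1 hl (map_one _)
    (Rel.rel2 hrel1)

/-- **The abstract bound.** -/
theorem bound_abstract [Finite Γ] (σ : Γ →* Ω) (hσ : IsStemExtension σ)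
    (hsq : ∀ p : P, ψ p = 1 → p * p = 1) [Finite ψ.ker] (hcard : Nat.card ψ.ker ≤ 4) :
    ∃ f : Multiplicative (ZMod 2 × ZMod 2) →* σ.ker, Function.Surjective f := by
  classical
  obtain ⟨hs, hc, hd⟩ := hσ
  -- a lifted element of the kernel is an involution
  have hinvol : ∀ {Δ : Type u} [Group Δ] (φ : ↥(commutator P) →* Δ) (p : ↥(commutator P)),
      ψ (p : P) = 1 → φ p * φ p = 1 := by
    intro Δ _ φ p hp
    have : p * p = 1 := Subtype.ext (hsq p.1 hp)
    rw [← map_mul, this, map_one]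
  -- first pass: the kernel is a 2-group
  obtain ⟨n, m, hm, hN⟩ := Nat.exists_eq_two_pow_mul_odd (n := Nat.card σ.ker)
    Nat.card_pos.ne'
  obtain ⟨m', rfl⟩ := hm
  have h2 : ∀ a : Γ, σ a = 1 → a ^ (2 ^ n) = 1 := by
    let B := twoPart σ hc n
    have hB : B ≤ σ.ker := fun a ha => MonoidHom.mem_ker.2 ha.1
    have hσ' := stem_quotient σ ⟨hs, hc, hd⟩ B hB
    have ho : ∀ c : Γ ⧸ B, QuotientGroup.lift B σ hB c = 1 → c ^ (2 * m' + 1) = 1 := by
      intro c hcK
      induction c using QuotientGroup.induction_on with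
      | H a =>
        have ha : σ a = 1 := hcK
        show ((QuotientGroup.mk (a ^ (2 * m' + 1)) : Γ ⧸ B)) = 1
        rw [QuotientGroup.eq_one_iff]
        refine ⟨by rw [map_pow, ha, one_pow], ?_⟩
        rw [← pow_mul, mul_comm, ← hN]
        have h1 : (⟨a, MonoidHom.mem_ker.2 ha⟩ : σ.ker) ^ Nat.card σ.ker = 1 := pow_card_eq_one'
        exact congrArg Subtype.val h1
    obtain ⟨φ, hφ⟩ := exists_hom_odd Ω r hrel hodd hev g z UP hgen ψ hψ hψz hΩ
      (QuotientGroup.lift B σ hB) hσ' m' ho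
    intro a ha
    have hmk : (QuotientGroup.mk a : Γ ⧸ B) = 1 := by
      have hk : QuotientGroup.lift B σ hB (QuotientGroup.mk a) = 1 := ha
      obtain ⟨p, hp, hpa⟩ := hφ _ hk
      have h1 := hinvol φ p hp
      rw [hpa] at h1
      have h3 := ho _ hk
      rw [pow_succ, pow_mul, pow_two, h1, one_pow, one_mul] at h3
      exact h3
    exact ((QuotientGroup.eq_one_iff a).1 hmk).2
  -- second pass
  obtain ⟨φ, hφ⟩ := exists_hom_two Ω r hrel hodd hev g z UP hgen ψ hψ hψz hΩ σ ⟨hs, hc, hd⟩ n h2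
  have hexp : ∀ a : σ.ker, a * a = 1 := by
    intro a
    obtain ⟨p, hp, hpa⟩ := hφ a.1 (MonoidHom.mem_ker.1 a.2)
    apply Subtype.ext
    show a.1 * a.1 = 1
    rw [← hpa]
    exact hinvol φ p hp
  have hcard' : Nat.card σ.ker ≤ 4 := by
    let j : σ.ker → ψ.ker := fun a =>
      ⟨(Classical.choose (hφ a.1 (MonoidHom.mem_ker.1 a.2))).1,
        MonoidHom.mem_ker.2 (Classical.choose_spec (hφ a.1 (MonoidHom.mem_ker.1 a.2))).1⟩
    have hj : Function.Injective j := by
      intro a b hab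
      have h0 : (j a).1 = (j b).1 := congrArg Subtype.val hab
      have h1 : (Classical.choose (hφ a.1 (MonoidHom.mem_ker.1 a.2))) =
          (Classical.choose (hφ b.1 (MonoidHom.mem_ker.1 b.2))) :=
        Subtype.ext h0
      apply Subtype.ext
      rw [← (Classical.choose_spec (hφ a.1 (MonoidHom.mem_ker.1 a.2))).2,
        ← (Classical.choose_spec (hφ b.1 (MonoidHom.mem_ker.1 b.2))).2, h1]
    exact le_trans (Nat.card_le_card_of_injective j hj) hcard
  exact klein_quotient hexp hcard'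

end Bound

end Cfsg.Agent.H41.TwCox
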