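import Cfsg.Agent.H41.O8Base
import Cfsg.Agent.H41.E8Model
import Cfsg.Agent.H41.TwBound
import Cfsg.Agent.H41.LocalStem
import Cfsg.Agent.H41.SchurCover2
import Cfsg.Agent.H41.Transport
import Cfsg.Agent.H48.FieldTwo

/-!
# The Schur multiplier of `Ω₈⁺(2)` (helper41)

`P` is the Ihara–Yokonuma group of type `E₈` (order `4 |O₈⁺(2)|`) and `ψ : P → O₈⁺(2)` the
natural map, with kernel `{1, z, w, z w}` a four-group (`w` the lift of the longest element).
* Existence: the subgroup `N` of even words is perfect, contains `ker ψ` in its centre and maps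
  onto `Ω₈⁺(2)`.
* Bound: `TwCox.bound_abstract`.
-/

set_option autoImplicit false

namespace Cfsg.Agent.H41.O8

open Cfsg Cfsg.Agent.H49 Cfsg.Agent.H41 Cfsg.Agent.H41.OrthH1 Cfsg.Agent.H41.CoxBound
  Cfsg.Agent.H41.E8 Cfsg.Agent.H41.TwCox Cfsg.Agent.H41.E8Pres Cfsg.Agent.H41.E8Model
open scoped commutatorElement IsMulCommutative

theorem exists_psi : ∃ ψ : P →* O0, (∀ i, i < 8 → ψ (g i) = rO i) ∧ ψ z = 1 :=
  UP rO 1 (Rel.rel2 rO_rel)

/-- the natural map `P → O₈⁺(2)` -/
noncomputable def psi : P →* O0 := Classical.choose exists_psi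

theorem psi_g (i : ℕ) (hi : i < 8) : psi (g i) = rO i := (Classical.choose_spec exists_psi).1 i hi

theorem psi_z : psi z = 1 := (Classical.choose_spec exists_psi).2

theorem psi_surj : Function.Surjective psi := by
  rw [← MonoidHom.range_eq_top, eq_top_iff, ← rO_gen, Subgroup.closure_le]
  rintro _ ⟨i, hi, rfl⟩
  exact ⟨g i, psi_g i hi⟩

theorem card_ker_le : Nat.card psi.ker ≤ 4 := by
  have h1 := Subgroup.card_mul_index psi.ker
  rw [Subgroup.index_ker, MonoidHom.range_eq_top.2 psi_surj, Subgroup.card_top, card_O0] at h1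
  have h2 := finite_card.2
  omega

theorem psi_w : psi w = 1 := by
  rw [w, map_pow]
  simp only [map_mul]
  rw [psi_g 0 (by norm_num), psi_g 1 (by norm_num), psi_g 2 (by norm_num),
    psi_g 3 (by norm_num), psi_g 4 (by norm_num), psi_g 5 (by norm_num), psi_g 6 (by norm_num),
    psi_g 7 (by norm_num)]
  exact cox_pow

theorem z_ne_one : z ≠ 1 := by
  obtain ⟨μ, hz, -, -, -⟩ := model
  intro h
  exact hz (by rw [h, map_one])

theorem w_ne_one : w ≠ 1 := by
  obtain ⟨μ, -, hw, -, -⟩ := model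
  intro h
  exact hw (by rw [h, map_one])

theorem w_ne_z : w ≠ z := by
  obtain ⟨μ, -, -, hwz, -⟩ := model
  intro h
  exact hwz (by rw [h])

theorem ww_ne_z : w * w ≠ z := by
  obtain ⟨μ, hz, -, -, hww⟩ := model
  intro h
  exact hz (by rw [← h, hww])

theorem card4 [DecidableEq P] : ({1, z, w, z * w} : Finset P).card = 4 := by
  rw [Finset.card_insert_of_notMem, Finset.card_insert_of_notMem,
    Finset.card_insert_of_notMem, Finset.card_singleton]
  · rw [Finset.mem_singleton]
    intro h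
    exact z_ne_one (mul_eq_right.1 h.symm)
  · rw [Finset.mem_insert, Finset.mem_singleton]
    rintro (h | h)
    · exact w_ne_z h.symm
    · exact w_ne_one (mul_eq_left.1 h.symm)
  · rw [Finset.mem_insert, Finset.mem_insert, Finset.mem_singleton]
    rintro (h | h | h)
    · exact z_ne_one h.symm
    · exact w_ne_one h.symm
    · apply w_ne_z
      have h1 : w = z⁻¹ := eq_inv_of_mul_eq_one_right h.symm
      rw [h1]
      exact inv_eq_of_mul_eq_one_left z_sq

theorem ncard4 : ({1, z, w, z * w} : Set P).ncard = 4 := by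
  classical
  have hS : (({1, z, w, z * w} : Finset P) : Set P) = {1, z, w, z * w} := by simp
  rw [← hS, Set.ncard_coe_finset, card4]

theorem ker_set : (psi.ker : Set P) = {1, z, w, z * w} := by
  symm
  refine Set.eq_of_subset_of_ncard_le ?_ ?_ (Set.toFinite _)
  · rintro x (rfl | rfl | rfl | rfl)
    · exact one_mem _
    · exact MonoidHom.mem_ker.2 psi_z
    · exact MonoidHom.mem_ker.2 psi_w
    · exact MonoidHom.mem_ker.2 (by rw [map_mul, psi_z, psi_w, one_mul])
  · rw [ncard4, ← Nat.card_coe_set_eq]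
    exact card_ker_le

theorem ker_cases (k : P) (hk : psi k = 1) : k = 1 ∨ k = z ∨ k = w ∨ k = z * w := by
  have h : k ∈ (psi.ker : Set P) := MonoidHom.mem_ker.2 hk
  rw [ker_set] at h
  exact h

theorem card_ker : Nat.card psi.ker = 4 := by
  have h : Nat.card psi.ker = (psi.ker : Set P).ncard := Nat.card_coe_set_eq _
  rw [ker_set] at h
  exact h.trans ncard4

theorem w_sq : w * w = 1 := by
  have hk : psi (w * w) = 1 := by rw [map_mul, psi_w, one_mul]
  rcases ker_cases _ hk with h | h | h | h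
  · exact h
  · exact absurd h ww_ne_z
  · exact absurd (mul_eq_left.1 h) w_ne_one
  · exact absurd (mul_right_cancel h) w_ne_z

theorem ker_sq (p : P) (hp : psi p = 1) : p * p = 1 := by
  rcases ker_cases p hp with rfl | rfl | rfl | rfl
  · exact one_mul 1
  · exact z_sq
  · exact w_sq
  · calc z * w * (z * w) = z * (w * z) * w := by simp only [mul_assoc]
      _ = z * (z * w) * w := by rw [z_comm w]
      _ = (z * z) * (w * w) := by simp only [mul_assoc]
      _ = 1 := by rw [z_sq, w_sq, one_mul]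

theorem hOmega (ω : ↥(commutator O0)) : ∃ p ∈ commutator P, psi p = ω := by
  have h := map_commutator_of_surjective psi psi_surj
  have hω : (ω : O0) ∈ Subgroup.map psi (commutator P) := by rw [h]; exact ω.2
  exact hω

/-- **Upper bound** for the Schur multiplier of `Ω₈⁺(2)`. -/
theorem bound (Γ : Type) [Group Γ] [Finite Γ] (σ : Γ →* ↥(commutator O0))
    (hσ : IsStemExtension σ) :
    ∃ f : Multiplicative (ZMod 2 × ZMod 2) →* σ.ker, Function.Surjective f :=
  bound_abstract (commutator O0) rO rO_rel rO_not_mem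
    (fun i hi => rO_mul_mem i 0 hi (by norm_num)) g z (fun _ _ h z' hr => UP h z' hr) hgen psi
    psi_g psi_z hOmega σ hσ ker_sq card_ker_le

/-! ### Existence -/

theorem edge_comm {G : Type*} [Group G] (A B C z : G) (hA : A * A = 1) (hB : B * B = 1)
    (hC : C * C = 1) (hbr : A * B * A = B * A * B) (hCA : C * A = z * (A * C))
    (hBC : B * C = z * (C * B)) (hz : ∀ x, z * x = x * z) (hzz : z * z = 1) :
    ⁅A * C, A * B⁆ = A * B := by
  have key : C * A * B * C = A * B := by
    calc C * A * B * C = (C * A) * (B * C) := by simp only [mul_assoc]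
      _ = z * (A * C) * (z * (C * B)) := by rw [hCA, hBC]
      _ = z * ((A * C) * z) * (C * B) := by simp only [mul_assoc]
      _ = z * (z * (A * C)) * (C * B) := by rw [hz (A * C)]
      _ = (z * z) * (A * (C * C) * B) := by simp only [mul_assoc]
      _ = A * B := by rw [hzz, hC, one_mul, mul_one]
  rw [commutatorElement_def, mul_inv_of_sq hA hC, mul_inv_of_sq hA hB]
  calc A * C * (A * B) * (C * A) * (B * A) = A * (C * A * B * C) * A * B * A := by
        simp only [mul_assoc]
    _ = A * (A * B) * A * B * A := by rw [key]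
    _ = (A * A) * (B * A * B) * A := by simp only [mul_assoc]
    _ = (A * B * A) * A := by rw [hA, one_mul, hbr]
    _ = A * B := by rw [mul_assoc, hA, mul_one]

/-- the even subgroup -/
def N : Subgroup P := Subgroup.closure {x | ∃ i j, i < 8 ∧ j < 8 ∧ x = g i * g j}

theorem gg_mem (i j : ℕ) (hi : i < 8) (hj : j < 8) : g i * g j ∈ N :=
  Subgroup.subset_closure ⟨i, j, hi, hj, rfl⟩

theorem psi_N {n : P} (hn : n ∈ N) : psi n ∈ commutator O0 := by
  have h : Subgroup.closure {x | ∃ i j, i < 8 ∧ j < 8 ∧ x = g i * g j} ≤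
      (commutator O0).comap psi := by
    rw [Subgroup.closure_le]
    rintro _ ⟨i, j, hi, hj, rfl⟩
    show psi (g i * g j) ∈ commutator O0
    rw [map_mul, psi_g i hi, psi_g j hj]
    exact rO_mul_mem i j hi hj
  exact h hn

theorem psi_N_surj (ω : O0) (hω : ω ∈ commutator O0) : ∃ n ∈ N, psi n = ω := by
  have h1 : Subgroup.map psi N =
      Subgroup.closure {x | ∃ i j, i < 8 ∧ j < 8 ∧ x = rO i * rO j} := by
    rw [N, MonoidHom.map_closure]
    congr 1
    ext x
    constructor
    · rintro ⟨_, ⟨i, j, hi, hj, rfl⟩, rfl⟩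
      exact ⟨i, j, hi, hj, by rw [map_mul, psi_g i hi, psi_g j hj]⟩
    · rintro ⟨i, j, hi, hj, rfl⟩
      exact ⟨g i * g j, ⟨i, j, hi, hj, rfl⟩, by rw [map_mul, psi_g i hi, psi_g j hj]⟩
  have h2 : ω ∈ Subgroup.map psi N := by rw [h1]; exact comm_le hω
  exact h2

theorem z_mem : z ∈ N := by
  have h : (g 0 * g 2) * (g 0 * g 2) = z := by
    have h1 := rel2.2.2.1 0 2 (by norm_num) (by norm_num) (by norm_num) (by decide)
    calc (g 0 * g 2) * (g 0 * g 2) = z * (g 2 * g 0) * (g 0 * g 2) := by rw [← h1]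
      _ = z * (g 2 * (g 0 * g 0) * g 2) := by simp only [mul_assoc]
      _ = z := by rw [rel2.1 0 (by norm_num), mul_one, rel2.1 2 (by norm_num), mul_one]
  rw [← h]
  exact mul_mem (gg_mem 0 2 (by norm_num) (by norm_num)) (gg_mem 0 2 (by norm_num) (by norm_num))

theorem w_mem : w ∈ N := by
  have e : g 0 * g 1 * g 2 * g 3 * g 4 * g 5 * g 6 * g 7 =
      (g 0 * g 1) * (g 2 * g 3) * (g 4 * g 5) * (g 6 * g 7) := by simp only [mul_assoc]
  rw [w, e]
  exact pow_mem (mul_mem (mul_mem (mul_mem (gg_mem 0 1 (by norm_num) (by norm_num))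
    (gg_mem 2 3 (by norm_num) (by norm_num))) (gg_mem 4 5 (by norm_num) (by norm_num)))
    (gg_mem 6 7 (by norm_num) (by norm_num))) 15

theorem ker_le_N {k : P} (hk : psi k = 1) : k ∈ N := by
  rcases ker_cases k hk with rfl | rfl | rfl | rfl
  · exact one_mem _
  · exact z_mem
  · exact w_mem
  · exact mul_mem z_mem w_mem

theorem edge_mem (a b c : ℕ) (ha : a < 8) (hb : b < 8) (hc : c < 8) (hab : adjE a b = true)
    (hca : c ≠ a) (hbc : b ≠ c) (aca : adjE c a = false) (abc : adjE b c = false) :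
    g a * g b ∈ ⁅N, N⁆ := by
  rw [← edge_comm (g a) (g b) (g c) z (rel2.1 a ha) (rel2.1 b hb) (rel2.1 c hc)
    (rel2.2.1 a b ha hb hab) (rel2.2.2.1 c a hc ha hca aca) (rel2.2.2.1 b c hb hc hbc abc)
    z_comm z_sq]
  exact Subgroup.commutator_mem_commutator (gg_mem a c ha hc) (gg_mem a b ha hb)

theorem zero_mem : ∀ b, b < 8 → g 0 * g b ∈ ⁅N, N⁆ := by
  have mid : ∀ x y m : P, m * m = 1 → x * y = (x * m) * (m * y) := by
    intro x y m hm
    rw [mul_assoc, ← mul_assoc m m y, hm, one_mul]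
  have e01 := edge_mem 0 1 7 (by norm_num) (by norm_num) (by norm_num) (by decide)
    (by norm_num) (by norm_num) (by decide) (by decide)
  have e12 := edge_mem 1 2 7 (by norm_num) (by norm_num) (by norm_num) (by decide)
    (by norm_num) (by norm_num) (by decide) (by decide)
  have e23 := edge_mem 2 3 7 (by norm_num) (by norm_num) (by norm_num) (by decide)
    (by norm_num) (by norm_num) (by decide) (by decide)
  have e24 := edge_mem 2 4 7 (by norm_num) (by norm_num) (by norm_num) (by decide)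
    (by norm_num) (by norm_num) (by decide) (by decide)
  have e35 := edge_mem 3 5 7 (by norm_num) (by norm_num) (by norm_num) (by decide)
    (by norm_num) (by norm_num) (by decide) (by decide)
  have e56 := edge_mem 5 6 0 (by norm_num) (by norm_num) (by norm_num) (by decide)
    (by norm_num) (by norm_num) (by decide) (by decide)
  have e67 := edge_mem 6 7 0 (by norm_num) (by norm_num) (by norm_num) (by decide)
    (by norm_num) (by norm_num) (by decide) (by decide)
  have h0 : g 0 * g 0 ∈ ⁅N, N⁆ := by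
    rw [rel2.1 0 (by norm_num)]
    exact one_mem _
  have h2 : g 0 * g 2 ∈ ⁅N, N⁆ := by
    rw [mid (g 0) (g 2) (g 1) (rel2.1 1 (by norm_num))]
    exact mul_mem e01 e12
  have h3 : g 0 * g 3 ∈ ⁅N, N⁆ := by
    rw [mid (g 0) (g 3) (g 2) (rel2.1 2 (by norm_num))]
    exact mul_mem h2 e23
  have h4 : g 0 * g 4 ∈ ⁅N, N⁆ := by
    rw [mid (g 0) (g 4) (g 2) (rel2.1 2 (by norm_num))]
    exact mul_mem h2 e24
  have h5 : g 0 * g 5 ∈ ⁅N, N⁆ := by
    rw [mid (g 0) (g 5) (g 3) (rel2.1 3 (by norm_num))]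
    exact mul_mem h3 e35
  have h6 : g 0 * g 6 ∈ ⁅N, N⁆ := by
    rw [mid (g 0) (g 6) (g 5) (rel2.1 5 (by norm_num))]
    exact mul_mem h5 e56
  have h7 : g 0 * g 7 ∈ ⁅N, N⁆ := by
    rw [mid (g 0) (g 7) (g 6) (rel2.1 6 (by norm_num))]
    exact mul_mem h6 e67
  intro b hb
  interval_cases b
  · exact h0
  · exact e01
  · exact h2
  · exact h3
  · exact h4
  · exact h5
  · exact h6
  · exact h7

theorem N_perfect : N ≤ ⁅N, N⁆ := by
  have h : Subgroup.closure {x | ∃ i j, i < 8 ∧ j < 8 ∧ x = g i * g j} ≤ ⁅N, N⁆ := by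
    rw [Subgroup.closure_le]
    rintro _ ⟨i, j, hi, hj, rfl⟩
    have e : g i * g j = (g 0 * g i)⁻¹ * (g 0 * g j) := by
      rw [mul_inv_of_sq (rel2.1 0 (by norm_num)) (rel2.1 i hi), mul_assoc, ← mul_assoc (g 0),
        rel2.1 0 (by norm_num), one_mul]
    show g i * g j ∈ ⁅N, N⁆
    rw [e]
    exact mul_mem (inv_mem (zero_mem i hi)) (zero_mem j hj)
  exact h

theorem z_center : z ∈ Subgroup.center P :=
  Subgroup.mem_center_iff.2 (fun p => (z_comm p).symm)

theorem w_comm_mem (p : P) : ⁅w, p⁆ ∈ Subgroup.center P := by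
  have hw_inv : w⁻¹ = w := inv_eq_of_mul_eq_one_left w_sq
  have hq : psi (p * w * p⁻¹) = 1 := by
    rw [map_mul, map_mul, psi_w, mul_one, map_inv, mul_inv_cancel]
  have e : ⁅w, p⁆ = w * (p * w * p⁻¹)⁻¹ := by
    rw [commutatorElement_def, mul_inv_rev, mul_inv_rev, inv_inv, hw_inv]
    simp only [mul_assoc]
  have e2 : w = p⁻¹ * (p * w * p⁻¹) * p := by group
  rcases ker_cases _ hq with h | h | h | h
  · exfalso
    apply w_ne_one
    rw [e2, h, mul_one, inv_mul_cancel]
  · exfalso
    apply w_ne_z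
    rw [e2, h, ← z_comm p⁻¹, mul_assoc, inv_mul_cancel, mul_one]
  · rw [e, h, mul_inv_cancel]
    exact Subgroup.one_mem _
  · rw [e, h, mul_inv_rev, mul_inv_cancel_left]
    exact Subgroup.inv_mem _ z_center

theorem w_comm_N {n : P} (hn : n ∈ N) : w * n = n * w := by
  have h1 : n ∈ commutator P := by
    have h := N_perfect hn
    rw [commutator_def]
    exact Subgroup.commutator_mono le_top le_top h
  have h2 := Abelianization.commutator_subset_ker (commHom w w_comm_mem) h1
  have h3 : ((commHom w w_comm_mem n : Subgroup.center P) : P) = 1 := by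
    rw [MonoidHom.mem_ker.1 h2]
    rfl
  have h4 : ⁅w, n⁆ = 1 := h3
  exact commutatorElement_eq_one_iff_mul_comm.1 h4

theorem ker_central {k : P} (hk : psi k = 1) {n : P} (hn : n ∈ N) : k * n = n * k := by
  rcases ker_cases k hk with rfl | rfl | rfl | rfl
  · rw [one_mul, mul_one]
  · exact z_comm n
  · exact w_comm_N hn
  · rw [mul_assoc, w_comm_N hn, ← mul_assoc, z_comm n, mul_assoc]

/-- the covering map -/
noncomputable def sig : ↥N →* ↥(commutator O0) :=
  (psi.comp N.subtype).codRestrict (commutator O0) (fun n => psi_N n.2)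

theorem sig_apply (n : ↥N) : ((sig n : ↥(commutator O0)) : O0) = psi n.1 := rfl

theorem sig_ker_iff (n : ↥N) : n ∈ sig.ker ↔ psi n.1 = 1 := by
  rw [MonoidHom.mem_ker, ← sig_apply]
  constructor
  · intro h
    rw [h]
    rfl
  · intro h
    exact Subtype.ext h

theorem sig_stem : IsStemExtension sig := by
  refine ⟨?_, ?_, ?_⟩
  · intro ω
    obtain ⟨n, hn, hnω⟩ := psi_N_surj ω.1 ω.2
    exact ⟨⟨n, hn⟩, Subtype.ext hnω⟩
  · intro x hx
    have hx1 : psi x.1 = 1 := (sig_ker_iff x).1 hx
    rw [Subgroup.mem_center_iff]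
    intro y
    exact Subtype.ext (ker_central hx1 y.2).symm
  · intro x _
    have h1 : x.1 ∈ ⁅N, N⁆ := N_perfect x.2
    rw [← Subgroup.map_subtype_commutator] at h1
    obtain ⟨y, hy, hyx⟩ := h1
    have e : y = x := Subtype.ext hyx
    rw [← e]
    exact hy

theorem sig_ker : Nonempty (sig.ker ≃* Multiplicative (ZMod 2 × ZMod 2)) := by
  have hcard : Nat.card sig.ker = 4 := by
    refine Eq.trans (Nat.card_congr
      ⟨fun x => ⟨x.1.1, MonoidHom.mem_ker.2 ((sig_ker_iff x.1).1 x.2)⟩,
        fun k => ⟨⟨k.1, ker_le_N (MonoidHom.mem_ker.1 k.2)⟩,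
          (sig_ker_iff _).2 (MonoidHom.mem_ker.1 k.2)⟩,
        fun x => rfl, fun k => rfl⟩) card_ker
  have hexp : Monoid.exponent sig.ker = 2 := by
    have hd : Monoid.exponent sig.ker ∣ 2 := by
      apply Monoid.exponent_dvd_of_forall_pow_eq_one
      intro x
      apply Subtype.ext
      apply Subtype.ext
      show (x.1.1) ^ 2 = 1
      rw [pow_two]
      exact ker_sq _ ((sig_ker_iff x.1).1 x.2)
    rcases (Nat.dvd_prime Nat.prime_two).1 hd with h | h
    · exfalso
      apply z_ne_one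
      have h1 := Monoid.pow_exponent_eq_one
        (⟨⟨z, z_mem⟩, (sig_ker_iff _).2 psi_z⟩ : sig.ker)
      rw [h, pow_one] at h1
      exact congrArg (fun x : sig.ker => x.1.1) h1
    · exact h
  have : IsKleinFour sig.ker := ⟨hcard, hexp⟩
  exact IsKleinFour.nonempty_mulEquiv

/-- The Schur multiplier of `Ω₈⁺(2)` is a four-group. -/
theorem hasSchur0 : HasSchurMultiplier ↥(commutator O0) (Multiplicative (ZMod 2 × ZMod 2)) :=
  ⟨⟨↥N, inferInstance, inferInstance, sig, sig_stem, sig_ker⟩, fun Γ _ _ σ hσ => bound Γ σ hσ⟩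

/-! ### Transport to `PΩ₈⁺(F)` -/

/-- commutator subgroup modulo its centre is functorial for isomorphisms -/
theorem commCenterCongr {G G' : Type*} [Group G] [Group G'] (e : G ≃* G') :
    Nonempty ((↥(commutator G) ⧸ Subgroup.center ↥(commutator G)) ≃*
      (↥(commutator G') ⧸ Subgroup.center ↥(commutator G'))) := by
  have h1 : Subgroup.map (e : G →* G') (commutator G) = commutator G' :=
    map_commutator_of_surjective (e : G →* G') e.surjective
  let ec : ↥(commutator G) ≃* ↥(commutator G') :=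
    (e.subgroupMap (commutator G)).trans (MulEquiv.subgroupCongr h1)
  refine ⟨QuotientGroup.congr _ _ ec ?_⟩
  ext x
  constructor
  · rintro ⟨y, hy, rfl⟩
    have hy' : y ∈ Subgroup.center ↥(commutator G) := hy
    rw [Subgroup.mem_center_iff] at hy'
    show ec y ∈ Subgroup.center ↥(commutator G')
    rw [Subgroup.mem_center_iff]
    intro g'
    obtain ⟨g0, rfl⟩ := ec.surjective g'
    rw [← map_mul, ← map_mul, hy' g0]
  · intro hx
    refine ⟨ec.symm x, ?_, ec.apply_symm_apply x⟩
    show ec.symm x ∈ Subgroup.center ↥(commutator G)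
    rw [Subgroup.mem_center_iff] at hx ⊢
    intro g0
    apply ec.injective
    rw [map_mul, map_mul, ec.apply_symm_apply]
    exact hx (ec g0)

theorem isoEquiv {F : Type*} [Field F] [Fintype F] (hF : Fintype.card F = 2) :
    Nonempty (O0 ≃* ↥(isometryGroup F (quadFormPlus 4 F))) := by
  let σ : ZMod 2 ≃+* F := ZMod.ringEquivOfPrime F Nat.prime_two hF
  obtain ⟨τ, hτ⟩ := Cfsg.Agent.H48.exists_hom_isometryGroup_of_ringEquiv σ
    (quadFormPlus 4 (ZMod 2)) (quadFormPlus 4 F) (Cfsg.Agent.H48.quadFormPlus_map σ 4)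
  have hc1 : Nat.card ↥(isometryGroup (ZMod 2) (quadFormPlus 4 (ZMod 2))) = 348364800 := card_O0
  have hc2 : Nat.card ↥(isometryGroup F (quadFormPlus 4 F)) = 348364800 := by
    have h := Cfsg.Agent.S0287.result hF 4 (by norm_num)
    rw [h]
    norm_num [Finset.prod_range_succ]
  have : Finite ↥(isometryGroup F (quadFormPlus 4 F)) :=
    Nat.finite_of_card_ne_zero (by rw [hc2]; norm_num)
  have hbij : Function.Bijective τ :=
    (Nat.bijective_iff_injective_and_card τ).2 ⟨hτ, by rw [hc1, hc2]⟩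
  exact ⟨MulEquiv.ofBijective τ hbij⟩

/-- **The Schur multiplier of `PΩ₈⁺(2)` is a four-group.** -/
theorem pomega_plus_eight_two {F : Type*} [Field F] [Fintype F] (hF : Fintype.card F = 2) :
    HasSchurMultiplier (POmega F (quadFormPlus 4 F)) (Multiplicative (ZMod 2 × ZMod 2)) := by
  obtain ⟨e⟩ := isoEquiv hF
  obtain ⟨e2⟩ := commCenterCongr e
  let e1 : ↥(commutator O0) ≃* (↥(commutator O0) ⧸ Subgroup.center ↥(commutator O0)) :=
    ((QuotientGroup.quotientMulEquivOfEq center_bot).trans QuotientGroup.quotientBot).symm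
  exact hasSchurMultiplier_of_mulEquiv (e1.trans e2) hasSchur0

end Cfsg.Agent.H41.O8
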