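import Mathlib
import Cfsg.Agent.H49.Omega2

set_option autoImplicit false
set_option linter.unusedSectionVars false

/-!
Helper library (helper41): first cohomology of `Ω(Q)` on the natural module over the field
with two elements, via reflections.  Crossed homomorphisms, their zero subgroup, and a
bit-model for checking facts about explicit vectors by `decide`.
-/

namespace Cfsg.Agent.H41.OrthH1

open Matrix Cfsg.Agent.H49
open scoped commutatorElement

section generic
variable {ι : Type} [Fintype ι] [DecidableEq ι] (Q : QuadraticForm (ZMod 2) (ι → ZMod 2))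

/-- The isometry group of `Q`, as a type. -/
abbrev OG : Type := ↥(Cfsg.isometryGroup (ZMod 2) (⇑Q))

/-- The action of an isometry on a vector. -/
def act (g : OG Q) (v : ι → ZMod 2) : ι → ZMod 2 :=
  ((g : Matrix.GeneralLinearGroup ι (ZMod 2)) : Matrix ι ι (ZMod 2)) *ᵥ v

theorem act_mul (g h : OG Q) (v : ι → ZMod 2) : act Q (g * h) v = act Q g (act Q h v) :=
  coe_mul_mulVec g h v

theorem act_one (v : ι → ZMod 2) : act Q 1 v = v := by
  simp [act]

theorem act_add (g : OG Q) (v w : ι → ZMod 2) : act Q g (v + w) = act Q g v + act Q g w :=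
  Matrix.mulVec_add _ _ _

theorem act_sub (g : OG Q) (v w : ι → ZMod 2) : act Q g (v - w) = act Q g v - act Q g w :=
  Matrix.mulVec_sub _ _ _

theorem act_zero (g : OG Q) : act Q g 0 = 0 :=
  Matrix.mulVec_zero _

theorem Q_act (g : OG Q) (v : ι → ZMod 2) : Q (act Q g v) = Q v :=
  isometry_apply g v

theorem act_ext {g h : OG Q} (H : ∀ x, act Q g x = act Q h x) : g = h :=
  isometry_ext H

theorem act_refl (u x : ι → ZMod 2) :
    act Q (reflG Q u) x = x - ((Q u)⁻¹ * QuadraticMap.polar (⇑Q) u x) • u := by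
  rw [act, reflG_coe, reflectionMatrix_mulVec]

omit [Fintype ι] [DecidableEq ι] in
theorem vadd_self (x : ι → ZMod 2) : x + x = 0 := by
  funext i
  exact CharTwo.add_self_eq_zero (x i)

omit [Fintype ι] [DecidableEq ι] in
theorem vsub_eq (x y : ι → ZMod 2) : x - y = x + y := by
  funext i
  exact CharTwo.sub_eq_add (x i) (y i)

omit [Fintype ι] [DecidableEq ι] in
theorem veq_of_add_eq_zero {x y : ι → ZMod 2} (h : x + y = 0) : y = x := by
  have h1 : y = (x + y) + x := by
    rw [add_comm x y, add_assoc, vadd_self, add_zero]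
  rw [h1, h, zero_add]

variable (f : ↥(commutator (OG Q)) → (ι → ZMod 2))

/-- Crossed homomorphisms `Ω → V`. -/
def IsCross : Prop :=
  ∀ g h : ↥(commutator (OG Q)), f (g * h) = f g + act Q (g : OG Q) (f h)

variable {Q f}

theorem f_one (hf : IsCross Q f) : f 1 = 0 := by
  have h := hf 1 1
  rw [mul_one, Subgroup.coe_one, act_one] at h
  rw [h]
  exact vadd_self _

variable (Q f)

/-- The zero set of a crossed homomorphism, as a subgroup of `Ω`. -/
def Zc (hf : IsCross Q f) : Subgroup ↥(commutator (OG Q)) where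
  carrier := {g | f g = 0}
  one_mem' := f_one hf
  mul_mem' := by
    intro a b ha hb
    have ha' : f a = 0 := ha
    have hb' : f b = 0 := hb
    show f (a * b) = 0
    rw [hf, ha', hb', act_zero, add_zero]
  inv_mem' := by
    intro a ha
    have ha' : f a = 0 := ha
    show f a⁻¹ = 0
    have h1 := hf a a⁻¹
    rw [mul_inv_cancel, f_one hf, ha', zero_add] at h1
    have h3 := congrArg (act Q ((a : OG Q))⁻¹) h1
    rw [act_zero, ← act_mul, inv_mul_cancel, act_one] at h3
    exact h3.symm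

/-- The zero set of a crossed homomorphism, as a subgroup of the isometry group. -/
def ZO (hf : IsCross Q f) : Subgroup (OG Q) :=
  (Zc Q f hf).map (commutator (OG Q)).subtype

variable {Q f}

theorem mem_ZO (hf : IsCross Q f) {g : OG Q} :
    g ∈ ZO Q f hf ↔ ∃ h : g ∈ commutator (OG Q), f ⟨g, h⟩ = 0 := by
  constructor
  · rintro ⟨x, hx, rfl⟩
    exact ⟨x.2, hx⟩
  · rintro ⟨h, h0⟩
    exact ⟨⟨g, h⟩, h0, rfl⟩

theorem ZO_le (hf : IsCross Q f) : ZO Q f hf ≤ commutator (OG Q) := by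
  intro g hg
  exact ((mem_ZO hf).mp hg).1

/-- Rule (P): an element of `Ω` commuting with a fixed-point-free element of the zero
subgroup lies in the zero subgroup. -/
theorem ruleP (hf : IsCross Q f) (a x : OG Q) (ha : a ∈ ZO Q f hf)
    (hfpf : ∀ v, act Q a v = v → v = 0) (hx : x ∈ commutator (OG Q)) (hc : a * x = x * a) :
    x ∈ ZO Q f hf := by
  obtain ⟨ha', ha0⟩ := (mem_ZO hf).mp ha
  refine (mem_ZO hf).mpr ⟨hx, ?_⟩
  have h1 := hf ⟨x, hx⟩ ⟨a, ha'⟩
  have h2 := hf ⟨a, ha'⟩ ⟨x, hx⟩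
  have h3 : (⟨x, hx⟩ * ⟨a, ha'⟩ : ↥(commutator (OG Q))) = ⟨a, ha'⟩ * ⟨x, hx⟩ :=
    Subtype.ext hc.symm
  rw [h3, h2, ha0, act_zero, zero_add, add_zero] at h1
  exact hfpf _ h1

/-- Subtracting a principal crossed homomorphism. -/
theorem cross_sub (hf : IsCross Q f) (v₀ : ι → ZMod 2) :
    IsCross Q (fun g => f g - (act Q (g : OG Q) v₀ - v₀)) := by
  intro g h
  show f (g * h) - (act Q ((g * h : ↥(commutator (OG Q))) : OG Q) v₀ - v₀)
    = f g - (act Q (g : OG Q) v₀ - v₀) + act Q (g : OG Q) (f h - (act Q (h : OG Q) v₀ - v₀))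
  rw [hf, Subgroup.coe_mul, act_mul, act_sub, act_sub]
  abel

/-- Normalisation: it suffices to treat crossed homomorphisms vanishing at a
fixed-point-free element. -/
theorem normalize (a : OG Q) (ha : a ∈ commutator (OG Q))
    (hfpf : ∀ v, act Q a v = v → v = 0)
    (H : ∀ (f : ↥(commutator (OG Q)) → (ι → ZMod 2)) (hf : IsCross Q f),
      a ∈ ZO Q f hf → ∀ g, f g = 0)
    (f : ↥(commutator (OG Q)) → (ι → ZMod 2)) (hf : IsCross Q f) :
    ∃ v, ∀ g : ↥(commutator (OG Q)), f g = act Q (g : OG Q) v - v := by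
  have hinj : Function.Injective (fun v : ι → ZMod 2 => act Q a v - v) := by
    intro v w hvw
    have h1 : act Q a (v - w) = v - w := by
      have hvw' : act Q a v - v = act Q a w - w := hvw
      rw [act_sub]
      have : act Q a v - act Q a w = (act Q a v - v) - (act Q a w - w) + (v - w) := by abel
      rw [this, hvw', sub_self, zero_add]
    exact sub_eq_zero.mp (hfpf _ h1)
  obtain ⟨v₀, hv₀⟩ := (Finite.injective_iff_surjective.mp hinj) (f ⟨a, ha⟩)
  have hv₀' : act Q a v₀ - v₀ = f ⟨a, ha⟩ := hv₀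
  refine ⟨v₀, fun g => ?_⟩
  have h0 := H _ (cross_sub hf v₀) ((mem_ZO _).mpr ⟨ha, by
    show f ⟨a, ha⟩ - (act Q a v₀ - v₀) = 0
    rw [hv₀', sub_self]⟩) g
  exact sub_eq_zero.mp h0

/-- `u ~ a u` for a fixed-point-free element `a` of order three in the zero subgroup. -/
theorem rel_act (hf : IsCross Q f)
    (hev : ∀ u v : ι → ZMod 2, Q u ≠ 0 → Q v ≠ 0 →
      reflG Q u * reflG Q v ∈ commutator (OG Q))
    (a : OG Q) (ha : a ∈ ZO Q f hf) (h3 : a * a * a = 1)
    (hfpf : ∀ v, act Q a v = v → v = 0) (u : ι → ZMod 2) (hu : Q u = 1) :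
    reflG Q u * reflG Q (act Q a u) ∈ ZO Q f hf := by
  obtain ⟨w, hw⟩ : ∃ w, w = act Q a u := ⟨_, rfl⟩
  rw [← hw]
  have hQw : Q w = 1 := by rw [hw, Q_act, hu]
  have haw : act Q a w = u + w := by
    have hy : act Q a (u + w + act Q a w) = u + w + act Q a w := by
      have h4 : act Q a (act Q a w) = u := by
        rw [hw, ← act_mul, ← act_mul, h3, act_one]
      rw [act_add, act_add, h4, ← hw]
      abel
    exact veq_of_add_eq_zero (hfpf _ hy)
  have hQ : Q (u + w) = 1 := by rw [← haw, Q_act, hQw]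
  have hpol : QuadraticMap.polar (⇑Q) w u = 1 := by
    simp only [QuadraticMap.polar]
    rw [add_comm w u, hQ, hQw, hu]
    decide
  have h1 : act Q (reflG Q w) u = act Q a w := by
    rw [act_refl, hQw, hpol, haw, vsub_eq]
    simp
  have hc1 : a * reflG Q u * a⁻¹ = reflG Q w := by
    rw [conj_reflG, hw]; rfl
  have hc2 : a * reflG Q w * a⁻¹ = reflG Q w * reflG Q u * (reflG Q w)⁻¹ := by
    rw [conj_reflG, conj_reflG]
    exact congrArg (reflG Q) h1.symm
  have hc : a * (reflG Q u * reflG Q w) * a⁻¹ = reflG Q u * reflG Q w := by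
    have : a * (reflG Q u * reflG Q w) * a⁻¹
        = (a * reflG Q u * a⁻¹) * (a * reflG Q w * a⁻¹) := by group
    rw [this, hc1, hc2, reflG_inv, ← mul_assoc, ← mul_assoc, reflG_mul_self, one_mul]
  refine ruleP hf a _ ha hfpf (hev u w (by rw [hu]; decide) (by rw [hQw]; decide)) ?_
  exact (mul_inv_eq_iff_eq_mul.mp hc)

/-- If `u ~ v` and `u + v` is non-singular, then `u ~ u + v`. -/
theorem rel_add (hf : IsCross Q f) (u v : ι → ZMod 2) (hu : Q u = 1) (hv : Q v = 1)
    (huv : Q (u + v) = 1) (h : reflG Q u * reflG Q v ∈ ZO Q f hf) :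
    reflG Q u * reflG Q (u + v) ∈ ZO Q f hf := by
  have hpol : QuadraticMap.polar (⇑Q) u v = 1 := by
    simp only [QuadraticMap.polar]
    rw [huv, hu, hv]
    decide
  have h1 : act Q (reflG Q u) v = u + v := by
    rw [act_refl, hu, hpol, vsub_eq, add_comm]
    simp
  have h3 : reflG Q (u + v) = reflG Q u * reflG Q v * (reflG Q u)⁻¹ := by
    rw [conj_reflG]
    exact congrArg (reflG Q) h1.symm
  rw [h3, reflG_inv, ← mul_assoc, ← mul_assoc, reflG_mul_self, one_mul]
  have h4 := inv_mem h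
  rwa [_root_.mul_inv_rev, reflG_inv, reflG_inv] at h4

/-- If all non-singular vectors are related to `u₀`, the crossed homomorphism vanishes. -/
theorem all_zero (hf : IsCross Q f) (hgen : commutator (OG Q) ≤ evenSub (reflSet Q))
    (u₀ : ι → ZMod 2)
    (hall : ∀ u, Q u ≠ 0 → reflG Q u₀ * reflG Q u ∈ ZO Q f hf) :
    ∀ g, f g = 0 := by
  have hle : evenSub (reflSet Q) ≤ ZO Q f hf := by
    unfold evenSub
    rw [Subgroup.closure_le]
    rintro g ⟨s, ⟨u, hu, rfl⟩, t, ⟨v, hv, rfl⟩, rfl⟩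
    have hu' := hall u hu
    have hv' := hall v hv
    have e : reflG Q u * reflG Q v
        = (reflG Q u₀ * reflG Q u)⁻¹ * (reflG Q u₀ * reflG Q v) := by
      rw [_root_.mul_inv_rev, reflG_inv, reflG_inv, mul_assoc, ← mul_assoc (reflG Q u₀),
        reflG_mul_self, one_mul]
    rw [SetLike.mem_coe, e]
    exact mul_mem (inv_mem hu') hv'
  intro g
  obtain ⟨h, h0⟩ := (mem_ZO hf).mp (hle (hgen g.2))
  exact h0

omit f in
/-- The product of two reflections in non-singular vectors with non-singular sum is a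
commutator. -/
theorem refl_pair_comm (u w : ι → ZMod 2) (hu : Q u = 1) (hw : Q w = 1)
    (huw : Q (u + w) = 1) : reflG Q u * reflG Q w ∈ commutator (OG Q) := by
  have e0 : u + w + u = w := by
    rw [add_comm u w, add_assoc, vadd_self, add_zero]
  have hpol : QuadraticMap.polar (⇑Q) (u + w) u = 1 := by
    simp only [QuadraticMap.polar]
    rw [e0, huw, hu, hw]
    decide
  have h1 : act Q (reflG Q (u + w)) u = w := by
    rw [act_refl, huw, hpol, vsub_eq]
    simp only [inv_one, mul_one, one_smul]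
    rw [← add_assoc, vadd_self, zero_add]
  have h3 : reflG Q w = reflG Q (u + w) * reflG Q u * (reflG Q (u + w))⁻¹ := by
    rw [conj_reflG]
    exact congrArg (reflG Q) h1.symm
  have h4 : reflG Q u * reflG Q w = ⁅reflG Q u, reflG Q (u + w)⁆ := by
    rw [commutatorElement_def, h3, reflG_inv Q u]
    group
  rw [h4, commutator_def]
  exact Subgroup.commutator_mem_commutator (Subgroup.mem_top _) (Subgroup.mem_top _)

end generic

/-! ### The bit model -/

/-- Decode a natural number (bit mask) as a vector over `ZMod 2`, reading bit `pos i`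
for the coordinate `i`. -/
def mkVec {ι : Type} (pos : ι → ℕ) (c : ℕ) : ι → ZMod 2 :=
  fun i => if c.testBit (pos i) then 1 else 0

theorem mkVec_xor {ι : Type} (pos : ι → ℕ) (c d : ℕ) :
    mkVec pos (c ^^^ d) = mkVec pos c + mkVec pos d := by
  funext i
  simp only [mkVec, Pi.add_apply, Nat.testBit_xor]
  cases c.testBit (pos i) <;> cases d.testBit (pos i) <;> decide

theorem mkVec_zero_imp {ι : Type} (pos : ι → ℕ) (n : ℕ) (hpos : ∀ k < n, ∃ i, pos i = k)
    (c : ℕ) (h : mkVec pos c = 0) : c % 2 ^ n = 0 := by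
  apply Nat.eq_of_testBit_eq
  intro k
  rw [Nat.testBit_mod_two_pow, Nat.zero_testBit]
  by_cases hk : k < n
  · obtain ⟨i, rfl⟩ := hpos k hk
    have h1 := congrFun h i
    simp only [mkVec, Pi.zero_apply] at h1
    cases hb : c.testBit (pos i)
    · simp
    · rw [hb] at h1
      exact absurd h1 (by decide)
  · simp [hk]

theorem mkVec_surj {ι : Type} [Fintype ι] [DecidableEq ι] (pos : ι → ℕ) (n : ℕ)
    (hpos : ∀ k < n, ∃ i, pos i = k) (hcard : Fintype.card ι = n) (v : ι → ZMod 2) :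
    ∃ c, c < 2 ^ n ∧ v = mkVec pos c := by
  have hinj : Function.Injective (fun c : Fin (2 ^ n) => mkVec pos c.1) := by
    intro c d h
    apply Fin.ext
    have h' : mkVec pos c.1 = mkVec pos d.1 := h
    have h0 : mkVec pos (c.1 ^^^ d.1) = 0 := by
      rw [mkVec_xor, h']
      exact vadd_self _
    have h1 := mkVec_zero_imp pos n hpos _ h0
    rw [Nat.mod_eq_of_lt (Nat.xor_lt_two_pow c.2 d.2)] at h1
    exact Nat.xor_eq_zero_iff.mp h1
  have hbij : Function.Bijective (fun c : Fin (2 ^ n) => mkVec pos c.1) := by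
    rw [Fintype.bijective_iff_injective_and_card]
    refine ⟨hinj, ?_⟩
    simp [hcard, ZMod.card]
  obtain ⟨c, hc⟩ := hbij.2 v
  exact ⟨c.1, c.2, hc.symm⟩

section model
variable {ι : Type} [Fintype ι] [DecidableEq ι] (Q : QuadraticForm (ZMod 2) (ι → ZMod 2))

/-- A bit model of the quadratic space. -/
structure Model (n : ℕ) (vec : ℕ → ι → ZMod 2) (mQ : ℕ → Bool) : Prop where
  vxor : ∀ c d, vec (c ^^^ d) = vec c + vec d
  Qv : ∀ c, Q (vec c) = if mQ c then 1 else 0
  surj : ∀ v, ∃ c, c < 2 ^ n ∧ v = vec c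
  zero : ∀ c, vec c = 0 → c % 2 ^ n = 0

/-- The model of a reflection. -/
def R (mQ : ℕ → Bool) (cu c : ℕ) : ℕ := if mQ (c ^^^ cu) = mQ c then c ^^^ cu else c

/-- The product of the reflections in the coded vectors of a word. -/
def prodR (vec : ℕ → ι → ZMod 2) (w : List ℕ) : OG Q :=
  (w.map (fun cu => reflG Q (vec cu))).prod

variable {Q} {n : ℕ} {vec : ℕ → ι → ZMod 2} {mQ : ℕ → Bool} (M : Model Q n vec mQ)
include M

theorem vec_zero : vec 0 = 0 := by
  have h := M.vxor 0 0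
  rw [Nat.xor_self] at h
  have h2 : vec 0 + vec 0 = 0 := vadd_self _
  rw [← h] at h2
  exact h2

theorem Q_one_iff (c : ℕ) : Q (vec c) = 1 ↔ mQ c = true := by
  rw [M.Qv]
  cases mQ c <;> simp

theorem Q_ne_iff (c : ℕ) : Q (vec c) ≠ 0 ↔ mQ c = true := by
  rw [M.Qv]
  cases mQ c <;> simp

theorem refl_vec (cu : ℕ) (h : mQ cu = true) (c : ℕ) :
    act Q (reflG Q (vec cu)) (vec c) = vec (R mQ cu c) := by
  have hb : ∀ b1 b2 : Bool, ((if b1 then (1 : ZMod 2) else 0) - 1 - (if b2 then 1 else 0))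
      = if b1 = b2 then 1 else 0 := by decide
  have hp : QuadraticMap.polar (⇑Q) (vec cu) (vec c)
      = if mQ (c ^^^ cu) = mQ c then 1 else 0 := by
    simp only [QuadraticMap.polar]
    rw [← M.vxor, M.Qv, M.Qv, M.Qv, h, Nat.xor_comm cu c]
    simpa using hb (mQ (c ^^^ cu)) (mQ c)
  rw [act_refl, hp, M.Qv cu, h]
  unfold R
  by_cases hc : mQ (c ^^^ cu) = mQ c
  · rw [if_pos hc, if_pos hc, M.vxor, vsub_eq]
    simp
  · rw [if_neg hc, if_neg hc]
    simp

theorem prodR_vec (w : List ℕ) (hw : ∀ cu ∈ w, mQ cu = true) (c : ℕ) :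
    act Q (prodR Q vec w) (vec c) = vec (w.foldr (R mQ) c) := by
  induction w with
  | nil => simp [prodR, act_one]
  | cons cu w ih =>
    have e : prodR Q vec (cu :: w) = reflG Q (vec cu) * prodR Q vec w := by
      simp [prodR]
    rw [e, act_mul, ih (fun x hx => hw x (List.mem_cons_of_mem _ hx)), List.foldr_cons,
      refl_vec M cu (hw cu List.mem_cons_self)]

omit M in
theorem prodR_append (w w' : List ℕ) :
    prodR Q vec (w ++ w') = prodR Q vec w * prodR Q vec w' := by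
  simp [prodR]

theorem prodR_eq (w w' : List ℕ) (hw : ∀ cu ∈ w, mQ cu = true)
    (hw' : ∀ cu ∈ w', mQ cu = true)
    (h : ∀ c < 2 ^ n, w.foldr (R mQ) c = w'.foldr (R mQ) c) :
    prodR Q vec w = prodR Q vec w' := by
  apply act_ext
  intro x
  obtain ⟨c, hc, rfl⟩ := M.surj x
  rw [prodR_vec M w hw c, prodR_vec M w' hw' c, h c hc]

theorem prodR_mem
    (hev : ∀ u v : ι → ZMod 2, Q u ≠ 0 → Q v ≠ 0 →
      reflG Q u * reflG Q v ∈ commutator (OG Q)) :
    ∀ (k : ℕ) (w : List ℕ), w.length = 2 * k → (∀ cu ∈ w, mQ cu = true) →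
      prodR Q vec w ∈ commutator (OG Q)
  | 0, w, h, _ => by
    have : w = [] := List.length_eq_zero_iff.mp (by simpa using h)
    subst this
    simp [prodR]
  | k + 1, [], h, _ => by simp at h
  | k + 1, [a], h, _ => by simp at h; omega
  | k + 1, a :: b :: w', h, hw => by
    have e : prodR Q vec (a :: b :: w')
        = (reflG Q (vec a) * reflG Q (vec b)) * prodR Q vec w' := by
      simp [prodR, mul_assoc]
    rw [e]
    refine mul_mem (hev _ _ ((Q_ne_iff M a).mpr (hw a (by simp)))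
      ((Q_ne_iff M b).mpr (hw b (by simp)))) ?_
    exact prodR_mem hev k w' (by simp at h; omega) (fun cu hcu => hw cu (by simp [hcu]))

theorem fpf_of_model (w : List ℕ) (hw : ∀ cu ∈ w, mQ cu = true)
    (h : ∀ c < 2 ^ n, (w.foldr (R mQ) c ^^^ c) % 2 ^ n = 0 → c = 0) :
    ∀ v, act Q (prodR Q vec w) v = v → v = 0 := by
  intro v hv
  obtain ⟨c, hc, rfl⟩ := M.surj v
  rw [prodR_vec M w hw c] at hv
  have h0 : vec (w.foldr (R mQ) c ^^^ c) = 0 := by
    rw [M.vxor, hv]
    exact vadd_self _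
  have h1 := h c hc (M.zero _ h0)
  subst h1
  exact vec_zero M

/-- Products of two reflections are commutators, from an adjacency check in the model. -/
theorem hev_of_model
    (hadj : ∀ c < 2 ^ n, ∀ d < 2 ^ n, (mQ c = true ∧ mQ d = true) →
      ∃ e < 2 ^ n, mQ e = true ∧ mQ (c ^^^ e) = true ∧ mQ (d ^^^ e) = true) :
    ∀ u v : ι → ZMod 2, Q u ≠ 0 → Q v ≠ 0 → reflG Q u * reflG Q v ∈ commutator (OG Q) := by
  intro u v hu hv
  obtain ⟨c, hc, rfl⟩ := M.surj u
  obtain ⟨d, hd, rfl⟩ := M.surj v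
  have hmc := (Q_ne_iff M c).mp hu
  have hmd := (Q_ne_iff M d).mp hv
  obtain ⟨e, -, he, hce, hde⟩ := hadj c hc d hd ⟨hmc, hmd⟩
  have e1 : reflG Q (vec c) * reflG Q (vec d)
      = (reflG Q (vec c) * reflG Q (vec e)) * (reflG Q (vec e) * reflG Q (vec d)) := by
    rw [mul_assoc, ← mul_assoc (reflG Q (vec e)), reflG_mul_self, one_mul]
  rw [e1]
  refine mul_mem ?_ ?_
  · refine refl_pair_comm _ _ ((Q_one_iff M c).mpr hmc) ((Q_one_iff M e).mpr he) ?_
    rw [← M.vxor]
    exact (Q_one_iff M _).mpr hce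
  · refine refl_pair_comm _ _ ((Q_one_iff M e).mpr he) ((Q_one_iff M d).mpr hmd) ?_
    rw [← M.vxor, Nat.xor_comm]
    exact (Q_one_iff M _).mpr hde

/-- One round of the closure computation on codes. -/
def stepS (mQ : ℕ → Bool) (n : ℕ) (ws : List (List ℕ)) (S : List ℕ) : List ℕ :=
  (List.range (2 ^ n)).filter (fun e =>
    (S ++ S.flatMap (fun c => ws.map (fun w => w.foldr (R mQ) c))).contains e ||
    (mQ e && (S.any (fun c => S.contains (c ^^^ e)) ||
      ws.any (fun w1 => ws.any (fun w2 =>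
        S.contains (e ^^^ w2.foldr (R mQ) (w1.foldr (R mQ) e)))))))

omit M in
theorem stepS_sound (P : ℕ → Prop) (ws : List (List ℕ))
    (h1 : ∀ c, P c → ∀ w ∈ ws, P (w.foldr (R mQ) c))
    (h2 : ∀ c e, P c → P (c ^^^ e) → mQ e = true → P e)
    (h4 : ∀ e, mQ e = true → ∀ w1 ∈ ws, ∀ w2 ∈ ws,
      P (e ^^^ w2.foldr (R mQ) (w1.foldr (R mQ) e)) → P e)
    (S : List ℕ) (hS : ∀ c ∈ S, P c) : ∀ e ∈ stepS mQ n ws S, P e := by
  intro e he
  unfold stepS at he
  rw [List.mem_filter] at he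
  obtain ⟨-, he⟩ := he
  rw [Bool.or_eq_true] at he
  rcases he with he | he
  · rw [List.contains_iff_mem, List.mem_append, List.mem_flatMap] at he
    rcases he with he | ⟨c, hc, he⟩
    · exact hS e he
    · rw [List.mem_map] at he
      obtain ⟨w, hw, rfl⟩ := he
      exact h1 c (hS c hc) w hw
  · rw [Bool.and_eq_true, Bool.or_eq_true] at he
    obtain ⟨hme, he⟩ := he
    rcases he with he | he
    · rw [List.any_eq_true] at he
      obtain ⟨c, hc, hce⟩ := he
      rw [List.contains_iff_mem] at hce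
      exact h2 c e (hS c hc) (hS _ hce) hme
    · rw [List.any_eq_true] at he
      obtain ⟨w1, hw1, he⟩ := he
      rw [List.any_eq_true] at he
      obtain ⟨w2, hw2, he⟩ := he
      rw [List.contains_iff_mem] at he
      exact h4 e hme w1 hw1 w2 hw2 (hS _ he)

/-- The engine: vanishing of `H¹(Ω, V)` from a model certificate. -/
theorem engine
    (hev : ∀ u v : ι → ZMod 2, Q u ≠ 0 → Q v ≠ 0 →
      reflG Q u * reflG Q v ∈ commutator (OG Q))
    (hgen : commutator (OG Q) ≤ evenSub (reflSet Q))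
    (w₀ : List ℕ) (ws : List (List ℕ)) (c₀ K : ℕ)
    (hc₀ : mQ c₀ = true)
    (hw₀ : (∀ cu ∈ w₀, mQ cu = true) ∧ w₀.length % 2 = 0 ∧
      ∀ c < 2 ^ n, (w₀.foldr (R mQ) c ^^^ c) % 2 ^ n = 0 → c = 0)
    (hws : ∀ w ∈ ws, (∀ cu ∈ w, mQ cu = true) ∧ w.length % 2 = 0 ∧
      (∀ c < 2 ^ n, (w.foldr (R mQ) c ^^^ c) % 2 ^ n = 0 → c = 0) ∧
      (∀ c < 2 ^ n, (w ++ w ++ w).foldr (R mQ) c = c) ∧
      (∀ c < 2 ^ n, (w₀ ++ w).foldr (R mQ) c = (w ++ w₀).foldr (R mQ) c))
    (hcl : ∀ c < 2 ^ n, mQ c = true → c ∈ (stepS mQ n ws)^[K] [c₀])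
    (f : ↥(commutator (OG Q)) → (ι → ZMod 2)) (hf : IsCross Q f) :
    ∃ v, ∀ g : ↥(commutator (OG Q)), f g = act Q (g : OG Q) v - v := by
  obtain ⟨hw₀m, hw₀e, hw₀f⟩ := hw₀
  have ha_mem : prodR Q vec w₀ ∈ commutator (OG Q) :=
    prodR_mem M hev (w₀.length / 2) w₀ (by omega) hw₀m
  have ha_fpf := fpf_of_model M w₀ hw₀m hw₀f
  refine normalize (prodR Q vec w₀) ha_mem ha_fpf ?_ f hf
  intro f hf haZ
  have key : ∀ w ∈ ws, prodR Q vec w ∈ ZO Q f hf ∧
      prodR Q vec w * prodR Q vec w * prodR Q vec w = 1 ∧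
      (∀ v, act Q (prodR Q vec w) v = v → v = 0) ∧ (∀ cu ∈ w, mQ cu = true) := by
    intro w hw
    obtain ⟨hm, he, hfp, h3, hcm⟩ := hws w hw
    have hmem : prodR Q vec w ∈ commutator (OG Q) :=
      prodR_mem M hev (w.length / 2) w (by omega) hm
    refine ⟨?_, ?_, fpf_of_model M w hm hfp, hm⟩
    · refine ruleP hf _ _ haZ ha_fpf hmem ?_
      rw [← prodR_append, ← prodR_append]
      refine prodR_eq M _ _ ?_ ?_ hcm
      · intro cu hcu
        rcases List.mem_append.mp hcu with h | h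
        · exact hw₀m cu h
        · exact hm cu h
      · intro cu hcu
        rcases List.mem_append.mp hcu with h | h
        · exact hm cu h
        · exact hw₀m cu h
    · rw [← prodR_append, ← prodR_append]
      have e1 : (1 : OG Q) = prodR Q vec [] := by simp [prodR]
      rw [e1]
      refine prodR_eq M _ _ ?_ (by simp) ?_
      · intro cu hcu
        rcases List.mem_append.mp hcu with h | h
        · rcases List.mem_append.mp h with h | h
          · exact hm cu h
          · exact hm cu h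
        · exact hm cu h
      · intro c hc
        rw [h3 c hc]
        rfl
  have hra : ∀ w ∈ ws, ∀ c, mQ c = true →
      reflG Q (vec c) * reflG Q (vec (w.foldr (R mQ) c)) ∈ ZO Q f hf ∧
        mQ (w.foldr (R mQ) c) = true := by
    intro w hw c hc
    obtain ⟨hZ, h3, hfp, hm⟩ := key w hw
    have h := rel_act hf hev _ hZ h3 hfp (vec c) ((Q_one_iff M c).mpr hc)
    rw [prodR_vec M w hm c] at h
    refine ⟨h, ?_⟩
    rw [← Q_one_iff M, ← prodR_vec M w hm c, Q_act]
    exact (Q_one_iff M c).mpr hc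
  let P : ℕ → Prop := fun c => mQ c = true ∧ reflG Q (vec c₀) * reflG Q (vec c) ∈ ZO Q f hf
  have hsym : ∀ u v : ι → ZMod 2, reflG Q u * reflG Q v ∈ ZO Q f hf →
      reflG Q v * reflG Q u ∈ ZO Q f hf := by
    intro u v h
    have h4 := inv_mem h
    rwa [_root_.mul_inv_rev, reflG_inv, reflG_inv] at h4
  have htr : ∀ u v w : ι → ZMod 2, reflG Q u * reflG Q v ∈ ZO Q f hf →
      reflG Q v * reflG Q w ∈ ZO Q f hf → reflG Q u * reflG Q w ∈ ZO Q f hf := by
    intro u v w h1 h2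
    have e : reflG Q u * reflG Q w = (reflG Q u * reflG Q v) * (reflG Q v * reflG Q w) := by
      rw [mul_assoc, ← mul_assoc (reflG Q v), reflG_mul_self, one_mul]
    rw [e]
    exact mul_mem h1 h2
  have hP0 : P c₀ := ⟨hc₀, by rw [reflG_mul_self]; exact one_mem _⟩
  have h1 : ∀ c, P c → ∀ w ∈ ws, P (w.foldr (R mQ) c) := by
    intro c hc w hw
    obtain ⟨hr, hm⟩ := hra w hw c hc.1
    exact ⟨hm, htr _ _ _ hc.2 hr⟩
  have h2 : ∀ c e, P c → P (c ^^^ e) → mQ e = true → P e := by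
    intro c e hc hd he
    have e1 : e = c ^^^ (c ^^^ e) := by
      rw [← Nat.xor_assoc, Nat.xor_self, Nat.zero_xor]
    have hcd : reflG Q (vec c) * reflG Q (vec (c ^^^ e)) ∈ ZO Q f hf :=
      htr _ _ _ (hsym _ _ hc.2) hd.2
    have hQ : Q (vec c + vec (c ^^^ e)) = 1 := by
      rw [← M.vxor, ← e1]
      exact (Q_one_iff M e).mpr he
    have h := rel_add hf _ _ ((Q_one_iff M c).mpr hc.1) ((Q_one_iff M _).mpr hd.1) hQ hcd
    rw [← M.vxor, ← e1] at h
    exact ⟨he, htr _ _ _ hc.2 h⟩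
  have h4 : ∀ e, mQ e = true → ∀ w1 ∈ ws, ∀ w2 ∈ ws,
      P (e ^^^ w2.foldr (R mQ) (w1.foldr (R mQ) e)) → P e := by
    intro e he w1 hw1 w2 hw2 hx
    obtain ⟨hr1, hm1⟩ := hra w1 hw1 e he
    obtain ⟨hr2, hm2⟩ := hra w2 hw2 _ hm1
    have hr := htr _ _ _ hr1 hr2
    have hQ : Q (vec e + vec (w2.foldr (R mQ) (w1.foldr (R mQ) e))) = 1 := by
      rw [← M.vxor]
      exact (Q_one_iff M _).mpr hx.1
    have h := rel_add hf _ _ ((Q_one_iff M e).mpr he) ((Q_one_iff M _).mpr hm2) hQ hr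
    rw [← M.vxor] at h
    exact ⟨he, htr _ _ _ hx.2 (hsym _ _ h)⟩
  have hall : ∀ K : ℕ, ∀ c ∈ (stepS mQ n ws)^[K] [c₀], P c := by
    intro K
    induction K with
    | zero =>
      intro c hc
      rw [Function.iterate_zero, id, List.mem_singleton] at hc
      rw [hc]
      exact hP0
    | succ K ih =>
      rw [Function.iterate_succ_apply']
      exact stepS_sound P ws h1 h2 h4 _ ih
  refine all_zero hf hgen (vec c₀) ?_
  intro u hu
  obtain ⟨c, hc, rfl⟩ := M.surj u
  exact (hall K c (hcl c hc ((Q_ne_iff M c).mp hu))).2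

end model

/-! ### Transfer to a subgroup of odd index -/

theorem transfer {G : Type*} [Group G] [Finite G] {V : Type*} [AddCommGroup V]
    (ac : G → V →+ V) (h2 : ∀ v : V, v + v = 0) (H : Subgroup G) (hodd : Odd H.index)
    (f : G → V) (hf : ∀ g h, f (g * h) = f g + ac g (f h)) (hH : ∀ h ∈ H, f h = 0) :
    ∃ v, ∀ g, f g = ac g v + v := by
  classical
  have : Fintype (G ⧸ H) := Fintype.ofFinite _
  have hconst : ∀ (g h : G), h ∈ H → f (g * h) = f g := by
    intro g h hh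
    rw [hf, hH h hh, map_zero, add_zero]
  let φ : G ⧸ H → V := fun q => f q.out
  have hφ : ∀ g : G, φ (g : G ⧸ H) = f g := by
    intro g
    obtain ⟨h, hh⟩ := QuotientGroup.mk_out_eq_mul H g
    show f ((g : G ⧸ H).out) = f g
    rw [hh]
    exact hconst g h h.2
  refine ⟨∑ q, φ q, fun x => ?_⟩
  have hperm : ∑ q, φ (x • q) = ∑ q, φ q := Equiv.sum_comp (MulAction.toPerm x) φ
  have hterm : ∀ q : G ⧸ H, φ (x • q) = f x + ac x (φ q) := by
    intro q
    induction q using QuotientGroup.induction_on with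
    | H g =>
      have e : x • (g : G ⧸ H) = ((x * g : G) : G ⧸ H) := rfl
      rw [e, hφ, hφ, hf]
  rw [Finset.sum_congr rfl (fun q _ => hterm q), Finset.sum_add_distrib, Finset.sum_const,
    ← map_sum] at hperm
  have hcard : (Finset.univ : Finset (G ⧸ H)).card • f x = f x := by
    have e : (Finset.univ : Finset (G ⧸ H)).card = H.index := by
      rw [Finset.card_univ, Subgroup.index, Nat.card_eq_fintype_card]
    rw [e]
    obtain ⟨k, hk⟩ := hodd
    rw [hk, add_smul, mul_smul, one_smul, two_smul, h2, zero_add]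
  rw [hcard] at hperm
  calc f x = f x + (ac x (∑ q, φ q) + ac x (∑ q, φ q)) := by rw [h2, add_zero]
    _ = (f x + ac x (∑ q, φ q)) + ac x (∑ q, φ q) := by abel
    _ = (∑ q, φ q) + ac x (∑ q, φ q) := by rw [hperm]
    _ = ac x (∑ q, φ q) + ∑ q, φ q := add_comm _ _

section klein
variable {ι : Type} [Fintype ι] [DecidableEq ι] {Q : QuadraticForm (ZMod 2) (ι → ZMod 2)}
  {n : ℕ} {vec : ℕ → ι → ZMod 2} {mQ : ℕ → Bool} (M : Model Q n vec mQ)
include M

/-- The action as an additive homomorphism. -/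
def actHom (Q : QuadraticForm (ZMod 2) (ι → ZMod 2)) (g : OG Q) :
    (ι → ZMod 2) →+ (ι → ZMod 2) where
  toFun := act Q g
  map_zero' := act_zero Q g
  map_add' := act_add Q g

/-- Vanishing of `H¹(Ω, V)` when `|Ω|` divides `60` and a Klein four-subgroup (generated
by two coded even words) has trivial `H¹`. -/
theorem klein_case
    (hev : ∀ u v : ι → ZMod 2, Q u ≠ 0 → Q v ≠ 0 →
      reflG Q u * reflG Q v ∈ commutator (OG Q))
    (hcard : Nat.card ↥(commutator (OG Q)) ∣ 60)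
    (ws wt : List ℕ)
    (hs : (∀ cu ∈ ws, mQ cu = true) ∧ ws.length % 2 = 0 ∧
      (∀ c < 2 ^ n, (ws ++ ws).foldr (R mQ) c = c))
    (ht : (∀ cu ∈ wt, mQ cu = true) ∧ wt.length % 2 = 0 ∧
      (∀ c < 2 ^ n, (wt ++ wt).foldr (R mQ) c = c))
    (hst : ∀ c < 2 ^ n, (ws ++ wt).foldr (R mQ) c = (wt ++ ws).foldr (R mQ) c)
    (hne1 : ∃ c, (ws.foldr (R mQ) c ^^^ c) % 2 ^ n ≠ 0)
    (hne2 : ∃ c, (wt.foldr (R mQ) c ^^^ c) % 2 ^ n ≠ 0)
    (hne3 : ∃ c, (ws.foldr (R mQ) c ^^^ wt.foldr (R mQ) c) % 2 ^ n ≠ 0)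
    (hH1 : ∀ cx < 2 ^ n, ∀ cy < 2 ^ n,
      ((cx ^^^ ws.foldr (R mQ) cx) % 2 ^ n = 0 ∧ (cy ^^^ wt.foldr (R mQ) cy) % 2 ^ n = 0 ∧
      (cx ^^^ ws.foldr (R mQ) cy ^^^ cy ^^^ wt.foldr (R mQ) cx) % 2 ^ n = 0) →
      ∃ cv < 2 ^ n, ws.foldr (R mQ) cv ^^^ cv = cx ∧ wt.foldr (R mQ) cv ^^^ cv = cy)
    (f : ↥(commutator (OG Q)) → (ι → ZMod 2)) (hf : IsCross Q f) :
    ∃ v, ∀ g : ↥(commutator (OG Q)), f g = act Q (g : OG Q) v - v := by
  classical
  obtain ⟨hsm, hse, hss⟩ := hs
  obtain ⟨htm, hte, htt⟩ := ht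
  have hsC : prodR Q vec ws ∈ commutator (OG Q) := prodR_mem M hev (ws.length / 2) ws (by omega) hsm
  have htC : prodR Q vec wt ∈ commutator (OG Q) := prodR_mem M hev (wt.length / 2) wt (by omega) htm
  have e1 : (1 : OG Q) = prodR Q vec [] := by simp [prodR]
  have hs2 : prodR Q vec ws * prodR Q vec ws = 1 := by
    rw [← prodR_append, e1]
    refine prodR_eq M _ _ ?_ (by simp) ?_
    · intro cu hcu
      rcases List.mem_append.mp hcu with h | h <;> exact hsm cu h
    · intro c hc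
      rw [hss c hc]
      rfl
  have ht2 : prodR Q vec wt * prodR Q vec wt = 1 := by
    rw [← prodR_append, e1]
    refine prodR_eq M _ _ ?_ (by simp) ?_
    · intro cu hcu
      rcases List.mem_append.mp hcu with h | h <;> exact htm cu h
    · intro c hc
      rw [htt c hc]
      rfl
  have hcomm : prodR Q vec ws * prodR Q vec wt = prodR Q vec wt * prodR Q vec ws := by
    rw [← prodR_append, ← prodR_append]
    refine prodR_eq M _ _ ?_ ?_ hst
    · intro cu hcu
      rcases List.mem_append.mp hcu with h | h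
      · exact hsm cu h
      · exact htm cu h
    · intro cu hcu
      rcases List.mem_append.mp hcu with h | h
      · exact htm cu h
      · exact hsm cu h
  obtain ⟨s', hs'⟩ : ∃ s' : ↥(commutator (OG Q)), (s' : OG Q) = prodR Q vec ws :=
    ⟨⟨_, hsC⟩, rfl⟩
  obtain ⟨t', ht'⟩ : ∃ t' : ↥(commutator (OG Q)), (t' : OG Q) = prodR Q vec wt :=
    ⟨⟨_, htC⟩, rfl⟩
  have hs2' : s' * s' = 1 := Subtype.ext (by rw [Subgroup.coe_mul, hs', hs2]; rfl)
  have ht2' : t' * t' = 1 := Subtype.ext (by rw [Subgroup.coe_mul, ht', ht2]; rfl)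
  have hcomm' : s' * t' = t' * s' :=
    Subtype.ext (by rw [Subgroup.coe_mul, Subgroup.coe_mul, hs', ht', hcomm])
  -- distinctness
  have hs1 : s' ≠ 1 := by
    intro h
    obtain ⟨c, hc⟩ := hne1
    apply hc
    apply M.zero
    rw [M.vxor, ← prodR_vec M ws hsm c, ← hs', h, Subgroup.coe_one, act_one]
    exact vadd_self _
  have ht1 : t' ≠ 1 := by
    intro h
    obtain ⟨c, hc⟩ := hne2
    apply hc
    apply M.zero
    rw [M.vxor, ← prodR_vec M wt htm c, ← ht', h, Subgroup.coe_one, act_one]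
    exact vadd_self _
  have hst1 : s' ≠ t' := by
    intro h
    obtain ⟨c, hc⟩ := hne3
    apply hc
    apply M.zero
    rw [M.vxor, ← prodR_vec M wt htm c, ← prodR_vec M ws hsm c, ← hs', ← ht', h]
    exact vadd_self _
  -- the values at s', t'
  obtain ⟨cx, hcx, hx⟩ := M.surj (f s')
  obtain ⟨cy, hcy, hy⟩ := M.surj (f t')
  have a1 : (cx ^^^ ws.foldr (R mQ) cx) % 2 ^ n = 0 := by
    apply M.zero
    rw [M.vxor, ← prodR_vec M ws hsm cx, ← hx, ← hs']
    have h := hf s' s'
    rw [hs2', f_one hf] at h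
    exact h.symm
  have a2 : (cy ^^^ wt.foldr (R mQ) cy) % 2 ^ n = 0 := by
    apply M.zero
    rw [M.vxor, ← prodR_vec M wt htm cy, ← hy, ← ht']
    have h := hf t' t'
    rw [ht2', f_one hf] at h
    exact h.symm
  have a3 : (cx ^^^ ws.foldr (R mQ) cy ^^^ cy ^^^ wt.foldr (R mQ) cx) % 2 ^ n = 0 := by
    apply M.zero
    rw [M.vxor, M.vxor, M.vxor, ← prodR_vec M ws hsm cy, ← prodR_vec M wt htm cx, ← hx, ← hy,
      ← hs', ← ht']
    have h1 := hf s' t'
    have h2 := hf t' s'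
    rw [hcomm', h2] at h1
    rw [add_assoc, h1]
    exact vadd_self _
  obtain ⟨cv, -, hcv1, hcv2⟩ := hH1 cx hcx cy hcy ⟨a1, a2, a3⟩
  have hf' := cross_sub hf (vec cv)
  have hs0 : s' ∈ Zc Q _ hf' := by
    show f s' - (act Q (s' : OG Q) (vec cv) - vec cv) = 0
    rw [hs', prodR_vec M ws hsm cv, vsub_eq, vsub_eq, ← M.vxor, hcv1, ← hx]
    exact vadd_self _
  have ht0 : t' ∈ Zc Q _ hf' := by
    show f t' - (act Q (t' : OG Q) (vec cv) - vec cv) = 0
    rw [ht', prodR_vec M wt htm cv, vsub_eq, vsub_eq, ← M.vxor, hcv2, ← hy]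
    exact vadd_self _
  -- the Klein four-group
  have hK0 : Subgroup.zpowers s' ⊔ Subgroup.zpowers t' ≤ Zc Q _ hf' :=
    sup_le (Subgroup.zpowers_le.mpr hs0) (Subgroup.zpowers_le.mpr ht0)
  have hp : ∀ x : ↥(commutator (OG Q)), x * x = 1 → IsPGroup 2 ↥(Subgroup.zpowers x) := by
    intro x hx g
    refine ⟨1, ?_⟩
    obtain ⟨j, hj⟩ := Subgroup.mem_zpowers_iff.mp g.2
    apply Subtype.ext
    rw [Subgroup.coe_pow, Subgroup.coe_one, ← hj, pow_one, ← zpow_natCast, ← _root_.zpow_mul, mul_comm,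
      _root_.zpow_mul, zpow_natCast, pow_two, hx, _root_.one_zpow]
  have hnorm : Subgroup.zpowers s' ≤ Subgroup.normalizer (Subgroup.zpowers t' : Set _) := by
    rw [Subgroup.zpowers_le, Subgroup.mem_normalizer_iff]
    have hc : ∀ k ∈ Subgroup.zpowers t', s' * k * s'⁻¹ = k := by
      intro k hk
      obtain ⟨j, rfl⟩ := Subgroup.mem_zpowers_iff.mp hk
      have : Commute s' (t' ^ j) := (show Commute s' t' from hcomm').zpow_right j
      rw [this.eq, mul_inv_cancel_right]
    intro h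
    constructor
    · intro hh
      rw [hc h hh]
      exact hh
    · intro hh
      have h5 := hc _ hh
      have e : s' * h * s'⁻¹ = h := by
        calc s' * h * s'⁻¹ = s'⁻¹ * (s' * (s' * h * s'⁻¹) * s'⁻¹) * s' := by group
          _ = s'⁻¹ * (s' * h * s'⁻¹) * s' := by rw [h5]
          _ = h := by group
      rw [← e]
      exact hh
  have hPK : IsPGroup 2 ↥(Subgroup.zpowers s' ⊔ Subgroup.zpowers t') :=
    IsPGroup.to_sup_of_normal_right' (hp s' hs2') (hp t' ht2') hnorm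
  obtain ⟨j, hj⟩ := IsPGroup.iff_card.mp hPK
  have h3 : 3 ≤ Nat.card ↥(Subgroup.zpowers s' ⊔ Subgroup.zpowers t') := by
    have hsub : ({1, s', t'} : Set ↥(commutator (OG Q)))
        ⊆ ((Subgroup.zpowers s' ⊔ Subgroup.zpowers t' : Subgroup _) : Set _) := by
      intro x hx
      rcases hx with rfl | rfl | rfl
      · exact one_mem _
      · exact (le_sup_left : Subgroup.zpowers x ≤ _) (Subgroup.mem_zpowers x)
      · exact (le_sup_right : Subgroup.zpowers x ≤ _) (Subgroup.mem_zpowers x)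
    have hc3 : ({1, s', t'} : Set ↥(commutator (OG Q))).ncard = 3 :=
      Set.ncard_eq_three.mpr ⟨1, s', t', fun h => hs1 h.symm, fun h => ht1 h.symm, hst1, rfl⟩
    have := Set.ncard_le_ncard hsub (Set.toFinite _)
    rw [hc3] at this
    rw [← Nat.card_coe_set_eq] at this
    exact this
  have h4 : 4 ∣ Nat.card ↥(Subgroup.zpowers s' ⊔ Subgroup.zpowers t') := by
    rw [hj] at h3 ⊢
    have hj2 : 2 ≤ j := by
      by_contra hlt
      have : j = 0 ∨ j = 1 := by omega
      rcases this with rfl | rfl <;> simp at h3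
    exact pow_dvd_pow 2 hj2
  have hodd : Odd (Subgroup.zpowers s' ⊔ Subgroup.zpowers t').index := by
    rw [← Nat.not_even_iff_odd]
    intro hev2
    have h8 : 4 * 2 ∣ Nat.card ↥(commutator (OG Q)) := by
      rw [← Subgroup.card_mul_index (Subgroup.zpowers s' ⊔ Subgroup.zpowers t')]
      exact Nat.mul_dvd_mul h4 hev2.two_dvd
    have := dvd_trans h8 hcard
    omega
  obtain ⟨v, hv⟩ := transfer (fun g : ↥(commutator (OG Q)) => actHom Q (g : OG Q)) vadd_self
    _ hodd (fun g => f g - (act Q (g : OG Q) (vec cv) - vec cv)) (fun g h => hf' g h)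
    (fun h hh => hK0 hh)
  refine ⟨vec cv + v, fun g => ?_⟩
  have h6 : f g - (act Q (g : OG Q) (vec cv) - vec cv) = act Q (g : OG Q) v + v := hv g
  have h7 : f g = act Q (g : OG Q) v + v + (act Q (g : OG Q) (vec cv) - vec cv) :=
    eq_add_of_sub_eq h6
  rw [h7, act_add, vsub_eq, vsub_eq]
  abel

end klein

end Cfsg.Agent.H41.OrthH1
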