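import Mathlib
import Cfsg.Agent.H41.OrthH1
import Cfsg.Agent.H49.Plus
import Cfsg.Agent.H49.MinusForm
import Cfsg.Agent.S0824

set_option autoImplicit false
open scoped MatrixGroups

/-!
Helper library (helper41): the three instances of the `H¹`-vanishing engine:
`Ω⁻(4,2)`, `Ω⁻(6,2)`, `Ω⁺(8,2)` on their natural modules.
-/

namespace Cfsg.Agent.H41.OrthH1

open Cfsg.Agent.H49

/-! ### `Ω⁺(8,2)` -/

/-- Bit positions for the hyperbolic form in dimension `2m`. -/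
def posP (m : ℕ) : Fin m ⊕ Fin m → ℕ := Sum.elim (fun i => i.val) (fun i => m + i.val)

/-- The model of the hyperbolic quadratic form in dimension 8. -/
def mQ8 (c : ℕ) : Bool :=
  ((c.testBit 0 && c.testBit 4) ^^ (c.testBit 1 && c.testBit 5)) ^^
    ((c.testBit 2 && c.testBit 6) ^^ (c.testBit 3 && c.testBit 7))

theorem model8 : Model (QP 4 (ZMod 2)) 8 (mkVec (posP 4)) mQ8 where
  vxor := mkVec_xor (posP 4)
  Qv := by
    intro c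
    have haux : ∀ b0 b1 b2 b3 b4 b5 b6 b7 : Bool,
        ((if b0 then (1 : ZMod 2) else 0) * (if b4 then 1 else 0)
          + (if b1 then 1 else 0) * (if b5 then 1 else 0)
          + (if b2 then 1 else 0) * (if b6 then 1 else 0)
          + (if b3 then 1 else 0) * (if b7 then 1 else 0))
        = if (((b0 && b4) ^^ (b1 && b5)) ^^ ((b2 && b6) ^^ (b3 && b7))) then 1 else 0 := by
      decide
    rw [QP_apply, Fin.sum_univ_four]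
    exact haux (c.testBit 0) (c.testBit 1) (c.testBit 2) (c.testBit 3) (c.testBit 4)
      (c.testBit 5) (c.testBit 6) (c.testBit 7)
  surj := mkVec_surj (posP 4) 8 (by decide) (by simp)
  zero := mkVec_zero_imp (posP 4) 8 (by decide)

def w8a : List ℕ := [17, 35, 19, 34, 68, 140, 76, 136]
def w8b : List ℕ := [17, 35, 34, 19, 140, 68, 136, 76]

theorem hw8 : (∀ cu ∈ w8a, mQ8 cu = true) ∧ w8a.length % 2 = 0 ∧
      ∀ c < 2 ^ 8, (w8a.foldr (R mQ8) c ^^^ c) % 2 ^ 8 = 0 → c = 0 := by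
  decide +kernel

theorem hws8 : ∀ w ∈ [w8a, w8b], (∀ cu ∈ w, mQ8 cu = true) ∧ w.length % 2 = 0 ∧
      (∀ c < 2 ^ 8, (w.foldr (R mQ8) c ^^^ c) % 2 ^ 8 = 0 → c = 0) ∧
      (∀ c < 2 ^ 8, (w ++ w ++ w).foldr (R mQ8) c = c) ∧
      (∀ c < 2 ^ 8, (w8a ++ w).foldr (R mQ8) c = (w ++ w8a).foldr (R mQ8) c) := by
  decide +kernel

theorem hcl8 : ∀ c < 2 ^ 8, mQ8 c = true → c ∈ (stepS mQ8 8 [w8a, w8b])^[4] [70] := by
  decide +kernel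

theorem comm_eq8 :
    commutator (OG (QP 4 (ZMod 2))) = evenSub (reflSet (QP 4 (ZMod 2))) :=
  commutator_eq_evenSub_two (QP 4 (ZMod 2)) (by decide) (QP_nondeg 4 (ZMod 2))
    (finrank_plus 4 (ZMod 2)) (Or.inr (by norm_num))

theorem part3 : ∀ f : ↥(Cfsg.Omega (ZMod 2) (Cfsg.quadFormPlus 4 (ZMod 2))) → (Fin 4 ⊕ Fin 4 → ZMod 2), (∀ g h : ↥(Cfsg.Omega (ZMod 2) (Cfsg.quadFormPlus 4 (ZMod 2))), f (g * h) = f g + Matrix.mulVec (((g : ↥(Cfsg.isometryGroup (ZMod 2) (Cfsg.quadFormPlus 4 (ZMod 2)))) : GL (Fin 4 ⊕ Fin 4) (ZMod 2)) : Matrix (Fin 4 ⊕ Fin 4) (Fin 4 ⊕ Fin 4) (ZMod 2)) (f h)) → ∃ v : Fin 4 ⊕ Fin 4 → ZMod 2, ∀ g : ↥(Cfsg.Omega (ZMod 2) (Cfsg.quadFormPlus 4 (ZMod 2))), f g = Matrix.mulVec (((g : ↥(Cfsg.isometryGroup (ZMod 2) (Cfsg.quadFormPlus 4 (ZMod 2)))) : GL (Fin 4 ⊕ Fin 4) (ZMod 2)) : Matrix (Fin 4 ⊕ Fin 4) (Fin 4 ⊕ Fin 4) (ZMod 2))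 v - v := by
  intro f hf
  have hev : ∀ u v : Fin 4 ⊕ Fin 4 → ZMod 2, QP 4 (ZMod 2) u ≠ 0 → QP 4 (ZMod 2) v ≠ 0 →
      reflG (QP 4 (ZMod 2)) u * reflG (QP 4 (ZMod 2)) v ∈ commutator (OG (QP 4 (ZMod 2))) := by
    intro u v hu hv
    rw [comm_eq8]
    exact Subgroup.subset_closure ⟨_, ⟨u, hu, rfl⟩, _, ⟨v, hv, rfl⟩, rfl⟩
  exact engine model8 hev comm_eq8.le w8a [w8a, w8b] 70 4 (by decide) hw8 hws8 hcl8 f hf

/-! ### `Ω⁻(6,2)` -/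

/-- Bit positions for the minus-type form in dimension `2m + 2`. -/
def posM (m : ℕ) : (Fin m ⊕ Fin m) ⊕ Fin 2 → ℕ :=
  Sum.elim (Sum.elim (fun i => i.val) (fun i => m + i.val)) (fun j => 2 * m + j.val)

/-- The model of the minus-type quadratic form in dimension 6. -/
def mQ6 (c : ℕ) : Bool :=
  ((c.testBit 0 && c.testBit 2) ^^ (c.testBit 1 && c.testBit 3)) ^^
    (c.testBit 4 || c.testBit 5)

theorem model6 : Model (QMin 2 (ZMod 2) 1 1) 6 (mkVec (posM 2)) mQ6 where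
  vxor := mkVec_xor (posM 2)
  Qv := by
    intro c
    have haux : ∀ b0 b1 b2 b3 b4 b5 : Bool,
        ((if b0 then (1 : ZMod 2) else 0) * (if b2 then 1 else 0)
          + (if b1 then 1 else 0) * (if b3 then 1 else 0))
          + ((if b4 then (1 : ZMod 2) else 0) ^ 2
            + 1 * (if b4 then 1 else 0) * (if b5 then 1 else 0)
            + 1 * (if b5 then (1 : ZMod 2) else 0) ^ 2)
        = if (((b0 && b2) ^^ (b1 && b3)) ^^ (b4 || b5)) then 1 else 0 := by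
      decide
    show Cfsg.quadFormMinus 2 (ZMod 2) 1 1 (mkVec (posM 2) c) = _
    unfold Cfsg.quadFormMinus
    rw [Fin.sum_univ_two]
    exact haux (c.testBit 0) (c.testBit 1) (c.testBit 2) (c.testBit 3) (c.testBit 4)
      (c.testBit 5)
  surj := mkVec_surj (posM 2) 6 (by decide) (by simp)
  zero := mkVec_zero_imp (posM 2) 6 (by decide)

def w6a : List ℕ := [5, 11, 7, 10, 16, 32]
def w6b : List ℕ := [5, 11, 10, 7, 32, 16]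

theorem hw6 : (∀ cu ∈ w6a, mQ6 cu = true) ∧ w6a.length % 2 = 0 ∧
      ∀ c < 2 ^ 6, (w6a.foldr (R mQ6) c ^^^ c) % 2 ^ 6 = 0 → c = 0 := by
  decide +kernel

theorem hws6 : ∀ w ∈ [w6a, w6b], (∀ cu ∈ w, mQ6 cu = true) ∧ w.length % 2 = 0 ∧
      (∀ c < 2 ^ 6, (w.foldr (R mQ6) c ^^^ c) % 2 ^ 6 = 0 → c = 0) ∧
      (∀ c < 2 ^ 6, (w ++ w ++ w).foldr (R mQ6) c = c) ∧
      (∀ c < 2 ^ 6, (w6a ++ w).foldr (R mQ6) c = (w ++ w6a).foldr (R mQ6) c) := by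
  decide +kernel

theorem hcl6 : ∀ c < 2 ^ 6, mQ6 c = true → c ∈ (stepS mQ6 6 [w6a, w6b])^[4] [18] := by
  decide +kernel

theorem comm_eq6 :
    commutator (OG (QMin 2 (ZMod 2) 1 1)) = evenSub (reflSet (QMin 2 (ZMod 2) 1 1)) :=
  commutator_eq_evenSub_two (QMin 2 (ZMod 2) 1 1) (by decide) (QMin_nondeg 2 1 1 (by decide))
    (finrank_minus 2) (Or.inr (by norm_num))

theorem part2 : ∀ f : ↥(Cfsg.Omega (ZMod 2) (Cfsg.quadFormMinus 2 (ZMod 2) 1 1)) → ((Fin 2 ⊕ Fin 2) ⊕ Fin 2 → ZMod 2), (∀ g h : ↥(Cfsg.Omega (ZMod 2) (Cfsg.quadFormMinus 2 (ZMod 2) 1 1)), f (g * h) = f g + Matrix.mulVec (((g : ↥(Cfsg.isometryGroup (ZMod 2) (Cfsg.quadFormMinus 2 (ZMod 2) 1 1))) : GL ((Fin 2 ⊕ Fin 2) ⊕ Fin 2) (ZMod 2)) : Matrix ((Fin 2 ⊕ Fin 2) ⊕ Fin 2) ((Fin 2 ⊕ Fin 2) ⊕ Fin 2) (ZMod 2)) (f h)) → ∃ v : (Fin 2 ⊕ Fin 2) ⊕ Fin 2 → ZMod 2, ∀ g : ↥(Cfsg.Omega (ZMod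 2) (Cfsg.quadFormMinus 2 (ZMod 2) 1 1)), f g = Matrix.mulVec (((g : ↥(Cfsg.isometryGroup (ZMod 2) (Cfsg.quadFormMinus 2 (ZMod 2) 1 1))) : GL ((Fin 2 ⊕ Fin 2) ⊕ Fin 2) (ZMod 2)) : Matrix ((Fin 2 ⊕ Fin 2) ⊕ Fin 2) ((Fin 2 ⊕ Fin 2) ⊕ Fin 2) (ZMod 2)) v - v := by
  intro f hf
  have hev : ∀ u v : (Fin 2 ⊕ Fin 2) ⊕ Fin 2 → ZMod 2, QMin 2 (ZMod 2) 1 1 u ≠ 0 →
      QMin 2 (ZMod 2) 1 1 v ≠ 0 →
      reflG (QMin 2 (ZMod 2) 1 1) u * reflG (QMin 2 (ZMod 2) 1 1) v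
        ∈ commutator (OG (QMin 2 (ZMod 2) 1 1)) := by
    intro u v hu hv
    rw [comm_eq6]
    exact Subgroup.subset_closure ⟨_, ⟨u, hu, rfl⟩, _, ⟨v, hv, rfl⟩, rfl⟩
  exact engine model6 hev comm_eq6.le w6a [w6a, w6b] 18 4 (by decide) hw6 hws6 hcl6 f hf

/-! ### `Ω⁻(4,2)` -/

/-- The model of the minus-type quadratic form in dimension 4. -/
def mQ4 (c : ℕ) : Bool :=
  (c.testBit 0 && c.testBit 1) ^^ (c.testBit 2 || c.testBit 3)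

theorem model4 : Model (QMin 1 (ZMod 2) 1 1) 4 (mkVec (posM 1)) mQ4 where
  vxor := mkVec_xor (posM 1)
  Qv := by
    intro c
    have haux : ∀ b0 b1 b2 b3 : Bool,
        ((if b0 then (1 : ZMod 2) else 0) * (if b1 then 1 else 0))
          + ((if b2 then (1 : ZMod 2) else 0) ^ 2
            + 1 * (if b2 then 1 else 0) * (if b3 then 1 else 0)
            + 1 * (if b3 then (1 : ZMod 2) else 0) ^ 2)
        = if ((b0 && b1) ^^ (b2 || b3)) then 1 else 0 := by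
      decide
    show Cfsg.quadFormMinus 1 (ZMod 2) 1 1 (mkVec (posM 1) c) = _
    unfold Cfsg.quadFormMinus
    rw [Fin.sum_univ_one]
    exact haux (c.testBit 0) (c.testBit 1) (c.testBit 2) (c.testBit 3)
  surj := mkVec_surj (posM 1) 4 (by decide) (by simp)
  zero := mkVec_zero_imp (posM 1) 4 (by decide)

theorem card_comm4 : Nat.card ↥(commutator (OG (QMin 1 (ZMod 2) 1 1))) ∣ 60 := by
  obtain ⟨e⟩ := Cfsg.Agent.S0824.result (F := ZMod 2) (ZMod.card 2)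
  obtain ⟨χ, hχ⟩ : ∃ χ : OG (QMin 1 (ZMod 2) 1 1) →* ℤˣ, Function.Surjective χ := by
    refine ⟨Equiv.Perm.sign.comp e.toMonoidHom, fun y => ?_⟩
    obtain ⟨σ, hσ⟩ := Equiv.Perm.sign_surjective (Fin 5) y
    refine ⟨e.symm σ, ?_⟩
    show Equiv.Perm.sign (e (e.symm σ)) = y
    rw [MulEquiv.apply_symm_apply, hσ]
  have hle : commutator (OG (QMin 1 (ZMod 2) 1 1)) ≤ χ.ker :=
    Abelianization.commutator_subset_ker χ
  have hk : Nat.card χ.ker = 60 := by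
    have h1 := Subgroup.card_mul_index χ.ker
    rw [Subgroup.index_ker, MonoidHom.range_eq_top.mpr hχ, Subgroup.card_top,
      Nat.card_eq_fintype_card (α := ℤˣ), Fintype.card_units_int] at h1
    have h2 : Nat.card (OG (QMin 1 (ZMod 2) 1 1)) = 120 := by
      have h3 := Nat.card_congr e.toEquiv
      rw [Nat.card_eq_fintype_card (α := Equiv.Perm (Fin 5)), Fintype.card_perm,
        Fintype.card_fin] at h3
      exact h3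
    omega
  rw [← hk]
  exact Subgroup.card_dvd_of_le hle

theorem hadj4 : ∀ c < 2 ^ 4, ∀ d < 2 ^ 4, (mQ4 c = true ∧ mQ4 d = true) →
      ∃ e < 2 ^ 4, mQ4 e = true ∧ mQ4 (c ^^^ e) = true ∧ mQ4 (d ^^^ e) = true := by
  decide +kernel

theorem hH14 : ∀ cx < 2 ^ 4, ∀ cy < 2 ^ 4,
      ((cx ^^^ [3, 4].foldr (R mQ4) cx) % 2 ^ 4 = 0 ∧
      (cy ^^^ [9, 14].foldr (R mQ4) cy) % 2 ^ 4 = 0 ∧
      (cx ^^^ [3, 4].foldr (R mQ4) cy ^^^ cy ^^^ [9, 14].foldr (R mQ4) cx) % 2 ^ 4 = 0) →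
      ∃ cv < 2 ^ 4, [3, 4].foldr (R mQ4) cv ^^^ cv = cx ∧
        [9, 14].foldr (R mQ4) cv ^^^ cv = cy := by
  decide +kernel

theorem part1 : ∀ f : ↥(Cfsg.Omega (ZMod 2) (Cfsg.quadFormMinus 1 (ZMod 2) 1 1)) → ((Fin 1 ⊕ Fin 1) ⊕ Fin 2 → ZMod 2), (∀ g h : ↥(Cfsg.Omega (ZMod 2) (Cfsg.quadFormMinus 1 (ZMod 2) 1 1)), f (g * h) = f g + Matrix.mulVec (((g : ↥(Cfsg.isometryGroup (ZMod 2) (Cfsg.quadFormMinus 1 (ZMod 2) 1 1))) : GL ((Fin 1 ⊕ Fin 1) ⊕ Fin 2) (ZMod 2)) : Matrix ((Fin 1 ⊕ Fin 1) ⊕ Fin 2) ((Fin 1 ⊕ Fin 1) ⊕ Fin 2) (ZMod 2)) (f h)) → ∃ v : (Fin 1 ⊕ Fin 1) ⊕ Fin 2 → ZMod 2, ∀ g : ↥(Cfsg.Omega (ZMod 2) (Cfsg.quadFormMinus 1 (ZMod 2) 1 1)), f g = Matrix.mulVec (((g : ↥(Cfsg.isometryGroup (ZMod 2) (Cfsg.quadFormMinus 1 (ZMod 2) 1 1))) : GL ((Fin 1 ⊕ Fin 1) ⊕ Fin 2) (ZMod 2)) : Matrix ((Fin 1 ⊕ Fin 1) ⊕ Fin 2) ((Fin 1 ⊕ Fin 1) ⊕ Fin 2) (ZMod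 2)) v - v := by
  intro f hf
  exact klein_case model4 (hev_of_model model4 hadj4) card_comm4 [3, 4] [9, 14]
    (by decide +kernel) (by decide +kernel) (by decide +kernel)
    ⟨1, by decide +kernel⟩ ⟨1, by decide +kernel⟩ ⟨1, by decide +kernel⟩ hH14 f hf

end Cfsg.Agent.H41.OrthH1
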