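import Mathlib
import Cfsg.Agent.H41.ProdMult
import Cfsg.Agent.H41.BiTwist

/-!
# The multiplier of a direct product (helper41)

`M(Q₁ × Q₂) ≅ M(Q₁) × M(Q₂) × (Q₁ᵃᵇ ⊗ Q₂ᵃᵇ)`.
-/

set_option autoImplicit false

namespace Cfsg.Agent.H41

open Cfsg

open scoped commutatorElement TensorProduct IsMulCommutative

universe u v w

section upper

variable {Q₁ : Type u} {Q₂ : Type v} {Δ : Type w} [Group Q₁] [Group Q₂] [Group Δ]
  (τ : Δ →* Q₁ × Q₂)

/-- The pairing in additive form. -/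
noncomputable def pairingAdd (hτ : Function.Surjective τ) (hc : τ.ker ≤ Subgroup.center Δ) :
    Additive (Abelianization Q₁) →+ Additive (Abelianization Q₂) →+
      Additive (Subgroup.center Δ) :=
  AddMonoidHom.mk' (fun a => MonoidHom.toAdditive (pairing τ hτ hc (Additive.toMul a)))
    (fun a a' => by
      refine AddMonoidHom.ext (fun b => ?_)
      show Additive.ofMul (pairing τ hτ hc (Additive.toMul a * Additive.toMul a')
        (Additive.toMul b)) = _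
      rw [map_mul]
      rfl)

theorem pairingAdd_apply (hτ : Function.Surjective τ) (hc : τ.ker ≤ Subgroup.center Δ)
    (a : Abelianization Q₁) (b : Abelianization Q₂) :
    pairingAdd τ hτ hc (Additive.ofMul a) (Additive.ofMul b) =
      Additive.ofMul (pairing τ hτ hc a b) := rfl

/-- The tensor product of the abelianisations maps to `Δ` by the commutator pairing. -/
noncomputable def tensorHom (hτ : Function.Surjective τ) (hc : τ.ker ≤ Subgroup.center Δ) :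
    Multiplicative (Additive (Abelianization Q₁) ⊗[ℤ] Additive (Abelianization Q₂)) →* Δ :=
  (Subgroup.center Δ).subtype.comp (AddMonoidHom.toMultiplicativeLeft
    (TensorProduct.liftAddHom (pairingAdd τ hτ hc) (fun r m n => by
      rw [map_zsmul, AddMonoidHom.smul_apply, map_zsmul])))

theorem tensorHom_tmul (hτ : Function.Surjective τ) (hc : τ.ker ≤ Subgroup.center Δ)
    (a : Abelianization Q₁) (b : Abelianization Q₂) :
    tensorHom τ hτ hc (Multiplicative.ofAdd (Additive.ofMul a ⊗ₜ[ℤ] Additive.ofMul b)) =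
      ((pairing τ hτ hc a b : Subgroup.center Δ) : Δ) := rfl

theorem tensorHom_mem_ker (hτ : Function.Surjective τ) (hc : τ.ker ≤ Subgroup.center Δ)
    (t : Multiplicative (Additive (Abelianization Q₁) ⊗[ℤ] Additive (Abelianization Q₂))) :
    τ (tensorHom τ hτ hc t) = 1 := by
  obtain ⟨t, rfl⟩ := Multiplicative.ofAdd.surjective t
  induction t using TensorProduct.induction_on with
  | zero =>
    rw [ofAdd_zero, map_one, map_one]
  | tmul a b =>
    obtain ⟨a, rfl⟩ := Additive.ofMul.surjective a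
    obtain ⟨b, rfl⟩ := Additive.ofMul.surjective b
    have hs₁ : Function.Surjective (Abelianization.of : Q₁ →* Abelianization Q₁) :=
      QuotientGroup.mk'_surjective _
    have hs₂ : Function.Surjective (Abelianization.of : Q₂ →* Abelianization Q₂) :=
      QuotientGroup.mk'_surjective _
    obtain ⟨q₁, rfl⟩ := hs₁ a
    obtain ⟨q₂, rfl⟩ := hs₂ b
    rw [tensorHom_tmul, pairing_of]
    exact MonoidHom.mem_ker.1 (commutator_overFst_overSnd_le_ker τ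
      (Subgroup.commutator_mem_commutator (surjInv_mem_overFst τ hτ q₁)
        (surjInv_mem_overSnd τ hτ q₂)))
  | add x y hx hy =>
    rw [ofAdd_add, map_mul, map_mul, hx, hy, one_mul]

theorem commutator_le_range_tensorHom (hτ : Function.Surjective τ)
    (hc : τ.ker ≤ Subgroup.center Δ) :
    ⁅overFst τ, overSnd τ⁆ ≤ (tensorHom τ hτ hc).range := by
  rw [Subgroup.commutator_le]
  intro x hx y hy
  refine ⟨Multiplicative.ofAdd (Additive.ofMul (Abelianization.of (τ x).1) ⊗ₜ[ℤ]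
    Additive.ofMul (Abelianization.of (τ y).2)), ?_⟩
  rw [tensorHom_tmul]
  exact pairing_apply τ hτ hc hx hy

end upper

section upper2

variable {Q₁ : Type u} {Q₂ : Type v} [Group Q₁] [Group Q₂]

/-- Upper bound for the multiplier of a product. -/
theorem exists_surjective_prod_tensor {A B : Type*} [CommGroup A]
    [CommGroup B] (hA : HasSchurMultiplier Q₁ A) (hB : HasSchurMultiplier Q₂ B)
    {Δ : Type w} [Group Δ] (τ : Δ →* Q₁ × Q₂) (hτ : IsStemExtension τ) :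
    ∃ π : A × B × Multiplicative (Additive (Abelianization Q₁) ⊗[ℤ]
      Additive (Abelianization Q₂)) →* τ.ker, Function.Surjective π := by
  obtain ⟨hs, hc, hd⟩ := hτ
  obtain ⟨g₁, hg₁, hg₁'⟩ := exists_hom_onto₁ τ hs hc hA
  obtain ⟨g₂, hg₂, hg₂'⟩ := exists_hom_onto₂ τ hs hc hB
  have hcomm₂ : ∀ b t, Commute (g₂ b) (tensorHom τ hs hc t) := fun b t =>
    (Subgroup.mem_center_iff.1 (hc (MonoidHom.mem_ker.2 (tensorHom_mem_ker τ hs hc t))) (g₂ b))
  have hker₂ : ∀ p, τ (MonoidHom.noncommCoprod g₂ (tensorHom τ hs hc) hcomm₂ p) = 1 := fun p => by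
    rw [MonoidHom.noncommCoprod_apply, map_mul, hg₂, tensorHom_mem_ker, one_mul]
  have hcomm₁ : ∀ a p, Commute (g₁ a)
      (MonoidHom.noncommCoprod g₂ (tensorHom τ hs hc) hcomm₂ p) := fun a p =>
    (Subgroup.mem_center_iff.1 (hc (MonoidHom.mem_ker.2 (hker₂ p))) (g₁ a))
  refine ⟨MonoidHom.codRestrict (MonoidHom.noncommCoprod g₁
    (MonoidHom.noncommCoprod g₂ (tensorHom τ hs hc) hcomm₂) hcomm₁) τ.ker (fun p => ?_), ?_⟩
  · rw [MonoidHom.mem_ker, MonoidHom.noncommCoprod_apply, map_mul, hg₁, hker₂, one_mul]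
  · rintro ⟨k, hk⟩
    obtain ⟨d₁, hd₁, d₂, hd₂, c, hcc, h1, h2, rfl⟩ := ker_decomp τ hs hk (hd hk)
    obtain ⟨t, rfl⟩ := commutator_le_range_tensorHom τ hs hc hcc
    obtain ⟨a, rfl⟩ := hg₁' d₁ hd₁ h1
    obtain ⟨b, rfl⟩ := hg₂' d₂ hd₂ h2
    refine ⟨(a, b, t), Subtype.ext ?_⟩
    show g₁ a * (g₂ b * tensorHom τ hs hc t) = g₁ a * g₂ b * tensorHom τ hs hc t
    rw [mul_assoc]

end upper2

section lower

variable {Q₁ : Type u} {Q₂ : Type v} [Group Q₁] [Group Q₂] {Γ₁ : Type*} {Γ₂ : Type*}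
  [Group Γ₁] [Group Γ₂] (σ₁ : Γ₁ →* Q₁) (σ₂ : Γ₂ →* Q₂)

/-- The tensor product of the abelianisations. -/
abbrev TensAb (Q₁ : Type u) (Q₂ : Type v) [Group Q₁] [Group Q₂] : Type (max u v) :=
  Additive (Abelianization Q₁) ⊗[ℤ] Additive (Abelianization Q₂)

/-- Class of the first coordinate in `Q₁ᵃᵇ`. -/
def abFst (y : Γ₁ × Γ₂) : Additive (Abelianization Q₁) :=
  Additive.ofMul (Abelianization.of (σ₁ y.1))

/-- Class of the second coordinate in `Q₂ᵃᵇ`. -/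
def abSnd (x : Γ₁ × Γ₂) : Additive (Abelianization Q₂) :=
  Additive.ofMul (Abelianization.of (σ₂ x.2))

theorem abFst_mul (y y' : Γ₁ × Γ₂) : abFst σ₁ (y * y') = abFst σ₁ y + abFst σ₁ y' := by
  show Additive.ofMul (Abelianization.of (σ₁ (y.1 * y'.1))) = _
  rw [map_mul, map_mul]
  rfl

theorem abSnd_mul (x x' : Γ₁ × Γ₂) : abSnd σ₂ (x * x') = abSnd σ₂ x + abSnd σ₂ x' := by
  show Additive.ofMul (Abelianization.of (σ₂ (x.2 * x'.2))) = _
  rw [map_mul, map_mul]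
  rfl

theorem abFst_eq_zero {y : Γ₁ × Γ₂} (hy : σ₁ y.1 = 1) : abFst σ₁ y = 0 := by
  show Additive.ofMul (Abelianization.of (σ₁ y.1)) = 0
  rw [hy, map_one]
  rfl

theorem abSnd_eq_zero {x : Γ₁ × Γ₂} (hx : σ₂ x.2 = 1) : abSnd σ₂ x = 0 := by
  show Additive.ofMul (Abelianization.of (σ₂ x.2)) = 0
  rw [hx, map_one]
  rfl

/-- The cocycle `(x, y) ↦ [y₁] ⊗ [x₂]` on `Γ₁ × Γ₂`. -/
noncomputable def prodCocycle : Γ₁ × Γ₂ →* Γ₁ × Γ₂ →* Multiplicative (TensAb Q₁ Q₂) :=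
  MonoidHom.mk' (fun x => MonoidHom.mk'
      (fun y => Multiplicative.ofAdd (abFst σ₁ y ⊗ₜ[ℤ] abSnd σ₂ x))
      (fun y y' => by
        rw [abFst_mul, TensorProduct.add_tmul]
        rfl))
    (fun x x' => by
      refine MonoidHom.ext (fun y => ?_)
      show Multiplicative.ofAdd (abFst σ₁ y ⊗ₜ[ℤ] abSnd σ₂ (x * x')) =
        Multiplicative.ofAdd (abFst σ₁ y ⊗ₜ[ℤ] abSnd σ₂ x) *
          Multiplicative.ofAdd (abFst σ₁ y ⊗ₜ[ℤ] abSnd σ₂ x')
      rw [abSnd_mul, TensorProduct.tmul_add]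
      rfl)

theorem prodCocycle_apply (x y : Γ₁ × Γ₂) :
    prodCocycle σ₁ σ₂ x y = Multiplicative.ofAdd (abFst σ₁ y ⊗ₜ[ℤ] abSnd σ₂ x) := rfl

theorem prodCocycle_eq_one_left {x : Γ₁ × Γ₂} (hx : σ₂ x.2 = 1) (y : Γ₁ × Γ₂) :
    prodCocycle σ₁ σ₂ x y = 1 := by
  rw [prodCocycle_apply, abSnd_eq_zero σ₂ hx, TensorProduct.tmul_zero]
  rfl

theorem prodCocycle_eq_one_right (x : Γ₁ × Γ₂) {y : Γ₁ × Γ₂} (hy : σ₁ y.1 = 1) :
    prodCocycle σ₁ σ₂ x y = 1 := by
  rw [prodCocycle_apply, abFst_eq_zero σ₁ hy, TensorProduct.zero_tmul]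
  rfl

/-- The twisted product of two covers. -/
abbrev ProdCover : Type _ := BiTwist (Γ₁ × Γ₂) (TensAb Q₁ Q₂) (prodCocycle σ₁ σ₂)

/-- The projection of the twisted product onto `Q₁ × Q₂`. -/
noncomputable def prodCoverHom : ProdCover σ₁ σ₂ →* Q₁ × Q₂ :=
  (MonoidHom.prodMap σ₁ σ₂).comp (BiTwist.proj _ _ _)

theorem prodCoverHom_apply (a : ProdCover σ₁ σ₂) :
    prodCoverHom σ₁ σ₂ a = (σ₁ a.fst.1, σ₂ a.fst.2) := rfl

theorem mem_ker_prodCoverHom {a : ProdCover σ₁ σ₂} :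
    a ∈ (prodCoverHom σ₁ σ₂).ker ↔ σ₁ a.fst.1 = 1 ∧ σ₂ a.fst.2 = 1 := by
  rw [MonoidHom.mem_ker, prodCoverHom_apply, Prod.ext_iff]
  rfl

/-- `Γ₁` inside the twisted product. -/
noncomputable def prodCoverInl : Γ₁ →* ProdCover σ₁ σ₂ :=
  BiTwist.liftHom (MonoidHom.inl Γ₁ Γ₂) (fun x _ =>
    prodCocycle_eq_one_left σ₁ σ₂ (x := (x, 1)) (map_one σ₂) _)

/-- `Γ₂` inside the twisted product. -/
noncomputable def prodCoverInr : Γ₂ →* ProdCover σ₁ σ₂ :=
  BiTwist.liftHom (MonoidHom.inr Γ₁ Γ₂) (fun _ y =>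
    prodCocycle_eq_one_right σ₁ σ₂ _ (y := (1, y)) (map_one σ₁))

@[simp] theorem prodCoverInl_fst (g : Γ₁) : (prodCoverInl σ₁ σ₂ g).fst = (g, 1) := rfl
@[simp] theorem prodCoverInl_snd (g : Γ₁) : (prodCoverInl σ₁ σ₂ g).snd = 0 := rfl
@[simp] theorem prodCoverInr_fst (g : Γ₂) : (prodCoverInr σ₁ σ₂ g).fst = (1, g) := rfl
@[simp] theorem prodCoverInr_snd (g : Γ₂) : (prodCoverInr σ₁ σ₂ g).snd = 0 := rfl

theorem inr_mem_commutator (hσ₁ : Function.Surjective σ₁) (hσ₂ : Function.Surjective σ₂)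
    (t : TensAb Q₁ Q₂) :
    BiTwist.inr _ _ (prodCocycle σ₁ σ₂) (Multiplicative.ofAdd t) ∈
      commutator (ProdCover σ₁ σ₂) := by
  induction t using TensorProduct.induction_on with
  | zero =>
    rw [ofAdd_zero, map_one]
    exact Subgroup.one_mem _
  | tmul a b =>
    obtain ⟨a, rfl⟩ := Additive.ofMul.surjective a
    obtain ⟨b, rfl⟩ := Additive.ofMul.surjective b
    have hs₁ : Function.Surjective (Abelianization.of : Q₁ →* Abelianization Q₁) :=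
      QuotientGroup.mk'_surjective _
    have hs₂ : Function.Surjective (Abelianization.of : Q₂ →* Abelianization Q₂) :=
      QuotientGroup.mk'_surjective _
    obtain ⟨q₁, rfl⟩ := hs₁ a
    obtain ⟨q₂, rfl⟩ := hs₂ b
    obtain ⟨g₁, rfl⟩ := hσ₁ q₁
    obtain ⟨g₂, rfl⟩ := hσ₂ q₂
    have h1 := BiTwist.commutator_mk (c := prodCocycle σ₁ σ₂) ((1 : Γ₁), g₂) (g₁, (1 : Γ₂))
      (by ext <;> simp)
    have h2 : prodCocycle σ₁ σ₂ (g₁, (1 : Γ₂)) ((1 : Γ₁), g₂) = 1 :=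
      prodCocycle_eq_one_left σ₁ σ₂ (x := (g₁, 1)) (map_one σ₂) _
    rw [h2, toAdd_one, sub_zero] at h1
    have h3 : BiTwist.inr _ _ (prodCocycle σ₁ σ₂) (Multiplicative.ofAdd
        (Additive.ofMul (Abelianization.of (σ₁ g₁)) ⊗ₜ[ℤ]
          Additive.ofMul (Abelianization.of (σ₂ g₂)))) =
        ⁅(⟨((1 : Γ₁), g₂), 0⟩ : ProdCover σ₁ σ₂), (⟨(g₁, (1 : Γ₂)), 0⟩ : ProdCover σ₁ σ₂)⁆ := by
      rw [h1]
      rfl
    rw [h3, commutator_def]
    exact Subgroup.commutator_mem_commutator (Subgroup.mem_top _) (Subgroup.mem_top _)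
  | add x y hx hy =>
    rw [ofAdd_add, map_mul]
    exact Subgroup.mul_mem _ hx hy

theorem isStemExtension_prodCoverHom (h₁ : IsStemExtension σ₁) (h₂ : IsStemExtension σ₂) :
    IsStemExtension (prodCoverHom σ₁ σ₂) := by
  obtain ⟨hs₁, hc₁, hd₁⟩ := h₁
  obtain ⟨hs₂, hc₂, hd₂⟩ := h₂
  refine ⟨(Prod.map_surjective.2 ⟨hs₁, hs₂⟩).comp BiTwist.proj_surjective, ?_, ?_⟩
  · intro a ha
    rw [mem_ker_prodCoverHom] at ha
    apply BiTwist.mem_center_of
    · have hk₁ : a.fst.1 ∈ Subgroup.center Γ₁ := hc₁ (MonoidHom.mem_ker.2 ha.1)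
      have hk₂ : a.fst.2 ∈ Subgroup.center Γ₂ := hc₂ (MonoidHom.mem_ker.2 ha.2)
      rw [Subgroup.mem_center_iff] at hk₁ hk₂ ⊢
      rintro ⟨g₁, g₂⟩
      exact Prod.ext (hk₁ g₁) (hk₂ g₂)
    · intro g
      rw [prodCocycle_eq_one_left σ₁ σ₂ ha.2, prodCocycle_eq_one_right σ₁ σ₂ _ ha.1]
  · intro a ha
    rw [mem_ker_prodCoverHom] at ha
    have h1 : a = prodCoverInl σ₁ σ₂ a.fst.1 * prodCoverInr σ₁ σ₂ a.fst.2 *
        BiTwist.inr _ _ (prodCocycle σ₁ σ₂) (Multiplicative.ofAdd a.snd) := by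
      ext
      · show a.fst.1 = a.fst.1 * 1 * 1
        rw [mul_one, mul_one]
      · show a.fst.2 = 1 * a.fst.2 * 1
        rw [mul_one, one_mul]
      · have e1 : prodCocycle σ₁ σ₂ (a.fst.1, (1 : Γ₂)) ((1 : Γ₁), a.fst.2) = 1 :=
          prodCocycle_eq_one_left σ₁ σ₂ (x := (a.fst.1, 1)) (map_one σ₂) _
        have e2 : prodCocycle σ₁ σ₂ ((a.fst.1, (1 : Γ₂)) * ((1 : Γ₁), a.fst.2)) 1 = 1 :=
          map_one _
        rw [BiTwist.mul_snd, BiTwist.mul_snd, BiTwist.mul_fst, prodCoverInl_fst,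
          prodCoverInr_fst, prodCoverInl_snd, prodCoverInr_snd, BiTwist.inr_snd, BiTwist.inr_fst,
          e1, e2, toAdd_one, toAdd_ofAdd]
        abel
    rw [h1]
    refine Subgroup.mul_mem _ (Subgroup.mul_mem _ ?_ ?_) (inr_mem_commutator σ₁ σ₂ hs₁ hs₂ _)
    · exact map_commutator_le (prodCoverInl σ₁ σ₂) ⟨_, hd₁ (MonoidHom.mem_ker.2 ha.1), rfl⟩
    · exact map_commutator_le (prodCoverInr σ₁ σ₂) ⟨_, hd₂ (MonoidHom.mem_ker.2 ha.2), rfl⟩

/-- The kernel of the twisted product. -/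
noncomputable def kerProdCoverEquiv :
    (prodCoverHom σ₁ σ₂).ker ≃* (σ₁.ker × σ₂.ker) × Multiplicative (TensAb Q₁ Q₂) where
  toFun k := ((⟨k.1.fst.1, MonoidHom.mem_ker.2 ((mem_ker_prodCoverHom σ₁ σ₂).1 k.2).1⟩,
    ⟨k.1.fst.2, MonoidHom.mem_ker.2 ((mem_ker_prodCoverHom σ₁ σ₂).1 k.2).2⟩),
    Multiplicative.ofAdd k.1.snd)
  invFun p := ⟨⟨(p.1.1.1, p.1.2.1), p.2.toAdd⟩, (mem_ker_prodCoverHom σ₁ σ₂).2
    ⟨MonoidHom.mem_ker.1 p.1.1.2, MonoidHom.mem_ker.1 p.1.2.2⟩⟩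
  left_inv _ := rfl
  right_inv _ := rfl
  map_mul' k k' := by
    have h := (mem_ker_prodCoverHom σ₁ σ₂).1 k.2
    refine Prod.ext rfl ?_
    show Multiplicative.ofAdd (k.1.snd + k'.1.snd +
      (prodCocycle σ₁ σ₂ k.1.fst k'.1.fst).toAdd) =
        Multiplicative.ofAdd k.1.snd * Multiplicative.ofAdd k'.1.snd
    rw [prodCocycle_eq_one_left σ₁ σ₂ h.2, toAdd_one, add_zero]
    rfl

instance finite_tensAb [Finite Q₁] [Finite Q₂] : Finite (TensAb Q₁ Q₂) := by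
  have hf₁ : Finite (Abelianization Q₁) :=
    Finite.of_surjective (Abelianization.of : Q₁ →* Abelianization Q₁)
      (QuotientGroup.mk'_surjective _)
  have hf₂ : Finite (Abelianization Q₂) :=
    Finite.of_surjective (Abelianization.of : Q₂ →* Abelianization Q₂)
      (QuotientGroup.mk'_surjective _)
  have hf₁' : Finite (Additive (Abelianization Q₁)) := Finite.of_equiv _ Additive.ofMul
  have hf₂' : Finite (Additive (Abelianization Q₂)) := Finite.of_equiv _ Additive.ofMul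
  have hm₁ : Module.Finite ℤ (Additive (Abelianization Q₁)) := Module.Finite.of_finite
  have hm₂ : Module.Finite ℤ (Additive (Abelianization Q₂)) := Module.Finite.of_finite
  have hfg : AddGroup.FG (TensAb Q₁ Q₂) :=
    Module.Finite.iff_addGroup_fg.1 (Module.Finite.tensorProduct ℤ _ _)
  apply AddCommGroup.finite_of_fg_isAddTorsion
  intro t
  rw [isOfFinAddOrder_iff_nsmul_eq_zero]
  refine ⟨Nat.card (Additive (Abelianization Q₁)), Nat.card_pos, ?_⟩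
  induction t using TensorProduct.induction_on with
  | zero => rw [nsmul_zero]
  | tmul a b =>
    rw [TensorProduct.smul_tmul', card_nsmul_eq_zero', TensorProduct.zero_tmul]
  | add x y hx hy => rw [nsmul_add, hx, hy, add_zero]

end lower

section main

variable {Q₁ : Type u} {Q₂ : Type v} [Group Q₁] [Group Q₂]

/-- **The multiplier of a direct product.** -/
theorem hasSchurMultiplier_prod [Finite Q₁] [Finite Q₂] {A B : Type w} [CommGroup A]
    [CommGroup B] (hA : HasSchurMultiplier Q₁ A) (hB : HasSchurMultiplier Q₂ B) :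
    HasSchurMultiplier (Q₁ × Q₂) (A × B × Multiplicative (TensAb Q₁ Q₂)) := by
  refine ⟨?_, fun Δ _ _ τ hτ => exists_surjective_prod_tensor hA hB τ hτ⟩
  obtain ⟨⟨Γ₁, _, _, σ₁, hσ₁, ⟨e₁⟩⟩, -⟩ := hA
  obtain ⟨⟨Γ₂, _, _, σ₂, hσ₂, ⟨e₂⟩⟩, -⟩ := hB
  exact ⟨ProdCover σ₁ σ₂, inferInstance, inferInstance, prodCoverHom σ₁ σ₂,
    isStemExtension_prodCoverHom σ₁ σ₂ hσ₁ hσ₂,
    ⟨(kerProdCoverEquiv σ₁ σ₂).trans ((MulEquiv.prodCongr (MulEquiv.prodCongr e₁ e₂)
      (MulEquiv.refl _)).trans MulEquiv.prodAssoc)⟩⟩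

end main

end Cfsg.Agent.H41
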