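import Mathlib
import Cfsg.Agent.H41.SchurCover2
import Cfsg.Agent.H41.Restrict

/-!
# Projective representations and Schur covers (helper41)

* `exists_monomial_rep`: a central extension `σ : Γ → Q` of a finite group and a character `lam`
  of `ker σ` give a representation `R : Γ → GL_n(ℂ)` (induced from `lam`) with `R k = lam k • 1`
  on `ker σ`.
* `exists_lift_of_cover`: projective representations of `Q` lift to every Schur cover.
* `exists_surjective_ker_of_lifts`: a stem extension to which all projective representations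
  lift is a Schur cover.
-/

set_option autoImplicit false

namespace Cfsg.Agent.H41

open Cfsg

open scoped commutatorElement

universe u v w

theorem exists_hom_of_ker_le {G₁ G₂ G₃ : Type*} [Group G₁] [Group G₂] [Group G₃] (f : G₁ →* G₂)
    (hf : Function.Surjective f) (g : G₁ →* G₃) (hg : f.ker ≤ g.ker) :
    ∃ φ : G₂ →* G₃, ∀ x, φ (f x) = g x :=
  ⟨f.liftOfSurjective hf ⟨g, hg⟩, fun x => f.liftOfRightInverse_comp_apply _ _ ⟨g, hg⟩ x⟩

/-- Two homomorphisms agreeing modulo the centre agree on the derived subgroup. -/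
theorem eq_on_commutator_of_center {G X : Type*} [Group G] [Group X] (η₁ η₂ : G →* X)
    (h : ∀ g, η₁ g * (η₂ g)⁻¹ ∈ Subgroup.center X) {x : G} (hx : x ∈ commutator G) :
    η₁ x = η₂ x := by
  have key : commutator G ≤ MonoidHom.eqLocus η₁ η₂ := by
    rw [commutator_def, Subgroup.commutator_le]
    intro a _ b _
    show η₁ ⁅a, b⁆ = η₂ ⁅a, b⁆
    rw [map_commutatorElement, map_commutatorElement]
    have ha : η₁ a = η₁ a * (η₂ a)⁻¹ * η₂ a := by group
    have hb : η₁ b = η₁ b * (η₂ b)⁻¹ * η₂ b := by group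
    rw [ha, hb, commutatorElement_center_mul (h a) (h b)]
  exact key hx

open Matrix in
/-- The representation of a central extension `Γ` of `Q` induced from a character of the
kernel: monomial matrices of size `|Q|`, scalar on the kernel. -/
theorem exists_monomial_rep {Γ : Type*} {Q : Type*} [Group Γ] [Group Q] [Finite Q] (σ : Γ →* Q)
    (hσ : Function.Surjective σ) (hc : σ.ker ≤ Subgroup.center Γ) (lam : σ.ker →* ℂˣ) :
    ∃ (n : ℕ) (_ : NeZero n) (R : Γ →* GL (Fin n) ℂ),
      ∀ k : σ.ker, R k = Matrix.GeneralLinearGroup.scalar (Fin n) (lam k) := by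
  classical
  have : Fintype Q := Fintype.ofFinite Q
  let s : Q → Γ := Function.surjInv hσ
  have hs : ∀ q, σ (s q) = q := Function.surjInv_eq hσ
  let κ : Γ → Q → σ.ker := fun g q => ⟨(s (σ g * q))⁻¹ * g * s q, by
    rw [MonoidHom.mem_ker, map_mul, map_mul, map_inv, hs, hs]; group⟩
  have hκ : ∀ g h q, κ (g * h) q = κ g (σ h * q) * κ h q := by
    intro g h q
    apply Subtype.ext
    show (s (σ (g * h) * q))⁻¹ * (g * h) * s q =
      ((s (σ g * (σ h * q)))⁻¹ * g * s (σ h * q)) * ((s (σ h * q))⁻¹ * h * s q)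
    rw [map_mul, mul_assoc (σ g)]; group
  have hκ1 : ∀ q, κ 1 q = 1 := by
    intro q
    apply Subtype.ext
    show (s (σ 1 * q))⁻¹ * 1 * s q = 1
    rw [map_one, one_mul]; group
  have hκk : ∀ (k : σ.ker) q, κ k q = k := by
    intro k q
    apply Subtype.ext
    show (s (σ k * q))⁻¹ * k * s q = k
    rw [MonoidHom.mem_ker.1 k.2, one_mul, mul_assoc, ← Subgroup.mem_center_iff.1 (hc k.2) (s q),
      ← mul_assoc, inv_mul_cancel, one_mul]
  let M : Γ → Matrix Q Q ℂ := fun g =>
    Matrix.of fun q' q => if q' = σ g * q then ((lam (κ g q) : ℂˣ) : ℂ) else 0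
  have hMapp : ∀ g q' q, M g q' q = if q' = σ g * q then ((lam (κ g q) : ℂˣ) : ℂ) else 0 :=
    fun g q' q => rfl
  have hM1 : M 1 = 1 := by
    ext q' q
    rw [hMapp, Matrix.one_apply, map_one, one_mul, hκ1, map_one]
    rfl
  have hMmul : ∀ g h, M (g * h) = M g * M h := by
    intro g h
    ext q'' q
    rw [Matrix.mul_apply, Finset.sum_eq_single (σ h * q)]
    · rw [hMapp, hMapp, hMapp, if_pos rfl, map_mul, mul_assoc]
      by_cases hq : q'' = σ g * (σ h * q)
      · rw [if_pos hq, if_pos hq, hκ, map_mul, Units.val_mul]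
      · rw [if_neg hq, if_neg hq, zero_mul]
    · intro q' _ hq'
      rw [hMapp g, hMapp h, if_neg hq', mul_zero]
    · intro h'
      exact absurd (Finset.mem_univ _) h'
  let R₀ : Γ →* Matrix Q Q ℂ := { toFun := M, map_one' := hM1, map_mul' := hMmul }
  let ε : Matrix Q Q ℂ ≃ₐ[ℂ] Matrix (Fin (Fintype.card Q)) (Fin (Fintype.card Q)) ℂ :=
    Matrix.reindexAlgEquiv ℂ ℂ (Fintype.equivFin Q)
  let R : Γ →* GL (Fin (Fintype.card Q)) ℂ :=
    (Units.map (ε : Matrix Q Q ℂ →* Matrix (Fin (Fintype.card Q)) (Fin (Fintype.card Q)) ℂ)).comp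
      R₀.toHomUnits
  refine ⟨Fintype.card Q, ⟨Fintype.card_ne_zero⟩, R, ?_⟩
  intro k
  apply Units.ext
  show ε (M k) = Matrix.scalar (Fin (Fintype.card Q)) ((lam k : ℂˣ) : ℂ)
  ext i j
  show M k ((Fintype.equivFin Q).symm i) ((Fintype.equivFin Q).symm j) = _
  rw [hMapp, hκk, MonoidHom.mem_ker.1 k.2, one_mul, Matrix.scalar_apply, Matrix.diagonal_apply]
  by_cases hij : i = j
  · rw [if_pos hij, if_pos (by rw [hij])]
  · rw [if_neg hij, if_neg (fun h => hij ((Fintype.equivFin Q).symm.injective h))]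

section lift

open Matrix

/-- `scalar` is injective in positive dimension. -/
theorem scalar_injective (n : ℕ) [NeZero n] :
    Function.Injective (Matrix.GeneralLinearGroup.scalar (Fin n) : ℂˣ →* GL (Fin n) ℂ) := by
  intro u v h
  have h1 : ((Matrix.GeneralLinearGroup.scalar (Fin n) u : GL (Fin n) ℂ) :
      Matrix (Fin n) (Fin n) ℂ) 0 0 =
      ((Matrix.GeneralLinearGroup.scalar (Fin n) v : GL (Fin n) ℂ) :
        Matrix (Fin n) (Fin n) ℂ) 0 0 := by rw [h]
  rw [Matrix.GeneralLinearGroup.coe_scalar, Matrix.GeneralLinearGroup.coe_scalar,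
    Matrix.scalar_apply, Matrix.scalar_apply, Matrix.diagonal_apply_eq,
    Matrix.diagonal_apply_eq] at h1
  exact Units.ext h1

/-- Every element of `PGL_n(ℂ)` has a representative of determinant one. -/
theorem exists_det_one_rep (n : ℕ) [NeZero n]
    (x : GL (Fin n) ℂ ⧸ Subgroup.center (GL (Fin n) ℂ)) :
    ∃ M : GL (Fin n) ℂ, QuotientGroup.mk' (Subgroup.center (GL (Fin n) ℂ)) M = x ∧
      Matrix.GeneralLinearGroup.det M = 1 := by
  obtain ⟨M₀, rfl⟩ := QuotientGroup.mk'_surjective _ x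
  obtain ⟨z, hz⟩ := IsAlgClosed.exists_pow_nat_eq
    (((Matrix.GeneralLinearGroup.det M₀)⁻¹ : ℂˣ) : ℂ) (Nat.pos_of_ne_zero (NeZero.ne n))
  have hz0 : z ≠ 0 := by
    intro h
    rw [h, zero_pow (NeZero.ne n)] at hz
    exact Units.ne_zero _ hz.symm
  have hu : (Units.mk0 z hz0) ^ n = (Matrix.GeneralLinearGroup.det M₀)⁻¹ := by
    apply Units.ext
    rw [Units.val_pow_eq_pow_val, Units.val_mk0, hz]
  refine ⟨Matrix.GeneralLinearGroup.scalar (Fin n) (Units.mk0 z hz0) * M₀, ?_, ?_⟩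
  · rw [map_mul]
    have h1 : Matrix.GeneralLinearGroup.scalar (Fin n) (Units.mk0 z hz0) ∈
        Subgroup.center (GL (Fin n) ℂ) := by
      rw [Matrix.GeneralLinearGroup.center_eq_range_scalar]
      exact ⟨_, rfl⟩
    have h2 : QuotientGroup.mk' (Subgroup.center (GL (Fin n) ℂ))
        (Matrix.GeneralLinearGroup.scalar (Fin n) (Units.mk0 z hz0)) = 1 :=
      (QuotientGroup.eq_one_iff _).2 h1
    rw [h2, one_mul]
  · rw [map_mul, Matrix.GeneralLinearGroup.det_scalar, Fintype.card_fin, hu, inv_mul_cancel]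

variable {Q : Type u} [Group Q] {Γ : Type w} [Group Γ] (n : ℕ) (γ' : Γ →* (GL (Fin n) ℂ ⧸ Subgroup.center (GL (Fin n) ℂ)))

/-- The determinant-one pullback of `GL_n → PGL_n` along `γ'`. -/
def slPullback : Subgroup (Γ × GL (Fin n) ℂ) :=
  (((QuotientGroup.mk' (Subgroup.center (GL (Fin n) ℂ))).comp
      (MonoidHom.snd Γ (GL (Fin n) ℂ))).eqLocus (γ'.comp (MonoidHom.fst Γ (GL (Fin n) ℂ)))) ⊓
    (Matrix.GeneralLinearGroup.det.comp (MonoidHom.snd Γ (GL (Fin n) ℂ))).ker

theorem mem_slPullback {w : Γ × GL (Fin n) ℂ} : w ∈ slPullback n γ' ↔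
    QuotientGroup.mk' (Subgroup.center (GL (Fin n) ℂ)) w.2 = γ' w.1 ∧
      Matrix.GeneralLinearGroup.det w.2 = 1 := Iff.rfl

/-- First projection. -/
def slFst : slPullback n γ' →* Γ := (MonoidHom.fst Γ (GL (Fin n) ℂ)).comp (slPullback n γ').subtype

/-- Second projection. -/
def slSnd : slPullback n γ' →* GL (Fin n) ℂ :=
  (MonoidHom.snd Γ (GL (Fin n) ℂ)).comp (slPullback n γ').subtype

theorem slFst_surjective [NeZero n] : Function.Surjective (slFst n γ') := by
  intro g
  obtain ⟨M, hM, hd⟩ := exists_det_one_rep n (γ' g)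
  exact ⟨⟨(g, M), hM, hd⟩, rfl⟩

theorem mk_slSnd (w : slPullback n γ') :
    QuotientGroup.mk' (Subgroup.center (GL (Fin n) ℂ)) (slSnd n γ' w) = γ' (slFst n γ' w) :=
  w.2.1

theorem det_slSnd (w : slPullback n γ') : Matrix.GeneralLinearGroup.det (slSnd n γ' w) = 1 :=
  w.2.2

theorem slSnd_scalar_of_ker {w : slPullback n γ'} (hw : γ' (slFst n γ' w) = 1) :
    ∃ u : ℂˣ, slSnd n γ' w = Matrix.GeneralLinearGroup.scalar (Fin n) u ∧ u ^ n = 1 := by
  have h1 : slSnd n γ' w ∈ Subgroup.center (GL (Fin n) ℂ) := by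
    rw [← QuotientGroup.eq_one_iff, ← hw]
    exact mk_slSnd n γ' w
  rw [Matrix.GeneralLinearGroup.center_eq_range_scalar] at h1
  obtain ⟨u, hu⟩ := h1
  refine ⟨u, hu.symm, ?_⟩
  have h2 := det_slSnd n γ' w
  rw [← hu, Matrix.GeneralLinearGroup.det_scalar, Fintype.card_fin] at h2
  exact h2

theorem slPullback_ext {w w' : slPullback n γ'} (h1 : slFst n γ' w = slFst n γ' w')
    (h2 : slSnd n γ' w = slSnd n γ' w') : w = w' :=
  Subtype.ext (Prod.ext h1 h2)

theorem slPullback_mem_center {w : slPullback n γ'} (h1 : slFst n γ' w ∈ Subgroup.center Γ)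
    (h2 : slSnd n γ' w ∈ Subgroup.center (GL (Fin n) ℂ)) :
    w ∈ Subgroup.center (slPullback n γ') := by
  rw [Subgroup.mem_center_iff] at h1 h2 ⊢
  intro x
  apply slPullback_ext
  · rw [map_mul, map_mul]
    exact h1 _
  · rw [map_mul, map_mul]
    exact h2 _

end lift

section lift2

open Matrix

variable {Γ : Type w} [Group Γ] [Finite Γ] (n : ℕ) [NeZero n]
  (γ' : Γ →* (GL (Fin n) ℂ ⧸ Subgroup.center (GL (Fin n) ℂ)))

theorem finite_slPullback : Finite (slPullback n γ') := by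
  have hex : ∀ z : (slFst n γ').ker, ∃ u : ℂˣ,
      slSnd n γ' z.1 = Matrix.GeneralLinearGroup.scalar (Fin n) u ∧ u ^ n = 1 := fun z =>
    slSnd_scalar_of_ker n γ' (w := z.1) (by rw [MonoidHom.mem_ker.1 z.2, map_one])
  let φ : (slFst n γ').ker → rootsOfUnity n ℂ := fun z =>
    ⟨Classical.choose (hex z), (Classical.choose_spec (hex z)).2⟩
  have hφ : Function.Injective φ := by
    intro z z' h
    have h1 : Classical.choose (hex z) = Classical.choose (hex z') := congrArg Subtype.val h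
    apply Subtype.ext
    apply slPullback_ext
    · rw [MonoidHom.mem_ker.1 z.2, MonoidHom.mem_ker.1 z'.2]
    · rw [(Classical.choose_spec (hex z)).1, (Classical.choose_spec (hex z')).1, h1]
  have hfk : Finite (slFst n γ').ker := Finite.of_injective φ hφ
  exact finite_of_finite_ker (slFst n γ') hfk

/-- Lifting criterion: if the determinant-one pullback, as a central extension of `Γ`, meets
its derived subgroup trivially, then `γ'` lifts to `GL_n(ℂ)`. -/
theorem exists_lift_of_ker_inf_commutator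
    (h : (slFst n γ').ker ⊓ commutator (slPullback n γ') = ⊥) :
    ∃ ρ : Γ →* GL (Fin n) ℂ,
      (QuotientGroup.mk' (Subgroup.center (GL (Fin n) ℂ))).comp ρ = γ' := by
  have hfin : Finite (slPullback n γ') := finite_slPullback n γ'
  -- the scalar character on the kernel
  let c₀ : (slFst n γ').ker →* (Matrix.GeneralLinearGroup.scalar (Fin n) : ℂˣ →* _).range :=
    MonoidHom.codRestrict ((slSnd n γ').comp (slFst n γ').ker.subtype) _ (fun z => by
      obtain ⟨u, hu, -⟩ := slSnd_scalar_of_ker n γ' (w := z.1)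
        (by rw [MonoidHom.mem_ker.1 z.2, map_one])
      exact ⟨u, hu.symm⟩)
  let e₀ := MonoidHom.ofInjective (scalar_injective n)
  let lam₀ : (slFst n γ').ker →* ℂˣ := e₀.symm.toMonoidHom.comp c₀
  have hlam₀ : ∀ z : (slFst n γ').ker,
      Matrix.GeneralLinearGroup.scalar (Fin n) (lam₀ z) = slSnd n γ' z.1 := fun z =>
    MonoidHom.apply_ofInjective_symm (scalar_injective n) (c₀ z)
  -- the kernel embeds in the abelianisation
  let j : (slFst n γ').ker →* Abelianization (slPullback n γ') :=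
    Abelianization.of.comp (slFst n γ').ker.subtype
  have hj : Function.Injective j := by
    rw [injective_iff_map_eq_one]
    intro z hz
    have h1 : (z : slPullback n γ') ∈ commutator (slPullback n γ') := by
      rw [← Abelianization.ker_of]
      exact MonoidHom.mem_ker.2 hz
    have h2 : (z : slPullback n γ') ∈ (slFst n γ').ker ⊓ commutator (slPullback n γ') :=
      ⟨z.2, h1⟩
    rw [h] at h2
    exact Subtype.ext (Subgroup.mem_bot.1 h2)
  let eH := MonoidHom.ofInjective hj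
  let lam' : j.range →* ℂˣ := lam₀.comp eH.symm.toMonoidHom
  have hfinab : Finite (Abelianization (slPullback n γ')) :=
    Finite.of_surjective (Abelianization.of : slPullback n γ' →* _)
      (QuotientGroup.mk'_surjective _)
  have hX : NeZero ((Monoid.exponent (Abelianization (slPullback n γ')) : ℕ) : ℂ) :=
    ⟨Nat.cast_ne_zero.2 Monoid.exponent_ne_zero_of_finite⟩
  obtain ⟨Χ, hΧ⟩ := MonoidHom.domRestrict_surjective (M := ℂ) j.range lam'
  have hΧ' : ∀ z : (slFst n γ').ker,
      Χ (Abelianization.of (z : slPullback n γ')) = lam₀ z := by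
    intro z
    have h1 : (MonoidHom.domRestrictHom j.range ℂˣ Χ) (eH z) = lam' (eH z) := by rw [hΧ]
    have h2 : lam' (eH z) = lam₀ z := by
      show lam₀ (eH.symm (eH z)) = lam₀ z
      rw [MulEquiv.symm_apply_apply]
    rw [← h2, ← h1]
    rfl
  let χ : slPullback n γ' →* ℂˣ := Χ.comp Abelianization.of
  let ρ₀ : slPullback n γ' →* GL (Fin n) ℂ :=
    { toFun := fun w => Matrix.GeneralLinearGroup.scalar (Fin n) (χ w)⁻¹ * slSnd n γ' w
      map_one' := by
        rw [map_one, inv_one, map_one, map_one, one_mul]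
      map_mul' := fun w w' => by
        rw [map_mul, mul_inv, map_mul, map_mul]
        rw [mul_assoc, ← mul_assoc _ (slSnd n γ' w),
          Matrix.GeneralLinearGroup.scalar_commute (χ w')⁻¹ (slSnd n γ' w)]
        simp only [mul_assoc] }
  have hρ₀ : ∀ w, ρ₀ w = Matrix.GeneralLinearGroup.scalar (Fin n) (χ w)⁻¹ * slSnd n γ' w :=
    fun w => rfl
  have hker : (slFst n γ').ker ≤ ρ₀.ker := by
    intro w hw
    rw [MonoidHom.mem_ker, hρ₀]
    have h1 := hlam₀ ⟨w, hw⟩
    have h2 : χ w = lam₀ ⟨w, hw⟩ := hΧ' ⟨w, hw⟩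
    rw [← h1, h2, ← map_mul, inv_mul_cancel, map_one]
  obtain ⟨ρ, hρ⟩ := exists_hom_of_ker_le (slFst n γ') (slFst_surjective n γ') ρ₀ hker
  refine ⟨ρ, MonoidHom.ext (fun g => ?_)⟩
  obtain ⟨w, rfl⟩ := slFst_surjective n γ' g
  show QuotientGroup.mk' (Subgroup.center (GL (Fin n) ℂ)) (ρ (slFst n γ' w)) = _
  rw [hρ, hρ₀, map_mul]
  have h1 : Matrix.GeneralLinearGroup.scalar (Fin n) (χ w)⁻¹ ∈
      Subgroup.center (GL (Fin n) ℂ) := by
    rw [Matrix.GeneralLinearGroup.center_eq_range_scalar]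
    exact ⟨_, rfl⟩
  have h2 : QuotientGroup.mk' (Subgroup.center (GL (Fin n) ℂ))
      (Matrix.GeneralLinearGroup.scalar (Fin n) (χ w)⁻¹) = 1 :=
    (QuotientGroup.eq_one_iff _).2 h1
  rw [h2, one_mul, mk_slSnd]

end lift2

section cover

open Matrix

/-- **Projective representations lift to Schur covers.** -/
theorem exists_lift_of_cover {Q : Type u} [Group Q] {A : Type v} [CommGroup A]
    (hA : HasSchurMultiplier Q A) {Γ : Type w} [Group Γ] [Finite Γ] (σ : Γ →* Q)
    (hσ : IsStemExtension σ) (hk : Nonempty (σ.ker ≃* A)) (n : ℕ)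
    (γ : Q →* (GL (Fin n) ℂ ⧸ Subgroup.center (GL (Fin n) ℂ))) :
    ∃ ρ : Γ →* GL (Fin n) ℂ,
      (QuotientGroup.mk' (Subgroup.center (GL (Fin n) ℂ))).comp ρ = γ.comp σ := by
  rcases Nat.eq_zero_or_pos n with hn | hn
  · subst hn
    refine ⟨1, MonoidHom.ext (fun g => ?_)⟩
    obtain ⟨M, hM⟩ := QuotientGroup.mk'_surjective _ ((γ.comp σ) g)
    rw [← hM]
    show QuotientGroup.mk' (Subgroup.center (GL (Fin 0) ℂ)) ((1 : Γ →* GL (Fin 0) ℂ) g) =
      QuotientGroup.mk' (Subgroup.center (GL (Fin 0) ℂ)) M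
    exact congrArg _ (Units.ext (Subsingleton.elim (α := Matrix (Fin 0) (Fin 0) ℂ) _ _))
  have hne : NeZero n := ⟨hn.ne'⟩
  apply exists_lift_of_ker_inf_commutator n (γ.comp σ)
  obtain ⟨hs, hc, hd⟩ := hσ
  obtain ⟨e⟩ := hk
  have hp₁ := slFst_surjective n (γ.comp σ)
  have hπs : Function.Surjective (σ.comp (slFst n (γ.comp σ))) := hs.comp hp₁
  have hπc : (σ.comp (slFst n (γ.comp σ))).ker ≤ Subgroup.center (slPullback n (γ.comp σ)) := by
    intro w hw
    have hw' : σ (slFst n (γ.comp σ) w) = 1 := hw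
    apply slPullback_mem_center
    · exact hc (MonoidHom.mem_ker.2 hw')
    · rw [← QuotientGroup.eq_one_iff]
      have := mk_slSnd n (γ.comp σ) w
      rw [MonoidHom.comp_apply, hw', map_one] at this
      exact this
  obtain ⟨f, hf⟩ := exists_surjective_ker_inf_commutator hA _ hπs hπc
  have hfinA := finite_of_hasSchurMultiplier hA
  have hfinX : Finite ↥((σ.comp (slFst n (γ.comp σ))).ker ⊓
      commutator (slPullback n (γ.comp σ))) := Finite.of_surjective f hf
  let r : ↥((σ.comp (slFst n (γ.comp σ))).ker ⊓ commutator (slPullback n (γ.comp σ))) →* σ.ker :=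
    MonoidHom.codRestrict ((slFst n (γ.comp σ)).comp (Subgroup.subtype _)) σ.ker
      (fun x => MonoidHom.mem_ker.2 (MonoidHom.mem_ker.1 x.2.1))
  have hr : Function.Surjective r := by
    rintro ⟨k, hk⟩
    have h1 : k ∈ Subgroup.map (slFst n (γ.comp σ)) (commutator (slPullback n (γ.comp σ))) := by
      rw [map_commutator_of_surjective _ hp₁]
      exact hd hk
    obtain ⟨w, hw, rfl⟩ := h1
    exact ⟨⟨w, MonoidHom.mem_ker.2 (MonoidHom.mem_ker.1 hk), hw⟩, Subtype.ext rfl⟩
  have hfink : Finite σ.ker := Finite.of_surjective r hr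
  have hcard1 : Nat.card ↥((σ.comp (slFst n (γ.comp σ))).ker ⊓
      commutator (slPullback n (γ.comp σ))) ≤ Nat.card A := Nat.card_le_card_of_surjective f hf
  have hcard2 : Nat.card A = Nat.card σ.ker := (Nat.card_congr e.toEquiv).symm
  have hcard3 : Nat.card σ.ker ≤ Nat.card ↥((σ.comp (slFst n (γ.comp σ))).ker ⊓
      commutator (slPullback n (γ.comp σ))) := Nat.card_le_card_of_surjective r hr
  have hrinj : Function.Injective r :=
    ((Nat.bijective_iff_surjective_and_card r).2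
      ⟨hr, le_antisymm (hcard2 ▸ hcard1) hcard3⟩).1
  rw [eq_bot_iff]
  intro w hw
  have hw1 : slFst n (γ.comp σ) w = 1 := MonoidHom.mem_ker.1 hw.1
  have hwX : w ∈ (σ.comp (slFst n (γ.comp σ))).ker ⊓ commutator (slPullback n (γ.comp σ)) := by
    refine ⟨?_, hw.2⟩
    show σ (slFst n (γ.comp σ) w) = 1
    rw [hw1, map_one]
  have h2 : r ⟨w, hwX⟩ = r 1 := by
    apply Subtype.ext
    show slFst n (γ.comp σ) w = slFst n (γ.comp σ) 1
    rw [hw1, map_one]
  have h3 := hrinj h2
  rw [Subgroup.mem_bot]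
  exact congrArg Subtype.val h3

end cover

section converse

open Matrix

/-- **A stem extension to which all projective representations lift is a Schur cover.** -/
theorem exists_surjective_ker_of_lifts {Q : Type u} [Group Q] [Finite Q] {Γ : Type v} [Group Γ]
    (σ : Γ →* Q) (hσ : IsStemExtension σ)
    (hlift : ∀ (n : ℕ) (γ : Q →* (GL (Fin n) ℂ ⧸ Subgroup.center (GL (Fin n) ℂ))),
      ∃ ρ : Γ →* GL (Fin n) ℂ,
        (QuotientGroup.mk' (Subgroup.center (GL (Fin n) ℂ))).comp ρ = γ.comp σ)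
    {Δ : Type w} [Group Δ] (τ : Δ →* Q) (hτ : IsStemExtension τ) :
    ∃ π : σ.ker →* τ.ker, Function.Surjective π := by
  obtain ⟨Γ₀, _, _, σ₀, hσ₀, ⟨e₀⟩⟩ := (hasSchurMultiplier_schurM Q).1
  have h : (pullbackFst σ σ₀).ker ⊓ commutator (pullback σ σ₀) = ⊥ := by
    rw [eq_bot_iff]
    intro w hw
    have hw1 : pullbackFst σ σ₀ w = 1 := MonoidHom.mem_ker.1 hw.1
    have hcomm : ∀ w', σ (pullbackFst σ σ₀ w') = σ₀ (pullbackSnd σ σ₀ w') := fun w' =>
      congrArg (fun f : pullback σ σ₀ →* Q => f w') (pullback_comm σ σ₀)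
    have hk : pullbackSnd σ σ₀ w ∈ σ₀.ker := by
      rw [MonoidHom.mem_ker, ← hcomm, hw1, map_one]
    rw [Subgroup.mem_bot]
    by_contra hne
    have hkk : (⟨pullbackSnd σ σ₀ w, hk⟩ : σ₀.ker) ≠ 1 := by
      intro h1
      apply hne
      have h2 : pullbackSnd σ σ₀ w = 1 := congrArg Subtype.val h1
      exact Subtype.ext (Prod.ext hw1 h2)
    let _ : CommGroup σ₀.ker := commGroupOfLeCenter _ hσ₀.2.1
    have hX : NeZero ((Monoid.exponent σ₀.ker : ℕ) : ℂ) :=
      ⟨Nat.cast_ne_zero.2 Monoid.exponent_ne_zero_of_finite⟩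
    obtain ⟨lam, hlam⟩ := CommGroup.exists_apply_ne_one_of_hasEnoughRootsOfUnity σ₀.ker ℂ hkk
    obtain ⟨n, hn, R, hR⟩ := exists_monomial_rep σ₀ hσ₀.1 hσ₀.2.1 lam
    have hscal : ∀ u : ℂˣ, QuotientGroup.mk' (Subgroup.center (GL (Fin n) ℂ))
        (Matrix.GeneralLinearGroup.scalar (Fin n) u) = 1 := by
      intro u
      rw [QuotientGroup.mk'_apply, QuotientGroup.eq_one_iff,
        Matrix.GeneralLinearGroup.center_eq_range_scalar]
      exact ⟨u, rfl⟩
    have hkerR : σ₀.ker ≤ ((QuotientGroup.mk' (Subgroup.center (GL (Fin n) ℂ))).comp R).ker := by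
      intro k hk'
      rw [MonoidHom.mem_ker, MonoidHom.comp_apply, hR ⟨k, hk'⟩, hscal]
    obtain ⟨γ, hγ⟩ := exists_hom_of_ker_le σ₀ hσ₀.1 _ hkerR
    obtain ⟨ρ, hρ⟩ := hlift n γ
    have hρ' : ∀ g, QuotientGroup.mk' (Subgroup.center (GL (Fin n) ℂ)) (ρ g) = γ (σ g) := fun g =>
      congrArg (fun f : Γ →* (GL (Fin n) ℂ ⧸ Subgroup.center (GL (Fin n) ℂ)) => f g) hρ
    have hcen : ∀ w', (R.comp (pullbackSnd σ σ₀)) w' * ((ρ.comp (pullbackFst σ σ₀)) w')⁻¹ ∈
        Subgroup.center (GL (Fin n) ℂ) := by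
      intro w'
      rw [← QuotientGroup.eq_one_iff, ← QuotientGroup.mk'_apply, map_mul, map_inv,
        MonoidHom.comp_apply, MonoidHom.comp_apply, hρ', hcomm]
      have := hγ (pullbackSnd σ σ₀ w')
      rw [MonoidHom.comp_apply] at this
      rw [this, mul_inv_cancel]
    have heq := eq_on_commutator_of_center _ _ hcen hw.2
    rw [MonoidHom.comp_apply, MonoidHom.comp_apply, hw1, map_one] at heq
    have h3 := hR ⟨pullbackSnd σ σ₀ w, hk⟩
    rw [heq] at h3
    have h4 : lam ⟨pullbackSnd σ σ₀ w, hk⟩ = 1 := by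
      apply scalar_injective n
      rw [← h3, map_one]
    exact hlam h4
  obtain ⟨π₁, hπ₁⟩ := exists_surjective_ker_of_pullback σ hσ σ₀ hσ₀ h
  obtain ⟨π₂, hπ₂⟩ := exists_surjective_schurM_ker τ hτ
  exact ⟨π₂.comp (e₀.toMonoidHom.comp π₁), hπ₂.comp (e₀.surjective.comp hπ₁)⟩

end converse

section trivialcase

theorem isStemExtension_id (Q : Type*) [Group Q] : IsStemExtension (MonoidHom.id Q) := by
  refine ⟨Function.surjective_id, ?_, ?_⟩
  · rw [MonoidHom.ker_id]; exact bot_le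
  · rw [MonoidHom.ker_id]; exact bot_le

theorem subsingleton_ker_id (Q : Type*) [Group Q] : Subsingleton (MonoidHom.id Q).ker := by
  constructor
  intro a b
  apply Subtype.ext
  have ha : (a : Q) = 1 := a.2
  have hb : (b : Q) = 1 := b.2
  rw [ha, hb]

/-- Two trivial groups are isomorphic. -/
def mulEquivOfSubsingleton (G H : Type*) [Group G] [Group H] [Subsingleton G] [Subsingleton H] :
    G ≃* H where
  toFun _ := 1
  invFun _ := 1
  left_inv _ := Subsingleton.elim _ _
  right_inv _ := Subsingleton.elim _ _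
  map_mul' _ _ := Subsingleton.elim _ _

theorem nonempty_ker_id_mulEquiv (Q : Type*) [Group Q] :
    Nonempty ((MonoidHom.id Q).ker ≃* Multiplicative (ZMod 1)) := by
  have h1 := subsingleton_ker_id Q
  have h2 : Subsingleton (Multiplicative (ZMod 1)) := by
    show Subsingleton (ZMod 1)
    infer_instance
  exact ⟨mulEquivOfSubsingleton _ _⟩

end trivialcase

end Cfsg.Agent.H41
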