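import Mathlib
import Cfsg.Prelude.Def_KGroupFacts
import Cfsg.Agent.H41.Stem
import Cfsg.Agent.H41.ProdMult
import Cfsg.Agent.H41.Cover
import Cfsg.Agent.H7.SL2Order
import Cfsg.Agent.S0261
import Cfsg.Agent.S0262

/-!
# The Schur multiplier of `SL₂(q)`, `q ≠ 4, 9`, is trivial (helper41)

Sylow `r`-subgroups for `r ≠ p` are cyclic or generalised quaternion (helper7: S0261, S0262),
hence have trivial multiplier.  For the unipotent subgroup `U` we show that in every central
extension of `SL₂(q)` the preimage of `U` is abelian, using the action of the torus.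
-/

set_option autoImplicit false
set_option linter.unusedSectionVars false
set_option linter.style.haveILetI false

namespace Cfsg.Agent.H41

open Cfsg
open scoped commutatorElement MatrixGroups

universe u

section Quaternion

/-- A group isomorphic to a generalised quaternion group has no stem extensions. -/
theorem noStem_of_mulEquiv_quaternion {K : Type u} [Group K] (n : ℕ) [NeZero n]
    (e : K ≃* QuaternionGroup n) : NoStem K := by
  have hgenQ : Subgroup.closure {(QuaternionGroup.a 1 : QuaternionGroup n), QuaternionGroup.xa 0}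
      = ⊤ := by
    rw [eq_top_iff]
    intro g _
    have ha : ∀ i : ZMod (2 * n), (QuaternionGroup.a i : QuaternionGroup n) ∈
        Subgroup.closure {(QuaternionGroup.a 1 : QuaternionGroup n), QuaternionGroup.xa 0} := by
      intro i
      have h1 : (QuaternionGroup.a 1 : QuaternionGroup n) ^ i.val = QuaternionGroup.a i := by
        rw [QuaternionGroup.a_one_pow, ZMod.natCast_zmod_val]
      rw [← h1]
      exact Subgroup.pow_mem _ (Subgroup.subset_closure (by simp)) _
    cases g with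
    | a i => exact ha i
    | xa i =>
      have h1 : (QuaternionGroup.xa i : QuaternionGroup n) =
          QuaternionGroup.xa 0 * QuaternionGroup.a i := by
        rw [QuaternionGroup.xa_mul_a, zero_add]
      rw [h1]
      exact Subgroup.mul_mem _ (Subgroup.subset_closure (by simp)) (ha i)
  refine noStem_of_dicyclicType (e.symm (QuaternionGroup.a 1)) (e.symm (QuaternionGroup.xa 0))
    ?_ ?_ n ?_ ?_
  · have h1 : Subgroup.map e.symm.toMonoidHom
        (Subgroup.closure {(QuaternionGroup.a 1 : QuaternionGroup n), QuaternionGroup.xa 0}) =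
        Subgroup.closure {e.symm (QuaternionGroup.a 1), e.symm (QuaternionGroup.xa 0)} := by
      rw [MonoidHom.map_closure]
      congr 1
      simp [Set.image_pair]
    rw [← h1, hgenQ]
    exact Subgroup.map_top_of_surjective _ e.symm.surjective
  · rw [← map_inv, ← map_mul, ← map_inv, ← map_mul]
    congr 1
    rw [mul_inv_eq_iff_eq_mul, QuaternionGroup.xa_mul_a, zero_add]
    have h2 : (QuaternionGroup.a 1 : QuaternionGroup n)⁻¹ = QuaternionGroup.a (-1) := by
      rw [inv_eq_iff_mul_eq_one, QuaternionGroup.a_mul_a, add_neg_cancel]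
      rfl
    rw [h2, QuaternionGroup.a_mul_xa, sub_neg_eq_add, zero_add]
  · have h := orderOf_injective e.symm.toMonoidHom e.symm.injective
      (QuaternionGroup.a 1 : QuaternionGroup n)
    rw [QuaternionGroup.orderOf_a_one] at h
    exact h
  · rw [← map_mul, ← map_pow]
    congr 1
    rw [QuaternionGroup.xa_mul_xa, QuaternionGroup.a_one_pow, sub_zero, add_zero]

end Quaternion

section Alternating

variable {F : Type*} [Field F] {Z : Type*} [CommGroup Z]

/-- An alternating biadditive form on a field, invariant under multiplication by nonzero squares,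
vanishes as soon as there are nonzero squares `u`, `u + 1` with `u² + u + 1 ≠ 0`. -/
theorem alt_form_eq_one (c : F → F → Z)
    (h1 : ∀ x x' y, c (x + x') y = c x y * c x' y) (h2 : ∀ x y y', c x (y + y') = c x y * c x y')
    (h4 : ∀ t : F, t ≠ 0 → ∀ x y, c (t ^ 2 * x) (t ^ 2 * y) = c x y)
    (u t v : F) (hu : u = t ^ 2) (hu1 : u + 1 = v ^ 2) (hu0 : u ≠ 0) (hu10 : u + 1 ≠ 0)
    (hu3 : u ^ 2 + u + 1 ≠ 0) : ∀ x y, c x y = 1 := by
  have ht : t ≠ 0 := by rintro rfl; apply hu0; rw [hu]; ring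
  have hv : v ≠ 0 := by rintro rfl; apply hu10; rw [hu1]; ring
  -- the key identity
  have key : ∀ x y, c (u * x) y * c (u⁻¹ * x) y * c x y = 1 := by
    intro x y
    have e1 : c ((u + 1) * x) ((u + 1) * y) = c x y := by
      rw [hu1]; exact h4 v hv x y
    have e2 : c (u * x) (u * y) = c x y := by rw [hu]; exact h4 t ht x y
    have e3 : c x (u * y) = c (u⁻¹ * x) y := by
      have := h4 t⁻¹ (inv_ne_zero ht) x (u * y)
      rw [← this]
      congr 1
      · rw [hu, inv_pow]
      · rw [hu, inv_pow, ← mul_assoc, inv_mul_cancel₀ (pow_ne_zero 2 ht), one_mul]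
    have e4 : c ((u + 1) * x) ((u + 1) * y) =
        c (u * x) (u * y) * c (u * x) y * (c x (u * y) * c x y) := by
      rw [add_mul, add_mul, one_mul, one_mul, h1, h2, h2]
    rw [e1, e2, e3] at e4
    have e5 : c x y * c (u * x) y * (c (u⁻¹ * x) y * c x y) =
        c x y * (c (u * x) y * c (u⁻¹ * x) y * c x y) := by
      simp only [mul_assoc]
    rw [e5] at e4
    exact (left_eq_mul.1 e4)
  intro x y
  obtain ⟨w, hw⟩ : ∃ w : F, w = u + u⁻¹ + 1 := ⟨_, rfl⟩
  have hw0 : w ≠ 0 := by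
    intro h
    apply hu3
    have : u ^ 2 + u + 1 = u * w := by
      rw [hw, mul_add, mul_add, mul_inv_cancel₀ hu0]; ring
    rw [this, h, mul_zero]
  have hk := key (w⁻¹ * x) y
  rw [← h1, ← h1] at hk
  have : u * (w⁻¹ * x) + u⁻¹ * (w⁻¹ * x) + w⁻¹ * x = x := by
    have h5 : u * (w⁻¹ * x) + u⁻¹ * (w⁻¹ * x) + w⁻¹ * x = w * (w⁻¹ * x) := by
      rw [hw]; ring
    rw [h5, mul_inv_cancel_left₀ hw0]
  rw [this] at hk
  exact hk

/-- A biadditive alternating form on a field additively generated by `1` vanishes. -/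
theorem alt_form_eq_one_of_cyclic (c : F → F → Z)
    (h1 : ∀ x x' y, c (x + x') y = c x y * c x' y) (h2 : ∀ x y y', c x (y + y') = c x y * c x y')
    (h3 : ∀ x, c x x = 1) (hgen : ∀ x : F, ∃ k : ℕ, x = (k : F)) : ∀ x y, c x y = 1 := by
  have hz1 : ∀ y, c 0 y = 1 := by
    intro y
    have := h1 0 0 y
    rw [add_zero] at this
    exact (left_eq_mul.1 this)
  have hz2 : ∀ x, c x 0 = 1 := by
    intro x
    have := h2 x 0 0
    rw [add_zero] at this
    exact (left_eq_mul.1 this)
  have hn1 : ∀ (k : ℕ) y, c (k : F) y = c 1 y ^ k := by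
    intro k y
    induction k with
    | zero => rw [Nat.cast_zero, hz1, pow_zero]
    | succ k ih => rw [Nat.cast_succ, h1, ih, pow_succ]
  have hn2 : ∀ (k : ℕ) x, c x (k : F) = c x 1 ^ k := by
    intro k x
    induction k with
    | zero => rw [Nat.cast_zero, hz2, pow_zero]
    | succ k ih => rw [Nat.cast_succ, h2, ih, pow_succ]
  intro x y
  obtain ⟨k, rfl⟩ := hgen x
  obtain ⟨m, rfl⟩ := hgen y
  rw [hn1, hn2, h3, one_pow, one_pow]

end Alternating

section Existence

open Polynomial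

variable {F : Type*} [Field F] [Fintype F]

theorem exists_eval_ne_zero_of_natDegree_lt (P : F[X]) (hP : P ≠ 0)
    (hd : P.natDegree < Fintype.card F) : ∃ w, P.eval w ≠ 0 := by
  classical
  by_contra h
  push Not at h
  have h1 : (Finset.univ : Finset F) ⊆ P.roots.toFinset := by
    intro w _
    rw [Multiset.mem_toFinset, mem_roots hP]
    exact h w
  have h2 := Finset.card_le_card h1
  have h3 : P.roots.toFinset.card ≤ Multiset.card P.roots := Multiset.toFinset_card_le _
  have h4 := card_roots' P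
  rw [Finset.card_univ] at h2
  omega

/-- Characteristic two, `q ≥ 8`. -/
theorem exists_good_square_even (h2 : ringChar F = 2) (hq : 8 ≤ Fintype.card F) :
    ∃ u t v : F, u = t ^ 2 ∧ u + 1 = v ^ 2 ∧ u ≠ 0 ∧ u + 1 ≠ 0 ∧ u ^ 2 + u + 1 ≠ 0 := by
  have hmon : (X * (X + 1) * (X ^ 2 + X + 1) : F[X]).Monic := by monicity!
  have hdeg : (X * (X + 1) * (X ^ 2 + X + 1) : F[X]).natDegree ≤ 4 := by compute_degree
  obtain ⟨u, hu⟩ := exists_eval_ne_zero_of_natDegree_lt _ hmon.ne_zero (by omega)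
  simp only [eval_mul, eval_add, eval_X, eval_one, eval_pow] at hu
  obtain ⟨t, ht⟩ := FiniteField.isSquare_of_char_two h2 u
  obtain ⟨v, hv⟩ := FiniteField.isSquare_of_char_two h2 (u + 1)
  refine ⟨u, t, v, by rw [ht]; ring, by rw [hv]; ring, ?_, ?_, ?_⟩
  · rintro rfl; simp at hu
  · intro h; rw [h] at hu; simp at hu
  · intro h; rw [h] at hu; simp at hu

/-- Odd characteristic, `q ≥ 25`. -/
theorem exists_good_square_odd (h2 : (2 : F) ≠ 0) (hq : 25 ≤ Fintype.card F) :
    ∃ u t v : F, u = t ^ 2 ∧ u + 1 = v ^ 2 ∧ u ≠ 0 ∧ u + 1 ≠ 0 ∧ u ^ 2 + u + 1 ≠ 0 := by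
  have hmon : (X * (X ^ 2 - 1) * (X ^ 2 + 1) *
      ((X ^ 2 - 1) ^ 4 + 4 * X ^ 2 * (X ^ 2 - 1) ^ 2 + 16 * X ^ 4) : F[X]).Monic := by monicity!
  have hdeg : (X * (X ^ 2 - 1) * (X ^ 2 + 1) *
      ((X ^ 2 - 1) ^ 4 + 4 * X ^ 2 * (X ^ 2 - 1) ^ 2 + 16 * X ^ 4) : F[X]).natDegree ≤ 13 := by
    compute_degree
  obtain ⟨w, hw⟩ := exists_eval_ne_zero_of_natDegree_lt _ hmon.ne_zero (by omega)
  simp only [eval_mul, eval_add, eval_sub, eval_X, eval_one, eval_pow, eval_ofNat] at hw
  have hw0 : w ≠ 0 := by rintro rfl; simp at hw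
  have hw1 : w ^ 2 - 1 ≠ 0 := by intro h; rw [h] at hw; simp at hw
  have hw2 : w ^ 2 + 1 ≠ 0 := by intro h; rw [h] at hw; simp at hw
  have hw3 : (w ^ 2 - 1) ^ 4 + 4 * w ^ 2 * (w ^ 2 - 1) ^ 2 + 16 * w ^ 4 ≠ 0 := by
    intro h; rw [h] at hw; simp at hw
  have h4 : (4 : F) ≠ 0 := by
    have : (4 : F) = 2 * 2 := by norm_num
    rw [this]; exact mul_ne_zero h2 h2
  have h16 : (16 : F) ≠ 0 := by
    have : (16 : F) = 4 * 4 := by norm_num
    rw [this]; exact mul_ne_zero h4 h4
  refine ⟨((w - w⁻¹) / 2) ^ 2, (w - w⁻¹) / 2, (w + w⁻¹) / 2, rfl, ?_, ?_, ?_, ?_⟩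
  · field_simp; ring
  · have : ((w - w⁻¹) / 2) ^ 2 = (w ^ 2 - 1) ^ 2 / (4 * w ^ 2) := by field_simp; ring
    rw [this]
    exact div_ne_zero (pow_ne_zero 2 hw1) (mul_ne_zero h4 (pow_ne_zero 2 hw0))
  · have : ((w - w⁻¹) / 2) ^ 2 + 1 = (w ^ 2 + 1) ^ 2 / (4 * w ^ 2) := by field_simp; ring
    rw [this]
    exact div_ne_zero (pow_ne_zero 2 hw2) (mul_ne_zero h4 (pow_ne_zero 2 hw0))
  · have : (((w - w⁻¹) / 2) ^ 2) ^ 2 + ((w - w⁻¹) / 2) ^ 2 + 1 =
        ((w ^ 2 - 1) ^ 4 + 4 * w ^ 2 * (w ^ 2 - 1) ^ 2 + 16 * w ^ 4) / (16 * w ^ 4) := by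
      field_simp; ring
    rw [this]
    exact div_ne_zero hw3 (mul_ne_zero h16 (pow_ne_zero 4 hw0))

end Existence

section Unipotent

open Cfsg.Agent.H7
open scoped IsMulCommutative

variable {F : Type u} [Field F]

theorem slUpper_mul (x y : F) : slUpper x * slUpper y = slUpper (x + y) := by
  apply Subtype.ext
  ext i j
  rw [sl2_mul_apply]
  fin_cases i <;> fin_cases j <;> simp [slUpper, add_comm]

theorem exists_slUpper_of_mem (s : SL(2, F)) (hs : s ∈ slUnip F) : ∃ x, s = slUpper x := by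
  obtain ⟨s1, s2, s3⟩ := hs
  refine ⟨s.1 0 1, ?_⟩
  apply Subtype.ext
  ext i j
  fin_cases i <;> fin_cases j <;> simp [slUpper, s1, s2, s3]

/-- The diagonal element `diag(t, t⁻¹)`. -/
def slDiag (t : F) (ht : t ≠ 0) : SL(2, F) :=
  ⟨!![t, 0; 0, t⁻¹], by simp [Matrix.det_fin_two_of, mul_inv_cancel₀ ht]⟩

theorem slDiag_conj (t : F) (ht : t ≠ 0) (x : F) :
    slDiag t ht * slUpper x = slUpper (t ^ 2 * x) * slDiag t ht := by
  apply Subtype.ext
  ext i j
  rw [sl2_mul_apply, sl2_mul_apply]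
  fin_cases i <;> fin_cases j <;> simp [slUpper, slDiag]
  field_simp

theorem commElt_eq_of_map_eq {Γ G : Type*} [Group Γ] [Group G] (σ : Γ →* G)
    (hc : σ.ker ≤ Subgroup.center Γ) (a a' b b' : Γ) (ha : σ a = σ a') (hb : σ b = σ b') :
    ⁅a, b⁆ = ⁅a', b'⁆ := by
  have hz : a⁻¹ * a' ∈ Subgroup.center Γ := by
    apply hc; rw [MonoidHom.mem_ker, map_mul, map_inv, ha, inv_mul_cancel]
  have hw : b⁻¹ * b' ∈ Subgroup.center Γ := by
    apply hc; rw [MonoidHom.mem_ker, map_mul, map_inv, hb, inv_mul_cancel]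
  have e1 : a' = a * (a⁻¹ * a') := by group
  have e2 : b' = b * (b⁻¹ * b') := by group
  rw [e1, e2, commutatorElement_mul_center hz hw]

/-- In a central extension of `SL₂(F)`, preimages of upper unitriangular elements commute,
provided `F` contains suitable squares. -/
theorem comm_of_sl2_central {Γ : Type*} [Group Γ] (σ : Γ →* SL(2, F))
    (hσ : Function.Surjective σ) (hc : σ.ker ≤ Subgroup.center Γ)
    (u t v : F) (hu : u = t ^ 2) (hu1 : u + 1 = v ^ 2) (hu0 : u ≠ 0) (hu10 : u + 1 ≠ 0)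
    (hu3 : u ^ 2 + u + 1 ≠ 0) (a b : Γ) (ha : σ a ∈ slUnip F) (hb : σ b ∈ slUnip F) :
    ⁅a, b⁆ = 1 := by
  choose L hL using fun x : F => hσ (slUpper x)
  have hcomm : ∀ x y : F, slUpper x * slUpper y = slUpper y * slUpper x := by
    intro x y; rw [slUpper_mul, slUpper_mul, add_comm]
  have hcen : ∀ x y, ⁅L x, L y⁆ ∈ Subgroup.center Γ := by
    intro x y
    apply hc
    rw [MonoidHom.mem_ker, map_commutatorElement, hL, hL, commutatorElement_eq_one_iff_mul_comm]
    exact hcomm x y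
  have hform : ∀ x y, (⟨⁅L x, L y⁆, hcen x y⟩ : Subgroup.center Γ) = 1 := by
    refine alt_form_eq_one (fun x y => (⟨⁅L x, L y⁆, hcen x y⟩ : Subgroup.center Γ))
      ?_ ?_ ?_ u t v hu hu1 hu0 hu10 hu3
    · intro x x' y
      apply Subtype.ext
      show ⁅L (x + x'), L y⁆ = ⁅L x, L y⁆ * ⁅L x', L y⁆
      have e1 : ⁅L (x + x'), L y⁆ = ⁅L x * L x', L y⁆ :=
        commElt_eq_of_map_eq σ hc _ _ _ _ (by rw [map_mul, hL, hL, hL, slUpper_mul]) rfl
      rw [e1, commutatorElement_mul_left_of_central _ _ _ (hcen x' y)]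
    · intro x y y'
      apply Subtype.ext
      show ⁅L x, L (y + y')⁆ = ⁅L x, L y⁆ * ⁅L x, L y'⁆
      have e1 : ⁅L x, L (y + y')⁆ = ⁅L x, L y * L y'⁆ :=
        commElt_eq_of_map_eq σ hc _ _ _ _ rfl (by rw [map_mul, hL, hL, hL, slUpper_mul])
      rw [e1, commutatorElement_mul_right_of_central _ _ _ (hcen x y')]
    · intro s hs x y
      apply Subtype.ext
      show ⁅L (s ^ 2 * x), L (s ^ 2 * y)⁆ = ⁅L x, L y⁆
      obtain ⟨D, hD⟩ := hσ (slDiag s hs)
      have e1 : ⁅L (s ^ 2 * x), L (s ^ 2 * y)⁆ = ⁅D * L x * D⁻¹, D * L y * D⁻¹⁆ := by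
        apply commElt_eq_of_map_eq σ hc
        · rw [map_mul, map_mul, map_inv, hL, hL, hD, slDiag_conj, mul_inv_cancel_right]
        · rw [map_mul, map_mul, map_inv, hL, hL, hD, slDiag_conj, mul_inv_cancel_right]
      have e2 : ⁅D * L x * D⁻¹, D * L y * D⁻¹⁆ = D * ⁅L x, L y⁆ * D⁻¹ := by
        simp only [commutatorElement_def]; group
      rw [e1, e2, Subgroup.mem_center_iff.1 (hcen x y) D, mul_inv_cancel_right]
  obtain ⟨x, hx⟩ := exists_slUpper_of_mem _ ha
  obtain ⟨y, hy⟩ := exists_slUpper_of_mem _ hb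
  have e1 : ⁅a, b⁆ = ⁅L x, L y⁆ :=
    commElt_eq_of_map_eq σ hc _ _ _ _ (by rw [hL, hx]) (by rw [hL, hy])
  rw [e1]
  exact congrArg Subtype.val (hform x y)

theorem noStemIn_slUnip [Fintype F] (h4 : Fintype.card F ≠ 4) (h9 : Fintype.card F ≠ 9) :
    NoStemIn SL(2, F) (slUnip F) := by
  obtain ⟨p, hp⟩ := CharP.exists F
  haveI : Fact p.Prime := ⟨CharP.char_is_prime F p⟩
  have hpP : p.Prime := Fact.out
  obtain ⟨k, hk0, hk⟩ := card_field_eq_prime_pow F p
  by_cases hk1 : k = 1
  · -- `U` is cyclic of prime order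
    subst hk1
    rw [pow_one] at hk
    have hcard : Nat.card (slUnip F) = p := by rw [card_slUnip, hk]
    haveI : IsCyclic (slUnip F) := isCyclic_of_prime_card hcard
    exact (noStem_of_isCyclic (slUnip F)).noStemIn
  · have hk2 : 2 ≤ k := by omega
    have hex : ∃ u t v : F, u = t ^ 2 ∧ u + 1 = v ^ 2 ∧ u ≠ 0 ∧ u + 1 ≠ 0 ∧
        u ^ 2 + u + 1 ≠ 0 := by
      by_cases hp2 : p = 2
      · subst hp2
        apply exists_good_square_even ((ringChar.eq_iff).2 hp)
        rw [hk]
        have hk3 : 3 ≤ k := by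
          rcases Nat.lt_or_ge k 3 with h | h
          · have : k = 2 := by omega
            subst this
            exact absurd hk (by norm_num at h4 ⊢; exact h4)
          · exact h
        calc 8 = 2 ^ 3 := by norm_num
          _ ≤ 2 ^ k := Nat.pow_le_pow_right (by norm_num) hk3
      · apply exists_good_square_odd
        · intro h2
          have h3 : ((2 : ℕ) : F) = 0 := by exact_mod_cast h2
          rw [CharP.cast_eq_zero_iff F p] at h3
          exact hp2 ((Nat.prime_dvd_prime_iff_eq hpP Nat.prime_two).1 h3)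
        · rw [hk]
          have hp3 : 3 ≤ p := by
            have := hpP.two_le
            omega
          rcases Nat.lt_or_ge p 5 with h | h
          · have hp4 : p ≠ 4 := by
              rintro rfl
              exact absurd hpP (by norm_num)
            have : p = 3 := by omega
            subst this
            have hk3 : 3 ≤ k := by
              rcases Nat.lt_or_ge k 3 with h | h
              · have : k = 2 := by omega
                subst this
                exact absurd hk (by norm_num at h9 ⊢; exact h9)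
              · exact h
            calc 25 ≤ 3 ^ 3 := by norm_num
              _ ≤ 3 ^ k := Nat.pow_le_pow_right (by norm_num) hk3
          · calc 25 = 5 ^ 2 := by norm_num
              _ ≤ p ^ 2 := Nat.pow_le_pow_left h 2
              _ ≤ p ^ k := Nat.pow_le_pow_right hpP.pos hk2
    obtain ⟨u, t, v, hu, hu1, hu0, hu10, hu3⟩ := hex
    intro Γ _ σ hσ hc
    have hbot : ⁅(slUnip F).comap σ, (slUnip F).comap σ⁆ = ⊥ := by
      rw [eq_bot_iff, Subgroup.commutator_le]
      intro a ha b hb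
      rw [Subgroup.mem_bot]
      exact comm_of_sl2_central σ hσ hc u t v hu hu1 hu0 hu10 hu3 a b ha hb
    rw [hbot, inf_bot_eq]

/-- `SL₂(q)` has trivial Schur multiplier for `q ≠ 4, 9`. -/
theorem sl2_hasCyclicSchurMultiplier_one [Fintype F] (h4 : Fintype.card F ≠ 4)
    (h9 : Fintype.card F ≠ 9) : HasCyclicSchurMultiplier SL(2, F) 1 := by
  apply hasCyclicSchurMultiplier_one_of_ker
  intro Γ _ _ σ hσ
  apply stem_ker_eq_bot _ Γ σ hσ
  intro r hr
  obtain ⟨p, hp⟩ := CharP.exists F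
  haveI : Fact p.Prime := ⟨CharP.char_is_prime F p⟩
  have hpP : p.Prime := Fact.out
  haveI : Fact r.Prime := ⟨hr⟩
  by_cases hrp : r = p
  · subst hrp
    exact ⟨slUnip F, noStemIn_slUnip h4 h9, (slUnipSylow F r).not_dvd_index⟩
  · by_cases hr2 : r = 2
    · subst hr2
      obtain ⟨k, hk0, hk⟩ := card_field_eq_prime_pow F p
      have hodd : Odd (Fintype.card F) := by
        rw [hk]
        exact (hpP.odd_of_ne_two (fun h => hrp h.symm)).pow
      have P : Sylow 2 SL(2, F) := default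
      obtain ⟨m, hm, ⟨e⟩⟩ := Cfsg.Agent.S0261.result hodd P
      exact ⟨P, (noStem_of_mulEquiv_quaternion (2 ^ m) e).noStemIn, P.not_dvd_index⟩
    · have R : Sylow r SL(2, F) := default
      haveI := Cfsg.Agent.S0262.result p r hr2 hrp R
      exact ⟨R, (noStem_of_isCyclic R).noStemIn, R.not_dvd_index⟩

end Unipotent

end Cfsg.Agent.H41
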