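import Mathlib
import Cfsg.Prelude.Def_KGroupFacts
import Cfsg.Agent.H41.SL2Mult
import Cfsg.Agent.H41.AltMult67
import Cfsg.Agent.H41.TripleData
import Cfsg.Agent.H41.StemProd
import Cfsg.Agent.S0254

/-!
# The Schur multiplier of `SL₂(9)` is cyclic of order 3 (helper41)

Existence: pull back the triple cover of `A₆` along `SL₂(9) → PSL₂(9) ≃ A₆` (helper6: S0254).
Upper bound: Sylow `r`-subgroups for `r ≠ 3` are quaternion or cyclic; for `r = 3` the Sylow
subgroup is elementary abelian of order 9.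
-/

set_option autoImplicit false
set_option linter.unusedSectionVars false
set_option linter.style.haveILetI false

namespace Cfsg.Agent.H41

open Cfsg
open scoped commutatorElement MatrixGroups

universe u v w

namespace SL29

/-- Universe-polymorphic version of `AltMult.three_part`. -/
theorem three_part_univ {G : Type u} [Group G] [Finite G] (x y : G) (hx : x ^ 3 = 1)
    (hx1 : x ≠ 1) (hy : y ^ 3 = 1) (hxy : x * y = y * x) (hyx : y ∉ Subgroup.zpowers x)
    (h27 : ¬ 3 ^ (2 + 1) ∣ Nat.card G)
    (Γ : Type v) [Group Γ] [Finite Γ] (σ : Γ →* G) (hs : Function.Surjective σ)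
    (hc : σ.ker ≤ Subgroup.center Γ) (hd : σ.ker ≤ commutator Γ) :
    ∃ (c : Γ) (b : ℕ), c ^ 3 = 1 ∧ σ c = 1 ∧ ¬ 3 ∣ b ∧ b ∣ Nat.card G ∧
      ∀ z ∈ σ.ker, z ^ b ∈ Subgroup.zpowers c := by
  have hxm : x ∈ Subgroup.closure ({x, y} : Set G) := Subgroup.subset_closure (by simp)
  have hym : y ∈ Subgroup.closure ({x, y} : Set G) := Subgroup.subset_closure (by simp)
  have hP : IsPGroup 3 (Subgroup.closure ({x, y} : Set G)) :=
    isPGroup_closure_pair_of_commute 3 x y hxy hx hy
  have hle : Subgroup.zpowers x ≤ Subgroup.closure ({x, y} : Set G) := by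
    rw [Subgroup.zpowers_le]; exact hxm
  have hne : Subgroup.zpowers x ≠ Subgroup.closure ({x, y} : Set G) := by
    intro h
    apply hyx
    rw [h]; exact hym
  have hcardx : Nat.card (Subgroup.zpowers x) = 3 ^ 1 := by
    rw [Nat.card_zpowers, pow_one]
    exact orderOf_eq_prime hx hx1
  have h9 : 3 ^ 2 ∣ Nat.card (Subgroup.closure ({x, y} : Set G)) :=
    pow_succ_dvd_card_of_ne hP hle hne 1 hcardx
  have hidx : ¬ 3 ∣ (Subgroup.closure ({x, y} : Set G)).index :=
    not_dvd_index_of_pow_dvd_card _ 3 2 h9 h27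
  have hc' := subgroupComap_ker_le_center σ hc (Subgroup.closure ({x, y} : Set G))
  obtain ⟨c, hc1, hcle, hcN, -⟩ := commuting_type_central_ext
    (σ.subgroupComap (Subgroup.closure ({x, y} : Set G)))
    (σ.subgroupComap_surjective_of_surjective _ hs) hc' ⟨x, hxm⟩ ⟨y, hym⟩
    (AltMult.closure_pair_subtype x y hxm hym) (Subtype.ext hxy)
  have hc3 : c ^ 3 = 1 := hcN 3 (Subtype.ext hx)
  refine ⟨(c : Γ), (Subgroup.closure ({x, y} : Set G)).index, ?_, ?_, hidx,
    Subgroup.index_dvd_card _, ?_⟩
  · have := congrArg Subtype.val hc3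
    rwa [Subgroup.coe_pow] at this
  · exact congrArg Subtype.val hc1
  · intro z hz
    have h1 := pow_index_mem_commutator_of_center ((Subgroup.closure {x, y}).comap σ) (hc hz)
      (hd hz)
    rw [Subgroup.index_comap_of_surjective _ hs, ← Subgroup.map_subtype_commutator] at h1
    obtain ⟨z', hz', hzz⟩ := h1
    obtain ⟨k, hk⟩ := Subgroup.mem_zpowers_iff.1 (hcle hz')
    rw [← hzz, ← hk]
    rw [Subgroup.mem_zpowers_iff]
    exact ⟨k, by simp⟩

/-- Pulling back a stem extension `ξ` of `Q` along a central quotient `π : G → Q` whose kernel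
has exponent prime to that of `ker ξ` gives a stem extension of `G` with the same kernel. -/
theorem stem_pullbackFst {G : Type u} {X : Type v} {Q : Type w} [Group G] [Group X] [Group Q]
    (π : G →* Q) (ξ : X →* Q) (hπs : Function.Surjective π) (hξ : IsStemExtension ξ)
    (a b : ℕ) (hab : Nat.Coprime a b) (ha : ∀ g ∈ π.ker, g ^ a = 1)
    (hb : ∀ x ∈ ξ.ker, x ^ b = 1) :
    IsStemExtension (pullbackFst π ξ) ∧ Nonempty ((pullbackFst π ξ).ker ≃* ξ.ker) := by
  obtain ⟨hξs, hξc, hξd⟩ := hξ
  have hker : ∀ w : pullback π ξ, w ∈ (pullbackFst π ξ).ker → w.1.1 = 1 := fun w hw => hw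
  have hker2 : ∀ w : pullback π ξ, w ∈ (pullbackFst π ξ).ker → w.1.2 ∈ ξ.ker := by
    intro w hw
    rw [MonoidHom.mem_ker]
    have := w.2
    rw [mem_pullback, hker w hw, map_one] at this
    exact this.symm
  have hsnd : ∀ x ∈ ξ.ker, ∀ h : ((1, x) : G × X) ∈ pullback π ξ,
      (⟨(1, x), h⟩ : pullback π ξ) ∈ commutator (pullback π ξ) := by
    intro x hx h
    by_cases hb1 : b = 1
    · have hx1 : x = 1 := by
        have := hb x hx
        rwa [hb1, pow_one] at this
      subst hx1
      exact Subgroup.one_mem _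
    by_cases hb0 : b = 0
    · -- then `a = 1`, so `π` is injective
      have ha1 : a = 1 := by
        rw [hb0] at hab
        simpa using hab
      have hmap := map_commutator_of_surjective (pullbackSnd π ξ)
        (pullbackSnd_surjective π ξ hπs)
      have hx' : x ∈ Subgroup.map (pullbackSnd π ξ) (commutator (pullback π ξ)) := by
        rw [hmap]; exact hξd hx
      obtain ⟨v, hv, hvx⟩ := hx'
      have hvx' : v.1.2 = x := hvx
      have hvg : v.1.1 ∈ π.ker := by
        rw [MonoidHom.mem_ker]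
        have := v.2
        rw [mem_pullback, hvx', MonoidHom.mem_ker.1 hx] at this
        exact this
      have hv1 : v.1.1 = 1 := by
        have := ha _ hvg
        rwa [ha1, pow_one] at this
      have : v = ⟨(1, x), h⟩ := by
        apply Subtype.ext
        apply Prod.ext
        · exact hv1
        · exact hvx'
      rw [← this]
      exact hv
    have hmap := map_commutator_of_surjective (pullbackSnd π ξ)
      (pullbackSnd_surjective π ξ hπs)
    have hx' : x ∈ Subgroup.map (pullbackSnd π ξ) (commutator (pullback π ξ)) := by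
      rw [hmap]; exact hξd hx
    obtain ⟨v, hv, hvx⟩ := hx'
    have hvx' : v.1.2 = x := hvx
    have hvg : v.1.1 ∈ π.ker := by
      rw [MonoidHom.mem_ker]
      have := v.2
      rw [mem_pullback, hvx', MonoidHom.mem_ker.1 hx] at this
      exact this
    obtain ⟨k, -, hk⟩ := Nat.exists_mul_mod_eq_one_of_coprime hab (by omega : 1 < b)
    have hpow : v ^ (a * k) = ⟨(1, x), h⟩ := by
      apply Subtype.ext
      rw [Subgroup.coe_pow]
      apply Prod.ext
      · show (v.1 ^ (a * k)).1 = 1
        rw [Prod.pow_fst, pow_mul, ha _ hvg, one_pow]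
      · show (v.1 ^ (a * k)).2 = x
        rw [Prod.pow_snd, hvx', pow_eq_pow_mod (a * k) (hb x hx), hk, pow_one]
    rw [← hpow]
    exact Subgroup.pow_mem _ hv _
  refine ⟨⟨pullbackFst_surjective π ξ hξs, pullbackFst_ker_le_center π ξ hξc, ?_⟩, ?_⟩
  · intro w hw
    have h2 : ((1, w.1.2) : G × X) ∈ pullback π ξ := by
      rw [mem_pullback]
      show π 1 = ξ w.1.2
      rw [MonoidHom.mem_ker.1 (hker2 w hw), map_one]
    have hw' : w = ⟨(1, w.1.2), h2⟩ := by
      apply Subtype.ext
      apply Prod.ext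
      · exact hker w hw
      · rfl
    rw [hw']
    exact hsnd _ (hker2 w hw) h2
  · obtain ⟨f, hf⟩ : ∃ f : (pullbackFst π ξ).ker →* ξ.ker, ∀ w : (pullbackFst π ξ).ker,
        f w = ⟨w.1.1.2, hker2 w.1 w.2⟩ :=
      ⟨{ toFun := fun w => ⟨w.1.1.2, hker2 w.1 w.2⟩
         map_one' := rfl
         map_mul' := fun _ _ => rfl }, fun _ => rfl⟩
    refine ⟨MulEquiv.ofBijective f ⟨?_, ?_⟩⟩
    · intro w w' h
      rw [hf, hf] at h
      have h2 : w.1.1.2 = w'.1.1.2 := congrArg Subtype.val h
      apply Subtype.ext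
      apply Subtype.ext
      apply Prod.ext
      · rw [hker w.1 w.2, hker w'.1 w'.2]
      · exact h2
    · rintro ⟨x, hx⟩
      have hmem : ((1, x) : G × X) ∈ pullback π ξ := by
        rw [mem_pullback]
        show π 1 = ξ x
        rw [MonoidHom.mem_ker.1 hx, map_one]
      have hk : (⟨(1, x), hmem⟩ : pullback π ξ) ∈ (pullbackFst π ξ).ker := rfl
      exact ⟨⟨⟨(1, x), hmem⟩, hk⟩, by rw [hf]⟩

open Cfsg.Agent.H7

variable {F : Type u} [Field F]

theorem slUpper_zero : slUpper (0 : F) = 1 := by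
  apply Subtype.ext
  ext i j
  fin_cases i <;> fin_cases j <;> simp [slUpper]

theorem slUpper_pow (x : F) (n : ℕ) : slUpper x ^ n = slUpper (n * x) := by
  induction n with
  | zero => rw [pow_zero, Nat.cast_zero, zero_mul, slUpper_zero]
  | succ n ih =>
    rw [pow_succ, ih, slUpper_mul]
    congr 1
    push_cast
    ring

theorem slUpper_injective : Function.Injective (slUpper : F → SL(2, F)) := by
  intro x y h
  have := congrArg (fun s : SL(2, F) => s.1 0 1) h
  simpa [slUpper] using this

theorem center_sq [Fintype F] (s : SL(2, F)) (hs : s ∈ Subgroup.center SL(2, F)) :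
    s ^ 2 = 1 := by
  rw [Matrix.SpecialLinearGroup.mem_center_iff] at hs
  obtain ⟨r, hr, hrs⟩ := hs
  rw [Fintype.card_fin] at hr
  apply Subtype.ext
  rw [Matrix.SpecialLinearGroup.coe_pow, ← hrs, Matrix.SpecialLinearGroup.coe_one]
  rw [← map_pow, hr, map_one]

theorem zmod_three_pow : ∀ t : Multiplicative (ZMod 3), t ^ 3 = 1 := by decide

/-- The Schur multiplier of `SL₂(9)` is cyclic of order 3. -/
theorem sl2_nine_hasCyclicSchurMultiplier [Fintype F] (hF : Fintype.card F = 9) :
    HasCyclicSchurMultiplier SL(2, F) 3 := by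
  classical
  -- characteristic 3
  obtain ⟨p, hp⟩ := CharP.exists F
  haveI : Fact p.Prime := ⟨CharP.char_is_prime F p⟩
  have hpP : p.Prime := Fact.out
  have hp3 : p = 3 := by
    obtain ⟨k, hk0, hk⟩ := card_field_eq_prime_pow F p
    rw [hF] at hk
    have h1 : p ∣ 3 ^ 2 := by
      rw [show (3 : ℕ) ^ 2 = 9 from rfl, hk]
      exact dvd_pow_self p hk0.ne'
    exact (Nat.prime_dvd_prime_iff_eq hpP Nat.prime_three).1 (hpP.dvd_of_dvd_pow h1)
  subst hp3
  have h3F : (3 : F) = 0 := by
    have := CharP.cast_eq_zero F 3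
    exact_mod_cast this
  constructor
  · -- existence
    obtain ⟨e⟩ := Cfsg.Agent.S0254.result hF
    obtain ⟨Γ3, _, _, σ3, hσ3, ⟨e3⟩⟩ := AltMult.TC.exists_triple_cover_alt 6 (Or.inl rfl)
    obtain ⟨τ, hτ⟩ : ∃ τ : SL(2, F) →* alternatingGroup (Fin 6),
        τ = e.toMonoidHom.comp (QuotientGroup.mk' (Subgroup.center SL(2, F))) := ⟨_, rfl⟩
    have hτs : Function.Surjective τ := by
      rw [hτ]
      exact e.surjective.comp (QuotientGroup.mk'_surjective _)
    have hτk : ∀ g ∈ τ.ker, g ^ 2 = 1 := by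
      intro g hg
      apply center_sq
      rw [hτ, MonoidHom.mem_ker] at hg
      have h1 : QuotientGroup.mk' (Subgroup.center SL(2, F)) g = 1 := by
        apply e.injective
        rw [map_one]
        exact hg
      rwa [← MonoidHom.mem_ker, QuotientGroup.ker_mk'] at h1
    have hσ3k : ∀ x ∈ σ3.ker, x ^ 3 = 1 := by
      intro x hx
      have h1 : (⟨x, hx⟩ : σ3.ker) ^ 3 = 1 := by
        apply e3.injective
        rw [map_pow, map_one]
        exact zmod_three_pow _
      exact congrArg Subtype.val h1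
    obtain ⟨hst, ⟨ek⟩⟩ := stem_pullbackFst τ σ3 hτs hσ3 2 3 (by decide) hτk hσ3k
    exact ⟨pullback τ σ3, inferInstance, inferInstance, pullbackFst τ σ3, hst,
      ⟨ek.trans e3⟩⟩
  · -- upper bound
    intro Γ _ _ σ hσ
    obtain ⟨hs, hc, hd⟩ := hσ
    -- primes other than 3
    have hprime : ∀ r : ℕ, r.Prime → r ≠ 3 → ∀ z ∈ σ.ker, ¬ r ∣ orderOf z := by
      intro r hr hr3 z hz hdvd
      haveI : Fact r.Prime := ⟨hr⟩
      have hH : ∃ H : Subgroup SL(2, F), NoStemIn SL(2, F) H ∧ ¬ r ∣ H.index := by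
        by_cases hr2 : r = 2
        · subst hr2
          have hodd : Odd (Fintype.card F) := by
            rw [hF]; decide
          have P : Sylow 2 SL(2, F) := default
          obtain ⟨m, hm, ⟨e⟩⟩ := Cfsg.Agent.S0261.result hodd P
          exact ⟨P, (noStem_of_mulEquiv_quaternion (2 ^ m) e).noStemIn, P.not_dvd_index⟩
        · have R : Sylow r SL(2, F) := default
          haveI := Cfsg.Agent.S0262.result 3 r hr2 hr3 R
          exact ⟨R, (noStem_of_isCyclic R).noStemIn, R.not_dvd_index⟩
      obtain ⟨H, hHn, hHi⟩ := hH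
      have h1 := pow_index_mem_commutator_of_center (H.comap σ) (hc hz) (hd hz)
      have h2 : z ^ (H.comap σ).index ∈ σ.ker ⊓ ⁅H.comap σ, H.comap σ⁆ :=
        ⟨Subgroup.pow_mem _ hz _, h1⟩
      rw [hHn Γ σ hs hc, Subgroup.mem_bot, Subgroup.index_comap_of_surjective H hs] at h2
      exact hHi (hdvd.trans (orderOf_dvd_of_pow_eq_one h2))
    -- the prime 3
    obtain ⟨w, hw⟩ : ∃ w : F, ∀ n : ℕ, (n : F) ≠ w := by
      by_contra hcon
      push Not at hcon
      have hsurj : Function.Surjective (fun i : Fin 3 => ((i : ℕ) : F)) := by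
        intro w
        obtain ⟨n, hn⟩ := hcon w
        refine ⟨⟨n % 3, Nat.mod_lt _ (by norm_num)⟩, ?_⟩
        show ((n % 3 : ℕ) : F) = w
        rw [← hn]
        exact (CharP.natCast_eq_natCast_mod F 3 n).symm
      have := Fintype.card_le_of_surjective _ hsurj
      rw [hF, Fintype.card_fin] at this
      omega
    have hx3 : (slUpper (1 : F)) ^ 3 = 1 := by
      rw [slUpper_pow, ← slUpper_zero]
      congr 1
      rw [mul_one]
      exact_mod_cast h3F
    have hy3 : (slUpper w) ^ 3 = 1 := by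
      rw [slUpper_pow, ← slUpper_zero]
      congr 1
      have : ((3 : ℕ) : F) = 0 := by exact_mod_cast h3F
      rw [this, zero_mul]
    have hx1 : slUpper (1 : F) ≠ 1 := by
      rw [← slUpper_zero]
      intro h
      exact one_ne_zero (slUpper_injective h)
    have hxy : slUpper (1 : F) * slUpper w = slUpper w * slUpper 1 := by
      rw [slUpper_mul, slUpper_mul, add_comm]
    have hyx : slUpper w ∉ Subgroup.zpowers (slUpper (1 : F)) := by
      intro hmem
      rw [← mem_powers_iff_mem_zpowers] at hmem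
      obtain ⟨n, hn⟩ := hmem
      have hn' : slUpper (1 : F) ^ n = slUpper w := hn
      rw [slUpper_pow, mul_one] at hn'
      exact hw n (slUpper_injective hn')
    have h27 : ¬ 3 ^ (2 + 1) ∣ Nat.card SL(2, F) := by
      rw [card_SL2, hF]
      decide
    obtain ⟨c, b, hc3, hc1, hb3, -, hzb⟩ :=
      three_part_univ (slUpper (1 : F)) (slUpper w) hx3 hx1 hy3 hxy hyx h27 Γ σ hs hc hd
    have hle : σ.ker ≤ Subgroup.zpowers c := by
      intro z hz
      have hzb' := hzb z hz
      have hzb3 : z ^ (b * 3) = 1 := by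
        obtain ⟨k, hk⟩ := Subgroup.mem_zpowers_iff.1 hzb'
        rw [pow_mul, ← hk, ← zpow_natCast, ← zpow_mul, mul_comm, zpow_mul, zpow_natCast, hc3,
          one_zpow]
      have hdvd : orderOf z ∣ b * 3 := orderOf_dvd_of_pow_eq_one hzb3
      have hcop : Nat.Coprime (orderOf z) b := by
        apply Nat.Coprime.symm
        rw [Nat.coprime_comm]
        apply Nat.coprime_of_dvd
        intro r hr hrz hrb
        by_cases hr3 : r = 3
        · subst hr3
          exact hb3 hrb
        · exact hprime r hr hr3 z hz hrz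
      have hd3 : orderOf z ∣ 3 := hcop.dvd_of_dvd_mul_left hdvd
      have hz3 : z ^ 3 = 1 := orderOf_dvd_iff_pow_eq_one.1 hd3
      have hbm : b % 3 = 1 ∨ b % 3 = 2 := by omega
      rcases hbm with hbm | hbm
      · have e : z ^ b = z := by
          rw [pow_eq_pow_mod b hz3, hbm, pow_one]
        rwa [e] at hzb'
      · have e : z ^ b = z ^ 2 := by
          rw [pow_eq_pow_mod b hz3, hbm]
        rw [e] at hzb'
        have e2 : z = (z ^ 2) ^ 2 := by
          rw [← pow_mul, show 2 * 2 = 3 + 1 from rfl, pow_succ, hz3, one_mul]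
        rw [e2]
        exact Subgroup.pow_mem _ hzb' 2
    exact exists_surjective_zmod_of_le_zpowers hc3 σ.ker hle

end SL29

end Cfsg.Agent.H41
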