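import Cfsg.Agent.H41.E7Stem
import Cfsg.Agent.H17.SpPerfect
import Cfsg.Agent.H50.SpCard

/-!
# `C₂ × Sp₆(2)` is the Coxeter group of type `E₇` (helper41)

The seven transvections `T (sv i)` of `Sp₆(2)`, twisted by the generator of `C₂`, satisfy the
`E₇` relations and generate `C₂ × Sp₆(2)`, a group of order `2903040`; hence it has the universal
property of the Coxeter group (`UP`).
-/

set_option autoImplicit false

namespace Cfsg.Agent.H41.Sp62

open Cfsg Cfsg.Agent Cfsg.Agent.H41.CoxBound Cfsg.Agent.H41.E7 Matrix

abbrev V6 : Type := Fin 3 ⊕ Fin 3 → ZMod 2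

abbrev G1 : Type := ↥(Matrix.symplecticGroup (Fin 3) (ZMod 2))

/-- the vector with bit code `c` -/
def vec (c : ℕ) : V6 :=
  Sum.elim (fun i => if c.testBit i.val then 1 else 0)
    (fun i => if c.testBit (i.val + 3) then 1 else 0)

/-- the transvection in the direction `w` -/
def T (w : V6) : G1 := H17.spTransv 3 w 1

theorem T_mulVec (w x : V6) :
    ((T w : G1) : Matrix (Fin 3 ⊕ Fin 3) (Fin 3 ⊕ Fin 3) (ZMod 2)) *ᵥ x =
      x + sympForm 3 (ZMod 2) x w • w := by
  rw [T, H17.spTransv_mulVec, one_mul]

theorem T_sq (w : V6) : T w * T w = 1 := by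
  have h : (1 : ZMod 2) + 1 = 0 := by decide
  rw [T, H17.spTransv_mul, h, H17.spTransv_zero]

theorem T_inv (w : V6) : (T w)⁻¹ = T w := inv_eq_of_mul_eq_one_left (T_sq w)

theorem T_conj (u w : V6) : T u * T w * T u = T (w + sympForm 3 (ZMod 2) w u • u) := by
  have h := H17.spTransv_conj 3 (T u) w (1 : ZMod 2)
  rw [T_inv, T_mulVec] at h
  exact h

theorem T_comm (u w : V6) (h : sympForm 3 (ZMod 2) w u = 0) : T u * T w = T w * T u := by
  have h1 := T_conj u w
  rw [h, zero_smul, add_zero] at h1
  calc T u * T w = T u * T w * T u * T u := by rw [mul_assoc (T u * T w), T_sq, mul_one]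
    _ = T w * T u := by rw [h1]

theorem T_braid (u w : V6) (h1 : sympForm 3 (ZMod 2) w u = 1)
    (h2 : sympForm 3 (ZMod 2) u w = 1) : T u * T w * T u = T w * T u * T w := by
  rw [T_conj, T_conj, h1, h2, one_smul, one_smul, add_comm]

abbrev C2 : Type := Multiplicative (ZMod 2)

/-- the generator of `C₂` -/
def sg : C2 := Multiplicative.ofAdd 1

theorem sg_sq : sg * sg = 1 := by decide

theorem sg_cube : sg * sg * sg = sg := by decide

abbrev W : Type := C2 × G1

def codeL : List ℕ := [1, 8, 3, 16, 20, 34, 4]

/-- the seven root vectors -/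
def sv (i : ℕ) : V6 := vec (codeL.getD i 0)

/-- the seven generators -/
def s (i : ℕ) : W := (sg, T (sv i))

theorem gram : ∀ i, i < 7 → ∀ j, j < 7 →
    sympForm 3 (ZMod 2) (sv j) (sv i) = if adjE i j then 1 else 0 := by decide +kernel

theorem adjE_symm : ∀ i, i < 7 → ∀ j, j < 7 → adjE i j = adjE j i := by decide

theorem hrel : Rel adjE s 7 := by
  refine ⟨fun i _ => Prod.ext sg_sq (T_sq _), ?_, ?_⟩
  · intro i j hi hj hij
    have h1 := gram i hi j hj
    rw [hij, if_pos rfl] at h1
    have h2 := gram j hj i hi
    rw [← adjE_symm i hi j hj, hij, if_pos rfl] at h2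
    exact Prod.ext rfl (T_braid (sv i) (sv j) h1 h2)
  · intro i j hi hj _ hij
    have h1 := gram i hi j hj
    rw [hij] at h1
    exact Prod.ext rfl (T_comm (sv i) (sv j) h1)

/-- the subgroup generated by the seven generators -/
def T0 : Subgroup W := Subgroup.closure (s '' {i | i < 7})

def Good (c : ℕ) : Prop := ((sg, T (vec c)) : W) ∈ T0

theorem good_gen (i : ℕ) (hi : i < 7) : Good (codeL.getD i 0) :=
  Subgroup.subset_closure ⟨i, hi, rfl⟩

theorem good_add (a b c : ℕ) (ha : Good a) (hb : Good b)
    (h1 : sympForm 3 (ZMod 2) (vec b) (vec a) = 1) (h2 : vec b + vec a = vec c) : Good c := by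
  have h := T0.mul_mem (T0.mul_mem ha hb) ha
  have e : ((sg, T (vec a)) * (sg, T (vec b)) * (sg, T (vec a)) : W) = (sg, T (vec c)) := by
    refine Prod.ext sg_cube ?_
    show T (vec a) * T (vec b) * T (vec a) = T (vec c)
    rw [T_conj, h1, one_smul, h2]
  rw [e] at h
  exact h

theorem good_all : ∀ c, 0 < c → c < 64 → Good c := by
  have g1 : Good 1 := good_gen 0 (by norm_num)
  have g8 : Good 8 := good_gen 1 (by norm_num)
  have g3 : Good 3 := good_gen 2 (by norm_num)
  have g16 : Good 16 := good_gen 3 (by norm_num)
  have g20 : Good 20 := good_gen 4 (by norm_num)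
  have g34 : Good 34 := good_gen 5 (by norm_num)
  have g4 : Good 4 := good_gen 6 (by norm_num)
  have g9 : Good 9 := good_add 1 8 9 g1 g8 (by decide +kernel) (by decide +kernel)
  have g11 : Good 11 := good_add 3 8 11 g3 g8 (by decide +kernel) (by decide +kernel)
  have g10 : Good 10 := good_add 3 9 10 g3 g9 (by decide +kernel) (by decide +kernel)
  have g19 : Good 19 := good_add 3 16 19 g3 g16 (by decide +kernel) (by decide +kernel)
  have g23 : Good 23 := good_add 3 20 23 g3 g20 (by decide +kernel) (by decide +kernel)
  have g38 : Good 38 := good_add 4 34 38 g4 g34 (by decide +kernel) (by decide +kernel)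
  have g27 : Good 27 := good_add 8 19 27 g8 g19 (by decide +kernel) (by decide +kernel)
  have g31 : Good 31 := good_add 8 23 31 g8 g23 (by decide +kernel) (by decide +kernel)
  have g26 : Good 26 := good_add 16 10 26 g16 g10 (by decide +kernel) (by decide +kernel)
  have g7 : Good 7 := good_add 16 23 7 g16 g23 (by decide +kernel) (by decide +kernel)
  have g15 : Good 15 := good_add 16 31 15 g16 g31 (by decide +kernel) (by decide +kernel)
  have g50 : Good 50 := good_add 16 34 50 g16 g34 (by decide +kernel) (by decide +kernel)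
  have g54 : Good 54 := good_add 16 38 54 g16 g38 (by decide +kernel) (by decide +kernel)
  have g30 : Good 30 := good_add 20 10 30 g20 g10 (by decide +kernel) (by decide +kernel)
  have g14 : Good 14 := good_add 20 26 14 g20 g26 (by decide +kernel) (by decide +kernel)
  have g37 : Good 37 := good_add 34 7 37 g34 g7 (by decide +kernel) (by decide +kernel)
  have g44 : Good 44 := good_add 34 14 44 g34 g14 (by decide +kernel) (by decide +kernel)
  have g45 : Good 45 := good_add 34 15 45 g34 g15 (by decide +kernel) (by decide +kernel)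
  have g49 : Good 49 := good_add 34 19 49 g34 g19 (by decide +kernel) (by decide +kernel)
  have g56 : Good 56 := good_add 34 26 56 g34 g26 (by decide +kernel) (by decide +kernel)
  have g57 : Good 57 := good_add 34 27 57 g34 g27 (by decide +kernel) (by decide +kernel)
  have g13 : Good 13 := good_add 3 14 13 g3 g14 (by decide +kernel) (by decide +kernel)
  have g12 : Good 12 := good_add 3 15 12 g3 g15 (by decide +kernel) (by decide +kernel)
  have g47 : Good 47 := good_add 3 44 47 g3 g44 (by decide +kernel) (by decide +kernel)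
  have g46 : Good 46 := good_add 3 45 46 g3 g45 (by decide +kernel) (by decide +kernel)
  have g53 : Good 53 := good_add 3 54 53 g3 g54 (by decide +kernel) (by decide +kernel)
  have g33 : Good 33 := good_add 4 37 33 g4 g37 (by decide +kernel) (by decide +kernel)
  have g40 : Good 40 := good_add 4 44 40 g4 g44 (by decide +kernel) (by decide +kernel)
  have g41 : Good 41 := good_add 4 45 41 g4 g45 (by decide +kernel) (by decide +kernel)
  have g42 : Good 42 := good_add 4 46 42 g4 g46 (by decide +kernel) (by decide +kernel)
  have g43 : Good 43 := good_add 4 47 43 g4 g47 (by decide +kernel) (by decide +kernel)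
  have g60 : Good 60 := good_add 4 56 60 g4 g56 (by decide +kernel) (by decide +kernel)
  have g61 : Good 61 := good_add 4 57 61 g4 g57 (by decide +kernel) (by decide +kernel)
  have g63 : Good 63 := good_add 7 56 63 g7 g56 (by decide +kernel) (by decide +kernel)
  have g62 : Good 62 := good_add 7 57 62 g7 g57 (by decide +kernel) (by decide +kernel)
  have g59 : Good 59 := good_add 7 60 59 g7 g60 (by decide +kernel) (by decide +kernel)
  have g58 : Good 58 := good_add 7 61 58 g7 g61 (by decide +kernel) (by decide +kernel)
  have g5 : Good 5 := good_add 8 13 5 g8 g13 (by decide +kernel) (by decide +kernel)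
  have g35 : Good 35 := good_add 8 43 35 g8 g43 (by decide +kernel) (by decide +kernel)
  have g39 : Good 39 := good_add 8 47 39 g8 g47 (by decide +kernel) (by decide +kernel)
  have g51 : Good 51 := good_add 8 59 51 g8 g59 (by decide +kernel) (by decide +kernel)
  have g55 : Good 55 := good_add 8 63 55 g8 g63 (by decide +kernel) (by decide +kernel)
  have g48 : Good 48 := good_add 10 58 48 g10 g58 (by decide +kernel) (by decide +kernel)
  have g52 : Good 52 := good_add 10 62 52 g10 g62 (by decide +kernel) (by decide +kernel)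
  have g36 : Good 36 := good_add 14 42 36 g14 g42 (by decide +kernel) (by decide +kernel)
  have g32 : Good 32 := good_add 14 46 32 g14 g46 (by decide +kernel) (by decide +kernel)
  have g6 : Good 6 := good_add 34 36 6 g34 g36 (by decide +kernel) (by decide +kernel)
  have g18 : Good 18 := good_add 34 48 18 g34 g48 (by decide +kernel) (by decide +kernel)
  have g17 : Good 17 := good_add 34 51 17 g34 g51 (by decide +kernel) (by decide +kernel)
  have g24 : Good 24 := good_add 34 58 24 g34 g58 (by decide +kernel) (by decide +kernel)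
  have g25 : Good 25 := good_add 34 59 25 g34 g59 (by decide +kernel) (by decide +kernel)
  have g21 : Good 21 := good_add 37 48 21 g37 g48 (by decide +kernel) (by decide +kernel)
  have g22 : Good 22 := good_add 37 51 22 g37 g51 (by decide +kernel) (by decide +kernel)
  have g28 : Good 28 := good_add 44 48 28 g44 g48 (by decide +kernel) (by decide +kernel)
  have g29 : Good 29 := good_add 45 48 29 g45 g48 (by decide +kernel) (by decide +kernel)
  have g2 : Good 2 := good_add 49 51 2 g49 g51 (by decide +kernel) (by decide +kernel)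
  intro c h0 hc
  interval_cases c
  · exact g1
  · exact g2
  · exact g3
  · exact g4
  · exact g5
  · exact g6
  · exact g7
  · exact g8
  · exact g9
  · exact g10
  · exact g11
  · exact g12
  · exact g13
  · exact g14
  · exact g15
  · exact g16
  · exact g17
  · exact g18
  · exact g19
  · exact g20
  · exact g21
  · exact g22
  · exact g23
  · exact g24
  · exact g25
  · exact g26
  · exact g27
  · exact g28
  · exact g29
  · exact g30
  · exact g31
  · exact g32
  · exact g33
  · exact g34
  · exact g35
  · exact g36
  · exact g37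
  · exact g38
  · exact g39
  · exact g40
  · exact g41
  · exact g42
  · exact g43
  · exact g44
  · exact g45
  · exact g46
  · exact g47
  · exact g48
  · exact g49
  · exact g50
  · exact g51
  · exact g52
  · exact g53
  · exact g54
  · exact g55
  · exact g56
  · exact g57
  · exact g58
  · exact g59
  · exact g60
  · exact g61
  · exact g62
  · exact g63

theorem prod7 : T (vec 1) * T (vec 2) * T (vec 3) * T (vec 4) * T (vec 5) * T (vec 6) *
    T (vec 7) = 1 := by
  apply H17.sp_ext
  intro x
  simp only [H17.sp_mul_mulVec, T_mulVec]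
  rw [OneMemClass.coe_one, Matrix.one_mulVec]
  revert x
  decide +kernel

theorem sg_mem : ((sg, 1) : W) ∈ T0 := by
  have h := T0.mul_mem (T0.mul_mem (T0.mul_mem (T0.mul_mem (T0.mul_mem (T0.mul_mem
    (good_all 1 (by norm_num) (by norm_num)) (good_all 2 (by norm_num) (by norm_num)))
    (good_all 3 (by norm_num) (by norm_num))) (good_all 4 (by norm_num) (by norm_num)))
    (good_all 5 (by norm_num) (by norm_num))) (good_all 6 (by norm_num) (by norm_num)))
    (good_all 7 (by norm_num) (by norm_num))
  have e : ((sg, T (vec 1)) * (sg, T (vec 2)) * (sg, T (vec 3)) * (sg, T (vec 4)) *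
      (sg, T (vec 5)) * (sg, T (vec 6)) * (sg, T (vec 7)) : W) = (sg, 1) :=
    Prod.ext (by decide) prod7
  rw [e] at h
  exact h

theorem vec_surj : ∀ w : V6, ∃ c, c < 64 ∧ w = vec c := by decide +kernel

theorem vec_zero : vec 0 = 0 := by decide

theorem inr_mem (g : G1) : ((1, g) : W) ∈ T0 := by
  have hg : g ∈ Subgroup.closure (H17.transvSet 3 (⊤ : Submodule (ZMod 2) V6)) := by
    rw [H17.closure_transvSet_top]; trivial
  refine Subgroup.closure_induction (p := fun g _ => ((1, g) : W) ∈ T0) ?_ ?_ ?_ ?_ hg
  · rintro A ⟨w, -, c, hA⟩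
    have hA' : A = H17.spTransv 3 w c := Subtype.ext hA
    have hc01 : ∀ c : ZMod 2, c = 0 ∨ c = 1 := by decide
    rcases hc01 c with rfl | rfl
    · rw [hA', H17.spTransv_zero]; exact T0.one_mem
    · obtain ⟨k, hk, rfl⟩ := vec_surj w
      rcases Nat.eq_zero_or_pos k with rfl | hpos
      · rw [hA', vec_zero, H17.spTransv_zero_vec]; exact T0.one_mem
      · have h := T0.mul_mem sg_mem (good_all k hpos hk)
        have e : ((sg, 1) * (sg, T (vec k)) : W) = (1, A) := by
          refine Prod.ext sg_sq ?_
          show 1 * T (vec k) = A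
          rw [one_mul, hA']; rfl
        rw [e] at h
        exact h
  · exact T0.one_mem
  · intro x y _ _ hx hy
    have := T0.mul_mem hx hy
    have e : ((1, x) * (1, y) : W) = (1, x * y) := Prod.ext (one_mul 1) rfl
    rw [e] at this
    exact this
  · intro x _ hx
    have := T0.inv_mem hx
    have e : ((1, x) : W)⁻¹ = (1, x⁻¹) := Prod.ext inv_one rfl
    rw [e] at this
    exact this

theorem hgen : Subgroup.closure (s '' {i | i < 7}) = ⊤ := by
  rw [eq_top_iff]
  rintro ⟨ε, g⟩ -
  have hε : ε = 1 ∨ ε = sg := by revert ε; decide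
  have e1 : ((ε, g) : W) = (ε, 1) * (1, g) := Prod.ext (mul_one ε).symm (one_mul g).symm
  rw [e1]
  refine Subgroup.mul_mem _ ?_ (inr_mem g)
  rcases hε with rfl | rfl
  · exact Subgroup.one_mem _
  · exact sg_mem

theorem card_G1 : Nat.card G1 = 1451520 := by
  rw [H50.SpCard.card_sp (ZMod.card 2) 3]
  decide

theorem card_W : Nat.card W = 2903040 := by
  rw [Nat.card_prod, card_G1, Nat.card_eq_fintype_card]
  decide

/-- **Universal property**: `C₂ × Sp₆(2)` is the Coxeter group of type `E₇`. -/
theorem UP.{u} (H : Type u) [Group H] (h : ℕ → H) (hh : Rel adjE h 7) :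
    ∃ f : W →* H, ∀ i, i < 7 → f (s i) = h i :=
  UP_of_card s hrel hgen (by rw [card_W]) H h hh

end Cfsg.Agent.H41.Sp62
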