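import Cfsg.Agent.H41.Sp62Base
import Cfsg.Agent.H41.SpinInv
import Cfsg.Agent.H41.StemAb
import Cfsg.Agent.H41.Transport
import Cfsg.Agent.H6.SpCenter
import Cfsg.Agent.S0269

/-!
# The Schur multiplier of `Sp₆(2)` (helper41)

* upper bound: a stem extension `σ : Γ → Sp₆(2)` gives the stem extension `C₂ × Γ → C₂ × Sp₆(2)`
  of the Coxeter group of type `E₇`, whose kernel has order at most `2` (`E7.stem_bound`);
* existence: the universal property gives the action of `C₂ × Sp₆(2)` on `28` points (the pairs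
  of opposite weights of the `56`-dimensional module), in which a transvection is a product of six
  transpositions; the spin cover of `A₂₈` restricts to a non-split double cover.
-/

set_option autoImplicit false

namespace Cfsg.Agent.H41.Sp62

open Cfsg Cfsg.Agent Cfsg.Agent.H41.CoxBound Cfsg.Agent.H41.E7 Matrix

theorem hperf : commutator G1 = ⊤ := Cfsg.Agent.S0269.result 3 (Or.inl (by norm_num))

/-! ### The upper bound -/

theorem bound (Γ : Type) [Group Γ] [Finite Γ] (σ : Γ →* G1) (hσ : IsStemExtension σ) :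
    ∃ π : Multiplicative (ZMod 2) →* σ.ker, Function.Surjective π := by
  obtain ⟨hs, hc, hd⟩ := hσ
  obtain ⟨π, hπ⟩ : ∃ π : C2 × Γ →* W, π = MonoidHom.prodMap (MonoidHom.id C2) σ := ⟨_, rfl⟩
  have hπa : ∀ p : C2 × Γ, π p = (p.1, σ p.2) := by
    intro p; rw [hπ]; rfl
  have hπs : Function.Surjective π := by
    rintro ⟨ε, g⟩
    obtain ⟨x, rfl⟩ := hs g
    exact ⟨(ε, x), hπa _⟩
  have hker : ∀ p : C2 × Γ, p ∈ π.ker ↔ p.1 = 1 ∧ p.2 ∈ σ.ker := by
    intro p
    rw [MonoidHom.mem_ker, hπa, Prod.ext_iff, MonoidHom.mem_ker]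
    rfl
  have hπc : π.ker ≤ Subgroup.center (C2 × Γ) := by
    intro p hp
    rw [hker] at hp
    rw [Subgroup.mem_center_iff]
    intro q
    exact Prod.ext (mul_comm _ _) (Subgroup.mem_center_iff.1 (hc hp.2) q.2)
  have hπd : π.ker ≤ commutator (C2 × Γ) := by
    intro p hp
    rw [hker] at hp
    have h1 : p.2 ∈ commutator Γ := hd hp.2
    have e : p = MonoidHom.inr C2 Γ p.2 := Prod.ext hp.1 rfl
    rw [e]
    have hle : (commutator Γ).map (MonoidHom.inr C2 Γ) ≤ commutator (C2 × Γ) := by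
      rw [commutator_def, Subgroup.map_commutator, commutator_def]
      exact Subgroup.commutator_mono le_top le_top
    exact hle ⟨p.2, h1, rfl⟩
  obtain ⟨z, hz2, hle⟩ := stem_bound π hπs hπc hπd s hrel hgen (fun H _ h hh => UP H h hh)
  have hle' : σ.ker ≤ Subgroup.zpowers z.2 := by
    intro x hx
    have hmem : ((1, x) : C2 × Γ) ∈ π.ker := (hker _).2 ⟨rfl, hx⟩
    obtain ⟨k, hk⟩ := Subgroup.mem_zpowers_iff.1 (hle hmem)
    refine Subgroup.mem_zpowers_iff.2 ⟨k, ?_⟩
    have := congrArg Prod.snd hk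
    rwa [Prod.pow_snd] at this
  have hz2' : z.2 ^ 2 = 1 := by
    have := congrArg Prod.snd hz2
    rwa [Prod.pow_snd] at this
  exact exists_surjective_zmod_of_le_zpowers hz2' σ.ker hle'

/-! ### The action on 28 points -/

def pT : List (List ℕ) := [[0, 1, 2, 3, 4, 7, 6, 5, 9, 8, 11, 10, 14, 13, 12, 17, 16, 15, 21, 19, 20, 18, 22, 23, 24, 25, 26, 27],
  [0, 1, 2, 3, 5, 4, 8, 7, 6, 9, 10, 13, 12, 11, 16, 15, 14, 20, 18, 19, 17, 24, 22, 23, 21, 25, 26, 27],
  [0, 1, 2, 4, 3, 5, 6, 7, 10, 11, 8, 9, 12, 13, 14, 15, 19, 17, 18, 16, 23, 21, 22, 20, 27, 25, 26, 24],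
  [0, 1, 3, 2, 4, 5, 6, 7, 8, 9, 12, 14, 10, 16, 11, 15, 13, 17, 18, 19, 20, 21, 22, 26, 24, 27, 23, 25],
  [0, 1, 2, 3, 6, 8, 4, 9, 5, 7, 10, 11, 12, 13, 14, 15, 16, 17, 18, 22, 20, 21, 19, 25, 24, 23, 27, 26],
  [0, 2, 1, 3, 4, 5, 6, 7, 8, 9, 10, 11, 15, 13, 17, 12, 20, 14, 18, 23, 16, 21, 25, 19, 24, 22, 26, 27],
  [1, 0, 2, 3, 4, 5, 6, 7, 8, 9, 10, 11, 12, 13, 14, 18, 16, 21, 15, 19, 24, 17, 22, 27, 20, 26, 25, 23]]

def pfun (i : ℕ) (x : Fin 28) : Fin 28 :=
  ⟨((pT.getD i []).getD x.val 0) % 28, Nat.mod_lt _ (by norm_num)⟩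

theorem pinv : ∀ i, i < 7 → ∀ x : Fin 28, pfun i (pfun i x) = x := by decide +kernel

theorem pbraid : ∀ i, i < 7 → ∀ j, j < 7 → adjE i j = true → ∀ x : Fin 28,
    pfun i (pfun j (pfun i x)) = pfun j (pfun i (pfun j x)) := by decide +kernel

theorem pcomm : ∀ i, i < 7 → ∀ j, j < 7 → adjE i j = false → ∀ x : Fin 28,
    pfun i (pfun j x) = pfun j (pfun i x) := by decide +kernel

theorem pfix0 : ∀ j : Fin 28, (∀ i, i < 6 → pfun i j = j) → j = 0 := by decide +kernel

theorem pdown : ∀ k : Fin 28, k ≠ 0 → ∃ i, i < 7 ∧ (pfun i k).val < k.val := by decide +kernel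

theorem pzero : ∀ i, i < 6 → pfun i 0 = 0 := by decide +kernel

/-- the seven involutions on 28 points -/
def pp (i : ℕ) : Equiv.Perm (Fin 28) :=
  if h : i < 7 then ⟨pfun i, pfun i, pinv i h, pinv i h⟩ else 1

theorem pp_apply (i : ℕ) (hi : i < 7) (x : Fin 28) : pp i x = pfun i x := by
  rw [pp, dif_pos hi]
  rfl

theorem pp_rel : Rel adjE pp 7 := by
  refine ⟨?_, ?_, ?_⟩
  · intro i hi
    refine Equiv.ext fun x => ?_
    rw [Equiv.Perm.mul_apply, pp_apply i hi, pp_apply i hi, Equiv.Perm.one_apply]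
    exact pinv i hi x
  · intro i j hi hj hij
    refine Equiv.ext fun x => ?_
    simp only [Equiv.Perm.mul_apply, pp_apply i hi, pp_apply j hj]
    exact pbraid i hi j hj hij x
  · intro i j hi hj _ hij
    refine Equiv.ext fun x => ?_
    simp only [Equiv.Perm.mul_apply, pp_apply i hi, pp_apply j hj]
    exact pcomm i hi j hj hij x

theorem central_trivial (c : Equiv.Perm (Fin 28)) (hc : ∀ i, i < 7 → c * pp i = pp i * c) :
    c = 1 := by
  have h0 : c 0 = 0 := by
    apply pfix0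
    intro i hi
    have h := congrArg (fun p : Equiv.Perm (Fin 28) => p 0) (hc i (by omega))
    simp only [Equiv.Perm.mul_apply] at h
    rw [pp_apply i (by omega) 0, pzero i hi] at h
    rw [← pp_apply i (by omega)]
    exact h.symm
  have hall : ∀ n (k : Fin 28), k.val = n → c k = k := by
    intro n
    induction n using Nat.strong_induction_on with
    | _ n ih =>
      intro k hk
      by_cases hk0 : k = 0
      · rw [hk0]; exact h0
      · obtain ⟨i, hi, hlt⟩ := pdown k hk0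
        have h1 := ih _ (by omega) (pfun i k) rfl
        have h := congrArg (fun p : Equiv.Perm (Fin 28) => p (pfun i k)) (hc i hi)
        simp only [Equiv.Perm.mul_apply] at h
        rw [h1, pp_apply i hi, pinv i hi] at h
        exact h
  exact Equiv.ext fun k => hall _ k rfl

/-- the twelve points moved by the first generator -/
def f28 : Fin 12 → Fin 28 := ![5, 7, 8, 9, 10, 11, 12, 14, 15, 17, 18, 21]

theorem f28_inj : Function.Injective f28 := by decide

theorem pp0_eq : pp 0 =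
    Equiv.swap (f28 0) (f28 1) * Equiv.swap (f28 2) (f28 3) *
      (Equiv.swap (f28 4) (f28 5) * Equiv.swap (f28 6) (f28 7)) *
      (Equiv.swap (f28 8) (f28 9) * Equiv.swap (f28 10) (f28 11)) := by
  refine Equiv.ext fun x => ?_
  rw [pp_apply 0 (by norm_num)]
  revert x
  decide +kernel

/-! ### Existence -/

theorem exists_double : ∃ (Γ : Type) (_ : Group Γ) (_ : Finite Γ) (σ : Γ →* G1),
    IsStemExtension σ ∧ Nonempty (σ.ker ≃* Multiplicative (ZMod 2)) := by
  obtain ⟨ρ, hρ⟩ := UP (Equiv.Perm (Fin 28)) pp pp_rel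
  have hc1 : ρ (sg, 1) = 1 := by
    apply central_trivial
    intro i hi
    have e : ((sg, 1) : W) * s i = s i * (sg, 1) :=
      Prod.ext (by show sg * sg = sg * sg; rfl)
        (by show 1 * T (sv i) = T (sv i) * 1; rw [one_mul, mul_one])
    rw [← hρ i hi, ← map_mul, ← map_mul, e]
  obtain ⟨ι0, hι0⟩ : ∃ ι0 : G1 →* Equiv.Perm (Fin 28), ι0 = ρ.comp (MonoidHom.inr C2 G1) :=
    ⟨_, rfl⟩
  have hx : ι0 (T (sv 0)) = pp 0 := by
    rw [hι0]
    show ρ (1, T (sv 0)) = pp 0
    have e : ((1, T (sv 0)) : W) = (sg, 1) * s 0 :=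
      Prod.ext (by show (1 : C2) = sg * sg; exact sg_sq.symm)
        (by show T (sv 0) = 1 * T (sv 0); rw [one_mul])
    rw [e, map_mul, hc1, one_mul, hρ 0 (by norm_num)]
  let ι : G1 →* alternatingGroup (Fin 28) :=
    ι0.codRestrict (alternatingGroup (Fin 28)) (fun g => by
      rw [Equiv.Perm.mem_alternatingGroup]
      have h1 := Abelianization.commutator_subset_ker (Equiv.Perm.sign.comp ι0)
      have h2 : g ∈ commutator G1 := by rw [hperf]; exact Subgroup.mem_top g
      exact MonoidHom.mem_ker.1 (h1 h2))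
  exact Spin.exists_double_cover_of_six_swaps hperf ι (T (sv 0)) (T_sq _) f28 f28_inj
    (by show ι0 (T (sv 0)) = _; rw [hx]; exact pp0_eq)

/-- The Schur multiplier of `Sp₆(2)` is cyclic of order 2. -/
theorem hasCyclicSchurMultiplier_G1 : HasCyclicSchurMultiplier G1 2 :=
  ⟨exists_double, fun Γ _ _ σ hσ => bound Γ σ hσ⟩

/-! ### Transport to `PSp₆(F)` -/

section Transport

variable {F : Type*} [Field F] [Fintype F]

/-- symplectic groups of isomorphic rings are isomorphic -/
def spMap {R S : Type*} [CommRing R] [CommRing S] (e : R ≃+* S) :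
    Matrix.symplecticGroup (Fin 3) R ≃* Matrix.symplecticGroup (Fin 3) S where
  toFun A := ⟨A.1.map e, SymplecticGroup.map_mem A.2 e⟩
  invFun A := ⟨A.1.map e.symm, SymplecticGroup.map_mem A.2 e.symm⟩
  left_inv A := by
    apply Subtype.ext
    ext i j
    simp
  right_inv A := by
    apply Subtype.ext
    ext i j
    simp
  map_mul' A B := by
    apply Subtype.ext
    simp [Matrix.map_mul]

theorem center_eq_bot (hF : Fintype.card F = 2) :
    Subgroup.center (Matrix.symplecticGroup (Fin 3) F) = ⊥ := by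
  have h := H6.card_center_symplectic (l := Fin 3) hF
  exact Subgroup.card_eq_one.1 (by rw [h]; rfl)

/-- `Sp₆(2) ≃* PSp₆(F)` for a field with two elements. -/
noncomputable def pspEquiv (hF : Fintype.card F = 2) : G1 ≃* PSp 3 F :=
  (spMap (ZMod.ringEquivOfPrime F Nat.prime_two hF)).trans
    ((QuotientGroup.quotientMulEquivOfEq (center_eq_bot hF)).trans QuotientGroup.quotientBot).symm

theorem psp_six_two (hF : Fintype.card F = 2) : HasCyclicSchurMultiplier (PSp 3 F) 2 :=
  hasSchurMultiplier_of_mulEquiv (pspEquiv hF) hasCyclicSchurMultiplier_G1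

end Transport

end Cfsg.Agent.H41.Sp62
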