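import Mathlib
import Cfsg.Prelude.Def_KGroupFacts
import Cfsg.Agent.H41.Cores
import Cfsg.Agent.H41.SchurCover
import Cfsg.Agent.H41.ProjRep
import Cfsg.Agent.H41.ProdMult
import Cfsg.Agent.H41.Restrict
import Cfsg.Agent.H41.ExpSq
import Cfsg.Agent.H41.CoverUniq

/-!
# Transfer and corestriction between Schur multipliers; the Sylow direct-factor theorem
-/

set_option autoImplicit false
set_option linter.unusedSectionVars false
set_option linter.style.haveILetI false

namespace Cfsg.Agent.H41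

open Cfsg Cores

universe u v w

section TrCor

variable {G : Type u} [Group G] (H : Subgroup G)


theorem subgroupComap_surjective : Function.Surjective ((freeCentralHom G).subgroupComap H) := by
  rintro ⟨h, hh⟩
  obtain ⟨x, hx⟩ := freeCentralHom_surjective G h
  exact ⟨⟨x, by rw [Subgroup.mem_comap]; rw [← hx] at hh; exact hh⟩, Subtype.ext hx⟩

/-- Auxiliary form of `exists_tr_cor`, with the kernels of the two free central extensions
given as abstract commutative groups. -/
theorem exists_tr_cor_aux [Finite G] [Fintype (G ⧸ H)] [DecidableEq (G ⧸ H)]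
    {K₁ : Type u} [CommGroup K₁] (ι₁ : K₁ →* FreeCentral H)
    (hει₁ : ∀ z, (freeCentralHom ↥H) (ι₁ z) = 1) (hιr₁ : ∀ e, (freeCentralHom ↥H) e = 1 → ∃ z, ι₁ z = e)
    (hc₁ : ∀ z, ι₁ z ∈ Subgroup.center (FreeCentral H)) (hι₁ : Function.Injective ι₁)
    {KX : Type u} [CommGroup KX] (ιX : KX →* FreeCentral G)
    (hψι : ∀ z, (freeCentralHom G) (ιX z) = 1) (hιrX : ∀ x, (freeCentralHom G) x = 1 → ∃ z, ιX z = x)
    (hcX : ∀ z, ιX z ∈ Subgroup.center (FreeCentral G)) (hιX : Function.Injective ιX) :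
    ∃ (tr : hopf G →* hopf H) (cor : hopf H →* hopf G), ∀ a, cor (tr a) = a ^ H.index := by
  classical
  obtain ⟨lam, hlam⟩ := exists_lift_freeCentral G (omega (freeCentralHom ↥H) ι₁)
    (omega_surjective (freeCentralHom ↥H) ι₁ (freeCentralHom_surjective H))
    (omega_ker_le_center (freeCentralHom ↥H) ι₁ hει₁ hιr₁ hc₁)
  have hlam' : ∀ x, omega (freeCentralHom ↥H) ι₁ (lam x) = (freeCentralHom G) x := fun x => DFunLike.congr_fun hlam x
  choose st hst using fun q : G ⧸ H => freeCentralHom_surjective G (rep H q)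
  have hει₂ : ∀ z, ((freeCentralHom G).subgroupComap H) (iotaX (H := H) (freeCentralHom G) ιX hψι z) = 1 := subgroupComap_iotaX (freeCentralHom G) ιX hψι
  have hιr₂ : ∀ e, ((freeCentralHom G).subgroupComap H) e = 1 → ∃ z, iotaX (H := H) (freeCentralHom G) ιX hψι z = e := by
    rintro ⟨x, hx⟩ he
    have hx1 : (freeCentralHom G) x = 1 := congrArg Subtype.val he
    obtain ⟨z, hz⟩ := hιrX x hx1
    exact ⟨z, Subtype.ext hz⟩
  have hc₂ : ∀ z, iotaX (H := H) (freeCentralHom G) ιX hψι z ∈ Subgroup.center ↥(H.comap (freeCentralHom G)) := by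
    intro z
    rw [Subgroup.mem_center_iff]
    intro e
    apply Subtype.ext
    exact Subgroup.mem_center_iff.1 (hcX z) e.1
  have hι₂inj : Function.Injective (iotaX (H := H) (freeCentralHom G) ιX hψι) := by
    intro z z' h
    apply hιX
    exact congrArg (fun e : ↥(H.comap (freeCentralHom G)) => (e : FreeCentral G)) h
  obtain ⟨θ, hθ⟩ := exists_lift_freeCentral H ((freeCentralHom G).subgroupComap H) (subgroupComap_surjective H)
    (subgroupComap_ker_le_center (freeCentralHom G) (freeCentralHom_ker_le_center G) H)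
  have hθε : ∀ e, ((freeCentralHom G).subgroupComap H) (θ e) = (freeCentralHom ↥H) e := fun e => DFunLike.congr_fun hθ e
  -- the map on kernels
  have hθk : ∀ z : K₁, ∃ zX : KX, ιX zX = ((θ (ι₁ z) : ↥(H.comap (freeCentralHom G))) : FreeCentral G) := by
    intro z
    apply hιrX
    have h1 : ((freeCentralHom G).subgroupComap H) (θ (ι₁ z)) = 1 := by rw [hθε, hει₁]
    exact congrArg Subtype.val h1
  choose θK₀ hθK₀ using hθk
  let θK : K₁ →* KX :=
    { toFun := θK₀
      map_one' := by
        apply hιX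
        rw [hθK₀, map_one, map_one, map_one]
        rfl
      map_mul' := fun z z' => by
        apply hιX
        rw [hθK₀, map_mul, map_mul, map_mul, hθK₀, hθK₀]
        rfl }
  have hθι : ∀ z, θ (ι₁ z) = iotaX (H := H) (freeCentralHom G) ιX hψι (θK z) :=
    fun z => Subtype.ext (hθK₀ z).symm
  -- the kernel of `omega` identified with `K₁`
  let κ' : K₁ →* (omega (freeCentralHom ↥H) ι₁).ker :=
    (kappa (freeCentralHom ↥H) ι₁ hει₁).codRestrict _ (fun z => omega_kappa (freeCentralHom ↥H) ι₁ hει₁ z)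
  have hκ'bij : Function.Bijective κ' := by
    constructor
    · intro z z' h
      exact kappa_injective (freeCentralHom ↥H) ι₁ hει₁ hι₁ hc₁ (congrArg Subtype.val h)
    · rintro ⟨y, hy⟩
      obtain ⟨z, hz⟩ := exists_kappa_eq (freeCentralHom ↥H) ι₁ hει₁ hιr₁ y hy
      exact ⟨z, Subtype.ext hz⟩
  let κe : K₁ ≃* (omega (freeCentralHom ↥H) ι₁).ker := MulEquiv.ofBijective κ' hκ'bij
  let lam' : hopf G →* (omega (freeCentralHom ↥H) ι₁).ker :=
    (lam.comp (hopf G).subtype).codRestrict _ (by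
      intro a
      show omega (freeCentralHom ↥H) ι₁ (lam a.1) = 1
      rw [hlam']
      exact a.2.1)
  let tr₀ : hopf G →* K₁ := κe.symm.toMonoidHom.comp lam'
  have htr₀ : ∀ a : hopf G, kappa (freeCentralHom ↥H) ι₁ hει₁ (tr₀ a) = lam a.1 := by
    intro a
    have h1 : κe (tr₀ a) = lam' a := κe.apply_symm_apply (lam' a)
    exact congrArg Subtype.val h1
  have htr₀c : ∀ a : hopf G, ι₁ (tr₀ a) ∈ hopf H := by
    intro a
    refine ⟨hει₁ _, ?_⟩
    have h1 : lam a.1 ∈ commutator (Y (freeCentralHom ↥H) ι₁) :=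
      map_commutator_le lam (Subgroup.mem_map_of_mem lam a.2.2)
    have h2 : beta (freeCentralHom ↥H) ι₁ (lam a.1) = 1 := Abelianization.commutator_subset_ker _ h1
    rw [← htr₀, beta_kappa] at h2
    exact (QuotientGroup.eq_one_iff _).1 h2
  let tr : hopf G →* hopf H := (ι₁.comp tr₀).codRestrict (hopf H) htr₀c
  let cor : hopf H →* hopf G :=
    ((H.comap (freeCentralHom G)).subtype.comp (θ.comp (hopf H).subtype)).codRestrict (hopf G) (by
      intro z
      refine ⟨?_, ?_⟩
      · show (freeCentralHom G) ((θ z.1 : ↥(H.comap (freeCentralHom G))) : FreeCentral G) = 1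
        have h1 : ((freeCentralHom G).subgroupComap H) (θ z.1) = 1 := by rw [hθε]; exact z.2.1
        exact congrArg Subtype.val h1
      · exact map_commutator_le ((H.comap (freeCentralHom G)).subtype.comp θ) (Subgroup.mem_map_of_mem _ z.2.2))
  refine ⟨tr, cor, ?_⟩
  intro a
  -- compare the two maps into the corestriction of the restricted extension
  obtain ⟨za, hza⟩ := hιrX a.1 a.2.1
  have hcen : ∀ x, (yMap (freeCentralHom ↥H) ι₁ ((freeCentralHom G).subgroupComap H) (iotaX (H := H) (freeCentralHom G) ιX hψι) θ θK hθε hθι (lam x)) *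
      (jbar (freeCentralHom G) st ιX hst hψι x)⁻¹ ∈
        Subgroup.center (Y ((freeCentralHom G).subgroupComap H) (iotaX (H := H) (freeCentralHom G) ιX hψι)) := by
    intro x
    apply omega_ker_le_center ((freeCentralHom G).subgroupComap H) (iotaX (H := H) (freeCentralHom G) ιX hψι) hει₂ hιr₂ hc₂
    rw [MonoidHom.mem_ker, map_mul, map_inv, omega_yMap, hlam', omega_jbar, mul_inv_cancel]
  have heq := eq_on_commutator_of_center
    ((yMap (freeCentralHom ↥H) ι₁ ((freeCentralHom G).subgroupComap H) (iotaX (H := H) (freeCentralHom G) ιX hψι) θ θK hθε hθι).comp lam)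
    (jbar (freeCentralHom G) st ιX hst hψι) hcen a.2.2
  have h1 : yMap (freeCentralHom ↥H) ι₁ ((freeCentralHom G).subgroupComap H) (iotaX (H := H) (freeCentralHom G) ιX hψι) θ θK hθε hθι (lam a.1) =
      kappa ((freeCentralHom G).subgroupComap H) (iotaX (H := H) (freeCentralHom G) ιX hψι) hει₂ (θK (tr₀ a)) := by
    rw [← htr₀, yMap_kappa (freeCentralHom ↥H) ι₁ ((freeCentralHom G).subgroupComap H) (iotaX (H := H) (freeCentralHom G) ιX hψι) θ θK hθε hθι hει₁ hει₂]
  have h2 : jbar (freeCentralHom G) st ιX hst hψι a.1 =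
      kappa ((freeCentralHom G).subgroupComap H) (iotaX (H := H) (freeCentralHom G) ιX hψι) hει₂ (za ^ Fintype.card (G ⧸ H)) := by
    rw [← hza]
    exact jbar_iotaX (freeCentralHom G) st ιX hst hψι hcX za
  have h3 : θK (tr₀ a) = za ^ Fintype.card (G ⧸ H) :=
    kappa_injective ((freeCentralHom G).subgroupComap H) (iotaX (H := H) (freeCentralHom G) ιX hψι) hει₂ hι₂inj hc₂ (h1.symm.trans (heq.trans h2))
  apply Subtype.ext
  show ((θ (ι₁ (tr₀ a)) : ↥(H.comap (freeCentralHom G))) : FreeCentral G) = a.1 ^ H.index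
  rw [← hθK₀]
  show ιX (θK (tr₀ a)) = _
  rw [h3, map_pow, hza, Subgroup.index_eq_card, Nat.card_eq_fintype_card]

/-- For a subgroup `H` of a finite group `G` there are homomorphisms `tr : M(G) → M(H)` and
`cor : M(H) → M(G)` with `cor ∘ tr` the `[G : H]`-th power map. -/
theorem exists_tr_cor [Finite G] :
    ∃ (tr : hopf G →* hopf H) (cor : hopf H →* hopf G), ∀ a, cor (tr a) = a ^ H.index := by
  classical
  haveI : Fintype (G ⧸ H) := Fintype.ofFinite _
  letI cK₁ : CommGroup (freeCentralHom H).ker :=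
    commGroupOfLeCenter _ (freeCentralHom_ker_le_center H)
  letI cK₂ : CommGroup (freeCentralHom G).ker :=
    commGroupOfLeCenter _ (freeCentralHom_ker_le_center G)
  exact exists_tr_cor_aux H (freeCentralHom H).ker.subtype (fun z => z.2)
    (fun e he => ⟨⟨e, he⟩, rfl⟩) (fun z => freeCentralHom_ker_le_center H z.2)
    Subtype.val_injective (freeCentralHom G).ker.subtype (fun z => z.2)
    (fun e he => ⟨⟨e, he⟩, rfl⟩) (fun z => freeCentralHom_ker_le_center G z.2)
    Subtype.val_injective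

end TrCor

/-- Splitting lemma: if `c ∘ t` is the `k`-th power map with `k` prime to `p` and `B` is a
`p`-group, then the `p`-primary component of `A` is a direct factor of `B`. -/
theorem exists_direct_factor {A B : Type*} [CommGroup A] [CommGroup B] (p : ℕ) [Fact p.Prime]
    (hB : IsPGroup p B) (t : A →* B) (c : B →* A) (k : ℕ) (hk : Nat.Coprime k p)
    (h : ∀ a, c (t a) = a ^ k) :
    ∃ C D : Subgroup B, C ⊓ D = ⊥ ∧ C ⊔ D = ⊤ ∧
      Nonempty (CommGroup.primaryComponent A p ≃* C) := by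
  have hp : p.Prime := Fact.out
  let t' : CommGroup.primaryComponent A p →* B := t.comp (Subgroup.subtype _)
  have hkill : ∀ a : A, a ∈ CommGroup.primaryComponent A p → a ^ k = 1 → a = 1 := by
    intro a ha hak
    obtain ⟨n, hn⟩ := ha
    have := zpow_bezout (Nat.Coprime.pow_right n hk) a hn
    rw [hak, one_zpow] at this
    exact this.symm
  have hinj : Function.Injective t' := by
    rw [injective_iff_map_eq_one]
    rintro ⟨a, ha⟩ h1
    have h2 : t a = 1 := h1
    have h3 : a ^ k = 1 := by rw [← h, h2, map_one]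
    exact Subtype.ext (hkill a ha h3)
  refine ⟨t'.range, c.ker, ?_, ?_, ⟨MonoidHom.ofInjective hinj⟩⟩
  · rw [eq_bot_iff]
    rintro x ⟨⟨⟨a, ha⟩, rfl⟩, hx⟩
    have h2 : c (t a) = 1 := hx
    rw [h] at h2
    have h3 := hkill a ha h2
    show t a ∈ (⊥ : Subgroup B)
    rw [h3, map_one]
    exact Subgroup.one_mem _
  · rw [eq_top_iff]
    intro x _
    obtain ⟨n, hn⟩ := hB x
    have hb : c x ^ p ^ n = 1 := by rw [← map_pow, hn, map_one]
    set a' : A := c x ^ (Nat.gcdA k (p ^ n)) with ha'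
    have ha'mem : a' ∈ CommGroup.primaryComponent A p :=
      Subgroup.zpow_mem _ (show c x ∈ CommGroup.primaryComponent A p from ⟨n, hb⟩) _
    have hca' : c (t a') = c x := by
      rw [h, ha', ← zpow_natCast, ← zpow_mul, mul_comm, zpow_mul, zpow_natCast]
      exact zpow_bezout (Nat.Coprime.pow_right n hk) (c x) hb
    rw [Subgroup.mem_sup]
    refine ⟨t a', ⟨⟨a', ha'mem⟩, rfl⟩, x * (t a')⁻¹, ?_, by rw [mul_comm, inv_mul_cancel_right]⟩
    rw [MonoidHom.mem_ker, map_mul, map_inv, hca', mul_inv_cancel]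

/-- **Sylow direct factor theorem** for Schur multipliers. -/
theorem primaryComponent_direct_factor {G : Type u} [Group G] [Finite G] (p : ℕ) [Fact p.Prime]
    (P : Sylow p G) {A : Type v} {B : Type w} [CommGroup A] [CommGroup B]
    (hA : HasSchurMultiplier G A) (hB : HasSchurMultiplier P B) :
    ∃ C D : Subgroup B, C ⊓ D = ⊥ ∧ C ⊔ D = ⊤ ∧
      Nonempty (CommGroup.primaryComponent A p ≃* C) := by
  have hp : p.Prime := Fact.out
  obtain ⟨eA⟩ := mulEquiv_of_hasSchurMultiplier hA (hasSchurMultiplier_schurM G)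
  obtain ⟨eB⟩ := mulEquiv_of_hasSchurMultiplier hB (hasSchurMultiplier_schurM P)
  obtain ⟨tr, cor, htc⟩ := exists_tr_cor (G := G) (P : Subgroup G)
  let eA' : A ≃* hopf G := eA.trans (schurMEquiv G)
  let eB' : B ≃* hopf (P : Subgroup G) := eB.trans (schurMEquiv P)
  have hBp : IsPGroup p B := by
    obtain ⟨⟨Γ, _, _, σ, hσ, ⟨e⟩⟩, -⟩ := hB
    have h1 := exponent_ker_sq_dvd σ hσ
    obtain ⟨n, hn⟩ := IsPGroup.iff_card.1 P.2
    rw [hn, Monoid.exponent_eq_of_mulEquiv e] at h1
    have h2 : Monoid.exponent B ∣ p ^ n := dvd_trans (dvd_pow_self _ two_ne_zero) h1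
    obtain ⟨j, -, hj⟩ := (Nat.dvd_prime_pow hp).1 h2
    intro b
    exact ⟨j, by rw [← hj]; exact Monoid.pow_exponent_eq_one b⟩
  have hk : Nat.Coprime (P : Subgroup G).index p :=
    (Nat.Coprime.symm ((Nat.Prime.coprime_iff_not_dvd hp).2 P.not_dvd_index))
  refine exists_direct_factor p hBp (eB'.symm.toMonoidHom.comp (tr.comp eA'.toMonoidHom))
    (eA'.symm.toMonoidHom.comp (cor.comp eB'.toMonoidHom)) _ hk ?_
  intro a
  show eA'.symm (cor (eB' (eB'.symm (tr (eA' a))))) = a ^ (P : Subgroup G).index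
  rw [MulEquiv.apply_symm_apply, htc, map_pow, MulEquiv.symm_apply_apply]

end Cfsg.Agent.H41
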