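import Cfsg.Agent.H41.SzOrder
import Cfsg.Agent.H41.SzModel
import Cfsg.Agent.H41.SzLift
import Cfsg.Agent.H41.Transport

/-!
# The Schur multiplier of the presented group `Sz(8)` (helper41)

`Pr relW` is the group presented by the relators of `SzGlue`, `Pr hatW` the group in which the
last two relators are only central involutions.  The natural map `psi : Pr hatW → Pr relW` is a
stem extension with kernel a four-group (the model on `2080` points separates the kernel), and
every finite stem extension of `Pr relW` receives a map from `Pr hatW` (involutions lift to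
involutions by the Frobenius lemma, and the lifts can be normalised to satisfy the exact relators).
-/

set_option autoImplicit false

namespace Cfsg.Agent.H41.SzP

open Cfsg Cfsg.Agent.H35
open scoped commutatorElement

/-! ### Evaluation of the relator words -/

section Words

variable {K : Type*} [Group K] (f : Gen → K)

theorem ev_AB : uw f wAB = (f .a * f .b) ^ 7 := by
  simp [uw, wAB, pow_succ, mul_assoc]

theorem ev_BC : uw f wBC = (f .b * f .c) ^ 7 := by
  simp [uw, wBC, pow_succ, mul_assoc]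

theorem ev_R1 : uw f wR1 = (f .a * f .c) ^ 7 := by
  simp [uw, wR1, pow_succ, mul_assoc]

theorem ev_R2 : uw f wR2 = (f .c * (f .b * f .a * f .b)) ^ 5 := by
  simp [uw, wR2, pow_succ, mul_assoc]

variable (hf : ∀ x, f x * f x = 1)
include hf

theorem ev_F : uw f wF = T (f .b * f .c) (f .a) 3 * (f .a * T (f .b * f .c) (f .a) 1) := by
  have hb : (f .b)⁻¹ = f .b := inv_eq_of_mul_eq_one_left (hf .b)
  have hc : (f .c)⁻¹ = f .c := inv_eq_of_mul_eq_one_left (hf .c)
  simp only [uw, wF, T, List.map, List.prod_cons, List.prod_nil, pow_succ, pow_zero, one_mul,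
    mul_one, mul_inv_rev, hb, hc, mul_assoc]

theorem ev_C1 : uw f wC1 =
    (f .a * T (f .b * f .c) (f .a) 1) * (f .a * T (f .b * f .c) (f .a) 1) := by
  have hb : (f .b)⁻¹ = f .b := inv_eq_of_mul_eq_one_left (hf .b)
  have hc : (f .c)⁻¹ = f .c := inv_eq_of_mul_eq_one_left (hf .c)
  simp only [uw, wC1, T, List.map, List.prod_cons, List.prod_nil, pow_succ, pow_zero, one_mul,
    mul_one, mul_inv_rev, hb, hc, mul_assoc]

theorem ev_C2 : uw f wC2 =
    (f .a * T (f .b * f .c) (f .a) 2) * (f .a * T (f .b * f .c) (f .a) 2) := by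
  have hb : (f .b)⁻¹ = f .b := inv_eq_of_mul_eq_one_left (hf .b)
  have hc : (f .c)⁻¹ = f .c := inv_eq_of_mul_eq_one_left (hf .c)
  simp only [uw, wC2, T, List.map, List.prod_cons, List.prod_nil, pow_succ, pow_zero, one_mul,
    mul_one, mul_inv_rev, hb, hc, mul_assoc]

theorem ev_C3 : uw f wC3 =
    (f .a * T (f .b * f .c) (f .a) 3) * (f .a * T (f .b * f .c) (f .a) 3) := by
  have hb : (f .b)⁻¹ = f .b := inv_eq_of_mul_eq_one_left (hf .b)
  have hc : (f .c)⁻¹ = f .c := inv_eq_of_mul_eq_one_left (hf .c)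
  simp only [uw, wC3, T, List.map, List.prod_cons, List.prod_nil, pow_succ, pow_zero, one_mul,
    mul_one, mul_inv_rev, hb, hc, mul_assoc]

theorem ev_C4 : uw f wC4 =
    (f .a * T (f .b * f .c) (f .a) 4) * (f .a * T (f .b * f .c) (f .a) 4) := by
  have hb : (f .b)⁻¹ = f .b := inv_eq_of_mul_eq_one_left (hf .b)
  have hc : (f .c)⁻¹ = f .c := inv_eq_of_mul_eq_one_left (hf .c)
  simp only [uw, wC4, T, List.map, List.prod_cons, List.prod_nil, pow_succ, pow_zero, one_mul,
    mul_one, mul_inv_rev, hb, hc, mul_assoc]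

theorem ev_C5 : uw f wC5 =
    (f .a * T (f .b * f .c) (f .a) 5) * (f .a * T (f .b * f .c) (f .a) 5) := by
  have hb : (f .b)⁻¹ = f .b := inv_eq_of_mul_eq_one_left (hf .b)
  have hc : (f .c)⁻¹ = f .c := inv_eq_of_mul_eq_one_left (hf .c)
  simp only [uw, wC5, T, List.map, List.prod_cons, List.prod_nil, pow_succ, pow_zero, one_mul,
    mul_one, mul_inv_rev, hb, hc, mul_assoc]

/-- the relators of the covering group, from the exact relators and two central involutions -/
theorem hat_rel (hex : ∀ w ∈ exW, uw f w = 1)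
    (h1 : uw f wR1 * uw f wR1 = 1) (h2 : uw f wR2 * uw f wR2 = 1)
    (c1 : ∀ x, uw f wR1 * f x = f x * uw f wR1) (c2 : ∀ x, uw f wR2 * f x = f x * uw f wR2) :
    ∀ w ∈ hatW, uw f w = 1 := by
  have key : ∀ (R : List Gen) (x : Gen), uw f R * f x = f x * uw f R →
      uw f (R ++ [x] ++ R.reverse ++ [x]) = 1 := by
    intro R x h
    have hx : uw f [x] = f x := by simp [uw]
    rw [uw_append, uw_append, uw_append, uw_reverse f hf, hx, h, mul_assoc (f x),
      mul_inv_cancel, mul_one]
    exact hf x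
  intro w hw
  simp only [hatW, List.mem_append, List.mem_cons, List.not_mem_nil, or_false] at hw
  rcases hw with h | rfl | rfl | rfl | rfl | rfl | rfl | rfl | rfl
  · exact hex w h
  · rw [uw_append]; exact h1
  · exact key _ _ (c1 _)
  · exact key _ _ (c1 _)
  · exact key _ _ (c1 _)
  · rw [uw_append]; exact h2
  · exact key _ _ (c2 _)
  · exact key _ _ (c2 _)
  · exact key _ _ (c2 _)

end Words

/-! ### Relations in the presented group -/

theorem pgAB7 : (pg relW .a * pg relW .b) ^ 7 = 1 := by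
  rw [← ev_AB]; exact pg_rel relW _ (by decide)

theorem pgX7 : (pg relW .b * pg relW .c) ^ 7 = 1 := by
  rw [← ev_BC]; exact pg_rel relW _ (by decide)

theorem pgT_sq (d : ℕ) :
    T (pg relW .b * pg relW .c) (pg relW .a) d * T (pg relW .b * pg relW .c) (pg relW .a) d = 1 := by
  rw [T_mul_self, sz_inv .a]; group

theorem pgκ : ∀ d, 1 ≤ d → d ≤ 5 →
    pg relW .a * T (pg relW .b * pg relW .c) (pg relW .a) d =
      T (pg relW .b * pg relW .c) (pg relW .a) d * pg relW .a := by
  intro d h1 h5
  have h : (pg relW .a * T (pg relW .b * pg relW .c) (pg relW .a) d) *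
      (pg relW .a * T (pg relW .b * pg relW .c) (pg relW .a) d) = 1 := by
    interval_cases d
    · rw [← ev_C1 _ sz_inv]; exact pg_rel relW _ (by decide)
    · rw [← ev_C2 _ sz_inv]; exact pg_rel relW _ (by decide)
    · rw [← ev_C3 _ sz_inv]; exact pg_rel relW _ (by decide)
    · rw [← ev_C4 _ sz_inv]; exact pg_rel relW _ (by decide)
    · rw [← ev_C5 _ sz_inv]; exact pg_rel relW _ (by decide)
  have h2 := eq_inv_of_mul_eq_one_left h
  rw [mul_inv_rev, inv_eq_of_mul_eq_one_left (pgT_sq d),
    inv_eq_of_mul_eq_one_left (sz_inv .a)] at h2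
  exact h2

theorem pgγ : pg relW .a * T (pg relW .b * pg relW .c) (pg relW .a) 1 =
    T (pg relW .b * pg relW .c) (pg relW .a) 3 := by
  have h : T (pg relW .b * pg relW .c) (pg relW .a) 3 *
      (pg relW .a * T (pg relW .b * pg relW .c) (pg relW .a) 1) = 1 := by
    rw [← ev_F _ sz_inv]; exact pg_rel relW _ (by decide)
  rw [eq_inv_of_mul_eq_one_right h, inv_eq_of_mul_eq_one_left (pgT_sq 3)]

/-! ### The covering group -/

theorem psi_rel : ∀ w ∈ hatW, uw (pg relW) w = 1 := by
  have hR1 : uw (pg relW) wR1 = 1 := pg_rel relW _ (by decide)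
  have hR2 : uw (pg relW) wR2 = 1 := pg_rel relW _ (by decide)
  refine hat_rel (pg relW) sz_inv (fun w h => pg_rel relW w (List.mem_append_left _ h)) ?_ ?_ ?_ ?_
  · rw [hR1, one_mul]
  · rw [hR2, one_mul]
  · intro x; rw [hR1, one_mul, mul_one]
  · intro x; rw [hR2, one_mul, mul_one]

/-- the natural map from the covering group -/
noncomputable def psi : Pr hatW →* Pr relW := up hatW (pg relW) psi_rel

theorem psi_pg (x : Gen) : psi (pg hatW x) = pg relW x := up_pg hatW (pg relW) psi_rel x

theorem psi_surj : Function.Surjective psi := by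
  rw [← MonoidHom.range_eq_top, eq_top_iff, ← closure_pg relW, Subgroup.closure_le]
  rintro _ ⟨x, rfl⟩
  exact ⟨pg hatW x, psi_pg x⟩

/-- the first central involution -/
def rho1 : Pr hatW := uw (pg hatW) wR1

/-- the second central involution -/
def rho2 : Pr hatW := uw (pg hatW) wR2

theorem hat_inv (x : Gen) : pg hatW x * pg hatW x = 1 := by
  have h : uw (pg hatW) [x, x] = 1 := pg_rel hatW _ (by cases x <;> decide)
  simpa [uw] using h

theorem rho1_sq : rho1 * rho1 = 1 := by
  have h := pg_rel hatW (wR1 ++ wR1) (by decide)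
  rwa [uw_append] at h

theorem rho2_sq : rho2 * rho2 = 1 := by
  have h := pg_rel hatW (wR2 ++ wR2) (by decide)
  rwa [uw_append] at h

theorem gen_comm (R : List Gen) (x : Gen) (hm : R ++ [x] ++ R.reverse ++ [x] ∈ hatW) :
    uw (pg hatW) R * pg hatW x = pg hatW x * uw (pg hatW) R := by
  have h := pg_rel hatW _ hm
  have hx : uw (pg hatW) [x] = pg hatW x := by simp [uw]
  rw [uw_append, uw_append, uw_append, uw_reverse _ hat_inv, hx] at h
  have hgi : (pg hatW x)⁻¹ = pg hatW x := inv_eq_of_mul_eq_one_left (hat_inv x)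
  calc uw (pg hatW) R * pg hatW x
      = (uw (pg hatW) R * pg hatW x * (uw (pg hatW) R)⁻¹ * pg hatW x) *
          ((pg hatW x)⁻¹ * uw (pg hatW) R) := by group
    _ = pg hatW x * uw (pg hatW) R := by rw [h, one_mul, hgi]

theorem cen_of_gen (r : Pr hatW) (h : ∀ x, r * pg hatW x = pg hatW x * r) : Cen r := by
  intro p
  have hp : p ∈ Subgroup.closure (Set.range (pg hatW)) := by rw [closure_pg]; trivial
  have hle : Subgroup.closure (Set.range (pg hatW)) ≤ Subgroup.centralizer {r} := by
    rw [Subgroup.closure_le]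
    rintro _ ⟨x, rfl⟩
    rw [SetLike.mem_coe, Subgroup.mem_centralizer_iff]
    intro y hy
    rw [Set.mem_singleton_iff] at hy
    subst hy
    exact h x
  have h2 := hle hp
  rw [Subgroup.mem_centralizer_iff] at h2
  exact h2 r rfl

theorem rho1_cen : Cen rho1 :=
  cen_of_gen rho1 (fun x => gen_comm wR1 x (by cases x <;> decide))

theorem rho2_cen : Cen rho2 :=
  cen_of_gen rho2 (fun x => gen_comm wR2 x (by cases x <;> decide))

/-- the four-group generated by two central involutions -/
def four {Γ : Type*} [Group Γ] (p q : Γ) (hp : p * p = 1) (hq : q * q = 1) (hpc : Cen p)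
    (hqc : Cen q) : Subgroup Γ where
  carrier := {x | x = 1 ∨ x = p ∨ x = q ∨ x = p * q}
  mul_mem' := by
    have e1 : p * (p * q) = q := by rw [← mul_assoc, hp, one_mul]
    have e2 : q * p = p * q := hqc p
    have e3 : q * (p * q) = p := by rw [← mul_assoc, e2, mul_assoc, hq, mul_one]
    have e4 : p * q * p = q := by rw [mul_assoc, e2, ← mul_assoc, hp, one_mul]
    have e5 : p * q * q = p := by rw [mul_assoc, hq, mul_one]
    have e6 : p * q * (p * q) = 1 := by rw [mul_assoc, e3, hp]
    rintro x y (rfl | rfl | rfl | rfl) (rfl | rfl | rfl | rfl) <;>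
      simp [hp, hq, e1, e2, e3, e4, e5, e6]
  one_mem' := Or.inl rfl
  inv_mem' := by
    have e2 : q * p = p * q := hqc p
    have e3 : q * (p * q) = p := by rw [← mul_assoc, e2, mul_assoc, hq, mul_one]
    have e6 : p * q * (p * q) = 1 := by rw [mul_assoc, e3, hp]
    rintro x (rfl | rfl | rfl | rfl)
    · left; exact inv_one
    · right; left; exact inv_eq_of_mul_eq_one_left hp
    · right; right; left; exact inv_eq_of_mul_eq_one_left hq
    · right; right; right; exact inv_eq_of_mul_eq_one_left e6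

theorem four_cen {Γ : Type*} [Group Γ] (p q : Γ) (hp : p * p = 1) (hq : q * q = 1) (hpc : Cen p)
    (hqc : Cen q) {x : Γ} (hx : x ∈ four p q hp hq hpc hqc) : Cen x := by
  rcases hx with rfl | rfl | rfl | rfl
  · intro g; simp
  · exact hpc
  · exact hqc
  · intro g; rw [mul_assoc, hqc g, ← mul_assoc, hpc g, mul_assoc]

theorem four_sq {Γ : Type*} [Group Γ] (p q : Γ) (hp : p * p = 1) (hq : q * q = 1) (hpc : Cen p)
    (hqc : Cen q) {x : Γ} (hx : x ∈ four p q hp hq hpc hqc) : x * x = 1 := by
  rcases hx with rfl | rfl | rfl | rfl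
  · simp
  · exact hp
  · exact hq
  · have e2 : q * p = p * q := hqc p
    rw [mul_assoc, ← mul_assoc q, e2, mul_assoc, hq, mul_one, hp]

instance four_normal {Γ : Type*} [Group Γ] (p q : Γ) (hp : p * p = 1) (hq : q * q = 1)
    (hpc : Cen p) (hqc : Cen q) : (four p q hp hq hpc hqc).Normal :=
  ⟨fun x hx g => by rw [(four_cen p q hp hq hpc hqc hx).conj]; exact hx⟩

/-- the kernel of the covering map -/
def N : Subgroup (Pr hatW) := four rho1 rho2 rho1_sq rho2_sq rho1_cen rho2_cen

instance N_normal : N.Normal := four_normal _ _ _ _ _ _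

/-- the presented group maps to the quotient of the covering group by the four-group -/
noncomputable def theta : Pr relW →* Pr hatW ⧸ N :=
  up relW (fun x => QuotientGroup.mk' N (pg hatW x)) (by
    intro w hw
    rw [← map_uw (QuotientGroup.mk' N) (pg hatW) w, QuotientGroup.mk'_apply,
      QuotientGroup.eq_one_iff]
    simp only [relW, List.mem_append, List.mem_cons, List.not_mem_nil, or_false] at hw
    rcases hw with h | rfl | rfl
    · rw [pg_rel hatW w (List.mem_append_left _ h)]; exact N.one_mem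
    · exact Or.inr (Or.inl rfl)
    · exact Or.inr (Or.inr (Or.inl rfl)))

theorem theta_psi : theta.comp psi = QuotientGroup.mk' N :=
  hom_ext hatW _ _ (fun x => by
    rw [MonoidHom.comp_apply, psi_pg]
    exact up_pg relW _ _ x)

theorem ker_le : psi.ker ≤ N := by
  intro p hp
  have h : QuotientGroup.mk' N p = 1 := by
    rw [← theta_psi, MonoidHom.comp_apply, MonoidHom.mem_ker.1 hp, map_one]
  exact (QuotientGroup.eq_one_iff p).1 h

theorem psi_rho1 : psi rho1 = 1 := by
  unfold rho1
  rw [map_uw]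
  have h : (fun x => psi (pg hatW x)) = pg relW := funext psi_pg
  rw [h]
  exact pg_rel relW _ (by decide)

theorem psi_rho2 : psi rho2 = 1 := by
  unfold rho2
  rw [map_uw]
  have h : (fun x => psi (pg hatW x)) = pg relW := funext psi_pg
  rw [h]
  exact pg_rel relW _ (by decide)

theorem ker_eq : psi.ker = N := by
  apply le_antisymm ker_le
  rintro x (rfl | rfl | rfl | rfl)
  · exact one_mem _
  · exact MonoidHom.mem_ker.2 psi_rho1
  · exact MonoidHom.mem_ker.2 psi_rho2
  · exact MonoidHom.mem_ker.2 (by rw [map_mul, psi_rho1, psi_rho2, one_mul])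

theorem rho1_ne : rho1 ≠ 1 := fun h => mu_r1 (by rw [← rho1, h, map_one])

theorem rho2_ne : rho2 ≠ 1 := fun h => mu_r2 (by rw [← rho2, h, map_one])

theorem rho12_ne : rho1 ≠ rho2 := fun h => mu_r12 (by rw [← rho1, ← rho2, h])

theorem card4 [DecidableEq (Pr hatW)] :
    ({1, rho1, rho2, rho1 * rho2} : Finset (Pr hatW)).card = 4 := by
  rw [Finset.card_insert_of_notMem, Finset.card_insert_of_notMem,
    Finset.card_insert_of_notMem, Finset.card_singleton]
  · rw [Finset.mem_singleton]
    intro h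
    exact rho1_ne (mul_eq_right.1 h.symm)
  · rw [Finset.mem_insert, Finset.mem_singleton]
    rintro (h | h)
    · exact rho12_ne h
    · exact rho2_ne (mul_eq_left.1 h.symm)
  · rw [Finset.mem_insert, Finset.mem_insert, Finset.mem_singleton]
    rintro (h | h | h)
    · exact rho1_ne h.symm
    · exact rho2_ne h.symm
    · apply rho12_ne
      have h1 : rho1 = rho2⁻¹ := eq_inv_of_mul_eq_one_left h.symm
      rw [h1]
      exact inv_eq_of_mul_eq_one_left rho2_sq

theorem N_set : (N : Set (Pr hatW)) = {1, rho1, rho2, rho1 * rho2} := rfl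

theorem card_N : Nat.card N = 4 := by
  classical
  have h : Nat.card N = (N : Set (Pr hatW)).ncard := Nat.card_coe_set_eq _
  have hS : (({1, rho1, rho2, rho1 * rho2} : Finset (Pr hatW)) : Set (Pr hatW)) =
      {1, rho1, rho2, rho1 * rho2} := by simp
  rw [h, N_set, ← hS, Set.ncard_coe_finset, card4]

instance N_finite : Finite N := Nat.finite_of_card_ne_zero (by rw [card_N]; norm_num)

theorem N_klein : Nonempty (N ≃* Multiplicative (ZMod 2 × ZMod 2)) := by
  have hexp : Monoid.exponent N = 2 := by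
    have hd : Monoid.exponent N ∣ 2 := by
      apply Monoid.exponent_dvd_of_forall_pow_eq_one
      intro x
      apply Subtype.ext
      show x.1 ^ 2 = 1
      rw [pow_two]
      exact four_sq _ _ _ _ _ _ x.2
    rcases (Nat.dvd_prime Nat.prime_two).1 hd with h | h
    · exfalso
      apply rho1_ne
      have h1 := Monoid.pow_exponent_eq_one (⟨rho1, Or.inr (Or.inl rfl)⟩ : N)
      rw [h, pow_one] at h1
      exact congrArg (fun x : N => x.1) h1
    · exact h
  have : IsKleinFour N := ⟨card_N, hexp⟩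
  exact IsKleinFour.nonempty_mulEquiv

theorem ker_klein : Nonempty (psi.ker ≃* Multiplicative (ZMod 2 × ZMod 2)) := by
  obtain ⟨e⟩ := N_klein
  exact ⟨(MulEquiv.subgroupCongr ker_eq).trans e⟩

/-- the covering group is finite -/
instance hat_finite : Finite (Pr hatW) := by
  have h1 : Finite psi.ker := Finite.of_equiv N (MulEquiv.subgroupCongr ker_eq).symm.toEquiv
  have h2 : Finite (Pr hatW ⧸ psi.ker) :=
    Finite.of_equiv _ (QuotientGroup.quotientKerEquivOfSurjective psi psi_surj).symm.toEquiv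
  exact Finite.of_equiv _ (Subgroup.groupEquivQuotientProdSubgroup (s := psi.ker)).symm

/-- the covering group is perfect -/
theorem hat_perfect : commutator (Pr hatW) = ⊤ := by
  rw [eq_top_iff]
  intro p _
  obtain ⟨f, hfdef⟩ : ∃ f : Gen → Abelianization (Pr hatW),
      f = fun x => Abelianization.of (pg hatW x) := ⟨_, rfl⟩
  have hf : ∀ x, f x * f x = 1 := fun x => by
    rw [hfdef]
    show Abelianization.of _ * Abelianization.of _ = 1
    rw [← map_mul, hat_inv, map_one]
  have hw : ∀ w ∈ hatW, uw f w = 1 := fun w hw => by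
    rw [hfdef, ← map_uw Abelianization.of (pg hatW) w, pg_rel hatW w hw, map_one]
  have hT : ∀ (y s : Abelianization (Pr hatW)) (d : ℕ), T y s d = s := by
    intro y s d
    unfold T
    rw [mul_comm (y ^ d), mul_assoc, mul_inv_cancel, mul_one]
  have hsq : ∀ x, (f x) ^ 7 = f x := fun x => by
    have h2 : (f x) ^ 2 = 1 := by rw [pow_two]; exact hf x
    calc (f x) ^ 7 = ((f x) ^ 2) ^ 3 * f x := by rw [← pow_mul, ← pow_succ]
      _ = f x := by rw [h2, one_pow, one_mul]
  have hab : f .a * f .b = 1 := by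
    have h := hw wAB (by decide)
    rw [ev_AB, mul_pow, hsq, hsq] at h
    exact h
  have hbc : f .b * f .c = 1 := by
    have h := hw wBC (by decide)
    rw [ev_BC, mul_pow, hsq, hsq] at h
    exact h
  have ha : f .a = 1 := by
    have h := hw wF (by decide)
    rw [ev_F f hf, hT, hT, hf, mul_one] at h
    exact h
  have hb : f .b = 1 := by rw [ha, one_mul] at hab; exact hab
  have hc : f .c = 1 := by rw [hb, one_mul] at hbc; exact hbc
  have hall : (Abelianization.of : Pr hatW →* Abelianization (Pr hatW)) = 1 :=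
    hom_ext hatW _ _ (fun x => by
      have e : Abelianization.of (pg hatW x) = f x := by rw [hfdef]
      rw [e, MonoidHom.one_apply]
      cases x
      · exact ha
      · exact hb
      · exact hc)
  have h1 : Abelianization.of p = 1 := by rw [hall]; rfl
  rw [← Abelianization.ker_of]
  exact MonoidHom.mem_ker.2 h1

theorem psi_stem : IsStemExtension psi := by
  refine ⟨psi_surj, ?_, ?_⟩
  · rw [ker_eq]
    intro x hx
    rw [Subgroup.mem_center_iff]
    intro g
    exact ((four_cen _ _ _ _ _ _ hx) g).symm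
  · rw [hat_perfect]
    exact le_top

theorem comm_cen {Γ : Type*} [Group Γ] (a b z z' : Γ) (hz : Cen z) (hz' : Cen z') :
    ⁅a * z, b * z'⁆ = ⁅a, b⁆ := by
  have h1 : ⁅a * z, b * z'⁆ = K (a * z) (b * z') := rfl
  have h2 : ⁅a, b⁆ = K a b := rfl
  rw [h1, h2, K_mul_cen hz', K_symm b (a * z), K_mul_cen hz, ← K_symm b a]

/-- **The bound**: the kernel of a stem extension of the presented group is an image of the
four-group. -/
theorem bound (Γ : Type) [Group Γ] (σ : Γ →* Pr relW) (hσ : IsStemExtension σ) :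
    ∃ π : Multiplicative (ZMod 2 × ZMod 2) →* σ.ker, Function.Surjective π := by
  obtain ⟨hsurj, hcen, hcomm⟩ := hσ
  have hc : ∀ z, σ z = 1 → Cen z := fun z hz g =>
    (Subgroup.mem_center_iff.1 (hcen (MonoidHom.mem_ker.2 hz)) g).symm
  obtain ⟨s, hs, hss, hsy⟩ := frob_lift σ hsurj hc (pg relW .a) (pg relW .b * pg relW .c)
    pgX7 (sz_inv .a) pgκ pgγ
  obtain ⟨b, hb, hbb, hab⟩ := dih_lift σ hsurj hc s hss (pg relW .b) (sz_inv .b)
    (by rw [hs]; exact pgAB7)
  obtain ⟨c, hcc, hccsq, hbc⟩ := dih_lift σ hsurj hc b hbb (pg relW .c) (sz_inv .c)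
    (by rw [hb]; exact pgX7)
  obtain ⟨hC, hG⟩ := hsy (b * c) (by rw [map_mul, hb, hcc])
  obtain ⟨f, hfa, hfb, hfc⟩ : ∃ f : Gen → Γ, f .a = s ∧ f .b = b ∧ f .c = c :=
    ⟨fun x => Gen.rec s b c x, rfl, rfl, rfl⟩
  have hf : ∀ x, f x * f x = 1 := by
    intro x
    cases x
    · rw [hfa]; exact hss
    · rw [hfb]; exact hbb
    · rw [hfc]; exact hccsq
  have hσf : ∀ x, σ (f x) = pg relW x := by
    intro x
    cases x
    · rw [hfa]; exact hs
    · rw [hfb]; exact hb
    · rw [hfc]; exact hcc
  have hTsq : ∀ d, T (b * c) s d * T (b * c) s d = 1 := by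
    intro d
    rw [T_mul_self, hss]; group
  have hCsq : ∀ d, 1 ≤ d → d ≤ 5 →
      (s * T (b * c) s d) * (s * T (b * c) s d) = 1 := by
    intro d h1 h5
    calc (s * T (b * c) s d) * (s * T (b * c) s d)
        = (s * T (b * c) s d) * (T (b * c) s d * s) := by rw [hC d h1 h5]
      _ = s * (T (b * c) s d * T (b * c) s d) * s := by group
      _ = 1 := by rw [hTsq, mul_one, hss]
  have hex : ∀ w ∈ exW, uw f w = 1 := by
    intro w hw
    simp only [exW, List.mem_cons, List.not_mem_nil, or_false] at hw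
    rcases hw with rfl | rfl | rfl | rfl | rfl | rfl | rfl | rfl | rfl | rfl | rfl
    · simpa [uw] using hf .a
    · simpa [uw] using hf .b
    · simpa [uw] using hf .c
    · rw [ev_AB, hfa, hfb]; exact hab
    · rw [ev_BC, hfb, hfc]; exact hbc
    · rw [ev_F f hf, hfa, hfb, hfc, hG]; exact hTsq 3
    · rw [ev_C1 f hf, hfa, hfb, hfc]; exact hCsq 1 (by norm_num) (by norm_num)
    · rw [ev_C2 f hf, hfa, hfb, hfc]; exact hCsq 2 (by norm_num) (by norm_num)
    · rw [ev_C3 f hf, hfa, hfb, hfc]; exact hCsq 3 (by norm_num) (by norm_num)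
    · rw [ev_C4 f hf, hfa, hfb, hfc]; exact hCsq 4 (by norm_num) (by norm_num)
    · rw [ev_C5 f hf, hfa, hfb, hfc]; exact hCsq 5 (by norm_num) (by norm_num)
  have hfun : (fun x => σ (f x)) = pg relW := funext hσf
  have hr1 : σ (uw f wR1) = 1 := by
    rw [map_uw, hfun]; exact pg_rel relW _ (by decide)
  have hr2 : σ (uw f wR2) = 1 := by
    rw [map_uw, hfun]; exact pg_rel relW _ (by decide)
  have c1 : Cen (uw f wR1) := hc _ hr1
  have c2 : Cen (uw f wR2) := hc _ hr2
  have h1 : uw f wR1 * uw f wR1 = 1 := by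
    rw [ev_R1] at c1 ⊢
    exact dih_sq _ _ (hf .a) (hf .c) 7 c1
  have h2 : uw f wR2 * uw f wR2 = 1 := by
    rw [ev_R2] at c2 ⊢
    refine dih_sq _ _ (hf .c) ?_ 5 c2
    calc f .b * f .a * f .b * (f .b * f .a * f .b)
        = f .b * f .a * (f .b * f .b) * f .a * f .b := by group
      _ = f .b * (f .a * f .a) * f .b := by rw [hf .b]; group
      _ = 1 := by rw [hf .a, mul_one, hf .b]
  have hhat := hat_rel f hf hex h1 h2 (fun x => c1 (f x)) (fun x => c2 (f x))
  obtain ⟨φ, hφ⟩ : ∃ φ : Pr hatW →* Γ, ∀ x, φ (pg hatW x) = f x :=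
    ⟨up hatW f hhat, up_pg hatW f hhat⟩
  have hcomp : σ.comp φ = psi :=
    hom_ext hatW _ _ (fun x => by rw [MonoidHom.comp_apply, hφ, hσf, psi_pg])
  have hcr : commutator Γ ≤ φ.range := by
    rw [commutator_def, Subgroup.commutator_le]
    intro g1 _ g2 _
    obtain ⟨p1, hp1⟩ := psi_surj (σ g1)
    obtain ⟨p2, hp2⟩ := psi_surj (σ g2)
    have hz1 : Cen ((φ p1)⁻¹ * g1) := hc _ (by
      rw [map_mul, map_inv, ← MonoidHom.comp_apply, hcomp, hp1, inv_mul_cancel])
    have hz2 : Cen ((φ p2)⁻¹ * g2) := hc _ (by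
      rw [map_mul, map_inv, ← MonoidHom.comp_apply, hcomp, hp2, inv_mul_cancel])
    have e1 : g1 = φ p1 * ((φ p1)⁻¹ * g1) := by group
    have e2 : g2 = φ p2 * ((φ p2)⁻¹ * g2) := by group
    rw [e1, e2, comm_cen _ _ _ _ hz1 hz2, ← map_commutatorElement]
    exact ⟨_, rfl⟩
  have hmem : ∀ k : psi.ker, (φ.comp psi.ker.subtype) k ∈ σ.ker := fun k => by
    rw [MonoidHom.mem_ker]
    show σ (φ k.1) = 1
    rw [← MonoidHom.comp_apply, hcomp]
    exact MonoidHom.mem_ker.1 k.2
  have hπ0 : Function.Surjective ((φ.comp psi.ker.subtype).codRestrict σ.ker hmem) := by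
    intro α
    obtain ⟨p, hp⟩ := hcr (hcomm α.2)
    have hpk : p ∈ psi.ker := by
      rw [MonoidHom.mem_ker, ← hcomp, MonoidHom.comp_apply, hp]
      exact MonoidHom.mem_ker.1 α.2
    exact ⟨⟨p, hpk⟩, Subtype.ext hp⟩
  obtain ⟨e⟩ := ker_klein
  exact ⟨((φ.comp psi.ker.subtype).codRestrict σ.ker hmem).comp e.symm.toMonoidHom,
    hπ0.comp e.symm.surjective⟩

/-- **The Schur multiplier of the presented group is a four-group.** -/
theorem hasSchur_pres : HasSchurMultiplier (Pr relW) (Multiplicative (ZMod 2 × ZMod 2)) :=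
  ⟨⟨Pr hatW, inferInstance, hat_finite, psi, psi_stem, ker_klein⟩,
    fun Γ _ _ σ hσ => bound Γ σ hσ⟩

end Cfsg.Agent.H41.SzP
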