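import Cfsg.Agent.H41.SzAbs
import Cfsg.Agent.H41.SzF8
import Cfsg.Agent.H8.SzLie2
import Cfsg.Agent.H8.SzGen

/-!
# `Sz(8)` satisfies the presentation (helper41)

Three involutions `a = M(0,1)`, `b = h(κ₆) w`, `c = b h(κ₃)` of helper8's model of the Suzuki
group over a field with eight elements satisfy the relators of `SzGlue` (a matrix computation
over the computable field `F8`, transported along a ring isomorphism) and generate the group;
with the order bound of the presented group this gives an isomorphism, and the Schur multiplier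
of `Sz(8)` is a four-group.
-/

set_option autoImplicit false
set_option maxRecDepth 100000

namespace Cfsg.Agent.H41.SzP

open Cfsg Cfsg.Agent.H8 Cfsg.Agent.H35 Matrix

/-- the unit `ζ + 1` of the model field -/
def u3 : F8ˣ := Units.mk0 (F8.ofNat 3) (by decide)

/-- the unit `ζ² + ζ` of the model field -/
def u6 : F8ˣ := Units.mk0 (F8.ofNat 6) (by decide)

/-- the generators over the model field -/
def m8 : Gen → Matrix (Fin 4) (Fin 4) F8
  | .a => szMmat 1 (0 : F8) 1
  | .b => szHmat 1 u6 * szWmat F8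
  | .c => szHmat 1 u6 * szWmat F8 * szHmat 1 u3

theorem m8_rel : ∀ w ∈ relW, (w.map m8).prod = 1 := by decide +kernel

theorem m8_bc : m8 .b * m8 .c = szHmat 1 u3 := by decide +kernel

theorem m8_u : ([Gen.b, .a, .b, .a, .c, .a, .b, .a, .c, .b, .c, .b, .a, .b].map m8).prod =
    szMmat 1 (F8.ofNat 5) 1 := by decide +kernel

theorem u3_ne : u3 ≠ 1 := by decide

theorem f5_ne : F8.ofNat 5 ≠ 0 := by decide

section Field

variable {F : Type*} [Field F] [Fintype F] (hF : Fintype.card F = 2 ^ (2 * 1 + 1))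

/-- a ring isomorphism from the model field -/
noncomputable def phi : F8 ≃+* F :=
  FiniteField.ringEquivOfCardEq (by rw [F8.card_eq, hF]; norm_num)

/-- the induced map on matrices -/
noncomputable def Phi : Matrix (Fin 4) (Fin 4) F8 →+* Matrix (Fin 4) (Fin 4) F :=
  (phi hF).toRingHom.mapMatrix

theorem Phi_apply (A : Matrix (Fin 4) (Fin 4) F8) (i j : Fin 4) :
    Phi hF A i j = phi hF (A i j) := rfl

theorem szMmat_map (x y : F8) : szMmat 1 (phi hF x) (phi hF y) = Phi hF (szMmat 1 x y) := by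
  ext i j
  rw [Phi_apply]
  fin_cases i <;> fin_cases j <;>
    simp [szMmat, szT, szf, map_add, map_mul, map_pow]

theorem szWmat_map : szWmat F = Phi hF (szWmat F8) := by
  ext i j
  rw [Phi_apply]
  fin_cases i <;> fin_cases j <;> simp [szWmat]

theorem szHmat_map (u : F8ˣ) :
    szHmat 1 (Units.map (phi hF : F8 →* F) u) = Phi hF (szHmat 1 u) := by
  ext i j
  rw [Phi_apply]
  fin_cases i <;> fin_cases j <;>
    simp [szHmat, Matrix.diagonal, map_mul, map_pow, map_inv₀]

/-- the torus parameter of `b c` -/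
noncomputable def k3 : Fˣ := Units.map (phi hF : F8 →* F) u3

/-- the torus parameter of `b` -/
noncomputable def k6 : Fˣ := Units.map (phi hF : F8 →* F) u6

/-- the three involutions of the Suzuki group -/
noncomputable def gG : Gen → ↥(Sz F 1)
  | .a => ((szUM hF 0 1 : szU (m := 1) hF) : ↥(Sz F 1))
  | .b => szHG hF (k6 hF) * szWG hF
  | .c => szHG hF (k6 hF) * szWG hF * szHG hF (k3 hF)

/-- the matrix of an element -/
def toM : ↥(Sz F 1) →* Matrix (Fin 4) (Fin 4) F where
  toFun g := g.1.1
  map_one' := rfl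
  map_mul' _ _ := rfl

theorem toM_inj : Function.Injective (toM (F := F)) :=
  fun _ _ e => Subtype.ext (Subtype.ext e)

theorem toM_H (k : Fˣ) : toM (szHG hF k) = szHmat 1 k := rfl

theorem toM_W : toM (szWG (m := 1) hF) = szWmat F := rfl

theorem toM_U (x y : F) : toM ((szUM hF x y : szU (m := 1) hF) : ↥(Sz F 1)) = szMmat 1 x y := rfl

theorem toM_gG (x : Gen) : toM (gG hF x) = Phi hF (m8 x) := by
  cases x
  · have h := szMmat_map hF (0 : F8) 1
    rw [map_zero, map_one] at h
    exact h
  · show toM (szHG hF (k6 hF) * szWG hF) = Phi hF (szHmat 1 u6 * szWmat F8)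
    rw [map_mul, map_mul, toM_H, toM_W, ← szWmat_map, ← szHmat_map]
    rfl
  · show toM (szHG hF (k6 hF) * szWG hF * szHG hF (k3 hF)) =
      Phi hF (szHmat 1 u6 * szWmat F8 * szHmat 1 u3)
    rw [map_mul, map_mul, map_mul, map_mul, toM_H, toM_W, toM_H, ← szWmat_map, ← szHmat_map,
      ← szHmat_map]
    rfl

theorem toM_uw (w : List Gen) : toM (uw (gG hF) w) = Phi hF ((w.map m8).prod) := by
  unfold uw
  rw [map_list_prod, map_list_prod, List.map_map, List.map_map]
  congr 1
  apply List.map_congr_left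
  intro x _
  exact toM_gG hF x

theorem gG_rel : ∀ w ∈ relW, uw (gG hF) w = 1 := by
  intro w hw
  apply toM_inj
  rw [toM_uw, m8_rel w hw, map_one, map_one]

theorem gG_closure : Subgroup.closure (Set.range (gG hF)) = ⊤ := by
  have hm : 1 ≤ 1 := le_rfl
  obtain ⟨L, hL⟩ : ∃ L, L = Subgroup.closure (Set.range (gG hF)) := ⟨_, rfl⟩
  rw [← hL]
  have hmem : ∀ x, gG hF x ∈ L := fun x => by rw [hL]; exact Subgroup.subset_closure ⟨x, rfl⟩
  have huw : ∀ w, uw (gG hF) w ∈ L := by
    intro w
    unfold uw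
    apply Subgroup.list_prod_mem
    intro g hg
    rw [List.mem_map] at hg
    obtain ⟨x, _, rfl⟩ := hg
    exact hmem x
  have h3 : szHG hF (k3 hF) ∈ L := by
    have e : szHG hF (k3 hF) = gG hF .b * gG hF .c := by
      apply toM_inj
      rw [map_mul, toM_gG, toM_gG, ← map_mul, m8_bc, toM_H]
      exact szHmat_map hF u3
    rw [e]
    exact L.mul_mem (hmem _) (hmem _)
  have hk3 : k3 hF ≠ 1 := by
    intro h
    apply u3_ne
    apply Units.ext
    have h1 : ((k3 hF : Fˣ) : F) = 1 := by rw [h]; rfl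
    have h2 : ((k3 hF : Fˣ) : F) = phi hF (u3 : F8) := rfl
    rw [h2] at h1
    apply (phi hF).injective
    rw [h1, Units.val_one, map_one]
  have hcard : Nat.card Fˣ = 7 := by
    rw [Nat.card_units, Nat.card_eq_fintype_card, hF]
    norm_num
  have : Fact (Nat.Prime 7) := ⟨by norm_num⟩
  have hH : ∀ k : Fˣ, szHG hF k ∈ L := by
    intro k
    obtain ⟨n, rfl⟩ := Subgroup.mem_zpowers_iff.1
      (mem_zpowers_of_prime_card hcard hk3 (g' := k))
    rw [map_zpow]
    exact L.zpow_mem h3 n
  have hW : szWG hF ∈ L := by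
    have e : szWG (m := 1) hF = (szHG hF (k6 hF))⁻¹ * gG hF .b := by
      show _ = (szHG hF (k6 hF))⁻¹ * (szHG hF (k6 hF) * szWG hF)
      group
    rw [e]
    exact L.mul_mem (L.inv_mem (hH _)) (hmem _)
  have hu : ((szUM hF (phi hF (F8.ofNat 5)) (phi hF 1) : szU (m := 1) hF) : ↥(Sz F 1)) ∈ L := by
    have e : ((szUM hF (phi hF (F8.ofNat 5)) (phi hF 1) : szU (m := 1) hF) : ↥(Sz F 1)) =
        uw (gG hF) [Gen.b, .a, .b, .a, .c, .a, .b, .a, .c, .b, .c, .b, .a, .b] := by
      apply toM_inj
      rw [toM_uw, m8_u, toM_U]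
      exact szMmat_map hF _ _
    rw [e]
    exact huw _
  have hx : phi hF (F8.ofNat 5) ≠ 0 := by
    intro h
    exact f5_ne ((phi hF).injective (by rw [h, map_zero]))
  have hU := szU_le_of_torus hm hF L hH hx hu
  refine sz_top_of_szU_le hm hF L hU hW ?_
  show szW F • szPt F 1 none ≠ szPt F 1 none
  rw [szW_smul_none]
  intro h
  exact absurd (szPt_injective F 1 h) (by simp)

/-- the presented group maps onto the Suzuki group -/
noncomputable def psiG : Pr relW →* ↥(Sz F 1) := up relW (gG hF) (gG_rel hF)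

theorem psiG_surj : Function.Surjective (psiG hF) := by
  rw [← MonoidHom.range_eq_top, eq_top_iff, ← gG_closure hF, Subgroup.closure_le]
  rintro _ ⟨x, rfl⟩
  exact ⟨pg relW x, up_pg relW _ _ x⟩

include hF in
theorem sz_card8 : Nat.card ↥(Sz F 1) = 29120 := by
  rw [sz_card le_rfl hF]
  norm_num

theorem psiG_bij : Function.Bijective (psiG hF) := by
  rw [Nat.bijective_iff_surjective_and_card]
  refine ⟨psiG_surj hF, le_antisymm ?_ ?_⟩
  · rw [sz_card8 hF]; exact sz_card_le
  · exact Nat.card_le_card_of_surjective _ (psiG_surj hF)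

include hF in
/-- the Schur multiplier of helper8's model of `Sz(8)` -/
theorem hasSchur_sz : HasSchurMultiplier ↥(Sz F 1) (Multiplicative (ZMod 2 × ZMod 2)) :=
  hasSchurMultiplier_of_mulEquiv (MulEquiv.ofBijective (psiG hF) (psiG_bij hF)) hasSchur_pres

end Field

/-- **The Schur multiplier of `Sz(8)` is a four-group.** -/
theorem hasSchur_lieSz {F : Type*} [Field F] [Fintype F] (hF8 : Fintype.card F = 8) :
    HasSchurMultiplier ↥(Lie.Sz F 4) (Multiplicative (ZMod 2 × ZMod 2)) := by
  have hF : Fintype.card F = 2 ^ (2 * 1 + 1) := by rw [hF8]; norm_num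
  exact hasSchurMultiplier_of_mulEquiv (lieSzEquiv le_rfl hF) (hasSchur_sz hF)

end Cfsg.Agent.H41.SzP
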