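import Cfsg.Agent.H35.TCMain

/-!
# A presentation of `Sz(8)` on three involutions, as word lists (helper41)

`Sz(8) = ⟨a, b, c | a², b², c², (ab)⁷, (bc)⁷, x³ax⁻³·a·xax⁻¹, (ac)⁷, (c·bab)⁵⟩`, `x = bc`,
(plus the redundant relators saying that `a` commutes with `xᵈ a x⁻ᵈ`, `x = bc`, `d = 1..5`).
The first six relators hold exactly for suitably normalised lifts to any central extension; the
last two become central involutions.  Groups presented by lists of words, their universal
property, and the glue for helper35's Todd–Coxeter replay certificates.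
-/

set_option autoImplicit false

namespace Cfsg.Agent.H41.SzP

open Cfsg.Agent.H35

/-- the three generators -/
inductive Gen : Type
  | a | b | c
  deriving DecidableEq

noncomputable def sz_gi : Gen → ℕ := fun x => Gen.rec (motive := fun _ => ℕ) 0 1 2 x

def sz_gens : List Gen := [.a, .b, .c]

def sz_gof : ℕ → Gen := fun i => sz_gens.getD i .a

theorem sz_gof_gi (x : Gen) : sz_gof (sz_gi x) = x := by cases x <;> rfl

theorem sz_gens_all (x : Gen) : x ∈ sz_gens := by cases x <;> decide

/-- `(ab)⁷` -/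
def wAB : List Gen := [.a, .b, .a, .b, .a, .b, .a, .b, .a, .b, .a, .b, .a, .b]
/-- `(bc)⁷` -/
def wBC : List Gen := [.b, .c, .b, .c, .b, .c, .b, .c, .b, .c, .b, .c, .b, .c]
/-- the Frobenius relator `x³ a x⁻³ · a · x a x⁻¹`, `x = bc` -/
def wF : List Gen :=
  [.b, .c, .b, .c, .b, .c, .a, .c, .b, .c, .b, .c, .b, .a, .b, .c, .a, .c, .b]
/-- `(ac)⁷` -/
def wR1 : List Gen := [.a, .c, .a, .c, .a, .c, .a, .c, .a, .c, .a, .c, .a, .c]
/-- `(c·bab)⁵` -/
def wR2 : List Gen := [.c, .b, .a, .b, .c, .b, .a, .b, .c, .b, .a, .b, .c, .b, .a, .b, .c, .b, .a, .b]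

/-- `a` commutes with `x a x⁻¹` -/
def wC1 : List Gen := [.a, .b, .c, .a, .c, .b, .a, .b, .c, .a, .c, .b]
/-- `a` commutes with `x² a x⁻²` -/
def wC2 : List Gen := [.a, .b, .c, .b, .c, .a, .c, .b, .c, .b, .a, .b, .c, .b, .c, .a, .c, .b, .c, .b]
/-- `a` commutes with `x³ a x⁻³` -/
def wC3 : List Gen := [.a, .b, .c, .b, .c, .b, .c, .a, .c, .b, .c, .b, .c, .b, .a, .b, .c, .b, .c, .b, .c, .a, .c, .b, .c, .b, .c, .b]
/-- `a` commutes with `x⁴ a x⁻⁴` -/
def wC4 : List Gen := [.a, .b, .c, .b, .c, .b, .c, .b, .c, .a, .c, .b, .c, .b, .c, .b, .c, .b, .a, .b, .c, .b, .c, .b, .c, .b, .c, .a, .c, .b, .c, .b, .c, .b, .c, .b]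
/-- `a` commutes with `x⁵ a x⁻⁵` -/
def wC5 : List Gen := [.a, .b, .c, .b, .c, .b, .c, .b, .c, .b, .c, .a, .c, .b, .c, .b, .c, .b, .c, .b, .c, .b, .a, .b, .c, .b, .c, .b, .c, .b, .c, .b, .c, .a, .c, .b, .c, .b, .c, .b, .c, .b, .c, .b]

/-- the exact relators -/
def exW : List (List Gen) :=
  [[.a, .a], [.b, .b], [.c, .c], wAB, wBC, wF, wC1, wC2, wC3, wC4, wC5]

/-- the relators of `Sz(8)` -/
def relW : List (List Gen) := exW ++ [wR1, wR2]

/-- the relators of the covering group: the last two relators become central involutions -/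
def hatW : List (List Gen) := exW ++
  [wR1 ++ wR1, wR1 ++ [.a] ++ wR1.reverse ++ [.a], wR1 ++ [.b] ++ wR1.reverse ++ [.b],
    wR1 ++ [.c] ++ wR1.reverse ++ [.c],
   wR2 ++ wR2, wR2 ++ [.a] ++ wR2.reverse ++ [.a], wR2 ++ [.b] ++ wR2.reverse ++ [.b],
    wR2 ++ [.c] ++ wR2.reverse ++ [.c]]

def sz_rws : List (List Gen × List Gen) := relW.map (fun w => (w, []))

def sz_prels : List (List Gen × ℕ × ℕ) := []

/-- a word in the free group -/
def fw (w : List Gen) : FreeGroup Gen := (w.map FreeGroup.of).prod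

/-- the group presented by a list of words -/
abbrev Pr (L : List (List Gen)) : Type :=
  PresentedGroup {r : FreeGroup Gen | ∃ w ∈ L, r = fw w}

/-- the generators of a presented group -/
def pg (L : List (List Gen)) (x : Gen) : Pr L := PresentedGroup.of x

theorem lift_fw {K : Type*} [Group K] (f : Gen → K) (w : List Gen) :
    FreeGroup.lift f (fw w) = uw f w := by
  unfold fw uw
  rw [map_list_prod, List.map_map]
  congr 1
  apply List.map_congr_left
  intro x _
  simp

theorem uw_pg (L : List (List Gen)) (w : List Gen) :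
    uw (pg L) w = PresentedGroup.mk _ (fw w) := by
  unfold fw uw
  rw [map_list_prod, List.map_map]
  rfl

theorem pg_rel (L : List (List Gen)) (w : List Gen) (hw : w ∈ L) : uw (pg L) w = 1 := by
  rw [uw_pg]
  exact (PresentedGroup.mk_eq_one_iff).2 (Subgroup.subset_normalClosure ⟨w, hw, rfl⟩)

/-- the universal property -/
def up (L : List (List Gen)) {K : Type*} [Group K] (f : Gen → K) (h : ∀ w ∈ L, uw f w = 1) :
    Pr L →* K :=
  PresentedGroup.toGroup (f := f) (by
    rintro r ⟨w, hw, rfl⟩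
    rw [lift_fw]
    exact h w hw)

theorem up_pg (L : List (List Gen)) {K : Type*} [Group K] (f : Gen → K)
    (h : ∀ w ∈ L, uw f w = 1) (x : Gen) : up L f h (pg L x) = f x :=
  PresentedGroup.toGroup.of _

theorem closure_pg (L : List (List Gen)) : Subgroup.closure (Set.range (pg L)) = ⊤ :=
  PresentedGroup.closure_range_of _

theorem hom_ext (L : List (List Gen)) {K : Type*} [Group K] (f g : Pr L →* K)
    (h : ∀ x, f (pg L x) = g (pg L x)) : f = g :=
  PresentedGroup.ext h

theorem map_uw {K K' : Type*} [Group K] [Group K'] (φ : K →* K') (f : Gen → K) (w : List Gen) :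
    φ (uw f w) = uw (fun x => φ (f x)) w := by
  unfold uw
  rw [map_list_prod, List.map_map]
  rfl

theorem uw_append {K : Type*} [Group K] (f : Gen → K) (u v : List Gen) :
    uw f (u ++ v) = uw f u * uw f v := by
  unfold uw
  rw [List.map_append, List.prod_append]

theorem uw_reverse {K : Type*} [Group K] (f : Gen → K) (hf : ∀ x, f x * f x = 1) (w : List Gen) :
    uw f w.reverse = (uw f w)⁻¹ := by
  induction w with
  | nil => simp [uw]
  | cons x w ih =>
    rw [List.reverse_cons, uw_append, ih]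
    have : uw f (x :: w) = f x * uw f w := by simp [uw]
    rw [this, mul_inv_rev]
    congr 1
    have : uw f [x] = f x := by simp [uw]
    rw [this]
    exact eq_inv_of_mul_eq_one_left (hf x)

theorem sz_full_one : ∀ w ∈ fullW sz_rws sz_prels, uw (pg relW) w = 1 := by
  apply fullW_one
  · intro r hr
    unfold sz_rws at hr
    rw [List.mem_map] at hr
    obtain ⟨w, hw, rfl⟩ := hr
    simpa using pg_rel relW w hw
  · intro r hr
    simp [sz_prels] at hr

theorem sz_inv (x : Gen) : pg relW x * pg relW x = 1 := by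
  have h : uw (pg relW) [x, x] = 1 := pg_rel relW _ (by cases x <;> decide)
  simpa [uw] using h

end Cfsg.Agent.H41.SzP
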