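import Cfsg.Agent.H35.TCMain

/-!
# A covering presentation of the Tits group on four conjugate involutions, as word lists (helper41)

`a, b, c, d` are involutions of the Tits group with `(ab)¹³ = (bc)³ = (ad)⁵ = 1` (the tree
relators, which stay exact), `⟨a, b, c⟩ = L₃(3):2`, and seventeen further relators which are
only required to be central.  Groups presented by lists of words, their universal property, and
the glue for helper35's Todd–Coxeter replay certificates.
-/

set_option autoImplicit false

namespace Cfsg.Agent.H41.TitsP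

open Cfsg.Agent.H35

/-- the four generators -/
inductive Gen : Type
  | a | b | c | d
  deriving DecidableEq

noncomputable def t_gi : Gen → ℕ := fun x => Gen.rec (motive := fun _ => ℕ) 0 1 2 3 x

def t_gens : List Gen := [.a, .b, .c, .d]

def t_gof : ℕ → Gen := fun i => t_gens.getD i .a

theorem t_gof_gi (x : Gen) : t_gof (t_gi x) = x := by cases x <;> rfl

theorem t_gens_all (x : Gen) : x ∈ t_gens := by cases x <;> decide

noncomputable abbrev ku_gi := t_gi
noncomputable abbrev kw_gi := t_gi
abbrev ku_gof := t_gof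
abbrev kw_gof := t_gof
abbrev ku_gens := t_gens
abbrev kw_gens := t_gens

/-- squares of `a, b, c` -/
def sq3 : List (List Gen) := [[.a, .a], [.b, .b], [.c, .c]]
/-- squares of all generators -/
def sq4 : List (List Gen) := sq3 ++ [[.d, .d]]

/-- `(ab)¹³` -/
def wAB : List Gen :=
  [.a, .b, .a, .b, .a, .b, .a, .b, .a, .b, .a, .b, .a, .b, .a, .b, .a, .b, .a, .b, .a, .b, .a,
    .b, .a, .b]

/-- `(bc)³` -/
def wBC : List Gen :=
  [.b, .c, .b, .c, .b, .c]

/-- `(ad)⁵` -/
def wAD : List Gen :=
  [.a, .d, .a, .d, .a, .d, .a, .d, .a, .d]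

/-- the tree relators inside `L₃(3):2` -/
def treeU : List (List Gen) := [wAB, wBC]
/-- the tree relators -/
def treeT : List (List Gen) := treeU ++ [wAD]

/-- a further relator of `L₃(3):2` -/
def wU1 : List Gen :=
  [.a, .c, .b, .c, .a, .c, .b, .c]

/-- a further relator of `L₃(3):2` -/
def wU2 : List Gen :=
  [.a, .b, .a, .c, .a, .b, .a, .c, .a, .b, .a, .c, .a, .b, .a, .c, .a, .b, .a, .c, .a, .b, .a, .c]

/-- a further relator of `L₃(3):2` -/
def wU3 : List Gen :=
  [.a, .b, .c, .a, .c, .a, .b, .c, .a, .c, .a, .b, .c, .a, .c, .a, .b, .c, .a, .c, .a, .b, .c,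
    .a, .c, .a, .b, .c, .a, .c]

/-- a further relator of the Tits group -/
def wT1 : List Gen :=
  [.b, .d, .b, .d, .b, .d, .b, .d]

/-- a further relator of the Tits group -/
def wT2 : List Gen :=
  [.a, .b, .a, .d, .a, .b, .a, .d, .a, .b, .a, .d]

/-- a further relator of the Tits group -/
def wT3 : List Gen :=
  [.c, .d, .c, .d, .c, .d, .c, .d, .c, .d, .c, .d]

/-- a further relator of the Tits group -/
def wT4 : List Gen :=
  [.b, .c, .d, .b, .c, .d, .b, .c, .d, .b, .c, .d, .b, .c, .d, .b, .c, .d, .b, .c, .d, .b, .c, .d]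

/-- a further relator of the Tits group -/
def wT5 : List Gen :=
  [.d, .c, .a, .c, .a, .c, .d, .c, .a, .c, .a, .c]

/-- a further relator of the Tits group -/
def wT6 : List Gen :=
  [.d, .a, .b, .a, .b, .a, .b, .a, .d, .b, .a, .b, .a, .c, .a, .c, .a, .b, .a, .c, .b, .a]

/-- a further relator of the Tits group -/
def wT7 : List Gen :=
  [.d, .b, .c, .d, .b, .d, .b, .c, .b, .d, .c, .a, .b, .a, .c, .a, .b, .a, .b, .a, .b, .a, .b,
    .a, .c, .a, .b, .a, .c]

/-- a further relator of the Tits group -/
def wT8 : List Gen :=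
  [.d, .c, .a, .b, .a, .b, .a, .c, .d, .c, .a, .b, .a, .b, .a, .c]

/-- a further relator of the Tits group -/
def wT9 : List Gen :=
  [.d, .c, .d, .b, .a, .b, .d, .c, .d, .b, .a, .b, .a, .b, .a, .c, .a, .b, .a, .b, .a, .b, .a,
    .b, .a, .c, .a, .b, .a, .b, .a, .b]

/-- a further relator of the Tits group -/
def wT10 : List Gen :=
  [.d, .a, .b, .a, .c, .b, .a, .b, .c, .a, .d, .b, .a, .b, .a, .c, .a, .c, .a, .b, .a, .c, .b, .a]

/-- a further relator of the Tits group -/
def wT11 : List Gen :=
  [.d, .a, .b, .c, .b, .d, .b, .c, .b, .a, .d, .c, .a, .c, .a, .b, .a, .c, .a, .b, .a, .b, .a,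
    .c, .a, .b, .a, .c, .a, .c]

/-- a further relator of the Tits group -/
def wT12 : List Gen :=
  [.d, .a, .c, .b, .d, .b, .a, .c, .d, .b, .d, .b, .a, .b, .a, .b, .a, .b, .a, .b, .a, .b, .a,
    .c, .a, .c, .a, .c, .b, .a, .b]

/-- a further relator of the Tits group -/
def wT13 : List Gen :=
  [.d, .a, .c, .d, .a, .c, .a, .d, .c, .a, .d, .a, .c, .a, .c, .a, .c, .a, .c, .a, .c, .a, .c, .a]

/-- a further relator of the Tits group -/
def wT14 : List Gen :=
  [.d, .a, .d, .b, .a, .b, .a, .d, .a, .c, .d, .a, .c, .a, .c, .a, .c, .a, .c, .a, .b, .a, .b]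

/-- the further relators of `L₃(3):2` -/
def restU : List (List Gen) := [wU1, wU2, wU3]
/-- the further relators of the Tits group -/
def restT : List (List Gen) := [wT1, wT2, wT3, wT4, wT5, wT6, wT7, wT8, wT9, wT10, wT11, wT12, wT13, wT14]
/-- all the further relators -/
def restA : List (List Gen) := restU ++ restT

/-- the relators saying that the word `R` commutes with the generators in `gs` -/
def cen (gs : List Gen) (R : List Gen) : List (List Gen) :=
  gs.map (fun g => R ++ [g] ++ R.reverse ++ [g])

def g3 : List Gen := [.a, .b, .c]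

/-- the relators of the covering group of `L₃(3):2` (the generator `d` is killed) -/
def hatU : List (List Gen) := sq3 ++ treeU ++ restU.flatMap (cen g3) ++ [[.d]]
/-- the relators of the covering group of the Tits group -/
def hatW : List (List Gen) := sq4 ++ treeT ++ restA.flatMap (cen t_gens)

def ku_rws : List (List Gen × List Gen) := hatU.map (fun w => (w, []))
def kw_rws : List (List Gen × List Gen) := hatW.map (fun w => (w, []))
def ku_prels : List (List Gen × ℕ × ℕ) := []
def kw_prels : List (List Gen × ℕ × ℕ) := []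

/-- a word in the free group -/
def fw (w : List Gen) : FreeGroup Gen := (w.map FreeGroup.of).prod

/-- the group presented by a list of words -/
abbrev Pr (L : List (List Gen)) : Type :=
  PresentedGroup {r : FreeGroup Gen | ∃ w ∈ L, r = fw w}

/-- the generators of a presented group -/
def pg (L : List (List Gen)) (x : Gen) : Pr L := PresentedGroup.of x

theorem lift_fw {K : Type*} [Group K] (f : Gen → K) (w : List Gen) :
    FreeGroup.lift f (fw w) = uw f w := by
  unfold fw uw
  rw [map_list_prod, List.map_map]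
  congr 1
  apply List.map_congr_left
  intro x _
  simp

theorem uw_pg (L : List (List Gen)) (w : List Gen) :
    uw (pg L) w = PresentedGroup.mk _ (fw w) := by
  unfold fw uw
  rw [map_list_prod, List.map_map]
  rfl

theorem pg_rel (L : List (List Gen)) (w : List Gen) (hw : w ∈ L) : uw (pg L) w = 1 := by
  rw [uw_pg]
  exact (PresentedGroup.mk_eq_one_iff).2 (Subgroup.subset_normalClosure ⟨w, hw, rfl⟩)

/-- the universal property -/
def up (L : List (List Gen)) {K : Type*} [Group K] (f : Gen → K) (h : ∀ w ∈ L, uw f w = 1) :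
    Pr L →* K :=
  PresentedGroup.toGroup (f := f) (by
    rintro r ⟨w, hw, rfl⟩
    rw [lift_fw]
    exact h w hw)

theorem up_pg (L : List (List Gen)) {K : Type*} [Group K] (f : Gen → K)
    (h : ∀ w ∈ L, uw f w = 1) (x : Gen) : up L f h (pg L x) = f x :=
  PresentedGroup.toGroup.of _

theorem closure_pg (L : List (List Gen)) : Subgroup.closure (Set.range (pg L)) = ⊤ :=
  PresentedGroup.closure_range_of _

theorem hom_ext (L : List (List Gen)) {K : Type*} [Group K] (f g : Pr L →* K)
    (h : ∀ x, f (pg L x) = g (pg L x)) : f = g :=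
  PresentedGroup.ext h

theorem map_uw {K K' : Type*} [Group K] [Group K'] (φ : K →* K') (f : Gen → K) (w : List Gen) :
    φ (uw f w) = uw (fun x => φ (f x)) w := by
  unfold uw
  rw [map_list_prod, List.map_map]
  rfl

theorem uw_append {K : Type*} [Group K] (f : Gen → K) (u v : List Gen) :
    uw f (u ++ v) = uw f u * uw f v := by
  unfold uw
  rw [List.map_append, List.prod_append]

theorem uw_cons {K : Type*} [Group K] (f : Gen → K) (x : Gen) (w : List Gen) :
    uw f (x :: w) = f x * uw f w := by
  simp [uw]

theorem uw_nil {K : Type*} [Group K] (f : Gen → K) : uw f [] = 1 := by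
  simp [uw]

theorem uw_reverse {K : Type*} [Group K] (f : Gen → K) (hf : ∀ x, f x * f x = 1) (w : List Gen) :
    uw f w.reverse = (uw f w)⁻¹ := by
  induction w with
  | nil => simp [uw]
  | cons x w ih =>
    rw [List.reverse_cons, uw_append, ih]
    have h1 : uw f (x :: w) = f x * uw f w := by simp [uw]
    rw [h1, mul_inv_rev]
    congr 1
    have : uw f [x] = f x := by simp [uw]
    rw [this]
    exact eq_inv_of_mul_eq_one_left (hf x)

theorem full_one (L : List (List Gen)) :
    ∀ w ∈ fullW (L.map (fun w => (w, ([] : List Gen)))) [], uw (pg L) w = 1 := by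
  apply fullW_one
  · intro r hr
    rw [List.mem_map] at hr
    obtain ⟨w, hw, rfl⟩ := hr
    simpa using pg_rel L w hw
  · intro r hr
    simp at hr

theorem inv_of_sq (L : List (List Gen)) (x : Gen) (h : [x, x] ∈ L) : pg L x * pg L x = 1 := by
  have h' : uw (pg L) [x, x] = 1 := pg_rel L _ h
  simpa [uw] using h'

theorem one_of_kill (L : List (List Gen)) (x : Gen) (h : [x] ∈ L) : pg L x = 1 := by
  have h' : uw (pg L) [x] = 1 := pg_rel L _ h
  simpa [uw] using h'


theorem hatW_inv (x : Gen) : pg hatW x * pg hatW x = 1 :=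
  inv_of_sq hatW x (by cases x <;> decide)

theorem hatU_inv (x : Gen) : pg hatU x * pg hatU x = 1 := by
  cases x
  · exact inv_of_sq hatU _ (by decide)
  · exact inv_of_sq hatU _ (by decide)
  · exact inv_of_sq hatU _ (by decide)
  · rw [one_of_kill hatU .d (by decide), mul_one]

end Cfsg.Agent.H41.TitsP
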