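import Cfsg.Agent.H41.TitsTC.Ku.RAll
import Cfsg.Agent.H41.TitsTC.Kw.RAll
import Cfsg.Agent.H41.TitsGlue
import Cfsg.Agent.H41.SzOrder

/-!
# The order of the covering presentation of the Tits group (helper41)

Helper35's replay certificates bound the index of `⟨a, b⟩` in the covering presentation of
`L₃(3):2` by `432` and the index of `⟨a, b, c⟩` in the covering presentation of the Tits group by
`3200`; the tower gives `|Pr hatW| ≤ 3200 · 432 · 26 = 2 · 17971200`.
-/

set_option autoImplicit false
set_option maxRecDepth 1000000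

namespace Cfsg.Agent.H41.TitsP

open Cfsg Cfsg.Agent.H35
open Cfsg.Agent.H41.SzP (dihedral_card_le)

/-! ### The dihedral subgroups -/

theorem ab13 (L : List (List Gen)) (h : wAB ∈ L) : (pg L .a * pg L .b) ^ 13 = 1 := by
  have h' : uw (pg L) wAB = 1 := pg_rel L _ h
  rw [← h']
  simp [wAB, uw, pow_succ, mul_assoc]

/-- the dihedral subgroup `⟨a, b⟩` -/
def Hab (L : List (List Gen)) : Subgroup (Pr L) := Subgroup.closure {pg L .a, pg L .b}

theorem Hab_card (L : List (List Gen)) (h : wAB ∈ L)
    (ha : pg L .a * pg L .a = 1) (hb : pg L .b * pg L .b = 1) :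
    Finite (Hab L) ∧ Nat.card (Hab L) ≤ 2 * 13 :=
  dihedral_card_le _ _ ha hb 13 (by norm_num) (ab13 L h)

theorem mem_hatW_of_cen (R : List Gen) (hR : R ∈ restA) (g : Gen) :
    R ++ [g] ++ R.reverse ++ [g] ∈ hatW := by
  unfold hatW
  apply List.mem_append_right
  rw [List.mem_flatMap]
  exact ⟨R, hR, List.mem_map.2 ⟨g, t_gens_all g, rfl⟩⟩

/-! ### The covering presentation of `L₃(3):2` -/

theorem ku_rhyp : RHyp tku_rd (Hab hatU) (pg hatU) := by
  refine ⟨hatU_inv, t_gof_gi, by decide, fun p hp => wrapRow_of_le _ _ p hp, ?_, ?_, tku_h0,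
    by decide⟩
  · exact circTab_valid (pg hatU) hatU_inv _ (full_one hatU) tku_circT tku_ccert tku_circ_ok
  · refine hcTab_valid (pg hatU) hatU_inv (Hab hatU) tku_rsw ?_ tku_hc1T tku_hc2T _
      (fun c hc => allR_sound _ _ _ 0 tku_hc_ok c (Nat.zero_le _) (by omega) hc)
    intro w hw
    simp only [tku_rsw, List.mem_cons, List.not_mem_nil, or_false] at hw
    rcases hw with rfl | rfl
    · exact Subgroup.subset_closure (by simp [uw])
    · exact Subgroup.subset_closure (by simp [uw])

theorem ku_index : Finite (Pr hatU ⧸ Hab hatU) ∧ Nat.card (Pr hatU ⧸ Hab hatU) ≤ 432 :=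
  replay_bound ku_rhyp t_gens_all (closure_pg hatU) (by decide) (by decide) tku_rall

instance hatU_finite : Finite (Pr hatU) := by
  have := ku_index.1
  have := (Hab_card hatU (by decide) (hatU_inv .a) (hatU_inv .b)).1
  exact Finite.of_equiv _ (Subgroup.groupEquivQuotientProdSubgroup (s := Hab hatU)).symm

theorem hatU_card_le : Nat.card (Pr hatU) ≤ 11232 := by
  rw [Subgroup.card_eq_card_quotient_mul_card_subgroup (Hab hatU)]
  calc Nat.card (Pr hatU ⧸ Hab hatU) * Nat.card (Hab hatU) ≤ 432 * (2 * 13) :=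
        Nat.mul_le_mul ku_index.2 (Hab_card hatU (by decide) (hatU_inv .a) (hatU_inv .b)).2
    _ = 11232 := by norm_num

/-! ### The subgroup `⟨a, b, c⟩` -/

/-- the subgroup `⟨a, b, c⟩` -/
def H3 (L : List (List Gen)) : Subgroup (Pr L) :=
  Subgroup.closure {pg L .a, pg L .b, pg L .c}

/-- the generators with `d` killed -/
def kf (L : List (List Gen)) : Gen → Pr L
  | .d => 1
  | x => pg L x

/-- words without `d` -/
def noD (w : List Gen) : Bool := w.all (fun g => decide (g ≠ Gen.d))

theorem uw_kf (L : List (List Gen)) (w : List Gen) (h : noD w = true) :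
    uw (kf L) w = uw (pg L) w := by
  induction w with
  | nil => rfl
  | cons g w ih =>
    simp only [noD, List.all_cons, Bool.and_eq_true, decide_eq_true_eq] at h
    have h1 : uw (kf L) (g :: w) = kf L g * uw (kf L) w := by simp [uw]
    have h2 : uw (pg L) (g :: w) = pg L g * uw (pg L) w := by simp [uw]
    rw [h1, h2, ih (by simpa [noD] using h.2)]
    cases g <;> first | rfl | exact absurd rfl h.1

theorem kf_range (L : List (List Gen)) {K : Type*} [Group K] (φ : K →* Pr L) (f : Gen → K)
    (hφ : ∀ x, φ (f x) = kf L x) (hcl : Subgroup.closure (Set.range f) = ⊤) :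
    φ.range = H3 L := by
  rw [MonoidHom.range_eq_map, ← hcl, MonoidHom.map_closure]
  apply le_antisymm
  · rw [Subgroup.closure_le]
    rintro _ ⟨_, ⟨x, rfl⟩, rfl⟩
    rw [hφ]
    cases x
    · exact Subgroup.subset_closure (by simp [kf])
    · exact Subgroup.subset_closure (by simp [kf])
    · exact Subgroup.subset_closure (by simp [kf])
    · exact (H3 L).one_mem
  · unfold H3
    rw [Subgroup.closure_le]
    rintro y (rfl | rfl | rfl)
    · exact Subgroup.subset_closure ⟨f .a, ⟨.a, rfl⟩, hφ .a⟩
    · exact Subgroup.subset_closure ⟨f .b, ⟨.b, rfl⟩, hφ .b⟩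
    · exact Subgroup.subset_closure ⟨f .c, ⟨.c, rfl⟩, hφ .c⟩

theorem card_H3_le (L : List (List Gen)) {K : Type*} [Group K] [Finite K] (φ : K →* Pr L)
    (f : Gen → K) (hφ : ∀ x, φ (f x) = kf L x) (hcl : Subgroup.closure (Set.range f) = ⊤) :
    Finite (H3 L) ∧ Nat.card (H3 L) ≤ Nat.card K := by
  rw [← kf_range L φ f hφ hcl]
  have : Finite φ.range := Finite.of_surjective φ.rangeRestrict φ.rangeRestrict_surjective
  exact ⟨this, Nat.card_le_card_of_surjective φ.rangeRestrict φ.rangeRestrict_surjective⟩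

/-! ### The covering presentation of the Tits group -/

theorem noD_cen : ∀ R ∈ restU, ∀ g ∈ g3, noD (R ++ [g] ++ R.reverse ++ [g]) = true := by
  decide

theorem restU_sub : ∀ R ∈ restU, R ∈ restA := fun R hR => List.mem_append_left _ hR

theorem hatU_kf : ∀ w ∈ hatU, uw (kf hatW) w = 1 := by
  intro w hw
  unfold hatU at hw
  rw [List.mem_append, List.mem_append, List.mem_append] at hw
  rcases hw with ((hw | hw) | hw) | hw
  · have hn : noD w = true := by
      revert w
      decide
    rw [uw_kf hatW w hn]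
    exact pg_rel hatW w (by
      revert w
      decide)
  · have hn : noD w = true := by
      revert w
      decide
    rw [uw_kf hatW w hn]
    exact pg_rel hatW w (by
      revert w
      decide)
  · rw [List.mem_flatMap] at hw
    obtain ⟨R, hR, hw⟩ := hw
    obtain ⟨g, hg, rfl⟩ := List.mem_map.1 hw
    rw [uw_kf hatW _ (noD_cen R hR g hg)]
    exact pg_rel hatW _ (mem_hatW_of_cen R (restU_sub R hR) g)
  · rw [List.mem_singleton] at hw
    subst hw
    simp [uw, kf]

/-- the covering group of `L₃(3):2` maps onto `⟨a, b, c⟩` -/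
noncomputable def iH : Pr hatU →* Pr hatW := up hatU (kf hatW) hatU_kf

theorem hatW_H3 : Finite (H3 hatW) ∧ Nat.card (H3 hatW) ≤ 11232 := by
  have h := card_H3_le hatW iH (pg hatU) (fun x => up_pg hatU _ hatU_kf x) (closure_pg hatU)
  exact ⟨h.1, h.2.trans hatU_card_le⟩

theorem kw_rhyp : RHyp tkw_rd (H3 hatW) (pg hatW) := by
  refine ⟨hatW_inv, t_gof_gi, by decide, fun p hp => wrapRow_of_le _ _ p hp, ?_, ?_, tkw_h0,
    by decide⟩
  · exact circTab_valid (pg hatW) hatW_inv _ (full_one hatW) tkw_circT tkw_ccert tkw_circ_ok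
  · refine hcTab_valid (pg hatW) hatW_inv (H3 hatW) tkw_rsw ?_ tkw_hc1T tkw_hc2T _
      (fun c hc => allR_sound _ _ _ 0 tkw_hc_ok c (Nat.zero_le _) (by omega) hc)
    intro w hw
    simp only [tkw_rsw, List.mem_cons, List.not_mem_nil, or_false] at hw
    rcases hw with rfl | rfl | rfl
    · exact Subgroup.subset_closure (by simp [uw])
    · exact Subgroup.subset_closure (by simp [uw])
    · exact Subgroup.subset_closure (by simp [uw])

theorem kw_index : Finite (Pr hatW ⧸ H3 hatW) ∧ Nat.card (Pr hatW ⧸ H3 hatW) ≤ 3200 :=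
  replay_bound kw_rhyp t_gens_all (closure_pg hatW) (by decide) (by decide) tkw_rall

instance hatW_finite : Finite (Pr hatW) := by
  have := kw_index.1
  have := hatW_H3.1
  exact Finite.of_equiv _ (Subgroup.groupEquivQuotientProdSubgroup (s := H3 hatW)).symm

/-- the covering group has at most `2 · 17971200` elements -/
theorem hatW_card_le : Nat.card (Pr hatW) ≤ 35942400 := by
  rw [Subgroup.card_eq_card_quotient_mul_card_subgroup (H3 hatW)]
  calc Nat.card (Pr hatW ⧸ H3 hatW) * Nat.card (H3 hatW) ≤ 3200 * 11232 :=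
        Nat.mul_le_mul kw_index.2 hatW_H3.2
    _ = 35942400 := by norm_num

end Cfsg.Agent.H41.TitsP
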