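import Cfsg.Agent.H41.E8Data

/-!
# Twisted normalisation for extensions of a Coxeter quotient of type `E₈` (helper41)

`π : E → W` is a homomorphism onto a group generated by involutions `r i` (`i < 8`) satisfying
the `E₈` Coxeter relations.  The kernel need not be central: it is only centralised by the
products of two lifts of generators ("even" elements), while the involution `τ` over `r 0`
acts on it in an arbitrary way.  `M` is the set of kernel elements inverted by `τ`; the
involutions over a fixed `r i` form a torsor under `M`.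

* `T2`: if the kernel is a `2`-group, there are involutions `t i` over `r i` and a central
  involution `z` of the kernel satisfying the relations `Rel2` of the Ihara–Yokonuma double
  cover (`(t i t j)³ = 1` on edges, `(t i t j)² = z` on non-edges).
* `Todd`: if the kernel has odd exponent, the `t i` can be chosen to satisfy the Coxeter
  relations exactly.
-/

set_option autoImplicit false

namespace Cfsg.Agent.H41.TwCox

open Cfsg.Agent.H41.CoxBound Cfsg.Agent.H41.E8

/-- twisted Coxeter relations: involutions, braid relations on edges, commutation up to the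
central involution `z` on non-edges -/
def Rel2 {G : Type*} [Group G] (adj : ℕ → ℕ → Bool) (g : ℕ → G) (z : G) (k : ℕ) : Prop :=
  (∀ i, i < k → g i * g i = 1) ∧
  (∀ i j, i < k → j < k → adj i j = true → g i * g j * g i = g j * g i * g j) ∧
  (∀ i j, i < k → j < k → i ≠ j → adj i j = false → g i * g j = z * (g j * g i)) ∧
  (∀ i, i < k → z * g i = g i * z) ∧ z * z = 1

theorem Rel.rel2 {G : Type*} [Group G] {adj : ℕ → ℕ → Bool} {g : ℕ → G} {k : ℕ}
    (h : Rel adj g k) : Rel2 adj g 1 k :=
  ⟨h.1, h.2.1, fun i j hi hj hne hij => by rw [one_mul]; exact h.2.2 i j hi hj hne hij,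
    fun i _ => by rw [one_mul, mul_one], one_mul 1⟩

section Basic

variable {G : Type*} [Group G]

theorem inv_of_sq {x : G} (h : x * x = 1) : x⁻¹ = x := inv_eq_of_mul_eq_one_left h

theorem cube_of_braid {a b : G} (ha : a * a = 1) (hb : b * b = 1)
    (h : a * b * a = b * a * b) : (a * b) ^ 3 = 1 := by
  calc (a * b) ^ 3 = (a * b * a) * (b * a * b) := by
        simp only [pow_succ, pow_zero, one_mul, mul_assoc]
    _ = (b * a * b) * (b * a * b) := by rw [h]
    _ = b * a * (b * b) * a * b := by simp only [mul_assoc]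
    _ = 1 := by rw [hb, mul_one, mul_assoc b a a, ha, mul_one, hb]

theorem braid_of_cube {a b : G} (ha : a * a = 1) (hb : b * b = 1)
    (h : (a * b) ^ 3 = 1) : a * b * a = b * a * b := by
  have h1 : (a * b * a) * (b * a * b) = 1 := by
    rw [← h]
    simp only [pow_succ, pow_zero, one_mul, mul_assoc]
  have h2 : (b * a * b) * (b * a * b) = 1 := by
    calc (b * a * b) * (b * a * b) = b * a * (b * b) * a * b := by simp only [mul_assoc]
      _ = 1 := by rw [hb, mul_one, mul_assoc b a a, ha, mul_one, hb]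
  calc a * b * a = (a * b * a) * ((b * a * b) * (b * a * b)) := by rw [h2, mul_one]
    _ = ((a * b * a) * (b * a * b)) * (b * a * b) := (mul_assoc _ _ _).symm
    _ = b * a * b := by rw [h1, one_mul]

theorem sq_of_comm {a b : G} (ha : a * a = 1) (hb : b * b = 1)
    (h : a * b = b * a) : (a * b) ^ 2 = 1 := by
  calc (a * b) ^ 2 = a * (b * a) * b := by simp only [pow_succ, pow_zero, one_mul, mul_assoc]
    _ = a * (a * b) * b := by rw [h]
    _ = (a * a) * (b * b) := by simp only [mul_assoc]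
    _ = 1 := by rw [ha, hb, one_mul]

theorem mul_inv_of_sq {x y : G} (hx : x * x = 1) (hy : y * y = 1) : (x * y)⁻¹ = y * x := by
  rw [mul_inv_rev, inv_of_sq hx, inv_of_sq hy]

/-- conjugating a power of `x * y` by the involution `x` -/
theorem conj_self_pow {x y : G} (hx : x * x = 1) (hy : y * y = 1) (n : ℕ) :
    x * (x * y) ^ n * x = ((x * y) ^ n)⁻¹ := by
  have h1 : x * (x * y) ^ n * x⁻¹ = (x * (x * y) * x⁻¹) ^ n := (conj_pow).symm
  rw [inv_of_sq hx] at h1
  rw [h1, ← inv_pow, mul_inv_of_sq hx hy, ← mul_assoc, hx, one_mul]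

theorem comm_of_sq {z x y : G} (hx : x * x = 1) (hy : y * y = 1) (h : (x * y) ^ 2 = z) :
    x * y = z * (y * x) := by
  rw [← h, pow_two, ← mul_inv_of_sq hx hy, mul_assoc, mul_inv_cancel, mul_one]

end Basic

variable {E W : Type*} [Group E] [Group W]

/-- the hypotheses of the twisted normalisation -/
structure Setting (π : E →* W) (r : ℕ → W) (τ : E) : Prop where
  rel : Rel adjE r 8
  tau_sq : τ * τ = 1
  tau_lift : π τ = r 0
  cent : ∀ x y : E, ∀ i j, i < 8 → j < 8 → π x = r i → π y = r j →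
    ∀ c ∈ π.ker, (x * y) * c = c * (x * y)
  lifts : ∀ i, i < 8 → ∃ x, π x = r i ∧ x * x = 1

/-- kernel elements inverted by `τ` -/
def IsM (π : E →* W) (τ : E) (c : E) : Prop := c ∈ π.ker ∧ τ * c * τ = c⁻¹

/-- involutions over `r i` -/
def IsL (π : E →* W) (r : ℕ → W) (i : ℕ) (x : E) : Prop := π x = r i ∧ x * x = 1

namespace Setting

variable {π : E →* W} {r : ℕ → W} {τ : E} (S : Setting π r τ)
include S

theorem conj_ker {i : ℕ} (hi : i < 8) {x : E} (hx : π x = r i) {c : E} (hc : c ∈ π.ker) :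
    x * c = (τ * c * τ) * x := by
  have h := S.cent τ x 0 i (by norm_num) hi S.tau_lift hx c hc
  calc x * c = τ * τ * (x * c) := by rw [S.tau_sq, one_mul]
    _ = τ * ((τ * x) * c) := by simp only [mul_assoc]
    _ = τ * (c * (τ * x)) := by rw [h]
    _ = τ * c * τ * x := by simp only [mul_assoc]

theorem theta_mem {c : E} (hc : c ∈ π.ker) : τ * c * τ ∈ π.ker := by
  rw [MonoidHom.mem_ker] at hc ⊢
  rw [map_mul, map_mul, hc, mul_one, S.tau_lift]
  exact S.rel.1 0 (by norm_num)

theorem ker_comm {c c' : E} (hc : c ∈ π.ker) (hc' : c' ∈ π.ker) : c * c' = c' * c := by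
  have h1 : π (τ * (τ * c' * τ)) = r 0 := by
    rw [map_mul, MonoidHom.mem_ker.1 (S.theta_mem hc'), mul_one, S.tau_lift]
  have h := S.cent (τ * (τ * c' * τ)) τ 0 0 (by norm_num) (by norm_num) h1 S.tau_lift c hc
  have e : τ * (τ * c' * τ) * τ = c' := by
    calc τ * (τ * c' * τ) * τ = (τ * τ) * c' * (τ * τ) := by simp only [mul_assoc]
      _ = c' := by rw [S.tau_sq, one_mul, mul_one]
  rw [e] at h
  exact h.symm

theorem isM_one : IsM π τ 1 :=
  ⟨one_mem _, by rw [mul_one, S.tau_sq, inv_one]⟩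

theorem isM_mul {c c' : E} (hc : IsM π τ c) (hc' : IsM π τ c') : IsM π τ (c * c') := by
  refine ⟨mul_mem hc.1 hc'.1, ?_⟩
  calc τ * (c * c') * τ = (τ * c * τ) * (τ * c' * τ) := by
        rw [mul_assoc (τ * c) τ, ← mul_assoc τ (τ * c'), ← mul_assoc τ τ c', S.tau_sq, one_mul]
        simp only [mul_assoc]
    _ = c⁻¹ * c'⁻¹ := by rw [hc.2, hc'.2]
    _ = (c * c')⁻¹ := by rw [S.ker_comm hc.1 hc'.1, mul_inv_rev]

theorem isM_inv {c : E} (hc : IsM π τ c) : IsM π τ c⁻¹ := by
  refine ⟨inv_mem hc.1, ?_⟩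
  have h : (τ * c * τ)⁻¹ = τ * c⁻¹ * τ := by
    rw [mul_inv_rev, mul_inv_rev, inv_of_sq S.tau_sq, mul_assoc]
  rw [← h, hc.2]

theorem isM_pow {c : E} (hc : IsM π τ c) (n : ℕ) : IsM π τ (c ^ n) := by
  induction n with
  | zero => rw [pow_zero]; exact S.isM_one
  | succ n ih => rw [pow_succ]; exact S.isM_mul ih hc

/-- lifts of generators invert the elements of `M` -/
theorem swapM {i : ℕ} (hi : i < 8) {x : E} (hx : π x = r i) {c : E} (hc : IsM π τ c) :
    x * c = c⁻¹ * x := by
  rw [S.conj_ker hi hx hc.1, hc.2]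

theorem swapM' {i : ℕ} (hi : i < 8) {x : E} (hx : π x = r i) {c : E} (hc : IsM π τ c) :
    c * x = x * c⁻¹ := by
  have := S.swapM hi hx (S.isM_inv hc)
  rw [inv_inv] at this
  exact this.symm

theorem isL_mul {i : ℕ} (hi : i < 8) {x : E} (hx : IsL π r i x) {c : E} (hc : IsM π τ c) :
    IsL π r i (x * c) := by
  refine ⟨by rw [map_mul, MonoidHom.mem_ker.1 hc.1, mul_one, hx.1], ?_⟩
  calc x * c * (x * c) = x * (c * x) * c := by simp only [mul_assoc]
    _ = x * (x * c⁻¹) * c := by rw [S.swapM' hi hx.1 hc]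
    _ = (x * x) * (c⁻¹ * c) := by simp only [mul_assoc]
    _ = 1 := by rw [hx.2, inv_mul_cancel, one_mul]

theorem pair_mul {i j : ℕ} (_hi : i < 8) (hj : j < 8) {x y : E} (_hx : π x = r i)
    (hy : π y = r j) {c c' : E} (hc : IsM π τ c) (_hc' : IsM π τ c') :
    (x * c) * (y * c') = (x * y) * (c⁻¹ * c') := by
  calc (x * c) * (y * c') = x * (c * y) * c' := by simp only [mul_assoc]
    _ = x * (y * c⁻¹) * c' := by rw [S.swapM' hj hy hc]
    _ = (x * y) * (c⁻¹ * c') := by simp only [mul_assoc]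

theorem pair_pow {i j : ℕ} (hi : i < 8) (hj : j < 8) {x y : E} (hx : π x = r i)
    (hy : π y = r j) {c c' : E} (hc : IsM π τ c) (hc' : IsM π τ c') (n : ℕ) :
    ((x * c) * (y * c')) ^ n = (x * y) ^ n * (c⁻¹ * c') ^ n := by
  rw [S.pair_mul hi hj hx hy hc hc']
  have hcm : Commute (x * y) (c⁻¹ * c') :=
    S.cent x y i j hi hj hx hy _ (mul_mem (inv_mem hc.1) hc'.1)
  exact hcm.mul_pow n

theorem pair_pow_right {i j : ℕ} (hi : i < 8) (hj : j < 8) {x y : E} (hx : π x = r i)
    (hy : π y = r j) {c' : E} (hc' : IsM π τ c') (n : ℕ) :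
    (x * (y * c')) ^ n = (x * y) ^ n * c' ^ n := by
  have h := S.pair_pow hi hj hx hy S.isM_one hc' n
  rw [mul_one, inv_one, one_mul] at h
  exact h

theorem pair_pow_left {i j : ℕ} (hi : i < 8) (hj : j < 8) {x y : E} (hx : π x = r i)
    (hy : π y = r j) {c : E} (hc : IsM π τ c) (n : ℕ) :
    ((x * c) * y) ^ n = (x * y) ^ n * (c⁻¹) ^ n := by
  have h := S.pair_pow hi hj hx hy hc S.isM_one n
  rw [mul_one, mul_one] at h
  exact h

/-- `τ` and every involution over a generator act in the same way on the kernel -/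
theorem theta_eq {i : ℕ} (hi : i < 8) {x : E} (hx : IsL π r i x) {c : E} (hc : c ∈ π.ker) :
    x * c * x = τ * c * τ := by
  rw [S.conj_ker hi hx.1 hc, mul_assoc, hx.2, mul_one]

theorem conjM {i : ℕ} (hi : i < 8) {x : E} (hx : IsL π r i x) {c : E} (hc : IsM π τ c) :
    x * c * x = c⁻¹ := by
  rw [S.theta_eq hi hx hc.1, hc.2]

/-- powers of a product of two involutions over generators which lie in the kernel are in `M` -/
theorem isM_pair_pow {i j : ℕ} (hi : i < 8) (_hj : j < 8) {x y : E} (hx : IsL π r i x)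
    (hy : IsL π r j y) (n : ℕ) (h : (r i * r j) ^ n = 1) : IsM π τ ((x * y) ^ n) := by
  have hk : (x * y) ^ n ∈ π.ker := by
    rw [MonoidHom.mem_ker, map_pow, map_mul, hx.1, hy.1, h]
  refine ⟨hk, ?_⟩
  rw [← S.theta_eq hi hx hk]
  exact conj_self_pow hx.2 hy.2 n

theorem isM_cube {i j : ℕ} (hi : i < 8) (hj : j < 8) (hij : adjE i j = true) {x y : E}
    (hx : IsL π r i x) (hy : IsL π r j y) : IsM π τ ((x * y) ^ 3) :=
  S.isM_pair_pow hi hj hx hy 3
    (cube_of_braid (S.rel.1 i hi) (S.rel.1 j hj) (S.rel.2.1 i j hi hj hij))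

theorem isM_sq {i j : ℕ} (hi : i < 8) (hj : j < 8) (hne : i ≠ j) (hij : adjE i j = false)
    {x y : E} (hx : IsL π r i x) (hy : IsL π r j y) : IsM π τ ((x * y) ^ 2) :=
  S.isM_pair_pow hi hj hx hy 2
    (sq_of_comm (S.rel.1 i hi) (S.rel.1 j hj) (S.rel.2.2 i j hi hj hne hij))

/-- **Conjugation formula**: conjugating a power of `x * y` by an involution `w` over a
generator not adjacent to those of `x` and `y`. -/
theorem conj_pair_pow {i j k : ℕ} (hi : i < 8) (hj : j < 8) (hk : k < 8) (hik : i ≠ k)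
    (hjk : j ≠ k) (aik : adjE i k = false) (ajk : adjE j k = false) {x y w : E}
    (hx : IsL π r i x) (hy : IsL π r j y) (hw : IsL π r k w) (n : ℕ) :
    w * (x * y) ^ n * w = (x * y) ^ n * (((x * w) ^ 2)⁻¹ * (y * w) ^ 2) ^ n := by
  have e1 : w * x * w = x * (x * w) ^ 2 := by
    rw [pow_two]
    calc w * x * w = (x * x) * (w * x * w) := by rw [hx.2, one_mul]
      _ = x * (x * w * (x * w)) := by simp only [mul_assoc]
  have e2 : w * y * w = y * (y * w) ^ 2 := by
    rw [pow_two]
    calc w * y * w = (y * y) * (w * y * w) := by rw [hy.2, one_mul]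
      _ = y * (y * w * (y * w)) := by simp only [mul_assoc]
  have h1 : w * (x * y) ^ n * w⁻¹ = (w * (x * y) * w⁻¹) ^ n := (conj_pow).symm
  rw [inv_of_sq hw.2] at h1
  have h2 : w * (x * y) * w = (w * x * w) * (w * y * w) := by
    calc w * (x * y) * w = w * x * (w * w) * y * w := by rw [hw.2, mul_one]; simp only [mul_assoc]
      _ = (w * x * w) * (w * y * w) := by simp only [mul_assoc]
  rw [h1, h2, e1, e2]
  exact S.pair_pow hi hj hx.1 hy.1 (S.isM_sq hi hk hik aik hx hw) (S.isM_sq hj hk hjk ajk hy hw) n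


theorem exists_lifts : ∃ t : ℕ → E, ∀ i, i < 8 → IsL π r i (t i) := by
  classical
  exact ⟨fun i => if h : i < 8 then Classical.choose (S.lifts i h) else 1,
    fun i hi => by simp only [dif_pos hi]; exact Classical.choose_spec (S.lifts i hi)⟩

end Setting

theorem exists_three_mul (n : ℕ) : ∃ m, 3 * m + 1 = 4 ^ n := by
  induction n with
  | zero => exact ⟨0, rfl⟩
  | succ n ih =>
    obtain ⟨m, hm⟩ := ih
    exact ⟨4 * m + 1, by rw [pow_succ, ← hm]; ring⟩

/-- parents in the `E₈` tree -/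
def parE8 (k : ℕ) : ℕ := ([0, 0, 1, 2, 2, 3, 5, 6] : List ℕ).getD k 0

theorem hparE8 : ∀ k, 0 < k → k < 8 → parE8 k < k ∧ adjE (parE8 k) k = true ∧
    ∀ i, i < k → (adjE i k = true ∨ adjE k i = true) → i = parE8 k := by
  have h : ∀ k, k < 8 → 0 < k → (parE8 k < k ∧ adjE (parE8 k) k = true ∧
      ∀ i, i < k → (adjE i k = true ∨ adjE k i = true) → i = parE8 k) := by decide
  exact fun k h0 hk => h k hk h0

theorem adjE_irrefl : ∀ i, i < 8 → adjE i i = false := by decide

theorem adjE_zero : ∀ i, 2 ≤ i → i < 8 → adjE i 0 = false := by decide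

theorem cube_symm {G : Type*} [Group G] {x y : G} (hx : x * x = 1) (hy : y * y = 1)
    (h : (x * y) ^ 3 = 1) : (y * x) ^ 3 = 1 := by
  rw [← mul_inv_of_sq hx hy, inv_pow, h, inv_one]

namespace Setting

variable {π : E →* W} {r : ℕ → W} {τ : E} (S : Setting π r τ)
include S

/-! ### the kernel is a `2`-group -/

section Two

variable {n : ℕ} (h2 : ∀ c ∈ π.ker, c ^ (2 ^ n) = 1)
include h2

theorem pow_four {c : E} (hc : c ∈ π.ker) : c ^ (4 ^ n) = 1 := by
  have e : (4 : ℕ) ^ n = 2 ^ n * 2 ^ n := by rw [← mul_pow]; norm_num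
  rw [e, pow_mul, h2 c hc, one_pow]

theorem cube_root {d : E} (hd : IsM π τ d) : ∃ b, IsM π τ b ∧ b ^ 3 = d⁻¹ := by
  obtain ⟨m, hm⟩ := exists_three_mul n
  refine ⟨d ^ m, S.isM_pow hd m, ?_⟩
  have h := S.pow_four h2 hd.1
  rw [← hm, pow_succ, pow_mul'] at h
  exact eq_inv_of_mul_eq_one_left h

theorem cube_inj {c : E} (hc : c ∈ π.ker) (h : c ^ 3 = 1) : c = 1 := by
  obtain ⟨m, hm⟩ := exists_three_mul n
  have h' := S.pow_four h2 hc
  rw [← hm, pow_succ, pow_mul, h, one_pow, one_mul] at h'
  exact h'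

theorem normalize2 : ∃ t : ℕ → E, (∀ i, i < 8 → IsL π r i (t i)) ∧
    ∀ i j, i < 8 → j < 8 → adjE i j = true → (t i * t j) ^ 3 = 1 := by
  classical
  suffices H : ∀ k, k ≤ 8 → ∃ t : ℕ → E, (∀ i, i < 8 → IsL π r i (t i)) ∧
      ∀ i j, i < k → j < k → adjE i j = true → (t i * t j) ^ 3 = 1 from H 8 le_rfl
  intro k
  induction k with
  | zero =>
    intro _
    obtain ⟨t, ht⟩ := S.exists_lifts
    exact ⟨t, ht, fun i j hi => by omega⟩
  | succ k ih =>
    intro hk
    obtain ⟨t, hl, hb⟩ := ih (by omega)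
    rcases Nat.eq_zero_or_pos k with h0 | hpos
    · subst h0
      refine ⟨t, hl, ?_⟩
      intro i j hi hj hij
      have : i = 0 := by omega
      have : j = 0 := by omega
      subst_vars
      exact absurd hij (by decide)
    · obtain ⟨hp, hadj, huniq⟩ := hparE8 k hpos (by omega)
      have hk8 : k < 8 := by omega
      have hp8 : parE8 k < 8 := by omega
      obtain ⟨b, hbM, hb3⟩ := S.cube_root h2 (S.isM_cube hp8 hk8 hadj (hl _ hp8) (hl k hk8))
      have hne : ∀ i, i ≠ k → Function.update t k (t k * b) i = t i := fun i hi =>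
        Function.update_of_ne hi _ _
      have hself : Function.update t k (t k * b) k = t k * b := Function.update_self _ _ _
      have key : (t (parE8 k) * (t k * b)) ^ 3 = 1 := by
        rw [S.pair_pow_right hp8 hk8 (hl _ hp8).1 (hl k hk8).1 hbM 3, hb3, mul_inv_cancel]
      have hLk : IsL π r k (t k * b) := S.isL_mul hk8 (hl k hk8) hbM
      refine ⟨Function.update t k (t k * b), ?_, ?_⟩
      · intro i hi
        by_cases hik : i = k
        · subst hik; rw [hself]; exact hLk
        · rw [hne i hik]; exact hl i hi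
      · intro i j hi hj hij
        rcases Nat.lt_succ_iff_lt_or_eq.1 hi with hi' | hi'
        · rcases Nat.lt_succ_iff_lt_or_eq.1 hj with hj' | hj'
          · rw [hne i (by omega), hne j (by omega)]
            exact hb i j hi' hj' hij
          · rw [hj'] at hij ⊢
            have e : i = parE8 k := huniq i hi' (Or.inl hij)
            rw [e, hne (parE8 k) (by omega), hself]
            exact key
        · rcases Nat.lt_succ_iff_lt_or_eq.1 hj with hj' | hj'
          · rw [hi'] at hij ⊢
            have e : j = parE8 k := huniq j hj' (Or.inr hij)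
            rw [e, hself, hne (parE8 k) (by omega)]
            exact cube_symm (hl _ hp8).2 hLk.2 key
          · rw [hi', hj', adjE_irrefl k hk8] at hij
            exact absurd hij (by simp)

/-- **Twisted normalisation, `2`-group case.** -/
theorem T2 : ∃ (t : ℕ → E) (z : E), (∀ i, i < 8 → π (t i) = r i) ∧ π z = 1 ∧
    Rel2 adjE t z 8 := by
  obtain ⟨t, hl, hcube⟩ := S.normalize2 h2
  have hM : ∀ i k, i < 8 → k < 8 → i ≠ k → adjE i k = false → IsM π τ ((t i * t k) ^ 2) :=
    fun i k hi hk hne hik => S.isM_sq hi hk hne hik (hl i hi) (hl k hk)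
  have hmove : ∀ k i j, k < 8 → i < 8 → j < 8 → i ≠ k → j ≠ k → adjE i k = false →
      adjE j k = false → adjE i j = true → (t j * t k) ^ 2 = (t i * t k) ^ 2 := by
    intro k i j hk hi hj hik hjk aik ajk aij
    have h := S.conj_pair_pow hi hj hk hik hjk aik ajk (hl i hi) (hl j hj) (hl k hk) 3
    rw [hcube i j hi hj aij, mul_one, (hl k hk).2, one_mul] at h
    have h3 := S.cube_inj h2
      (mul_mem (inv_mem (hM i k hi hk hik aik).1) (hM j k hj hk hjk ajk).1) h.symm
    exact (inv_mul_eq_one.1 h3).symm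
  have hsym : ∀ i k, i < 8 → k < 8 → (t k * t i) ^ 2 = ((t i * t k) ^ 2)⁻¹ := by
    intro i k hi hk
    rw [← inv_pow, mul_inv_of_sq (hl i hi).2 (hl k hk).2]
  obtain ⟨x0, hx0⟩ : ∃ x0 : E, x0 = (t 2 * t 0) ^ 2 := ⟨_, rfl⟩
  have hx0M : IsM π τ x0 := by
    rw [hx0]; exact hM 2 0 (by norm_num) (by norm_num) (by norm_num) (by decide)
  have e30 : (t 3 * t 0) ^ 2 = x0 := by
    rw [hx0]
    exact hmove 0 2 3 (by norm_num) (by norm_num) (by norm_num) (by norm_num) (by norm_num)
      (by decide) (by decide) (by decide)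
  have e50 : (t 5 * t 0) ^ 2 = x0 :=
    (hmove 0 3 5 (by norm_num) (by norm_num) (by norm_num) (by norm_num) (by norm_num)
      (by decide) (by decide) (by decide)).trans e30
  have e60 : (t 6 * t 0) ^ 2 = x0 :=
    (hmove 0 5 6 (by norm_num) (by norm_num) (by norm_num) (by norm_num) (by norm_num)
      (by decide) (by decide) (by decide)).trans e50
  have e70 : (t 7 * t 0) ^ 2 = x0 :=
    (hmove 0 6 7 (by norm_num) (by norm_num) (by norm_num) (by norm_num) (by norm_num)
      (by decide) (by decide) (by decide)).trans e60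
  have e07 : (t 0 * t 7) ^ 2 = x0⁻¹ := by
    rw [hsym 7 0 (by norm_num) (by norm_num), e70]
  have e17 : (t 1 * t 7) ^ 2 = x0⁻¹ :=
    (hmove 7 0 1 (by norm_num) (by norm_num) (by norm_num) (by norm_num) (by norm_num)
      (by decide) (by decide) (by decide)).trans e07
  have e27 : (t 2 * t 7) ^ 2 = x0⁻¹ :=
    (hmove 7 1 2 (by norm_num) (by norm_num) (by norm_num) (by norm_num) (by norm_num)
      (by decide) (by decide) (by decide)).trans e17
  have e72 : (t 7 * t 2) ^ 2 = x0 := by
    rw [hsym 2 7 (by norm_num) (by norm_num), e27, inv_inv]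
  have hinv : x0⁻¹ = x0 := by
    have h := S.conj_pair_pow (i := 7) (j := 2) (k := 0) (by norm_num) (by norm_num)
      (by norm_num) (by norm_num) (by norm_num) (by decide) (by decide)
      (hl 7 (by norm_num)) (hl 2 (by norm_num)) (hl 0 (by norm_num)) 2
    rw [e72, e70, ← hx0, inv_mul_cancel, one_pow, mul_one,
      S.conjM (by norm_num) (hl 0 (by norm_num)) hx0M] at h
    exact h
  have hzz : x0 * x0 = 1 := by
    nth_rewrite 1 [← hinv]
    exact inv_mul_cancel x0
  have hmv : ∀ k i j, k < 8 → i < 8 → j < 8 → i ≠ k → j ≠ k → adjE i k = false →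
      adjE j k = false → adjE i j = true → (t i * t k) ^ 2 = x0 → (t j * t k) ^ 2 = x0 :=
    fun k i j hk hi hj hik hjk aik ajk aij h =>
      (hmove k i j hk hi hj hik hjk aik ajk aij).trans h
  have hsy : ∀ i k, i < 8 → k < 8 → (t i * t k) ^ 2 = x0 → (t k * t i) ^ 2 = x0 := by
    intro i k hi hk h
    rw [hsym i k hi hk, h, hinv]
  have p_2_0 : (t 2 * t 0) ^ 2 = x0 := hx0.symm
  have p_0_2 : (t 0 * t 2) ^ 2 = x0 := hsy 2 0 (by norm_num) (by norm_num) p_2_0
  have p_3_0 : (t 3 * t 0) ^ 2 = x0 := hmv 0 2 3 (by norm_num) (by norm_num) (by norm_num) (by norm_num) (by norm_num) (by decide) (by decide) (by decide) p_2_0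
  have p_4_0 : (t 4 * t 0) ^ 2 = x0 := hmv 0 2 4 (by norm_num) (by norm_num) (by norm_num) (by norm_num) (by norm_num) (by decide) (by decide) (by decide) p_2_0
  have p_0_3 : (t 0 * t 3) ^ 2 = x0 := hsy 3 0 (by norm_num) (by norm_num) p_3_0
  have p_5_0 : (t 5 * t 0) ^ 2 = x0 := hmv 0 3 5 (by norm_num) (by norm_num) (by norm_num) (by norm_num) (by norm_num) (by decide) (by decide) (by decide) p_3_0
  have p_0_4 : (t 0 * t 4) ^ 2 = x0 := hsy 4 0 (by norm_num) (by norm_num) p_4_0
  have p_1_3 : (t 1 * t 3) ^ 2 = x0 := hmv 3 0 1 (by norm_num) (by norm_num) (by norm_num) (by norm_num) (by norm_num) (by decide) (by decide) (by decide) p_0_3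
  have p_0_5 : (t 0 * t 5) ^ 2 = x0 := hsy 5 0 (by norm_num) (by norm_num) p_5_0
  have p_6_0 : (t 6 * t 0) ^ 2 = x0 := hmv 0 5 6 (by norm_num) (by norm_num) (by norm_num) (by norm_num) (by norm_num) (by decide) (by decide) (by decide) p_5_0
  have p_1_4 : (t 1 * t 4) ^ 2 = x0 := hmv 4 0 1 (by norm_num) (by norm_num) (by norm_num) (by norm_num) (by norm_num) (by decide) (by decide) (by decide) p_0_4
  have p_3_1 : (t 3 * t 1) ^ 2 = x0 := hsy 1 3 (by norm_num) (by norm_num) p_1_3
  have p_1_5 : (t 1 * t 5) ^ 2 = x0 := hmv 5 0 1 (by norm_num) (by norm_num) (by norm_num) (by norm_num) (by norm_num) (by decide) (by decide) (by decide) p_0_5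
  have p_0_6 : (t 0 * t 6) ^ 2 = x0 := hsy 6 0 (by norm_num) (by norm_num) p_6_0
  have p_7_0 : (t 7 * t 0) ^ 2 = x0 := hmv 0 6 7 (by norm_num) (by norm_num) (by norm_num) (by norm_num) (by norm_num) (by decide) (by decide) (by decide) p_6_0
  have p_4_1 : (t 4 * t 1) ^ 2 = x0 := hsy 1 4 (by norm_num) (by norm_num) p_1_4
  have p_5_1 : (t 5 * t 1) ^ 2 = x0 := hmv 1 3 5 (by norm_num) (by norm_num) (by norm_num) (by norm_num) (by norm_num) (by decide) (by decide) (by decide) p_3_1
  have p_2_5 : (t 2 * t 5) ^ 2 = x0 := hmv 5 1 2 (by norm_num) (by norm_num) (by norm_num) (by norm_num) (by norm_num) (by decide) (by decide) (by decide) p_1_5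
  have p_1_6 : (t 1 * t 6) ^ 2 = x0 := hmv 6 0 1 (by norm_num) (by norm_num) (by norm_num) (by norm_num) (by norm_num) (by decide) (by decide) (by decide) p_0_6
  have p_0_7 : (t 0 * t 7) ^ 2 = x0 := hsy 7 0 (by norm_num) (by norm_num) p_7_0
  have p_6_1 : (t 6 * t 1) ^ 2 = x0 := hmv 1 5 6 (by norm_num) (by norm_num) (by norm_num) (by norm_num) (by norm_num) (by decide) (by decide) (by decide) p_5_1
  have p_5_2 : (t 5 * t 2) ^ 2 = x0 := hsy 2 5 (by norm_num) (by norm_num) p_2_5
  have p_4_5 : (t 4 * t 5) ^ 2 = x0 := hmv 5 2 4 (by norm_num) (by norm_num) (by norm_num) (by norm_num) (by norm_num) (by decide) (by decide) (by decide) p_2_5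
  have p_2_6 : (t 2 * t 6) ^ 2 = x0 := hmv 6 1 2 (by norm_num) (by norm_num) (by norm_num) (by norm_num) (by norm_num) (by decide) (by decide) (by decide) p_1_6
  have p_1_7 : (t 1 * t 7) ^ 2 = x0 := hmv 7 0 1 (by norm_num) (by norm_num) (by norm_num) (by norm_num) (by norm_num) (by decide) (by decide) (by decide) p_0_7
  have p_7_1 : (t 7 * t 1) ^ 2 = x0 := hmv 1 6 7 (by norm_num) (by norm_num) (by norm_num) (by norm_num) (by norm_num) (by decide) (by decide) (by decide) p_6_1
  have p_6_2 : (t 6 * t 2) ^ 2 = x0 := hmv 2 5 6 (by norm_num) (by norm_num) (by norm_num) (by norm_num) (by norm_num) (by decide) (by decide) (by decide) p_5_2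
  have p_5_4 : (t 5 * t 4) ^ 2 = x0 := hsy 4 5 (by norm_num) (by norm_num) p_4_5
  have p_3_6 : (t 3 * t 6) ^ 2 = x0 := hmv 6 2 3 (by norm_num) (by norm_num) (by norm_num) (by norm_num) (by norm_num) (by decide) (by decide) (by decide) p_2_6
  have p_4_6 : (t 4 * t 6) ^ 2 = x0 := hmv 6 2 4 (by norm_num) (by norm_num) (by norm_num) (by norm_num) (by norm_num) (by decide) (by decide) (by decide) p_2_6
  have p_2_7 : (t 2 * t 7) ^ 2 = x0 := hmv 7 1 2 (by norm_num) (by norm_num) (by norm_num) (by norm_num) (by norm_num) (by decide) (by decide) (by decide) p_1_7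
  have p_7_2 : (t 7 * t 2) ^ 2 = x0 := hmv 2 6 7 (by norm_num) (by norm_num) (by norm_num) (by norm_num) (by norm_num) (by decide) (by decide) (by decide) p_6_2
  have p_3_4 : (t 3 * t 4) ^ 2 = x0 := hmv 4 5 3 (by norm_num) (by norm_num) (by norm_num) (by norm_num) (by norm_num) (by decide) (by decide) (by decide) p_5_4
  have p_6_4 : (t 6 * t 4) ^ 2 = x0 := hmv 4 5 6 (by norm_num) (by norm_num) (by norm_num) (by norm_num) (by norm_num) (by decide) (by decide) (by decide) p_5_4
  have p_6_3 : (t 6 * t 3) ^ 2 = x0 := hsy 3 6 (by norm_num) (by norm_num) p_3_6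
  have p_3_7 : (t 3 * t 7) ^ 2 = x0 := hmv 7 2 3 (by norm_num) (by norm_num) (by norm_num) (by norm_num) (by norm_num) (by decide) (by decide) (by decide) p_2_7
  have p_4_7 : (t 4 * t 7) ^ 2 = x0 := hmv 7 2 4 (by norm_num) (by norm_num) (by norm_num) (by norm_num) (by norm_num) (by decide) (by decide) (by decide) p_2_7
  have p_4_3 : (t 4 * t 3) ^ 2 = x0 := hsy 3 4 (by norm_num) (by norm_num) p_3_4
  have p_7_4 : (t 7 * t 4) ^ 2 = x0 := hmv 4 6 7 (by norm_num) (by norm_num) (by norm_num) (by norm_num) (by norm_num) (by decide) (by decide) (by decide) p_6_4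
  have p_7_3 : (t 7 * t 3) ^ 2 = x0 := hmv 3 6 7 (by norm_num) (by norm_num) (by norm_num) (by norm_num) (by norm_num) (by decide) (by decide) (by decide) p_6_3
  have p_5_7 : (t 5 * t 7) ^ 2 = x0 := hmv 7 3 5 (by norm_num) (by norm_num) (by norm_num) (by norm_num) (by norm_num) (by decide) (by decide) (by decide) p_3_7
  have p_7_5 : (t 7 * t 5) ^ 2 = x0 := hsy 5 7 (by norm_num) (by norm_num) p_5_7
  have hall : ∀ i j, i < 8 → j < 8 → i ≠ j → adjE i j = false → (t i * t j) ^ 2 = x0 := by
    intro i j hi hj hne hadj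
    interval_cases i <;> interval_cases j <;>
      first
        | exact absurd rfl hne
        | exact absurd hadj (by decide)
        | assumption
  refine ⟨t, x0, fun i hi => (hl i hi).1, MonoidHom.mem_ker.1 hx0M.1, fun i hi => (hl i hi).2,
    fun i j hi hj hij => braid_of_cube (hl i hi).2 (hl j hj).2 (hcube i j hi hj hij),
    fun i j hi hj hne hij => comm_of_sq (hl i hi).2 (hl j hj).2 (hall i j hi hj hne hij),
    fun i hi => ?_, hzz⟩
  have h := S.swapM' hi (hl i hi).1 hx0M
  rw [hinv] at h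
  exact h

end Two

/-! ### the kernel has odd exponent -/

section Odd

variable {m : ℕ} (ho : ∀ c ∈ π.ker, c ^ (2 * m + 1) = 1)
include ho

theorem sqrt {e : E} (he : IsM π τ e) : ∃ b, IsM π τ b ∧ b ^ 2 = e := by
  refine ⟨(e ^ m)⁻¹, S.isM_inv (S.isM_pow he m), ?_⟩
  have h := ho e he.1
  rw [pow_succ, pow_mul'] at h
  rw [inv_pow]
  exact inv_eq_of_mul_eq_one_right h

theorem sq_inj {c : E} (hc : c ∈ π.ker) (h : c ^ 2 = 1) : c = 1 := by
  have h' := ho c hc
  rw [pow_succ, pow_mul, h, one_pow, one_mul] at h'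
  exact h'

theorem normalizeOdd : ∃ t : ℕ → E, (∀ i, i < 8 → IsL π r i (t i)) ∧
    (∀ i, 2 ≤ i → i < 8 → (t i * t 0) ^ 2 = 1) ∧ (t 1 * t 7) ^ 2 = 1 := by
  classical
  obtain ⟨t, hl⟩ := S.exists_lifts
  have hex : ∀ i, 2 ≤ i → i < 8 → ∃ b, IsM π τ b ∧ b ^ 2 = (t i * t 0) ^ 2 := fun i h2 h8 =>
    S.sqrt ho (S.isM_sq h8 (by norm_num) (by omega) (adjE_zero i h2 h8) (hl i h8)
      (hl 0 (by norm_num)))
  obtain ⟨t1, ht1⟩ : ∃ t1 : ℕ → E, t1 = fun i =>
      if h : 2 ≤ i ∧ i < 8 then t i * Classical.choose (hex i h.1 h.2) else t i := ⟨_, rfl⟩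
  have hl1 : ∀ i, i < 8 → IsL π r i (t1 i) := by
    intro i hi
    rw [ht1]
    by_cases h : 2 ≤ i ∧ i < 8
    · simp only [dif_pos h]
      exact S.isL_mul hi (hl i hi) (Classical.choose_spec (hex i h.1 h.2)).1
    · simp only [dif_neg h]
      exact hl i hi
  have h10 : t1 0 = t 0 := by
    rw [ht1]
    simp
  have hA : ∀ i, 2 ≤ i → i < 8 → (t1 i * t1 0) ^ 2 = 1 := by
    intro i h2 h8
    rw [h10]
    have e : t1 i = t i * Classical.choose (hex i h2 h8) := by
      rw [ht1]
      simp only [dif_pos (And.intro h2 h8)]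
    rw [e, S.pair_pow_left h8 (by norm_num) (hl i h8).1 (hl 0 (by norm_num)).1
      (Classical.choose_spec (hex i h2 h8)).1 2, inv_pow,
      (Classical.choose_spec (hex i h2 h8)).2, mul_inv_cancel]
  obtain ⟨b, hbM, hb2⟩ := S.sqrt ho (S.isM_sq (i := 1) (j := 7) (by norm_num) (by norm_num)
    (by norm_num) (by decide) (hl1 1 (by norm_num)) (hl1 7 (by norm_num)))
  have hne : ∀ i, i ≠ 1 → Function.update t1 1 (t1 1 * b) i = t1 i := fun i hi =>
    Function.update_of_ne hi _ _
  have hself : Function.update t1 1 (t1 1 * b) 1 = t1 1 * b := Function.update_self _ _ _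
  refine ⟨Function.update t1 1 (t1 1 * b), ?_, ?_, ?_⟩
  · intro i hi
    by_cases hik : i = 1
    · subst hik
      rw [hself]
      exact S.isL_mul (by norm_num) (hl1 1 (by norm_num)) hbM
    · rw [hne i hik]
      exact hl1 i hi
  · intro i h2 h8
    rw [hne i (by omega), hne 0 (by norm_num)]
    exact hA i h2 h8
  · rw [hself, hne 7 (by norm_num),
      S.pair_pow_left (i := 1) (j := 7) (by norm_num) (by norm_num) (hl1 1 (by norm_num)).1
        (hl1 7 (by norm_num)).1 hbM 2, inv_pow, hb2, mul_inv_cancel]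

/-- **Twisted normalisation, odd case.** -/
theorem Todd : ∃ t : ℕ → E, (∀ i, i < 8 → π (t i) = r i) ∧ Rel adjE t 8 := by
  obtain ⟨t, hl, hA, hB⟩ := S.normalizeOdd ho
  have hsym : ∀ i k, i < 8 → k < 8 → (t i * t k) ^ 2 = 1 → (t k * t i) ^ 2 = 1 := by
    intro i k hi hk h
    rw [← mul_inv_of_sq (hl i hi).2 (hl k hk).2, inv_pow, h, inv_one]
  have hkill : ∀ k, k < 8 → ∀ d : E, IsM π τ d → t k * d * t k = d → d = 1 := by
    intro k hk d hd h
    rw [S.conjM hk (hl k hk) hd] at h
    apply S.sq_inj ho hd.1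
    rw [pow_two]
    nth_rewrite 1 [← h]
    exact inv_mul_cancel d
  have hthird : ∀ a b c, a < 8 → b < 8 → c < 8 → c ≠ a → b ≠ a → c ≠ b → adjE c a = false →
      adjE b a = false → adjE c b = false →
      (t c * t a) ^ 2 = 1 → (t b * t a) ^ 2 = 1 → (t c * t b) ^ 2 = 1 := by
    intro a b c ha hb hc hca hba hcb aca aba acb h1 h2
    have h := S.conj_pair_pow hc hb ha hca hba aca aba (hl c hc) (hl b hb) (hl a ha) 2
    rw [h1, h2, inv_one, one_mul, one_pow, mul_one] at h
    exact hkill a ha _ (S.isM_sq hc hb hcb acb (hl c hc) (hl b hb)) h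
  have hedge : ∀ i j k, i < 8 → j < 8 → k < 8 → i ≠ k → j ≠ k → adjE i k = false →
      adjE j k = false → adjE i j = true →
      (t i * t k) ^ 2 = 1 → (t j * t k) ^ 2 = 1 → (t i * t j) ^ 3 = 1 := by
    intro i j k hi hj hk hik hjk aik ajk aij h1 h2
    have h := S.conj_pair_pow hi hj hk hik hjk aik ajk (hl i hi) (hl j hj) (hl k hk) 3
    rw [h1, h2, inv_one, one_mul, one_pow, mul_one] at h
    exact hkill k hk _ (S.isM_cube hi hj aij (hl i hi) (hl j hj)) h
  have st1 : ∀ i j, 2 ≤ i → i < 8 → 2 ≤ j → j < 8 → i ≠ j → adjE i j = false →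
      (t i * t j) ^ 2 = 1 := fun i j hi2 hi8 hj2 hj8 hne hij =>
    hthird 0 j i (by norm_num) hj8 hi8 (by omega) (by omega) hne (adjE_zero i hi2 hi8)
      (adjE_zero j hj2 hj8) hij (hA i hi2 hi8) (hA j hj2 hj8)
  have c17 : (t 1 * t 7) ^ 2 = 1 := hB
  have c14 : (t 1 * t 4) ^ 2 = 1 :=
    hthird 7 4 1 (by norm_num) (by norm_num) (by norm_num) (by norm_num) (by norm_num)
      (by norm_num) (by decide) (by decide) (by decide) c17
      (st1 4 7 (by norm_num) (by norm_num) (by norm_num) (by norm_num) (by norm_num) (by decide))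
  have c13 : (t 1 * t 3) ^ 2 = 1 :=
    hthird 4 3 1 (by norm_num) (by norm_num) (by norm_num) (by norm_num) (by norm_num)
      (by norm_num) (by decide) (by decide) (by decide) c14
      (st1 3 4 (by norm_num) (by norm_num) (by norm_num) (by norm_num) (by norm_num) (by decide))
  have c15 : (t 1 * t 5) ^ 2 = 1 :=
    hthird 4 5 1 (by norm_num) (by norm_num) (by norm_num) (by norm_num) (by norm_num)
      (by norm_num) (by decide) (by decide) (by decide) c14
      (st1 5 4 (by norm_num) (by norm_num) (by norm_num) (by norm_num) (by norm_num) (by decide))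
  have c16 : (t 1 * t 6) ^ 2 = 1 :=
    hthird 4 6 1 (by norm_num) (by norm_num) (by norm_num) (by norm_num) (by norm_num)
      (by norm_num) (by decide) (by decide) (by decide) c14
      (st1 6 4 (by norm_num) (by norm_num) (by norm_num) (by norm_num) (by norm_num) (by decide))
  have c71 := hsym 1 7 (by norm_num) (by norm_num) c17
  have c41 := hsym 1 4 (by norm_num) (by norm_num) c14
  have c31 := hsym 1 3 (by norm_num) (by norm_num) c13
  have c51 := hsym 1 5 (by norm_num) (by norm_num) c15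
  have c61 := hsym 1 6 (by norm_num) (by norm_num) c16
  have hall : ∀ i j, i < 8 → j < 8 → i ≠ j → adjE i j = false → (t i * t j) ^ 2 = 1 := by
    intro i j hi hj hne hadj
    interval_cases i <;> interval_cases j <;>
      first
        | exact absurd rfl hne
        | exact absurd hadj (by decide)
        | exact st1 _ _ (by decide) (by decide) (by decide) (by decide) (by decide)
            (by decide)
        | exact hA _ (by decide) (by decide)
        | exact hsym _ _ (by decide) (by decide) (hA _ (by decide) (by decide))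
        | assumption
  have hcube : ∀ i j, i < 8 → j < 8 → adjE i j = true → (t i * t j) ^ 3 = 1 := by
    intro i j hi hj hadj
    interval_cases i <;> interval_cases j <;>
      first
        | exact absurd hadj (by decide)
        | exact hedge _ _ 7 (by decide) (by decide) (by decide) (by decide)
            (by decide) (by decide) (by decide) (by decide)
            (hall _ _ (by decide) (by decide) (by decide) (by decide))
            (hall _ _ (by decide) (by decide) (by decide) (by decide))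
        | exact hedge _ _ 0 (by decide) (by decide) (by decide) (by decide)
            (by decide) (by decide) (by decide) (by decide)
            (hall _ _ (by decide) (by decide) (by decide) (by decide))
            (hall _ _ (by decide) (by decide) (by decide) (by decide))
  refine ⟨t, fun i hi => (hl i hi).1, fun i hi => (hl i hi).2,
    fun i j hi hj hij => braid_of_cube (hl i hi).2 (hl j hj).2 (hcube i j hi hj hij),
    fun i j hi hj hne hij => ?_⟩
  have h := comm_of_sq (hl i hi).2 (hl j hj).2 (hall i j hi hj hne hij)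
  rw [one_mul] at h
  exact h

end Odd

end Setting

end Cfsg.Agent.H41.TwCox
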