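import Cfsg.Agent.H41.TwCox
import Cfsg.Agent.H41.CoxStem
import Cfsg.Agent.H41.ProdMult
import Cfsg.Prelude.Def_KGroupFacts

/-!
# The twisted pull-back of a central extension of a subgroup of index two (helper41)

`Ω` is a subgroup of `O`, `r0 ∉ Ω` an involution of `O` and `σ : Γ → Ω` a central extension.
`Ehat` is the subgroup of the wreath product `Γ ≀ C₂` consisting of the `(x, y; s)` with
`σ y = r0 (σ x) r0`; `(x, y; s) ↦ σ x * r0 ^ s` maps it to `O` with kernel `ker σ × ker σ`, which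
is centralised by the even elements.  This puts us in the situation of `TwCox.Setting`, and a
homomorphism `F : P → Ehat` over `ψ : P → O` shows that `ker σ` is an image of a subgroup of
`ker ψ` (`consequence`).
-/

set_option autoImplicit false

namespace Cfsg.Agent.H41.TwCox

open Cfsg Cfsg.Agent.H41.CoxBound Cfsg.Agent.H41.E8
open scoped commutatorElement

universe u v w

/-- the wreath product `Γ ≀ C₂` -/
@[ext] structure Wr (Γ : Type u) where
  a : Γ
  b : Γ
  s : Bool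

namespace Wr

variable {Γ : Type u} [Group Γ]

instance : Group (Wr Γ) where
  mul x y := ⟨x.a * (bif x.s then y.b else y.a), x.b * (bif x.s then y.a else y.b), xor x.s y.s⟩
  one := ⟨1, 1, false⟩
  inv x := ⟨(bif x.s then x.b else x.a)⁻¹, (bif x.s then x.a else x.b)⁻¹, x.s⟩
  mul_assoc := by
    rintro ⟨a, b, s⟩ ⟨a', b', s'⟩ ⟨a'', b'', s''⟩
    cases s <;> cases s' <;> apply Wr.ext <;>
      first
        | exact mul_assoc _ _ _
        | (cases s'' <;> rfl)
  one_mul := by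
    rintro ⟨a, b, s⟩
    apply Wr.ext
    · exact one_mul a
    · exact one_mul b
    · cases s <;> rfl
  mul_one := by
    rintro ⟨a, b, s⟩
    cases s <;> apply Wr.ext <;>
      first
        | exact mul_one _
        | rfl
  inv_mul_cancel := by
    rintro ⟨a, b, s⟩
    cases s <;> apply Wr.ext <;>
      first
        | exact inv_mul_cancel _
        | rfl

@[simp] theorem mul_a (x y : Wr Γ) : (x * y).a = x.a * (bif x.s then y.b else y.a) := rfl
@[simp] theorem mul_b (x y : Wr Γ) : (x * y).b = x.b * (bif x.s then y.a else y.b) := rfl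
@[simp] theorem mul_s (x y : Wr Γ) : (x * y).s = xor x.s y.s := rfl
@[simp] theorem one_a : (1 : Wr Γ).a = 1 := rfl
@[simp] theorem one_b : (1 : Wr Γ).b = 1 := rfl
@[simp] theorem one_s : (1 : Wr Γ).s = false := rfl

/-- the parity -/
def sgn : Wr Γ →* ℤˣ where
  toFun x := bif x.s then -1 else 1
  map_one' := rfl
  map_mul' := by
    rintro ⟨a, b, s⟩ ⟨a', b', s'⟩
    cases s <;> cases s' <;> rfl

theorem s_of_sgn {x : Wr Γ} (h : sgn x = 1) : x.s = false := by
  rcases x with ⟨a, b, s⟩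
  cases s
  · rfl
  · have h' : (-1 : ℤˣ) = 1 := h
    exact absurd h' (by decide)

theorem pow_even (x : Wr Γ) (hx : x.s = false) (n : ℕ) :
    x ^ n = ⟨x.a ^ n, x.b ^ n, false⟩ := by
  induction n with
  | zero =>
    rw [pow_zero, pow_zero, pow_zero]
    rfl
  | succ n ih =>
    rw [pow_succ, ih]
    apply Wr.ext
    · show x.a ^ n * x.a = x.a ^ (n + 1)
      rw [pow_succ]
    · show x.b ^ n * x.b = x.b ^ (n + 1)
      rw [pow_succ]
    · show xor false x.s = false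
      rw [hx]; rfl

end Wr

section Ehat

variable {Γ : Type u} [Group Γ] {O : Type v} [Group O] (Ω : Subgroup O) (σ : Γ →* Ω) (r0 : O)
  (hr0 : r0 * r0 = 1)

/-- the twisted pull-back -/
def Ehat : Subgroup (Wr Γ) where
  carrier := {x | (σ x.b : O) = r0 * σ x.a * r0}
  mul_mem' := by
    rintro ⟨a, b, s⟩ ⟨a', b', s'⟩ hx hy
    change (σ b : O) = r0 * σ a * r0 at hx
    change (σ b' : O) = r0 * σ a' * r0 at hy
    cases s
    · show ((σ (b * b') : Ω) : O) = r0 * ((σ (a * a') : Ω) : O) * r0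
      rw [map_mul, map_mul, Subgroup.coe_mul, Subgroup.coe_mul, hx, hy]
      calc r0 * σ a * r0 * (r0 * σ a' * r0) = r0 * σ a * (r0 * r0) * σ a' * r0 := by
            simp only [mul_assoc]
        _ = r0 * (σ a * σ a') * r0 := by rw [hr0, mul_one]; simp only [mul_assoc]
    · show ((σ (b * a') : Ω) : O) = r0 * ((σ (a * b') : Ω) : O) * r0
      rw [map_mul, map_mul, Subgroup.coe_mul, Subgroup.coe_mul, hx, hy]
      calc r0 * σ a * r0 * σ a' = r0 * (σ a * (r0 * σ a' * (r0 * r0))) := by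
            rw [hr0, mul_one]; simp only [mul_assoc]
        _ = r0 * (σ a * (r0 * σ a' * r0)) * r0 := by simp only [mul_assoc]
  one_mem' := by
    show ((σ 1 : Ω) : O) = r0 * ((σ 1 : Ω) : O) * r0
    rw [map_one, Subgroup.coe_one, mul_one, hr0]
  inv_mem' := by
    rintro ⟨a, b, s⟩ hx
    change (σ b : O) = r0 * σ a * r0 at hx
    cases s
    · show ((σ b⁻¹ : Ω) : O) = r0 * ((σ a⁻¹ : Ω) : O) * r0
      rw [map_inv, map_inv, Subgroup.coe_inv, Subgroup.coe_inv, hx, mul_inv_rev, mul_inv_rev,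
        inv_of_sq hr0, mul_assoc]
    · show ((σ a⁻¹ : Ω) : O) = r0 * ((σ b⁻¹ : Ω) : O) * r0
      rw [map_inv, map_inv, Subgroup.coe_inv, Subgroup.coe_inv, hx, mul_inv_rev, mul_inv_rev,
        inv_of_sq hr0]
      calc ((σ a : Ω) : O)⁻¹ = (r0 * r0) * (σ a : O)⁻¹ * (r0 * r0) := by
            rw [hr0, one_mul, mul_one]
        _ = r0 * (r0 * ((σ a : O)⁻¹ * r0)) * r0 := by simp only [mul_assoc]

theorem mem_Ehat {x : Wr Γ} : x ∈ Ehat Ω σ r0 hr0 ↔ (σ x.b : O) = r0 * σ x.a * r0 := Iff.rfl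

/-- the projection to `O` -/
def piHat : Ehat Ω σ r0 hr0 →* O where
  toFun x := (σ x.1.a : O) * (bif x.1.s then r0 else 1)
  map_one' := by
    show ((σ 1 : Ω) : O) * 1 = 1
    rw [map_one, Subgroup.coe_one, mul_one]
  map_mul' := by
    rintro ⟨⟨a, b, s⟩, hx⟩ ⟨⟨a', b', s'⟩, hy⟩
    change (σ b : O) = r0 * σ a * r0 at hx
    change (σ b' : O) = r0 * σ a' * r0 at hy
    cases s <;> cases s'
    · show ((σ (a * a') : Ω) : O) * 1 = (σ a : O) * 1 * ((σ a' : O) * 1)
      rw [map_mul, Subgroup.coe_mul, mul_one, mul_one, mul_one]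
    · show ((σ (a * a') : Ω) : O) * r0 = (σ a : O) * 1 * ((σ a' : O) * r0)
      rw [map_mul, Subgroup.coe_mul, mul_one, mul_assoc]
    · show ((σ (a * b') : Ω) : O) * r0 = (σ a : O) * r0 * ((σ a' : O) * 1)
      rw [map_mul, Subgroup.coe_mul, hy, mul_one]
      calc (σ a : O) * (r0 * σ a' * r0) * r0 = (σ a : O) * r0 * σ a' * (r0 * r0) := by
            simp only [mul_assoc]
        _ = (σ a : O) * r0 * σ a' := by rw [hr0, mul_one]
    · show ((σ (a * b') : Ω) : O) * 1 = (σ a : O) * r0 * ((σ a' : O) * r0)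
      rw [map_mul, Subgroup.coe_mul, hy, mul_one]
      simp only [mul_assoc]

theorem piHat_apply (x : Ehat Ω σ r0 hr0) :
    piHat Ω σ r0 hr0 x = (σ x.1.a : O) * (bif x.1.s then r0 else 1) := rfl

variable {Ω σ r0}

theorem odd_of_piHat (_hr0n : r0 ∉ Ω) {x : Ehat Ω σ r0 hr0} {y : O} (hy : y ∉ Ω)
    (h : piHat Ω σ r0 hr0 x = y) : x.1.s = true := by
  rcases x with ⟨⟨a, b, s⟩, hx⟩
  cases s
  · exfalso
    apply hy
    rw [← h]
    show (σ a : O) * 1 ∈ Ω
    rw [mul_one]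
    exact (σ a).2
  · rfl

theorem ker_piHat (hr0n : r0 ∉ Ω) {x : Ehat Ω σ r0 hr0} (h : x ∈ (piHat Ω σ r0 hr0).ker) :
    x.1.s = false ∧ σ x.1.a = 1 ∧ σ x.1.b = 1 := by
  rcases x with ⟨⟨a, b, s⟩, hx⟩
  change (σ b : O) = r0 * σ a * r0 at hx
  rw [MonoidHom.mem_ker] at h
  cases s
  · have h1 : (σ a : O) * 1 = 1 := h
    rw [mul_one] at h1
    refine ⟨rfl, Subtype.ext h1, Subtype.ext ?_⟩
    show (σ b : O) = 1
    rw [hx, h1, mul_one, hr0]
  · exfalso
    apply hr0n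
    have h1 : (σ a : O) * r0 = 1 := h
    have h2 : r0 = (σ a : O)⁻¹ := eq_inv_of_mul_eq_one_right h1
    rw [h2]
    exact Ω.inv_mem (σ a).2

/-- the reference involution -/
def tauHat : Ehat Ω σ r0 hr0 := ⟨⟨1, 1, true⟩, by
  show ((σ 1 : Ω) : O) = r0 * ((σ 1 : Ω) : O) * r0
  rw [map_one, Subgroup.coe_one, mul_one, hr0]⟩

/-- the situation of the twisted normalisation -/
theorem setting (hs : Function.Surjective σ) (hc : σ.ker ≤ Subgroup.center Γ) (r : ℕ → O)
    (hrel : Rel adjE r 8) (hr : r 0 = r0) (hodd : ∀ i, i < 8 → r i ∉ Ω)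
    (hev : ∀ i, i < 8 → r i * r0 ∈ Ω) :
    Setting (piHat Ω σ r0 hr0) r (tauHat hr0) where
  rel := hrel
  tau_sq := by
    apply Subtype.ext
    apply Wr.ext
    · exact one_mul 1
    · exact one_mul 1
    · rfl
  tau_lift := by
    show ((σ 1 : Ω) : O) * r0 = r 0
    rw [map_one, Subgroup.coe_one, one_mul, hr]
  cent := by
    intro x y i j hi hj hx hy c hcK
    have hr0n : r0 ∉ Ω := by rw [← hr]; exact hodd 0 (by norm_num)
    have sx := odd_of_piHat hr0 hr0n (hodd i hi) hx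
    have sy := odd_of_piHat hr0 hr0n (hodd j hj) hy
    obtain ⟨sc, ca, cb⟩ := ker_piHat hr0 hr0n hcK
    have hca : ∀ g : Γ, g * c.1.a = c.1.a * g := fun g =>
      Subgroup.mem_center_iff.1 (hc (MonoidHom.mem_ker.2 ca)) g
    have hcb : ∀ g : Γ, g * c.1.b = c.1.b * g := fun g =>
      Subgroup.mem_center_iff.1 (hc (MonoidHom.mem_ker.2 cb)) g
    apply Subtype.ext
    apply Wr.ext
    · show (x.1 * y.1 * c.1).a = (c.1 * (x.1 * y.1)).a
      simp only [Wr.mul_a, Wr.mul_s, sx, sy, sc, cond_true, cond_false, Bool.xor_self]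
      exact hca _
    · show (x.1 * y.1 * c.1).b = (c.1 * (x.1 * y.1)).b
      simp only [Wr.mul_b, Wr.mul_s, sx, sy, sc, cond_true, cond_false, Bool.xor_self]
      exact hcb _
    · show (x.1 * y.1 * c.1).s = (c.1 * (x.1 * y.1)).s
      simp only [Wr.mul_s, sx, sy, sc]
      rfl
  lifts := by
    intro i hi
    obtain ⟨x, hx⟩ := hs ⟨r i * r0, hev i hi⟩
    have hx' : (σ x : O) = r i * r0 := congrArg Subtype.val hx
    have hri : r i * r i = 1 := hrel.1 i hi
    refine ⟨⟨⟨x, x⁻¹, true⟩, ?_⟩, ?_, ?_⟩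
    · show ((σ x⁻¹ : Ω) : O) = r0 * ((σ x : Ω) : O) * r0
      rw [map_inv, Subgroup.coe_inv, hx', mul_inv_rev, inv_of_sq hr0, inv_of_sq hri]
      calc r0 * r i = r0 * r i * (r0 * r0) := by rw [hr0, mul_one]
        _ = r0 * (r i * r0) * r0 := by simp only [mul_assoc]
    · show ((σ x : Ω) : O) * r0 = r i
      rw [hx', mul_assoc, hr0, mul_one]
    · apply Subtype.ext
      apply Wr.ext
      · exact mul_inv_cancel x
      · exact inv_mul_cancel x
      · rfl

/-- kernel elements have the exponent of `ker σ` -/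
theorem ker_piHat_pow (hr0n : r0 ∉ Ω) (N : ℕ) (hN : ∀ a : Γ, σ a = 1 → a ^ N = 1)
    (c : Ehat Ω σ r0 hr0) (h : c ∈ (piHat Ω σ r0 hr0).ker) : c ^ N = 1 := by
  obtain ⟨sc, ca, cb⟩ := ker_piHat hr0 hr0n h
  apply Subtype.ext
  rw [Subgroup.coe_pow, Wr.pow_even _ sc, hN _ ca, hN _ cb]
  rfl

/-- **Consequence of a lift**: if `ψ : P → O` lifts to `F : P → Ehat`, the kernel of the stem
extension `σ` is an image of a subgroup of `ker ψ`. -/
theorem consequence (_hs : Function.Surjective σ) (hc : σ.ker ≤ Subgroup.center Γ)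
    (hd : σ.ker ≤ commutator Γ) {P : Type w} [Group P] (ψ : P →* O)
    (hΩ : ∀ ω : Ω, ∃ p ∈ commutator P, ψ p = ω)
    (F : P →* Ehat Ω σ r0 hr0) (hF : ∀ p, piHat Ω σ r0 hr0 (F p) = ψ p) :
    ∃ φ : ↥(commutator P) →* Γ, ∀ a : Γ, σ a = 1 →
      ∃ p : ↥(commutator P), ψ (p : P) = 1 ∧ φ p = a := by
  have hev : ∀ p ∈ commutator P, (F p).1.s = false := by
    intro p hp
    apply Wr.s_of_sgn
    have h1 := Abelianization.commutator_subset_ker
      ((Wr.sgn (Γ := Γ)).comp ((Ehat Ω σ r0 hr0).subtype.comp F))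
    exact MonoidHom.mem_ker.1 (h1 hp)
  let φ : ↥(commutator P) →* Γ :=
    { toFun := fun p => (F p.1).1.a
      map_one' := by
        show (F 1).1.a = 1
        rw [map_one]; rfl
      map_mul' := by
        intro p q
        show (F (p.1 * q.1)).1.a = (F p.1).1.a * (F q.1).1.a
        rw [map_mul]
        show ((F p.1).1 * (F q.1).1).a = _
        rw [Wr.mul_a, hev p.1 p.2]
        rfl }
  have hφ : ∀ p : ↥(commutator P), φ p = (F p.1).1.a := fun p => rfl
  have hσφ : ∀ p : ↥(commutator P), (σ (φ p) : O) = ψ p.1 := by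
    intro p
    rw [← hF p.1, piHat_apply, hev p.1 p.2, hφ]
    exact (mul_one _).symm
  have hrange : commutator Γ ≤ φ.range := by
    rw [commutator_def, Subgroup.commutator_le]
    intro x _ y _
    obtain ⟨p, hp, hpx⟩ := hΩ (σ x)
    obtain ⟨q, hq, hqy⟩ := hΩ (σ y)
    have hx1 : σ (φ ⟨p, hp⟩) = σ x := Subtype.ext (by rw [hσφ]; exact hpx)
    have hy1 : σ (φ ⟨q, hq⟩) = σ y := Subtype.ext (by rw [hσφ]; exact hqy)
    have hu : (φ ⟨p, hp⟩)⁻¹ * x ∈ σ.ker := by
      rw [MonoidHom.mem_ker, map_mul, map_inv, hx1, inv_mul_cancel]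
    have hu' : (φ ⟨q, hq⟩)⁻¹ * y ∈ σ.ker := by
      rw [MonoidHom.mem_ker, map_mul, map_inv, hy1, inv_mul_cancel]
    have e1 : x = φ ⟨p, hp⟩ * ((φ ⟨p, hp⟩)⁻¹ * x) := by rw [mul_inv_cancel_left]
    have e2 : y = φ ⟨q, hq⟩ * ((φ ⟨q, hq⟩)⁻¹ * y) := by rw [mul_inv_cancel_left]
    rw [e1, e2, CoxStem.comm_central _ _ _ _
      (fun g => (Subgroup.mem_center_iff.1 (hc hu) g).symm)
      (fun g => (Subgroup.mem_center_iff.1 (hc hu') g).symm), ← map_commutatorElement]
    exact ⟨_, rfl⟩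
  refine ⟨φ, fun a ha => ?_⟩
  obtain ⟨p, hp⟩ := hrange (hd (MonoidHom.mem_ker.2 ha))
  refine ⟨p, ?_, hp⟩
  rw [← hσφ, hp, ha]
  rfl

end Ehat

end Cfsg.Agent.H41.TwCox
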